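import Mathlib

set_option autoImplicit false

/-!
# Chains of invariant subspaces (helper90)

For an endomorphism `f` of a finite-dimensional space and invariant subspaces `U ≤ W` with
`P(f) W ≤ U`, the space `U` can be enlarged inside `W` by an invariant subspace whose dimension
grows by exactly the degree of an irreducible factor of `P`.
-/

namespace Cfsg.Agent.Helper90.BG

open Polynomial

section chain

variable {F V : Type*} [Field F] [AddCommGroup V] [Module F V] [FiniteDimensional F V]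

/-- invariance under polynomials -/
theorem aeval_mem (f : V →ₗ[F] V) (U : Submodule F V) (hU : U.map f ≤ U) (Q : F[X]) {v : V}
    (hv : v ∈ U) : aeval f Q v ∈ U := by
  have hf : ∀ u ∈ U, f u ∈ U := fun u hu => hU (Submodule.mem_map_of_mem hu)
  have hpow : ∀ k : ℕ, ∀ u ∈ U, (f ^ k) u ∈ U := by
    intro k
    induction k with
    | zero => intro u hu; simpa using hu
    | succ k ih => intro u hu; rw [pow_succ, Module.End.mul_apply]; exact ih _ (hf u hu)
  induction Q using Polynomial.induction_on' with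
  | add p q hp hq => rw [map_add, LinearMap.add_apply]; exact U.add_mem hp hq
  | monomial k a =>
    rw [aeval_monomial, Module.End.mul_apply, Module.algebraMap_end_apply]
    exact U.smul_mem _ (hpow k v hv)

theorem irr_step (f : V →ₗ[F] V) (U W : Submodule F V) (hU : U.map f ≤ U) (hW : W.map f ≤ W) :
    ∀ (d : ℕ) (P : F[X]), P.natDegree ≤ d → P ≠ 0 → ∀ v ∈ W, v ∉ U → aeval f P v ∈ U →
      ∃ (g : F[X]) (w : V), Irreducible g ∧ g ∣ P ∧ w ∈ W ∧ w ∉ U ∧ aeval f g w ∈ U := by
  intro d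
  induction d with
  | zero =>
    intro P hd hP v hvW hvU hPv
    exfalso
    rw [Polynomial.eq_C_of_natDegree_le_zero hd] at hPv hP
    have hb : P.coeff 0 ≠ 0 := by intro h; apply hP; rw [h, map_zero]
    rw [aeval_C, Module.algebraMap_end_apply] at hPv
    have := U.smul_mem (P.coeff 0)⁻¹ hPv
    rw [smul_smul, inv_mul_cancel₀ hb, one_smul] at this
    exact hvU this
  | succ d ih =>
    intro P hd hP v hvW hvU hPv
    by_cases hunit : IsUnit P
    · exact ih P (by rw [Polynomial.natDegree_eq_zero_of_isUnit hunit]; omega) hP v hvW hvU hPv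
    · obtain ⟨g, hg, P', rfl⟩ := WfDvdMonoid.exists_irreducible_factor hunit hP
      have hP' : P' ≠ 0 := right_ne_zero_of_mul hP
      have hg0 : g ≠ 0 := hg.ne_zero
      have hdeg : P'.natDegree ≤ d := by
        have h1 := Polynomial.natDegree_mul hg0 hP'
        have h2 := hg.natDegree_pos
        omega
      by_cases hw : aeval f P' v ∈ U
      · obtain ⟨g', w, hg', hdvd, hwW, hwU, hgw⟩ := ih P' hdeg hP' v hvW hvU hw
        exact ⟨g', w, hg', hdvd.mul_left g, hwW, hwU, hgw⟩
      · refine ⟨g, aeval f P' v, hg, dvd_mul_right g P', aeval_mem f W hW P' hvW, hw, ?_⟩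
        rw [← Module.End.mul_apply, ← map_mul]; exact hPv

theorem ext_step (f : V →ₗ[F] V) (U W : Submodule F V) (hUW : U ≤ W) (hU : U.map f ≤ U)
    (hW : W.map f ≤ W) (hne : U ≠ W) (P : F[X]) (hP : P ≠ 0) (hPW : ∀ v ∈ W, aeval f P v ∈ U) :
    ∃ g : F[X], Irreducible g ∧ g ∣ P ∧ ∃ U' : Submodule F V, U ≤ U' ∧ U' ≤ W ∧ U'.map f ≤ U' ∧
      Module.finrank F U' = Module.finrank F U + g.natDegree := by
  classical
  obtain ⟨v, hvW, hvU⟩ : ∃ v ∈ W, v ∉ U := by
    by_contra h
    exact hne (le_antisymm hUW (fun v hv => by_contra fun hvU => h ⟨v, hv, hvU⟩))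
  obtain ⟨g, w, hg, hgP, hwW, hwU, hgw⟩ :=
    irr_step f U W hU hW P.natDegree P le_rfl hP v hvW hvU (hPW v hvW)
  refine ⟨g, hg, hgP, ?_⟩
  let ψ : F[X] →ₗ[F] V := (LinearMap.applyₗ w).comp (aeval f).toLinearMap
  have hψ : ∀ Q : F[X], ψ Q = aeval f Q w := fun Q => rfl
  let S : Submodule F V := (degreeLT F g.natDegree).map ψ
  have hrange : U ⊔ LinearMap.range ψ = U ⊔ S := by
    apply le_antisymm
    · apply sup_le le_sup_left
      rintro _ ⟨Q, rfl⟩
      have hQ : Q = g * (Q / g) + Q % g := (EuclideanDomain.div_add_mod Q g).symm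
      rw [hQ, map_add]
      apply Submodule.add_mem
      · apply Submodule.mem_sup_left
        rw [hψ, mul_comm, map_mul, Module.End.mul_apply]
        exact aeval_mem f U hU _ hgw
      · apply Submodule.mem_sup_right
        refine Submodule.mem_map_of_mem ?_
        rw [mem_degreeLT]
        calc (Q % g).degree < g.degree := degree_mod_lt Q hg.ne_zero
          _ = g.natDegree := degree_eq_natDegree hg.ne_zero
    · exact sup_le_sup_left (LinearMap.map_le_range) U
  have hkey : ∀ Q ∈ degreeLT F g.natDegree, ψ Q ∈ U → Q = 0 := by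
    intro Q hQ hQU
    by_contra hQ0
    have hcop : IsCoprime g Q := by
      rw [hg.coprime_iff_not_dvd]
      intro hdvd
      have h1 := Polynomial.natDegree_le_of_dvd hdvd hQ0
      rw [mem_degreeLT] at hQ
      have h2 := (Polynomial.natDegree_lt_iff_degree_lt hQ0).mpr hQ
      omega
    obtain ⟨a, b, hab⟩ := hcop
    apply hwU
    have : w = aeval f (a * g) w + aeval f (b * Q) w := by
      rw [← LinearMap.add_apply, ← map_add, hab, map_one, Module.End.one_apply]
    rw [this]
    apply U.add_mem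
    · rw [map_mul, Module.End.mul_apply]; exact aeval_mem f U hU _ hgw
    · rw [map_mul, Module.End.mul_apply]; exact aeval_mem f U hU _ hQU
  have hinf : U ⊓ S = ⊥ := by
    rw [eq_bot_iff]
    rintro x ⟨hxU, Q, hQ, rfl⟩
    have := hkey Q hQ hxU
    rw [this, map_zero]; exact Submodule.zero_mem _
  have hS : Module.finrank F S = g.natDegree := by
    have hinj : Function.Injective (ψ.domRestrict (degreeLT F g.natDegree)) := by
      rw [← LinearMap.ker_eq_bot, LinearMap.ker_eq_bot']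
      intro Q hQ
      have hQ' : ψ Q.1 = 0 := hQ
      have := hkey Q.1 Q.2 (by rw [hQ']; exact U.zero_mem)
      exact Subtype.ext this
    have h1 := LinearMap.finrank_range_of_inj hinj
    rw [LinearMap.range_domRestrict] at h1
    rw [h1, (degreeLTEquiv F g.natDegree).finrank_eq, Module.finrank_fin_fun]
  refine ⟨U ⊔ LinearMap.range ψ, le_sup_left, ?_, ?_, ?_⟩
  · apply sup_le hUW
    rintro _ ⟨Q, rfl⟩
    exact aeval_mem f W hW Q hwW
  · rw [Submodule.map_sup]
    apply sup_le_sup hU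
    rintro _ ⟨_, ⟨Q, rfl⟩, rfl⟩
    refine ⟨X * Q, ?_⟩
    rw [hψ, hψ, map_mul, aeval_X, Module.End.mul_apply]
  · rw [hrange]
    have h := Submodule.finrank_sup_add_finrank_inf_eq U S
    rw [hinf, finrank_bot, add_zero] at h
    rw [h, hS]

theorem chain_dvd (f : V →ₗ[F] V) (W : Submodule F V) (hW : W.map f ≤ W) (P : F[X]) (hP : P ≠ 0)
    (d : ℕ) (hd : ∀ g : F[X], Irreducible g → g ∣ P → g.natDegree = d) :
    ∀ (k : ℕ) (U : Submodule F V), U ≤ W → U.map f ≤ U → (∀ v ∈ W, aeval f P v ∈ U) →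
      Module.finrank F W - Module.finrank F U = k → d ∣ k := by
  intro k
  induction k using Nat.strong_induction_on with
  | _ k ih =>
    intro U hUW hU hPW hk
    by_cases hne : U = W
    · subst hne
      rw [Nat.sub_self] at hk
      subst hk
      exact dvd_zero d
    · obtain ⟨g, hg, hgP, U', hUU', hU'W, hU', hfr⟩ := ext_step f U W hUW hU hW hne P hP hPW
      rw [hd g hg hgP] at hfr
      have hdpos : 0 < d := by rw [← hd g hg hgP]; exact hg.natDegree_pos
      have hle : Module.finrank F U' ≤ Module.finrank F W := Submodule.finrank_mono hU'W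
      obtain ⟨c, hc⟩ := ih (k - d) (by omega) U' hU'W hU' (fun v hv => hUU' (hPW v hv)) (by omega)
      exact ⟨c + 1, by rw [mul_add, mul_one, ← hc]; omega⟩

theorem chain_exists (f : V →ₗ[F] V) (U W : Submodule F V) (hUW : U ≤ W) (hU : U.map f ≤ U)
    (hW : W.map f ≤ W) (P : F[X]) (hP : P ≠ 0) (hPW : ∀ v ∈ W, aeval f P v ∈ U) (d : ℕ)
    (hd : ∀ g : F[X], Irreducible g → g ∣ P → g.natDegree = d) :
    ∀ a : ℕ, Module.finrank F U + d * a ≤ Module.finrank F W →
      ∃ U' : Submodule F V, U ≤ U' ∧ U' ≤ W ∧ U'.map f ≤ U' ∧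
        Module.finrank F U' = Module.finrank F U + d * a := by
  intro a
  induction a with
  | zero => intro _; exact ⟨U, le_rfl, hUW, hU, by simp⟩
  | succ a ih =>
    intro ha
    rw [mul_add, mul_one] at ha
    obtain ⟨U1, hUU1, hU1W, hU1, hfr1⟩ := ih (by omega)
    by_cases hd0 : d = 0
    · subst hd0; exact ⟨U, le_rfl, hUW, hU, by simp⟩
    · have hne : U1 ≠ W := by
        intro h
        rw [h] at hfr1
        omega
      obtain ⟨g, hg, hgP, U', hUU', hU'W, hU', hfr⟩ :=
        ext_step f U1 W hU1W hU1 hW hne P hP (fun v hv => hUU1 (hPW v hv))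
      refine ⟨U', hUU1.trans hUU', hU'W, hU', ?_⟩
      rw [hfr, hfr1, hd g hg hgP, mul_add, mul_one, add_assoc]

theorem natDegree_eq_of_assoc {g P : F[X]} (h : Associated g P) : g.natDegree = P.natDegree := by
  obtain ⟨u, hu⟩ := h
  rw [← hu]
  by_cases hg : g = 0
  · rw [hg, zero_mul]
  · rw [natDegree_mul hg u.ne_zero, natDegree_eq_zero_of_isUnit u.isUnit, add_zero]

/-- split case -/
theorem exists_invariant_of_splits (f : V →ₗ[F] V) (P : F[X]) (hP : P ≠ 0) (hsplit : P.Splits)
    (hPf : aeval f P = 0) (k : ℕ) (hk : k ≤ Module.finrank F V) :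
    ∃ W : Submodule F V, Module.finrank F W = k ∧ W.map f ≤ W := by
  have hd : ∀ g : F[X], Irreducible g → g ∣ P → g.natDegree = 1 := fun g hg hdvd =>
    (hsplit.of_dvd hP hdvd).natDegree_eq_one_of_irreducible hg
  obtain ⟨U', -, -, hU', hfr⟩ := chain_exists f ⊥ ⊤ bot_le (by simp) le_top P hP
    (fun v _ => by rw [hPf]; simp) 1 hd k (by simpa using hk)
  exact ⟨U', by simpa using hfr, hU'⟩

/-- irreducible case: dimensions of invariant subspaces -/
theorem dvd_finrank_of_irreducible (f : V →ₗ[F] V) (P : F[X]) (hP : Irreducible P)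
    (hPf : aeval f P = 0) (W : Submodule F V) (hW : W.map f ≤ W) :
    P.natDegree ∣ Module.finrank F W := by
  have hd : ∀ g : F[X], Irreducible g → g ∣ P → g.natDegree = P.natDegree := fun g hg hdvd =>
    natDegree_eq_of_assoc (hg.associated_of_dvd hP hdvd)
  have := chain_dvd f W hW P hP.ne_zero P.natDegree hd _ ⊥ bot_le (by simp)
    (fun v _ => by rw [hPf]; simp) rfl
  simpa using this

theorem exists_invariant_of_irreducible (f : V →ₗ[F] V) (P : F[X]) (hP : Irreducible P)
    (hPf : aeval f P = 0) (a : ℕ) (ha : P.natDegree * a ≤ Module.finrank F V) :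
    ∃ W : Submodule F V, Module.finrank F W = P.natDegree * a ∧ W.map f ≤ W := by
  have hd : ∀ g : F[X], Irreducible g → g ∣ P → g.natDegree = P.natDegree := fun g hg hdvd =>
    natDegree_eq_of_assoc (hg.associated_of_dvd hP hdvd)
  obtain ⟨U', -, -, hU', hfr⟩ := chain_exists f ⊥ ⊤ bot_le (by simp) le_top P hP.ne_zero
    (fun v _ => by rw [hPf]; simp) P.natDegree hd a (by simpa using ha)
  exact ⟨U', by simpa using hfr, hU'⟩

end chain

section cyc

variable {F V : Type*} [Field F] [AddCommGroup V] [Module F V] [FiniteDimensional F V]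

theorem phi_ne_zero (r : ℕ) (hrF : (r : F) ≠ 0) :
    (∑ j ∈ Finset.range r, (X : F[X]) ^ j) ≠ 0 := by
  intro h
  apply hrF
  have := congrArg (eval 1) h
  simpa [eval_finsetSum] using this

theorem aeval_phi (f : V →ₗ[F] V) (r : ℕ) :
    aeval f (∑ j ∈ Finset.range r, (X : F[X]) ^ j) = ∑ j ∈ Finset.range r, f ^ j := by
  simp [map_sum]

theorem sub_one_mul_aeval_phi (f : V →ₗ[F] V) (r : ℕ) (hfr : f ^ r = 1) :
    (f - 1) * aeval f (∑ j ∈ Finset.range r, (X : F[X]) ^ j) = 0 := by
  rw [aeval_phi, mul_geom_sum, hfr, sub_self]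

theorem aeval_phi_mul_sub_one (f : V →ₗ[F] V) (r : ℕ) (hfr : f ^ r = 1) :
    aeval f (∑ j ∈ Finset.range r, (X : F[X]) ^ j) * (f - 1) = 0 := by
  rw [aeval_phi, geom_sum_mul, hfr, sub_self]

theorem mem_ker_sub_one (f : V →ₗ[F] V) (v : V) : v ∈ LinearMap.ker (f - 1) ↔ f v = v := by
  rw [LinearMap.mem_ker, LinearMap.sub_apply, Module.End.one_apply, sub_eq_zero]

theorem aeval_phi_of_fixed (f : V →ₗ[F] V) (r : ℕ) (v : V) (hv : f v = v) :
    aeval f (∑ j ∈ Finset.range r, (X : F[X]) ^ j) v = (r : F) • v := by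
  have hpow : ∀ k : ℕ, (f ^ k) v = v := by
    intro k
    induction k with
    | zero => simp
    | succ k ih => rw [pow_succ, Module.End.mul_apply, hv, ih]
  rw [aeval_phi, LinearMap.sum_apply, Finset.sum_congr rfl (fun j _ => hpow j), Finset.sum_const,
    Finset.card_range, Nat.cast_smul_eq_nsmul]

theorem ker_inf_range (f : V →ₗ[F] V) (r : ℕ) (hrF : (r : F) ≠ 0) (hfr : f ^ r = 1) :
    LinearMap.ker (f - 1) ⊓ LinearMap.range (f - 1) = ⊥ := by
  rw [eq_bot_iff]
  rintro v ⟨hvC, u, rfl⟩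
  have h1 := aeval_phi_of_fixed f r _ ((mem_ker_sub_one f _).mp hvC)
  have h2 : aeval f (∑ j ∈ Finset.range r, (X : F[X]) ^ j) ((f - 1) u) = 0 := by
    rw [← Module.End.mul_apply, aeval_phi_mul_sub_one f r hfr, LinearMap.zero_apply]
  rw [h2] at h1
  have := (smul_eq_zero.mp h1.symm).resolve_left hrF
  rw [this]; exact Submodule.zero_mem _

theorem ker_invariant (f : V →ₗ[F] V) (W : Submodule F V) (hW : W.map f ≤ W) :
    (W ⊓ LinearMap.ker (f - 1)).map f ≤ W ⊓ LinearMap.ker (f - 1) := by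
  rintro _ ⟨v, ⟨hvW, hvC⟩, rfl⟩
  have hv : f v = v := (mem_ker_sub_one f v).mp hvC
  rw [hv]; exact ⟨hvW, hvC⟩

theorem cyc_dvd (f : V →ₗ[F] V) (r i : ℕ) (hrF : (r : F) ≠ 0) (hfr : f ^ r = 1)
    (hd : ∀ g : F[X], Irreducible g → g ∣ ∑ j ∈ Finset.range r, (X : F[X]) ^ j → g.natDegree = i)
    (W : Submodule F V) (hW : W.map f ≤ W) :
    i ∣ Module.finrank F W - Module.finrank F (W ⊓ LinearMap.ker (f - 1) : Submodule F V) := by
  refine chain_dvd f W hW _ (phi_ne_zero r hrF) i hd _ (W ⊓ LinearMap.ker (f - 1)) inf_le_left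
    (ker_invariant f W hW) ?_ rfl
  intro v hv
  refine ⟨aeval_mem f W hW _ hv, ?_⟩
  show _ ∈ LinearMap.ker (f - 1)
  rw [LinearMap.mem_ker, ← Module.End.mul_apply, sub_one_mul_aeval_phi f r hfr, LinearMap.zero_apply]

theorem cyc_mod_le (f : V →ₗ[F] V) (r i : ℕ) (hrF : (r : F) ≠ 0) (hfr : f ^ r = 1)
    (hd : ∀ g : F[X], Irreducible g → g ∣ ∑ j ∈ Finset.range r, (X : F[X]) ^ j → g.natDegree = i)
    (W : Submodule F V) (hW : W.map f ≤ W)
    (hC : Module.finrank F (LinearMap.ker (f - 1)) < i) :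
    Module.finrank F W % i ≤ Module.finrank F (LinearMap.ker (f - 1)) := by
  obtain ⟨t, ht⟩ := cyc_dvd f r i hrF hfr hd W hW
  have h1 : Module.finrank F (W ⊓ LinearMap.ker (f - 1) : Submodule F V)
      ≤ Module.finrank F (LinearMap.ker (f - 1)) := Submodule.finrank_mono inf_le_right
  have h2 : Module.finrank F (W ⊓ LinearMap.ker (f - 1) : Submodule F V)
      ≤ Module.finrank F W := Submodule.finrank_mono inf_le_left
  have h3 : Module.finrank F W
      = Module.finrank F (W ⊓ LinearMap.ker (f - 1) : Submodule F V) + i * t := by omega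
  rw [h3, Nat.add_mul_mod_self_left, Nat.mod_eq_of_lt (by omega)]
  exact h1

theorem cyc_exists (f : V →ₗ[F] V) (r i : ℕ) (hrF : (r : F) ≠ 0) (hfr : f ^ r = 1)
    (hd : ∀ g : F[X], Irreducible g → g ∣ ∑ j ∈ Finset.range r, (X : F[X]) ^ j → g.natDegree = i)
    (c' a' : ℕ) (hc : c' ≤ Module.finrank F (LinearMap.ker (f - 1)))
    (ha : i * a' + Module.finrank F (LinearMap.ker (f - 1)) ≤ Module.finrank F V) :
    ∃ W : Submodule F V, Module.finrank F W = c' + i * a' ∧ W.map f ≤ W := by
  have hrk := LinearMap.finrank_range_add_finrank_ker (f - 1)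
  -- the fixed part
  have hCinv : (LinearMap.ker (f - 1)).map f ≤ LinearMap.ker (f - 1) := by
    have := ker_invariant f ⊤ le_top
    simpa using this
  have hd1 : ∀ g : F[X], Irreducible g → g ∣ (X - C 1 : F[X]) → g.natDegree = 1 := fun g hg hdvd =>
    ((Splits.X_sub_C 1).of_dvd (X_sub_C_ne_zero 1) hdvd).natDegree_eq_one_of_irreducible hg
  obtain ⟨C', -, hC'C, hC'inv, hC'fr⟩ := chain_exists f ⊥ (LinearMap.ker (f - 1)) bot_le (by simp)
    hCinv (X - C 1) (X_sub_C_ne_zero 1)
    (fun v hv => by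
      have : f v = v := (mem_ker_sub_one f v).mp hv
      simp [this]) 1 hd1 c' (by simpa using hc)
  -- the moved part
  have hMinv : (LinearMap.range (f - 1)).map f ≤ LinearMap.range (f - 1) := by
    rintro _ ⟨_, ⟨u, rfl⟩, rfl⟩
    refine ⟨f u, ?_⟩
    simp only [LinearMap.sub_apply, Module.End.one_apply, map_sub]
  obtain ⟨M', -, hM'M, hM'inv, hM'fr⟩ := chain_exists f ⊥ (LinearMap.range (f - 1)) bot_le (by simp)
    hMinv _ (phi_ne_zero r hrF)
    (fun v hv => by
      obtain ⟨u, rfl⟩ := hv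
      rw [← Module.End.mul_apply, aeval_phi_mul_sub_one f r hfr, LinearMap.zero_apply]
      exact Submodule.zero_mem _) i hd a' (by rw [finrank_bot]; omega)
  refine ⟨C' ⊔ M', ?_, ?_⟩
  · have hinf : C' ⊓ M' = ⊥ := by
      rw [eq_bot_iff, ← ker_inf_range f r hrF hfr]
      exact inf_le_inf hC'C hM'M
    have h := Submodule.finrank_sup_add_finrank_inf_eq C' M'
    rw [hinf, finrank_bot, add_zero, hC'fr, hM'fr, finrank_bot] at h
    omega
  · rw [Submodule.map_sup]
    exact sup_le_sup hC'inv hM'inv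

theorem cyc_exists_dim (f : V →ₗ[F] V) (r i : ℕ) (hrF : (r : F) ≠ 0) (hfr : f ^ r = 1) (hi : 0 < i)
    (hd : ∀ g : F[X], Irreducible g → g ∣ ∑ j ∈ Finset.range r, (X : F[X]) ^ j → g.natDegree = i)
    (m : ℕ) (hm : m ≤ Module.finrank F V) (hmod : m % i ≤ Module.finrank F V % i) :
    ∃ W : Submodule F V, Module.finrank F W = m ∧ W.map f ≤ W := by
  have hrk := LinearMap.finrank_range_add_finrank_ker (f - 1)
  obtain ⟨s, hs⟩ := cyc_dvd f r i hrF hfr hd ⊤ (le_top)
  rw [top_inf_eq, finrank_top] at hs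
  have hn : Module.finrank F V = Module.finrank F (LinearMap.ker (f - 1)) + i * s := by omega
  have hmodn : Module.finrank F V % i ≤ Module.finrank F (LinearMap.ker (f - 1)) := by
    rw [hn, Nat.add_mul_mod_self_left]
    exact Nat.mod_le _ _
  have h1 : i * (m / i) ≤ m := Nat.mul_div_le m i
  have h2 : m % i + i * (m / i) = m := Nat.mod_add_div m i
  by_cases hcase : m / i ≤ s
  · have h3 : i * (m / i) ≤ i * s := Nat.mul_le_mul_left i hcase
    obtain ⟨W, hW1, hW2⟩ := cyc_exists f r i hrF hfr hd (m % i) (m / i) (by omega) (by omega)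
    exact ⟨W, by omega, hW2⟩
  · have h3 : i * s ≤ i * (m / i) := Nat.mul_le_mul_left i (by omega)
    obtain ⟨W, hW1, hW2⟩ := cyc_exists f r i hrF hfr hd (m - i * s) s (by omega) (by omega)
    exact ⟨W, by omega, hW2⟩

end cyc

end Cfsg.Agent.Helper90.BG
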