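import Mathlib
import Cfsg.Prelude.Def_Classical

set_option autoImplicit false

/-!
# Hermitian forms and invariant totally isotropic subspaces: definitions (helper90, for S5953)

A "Hermitian form" here is just a function `h : V → V → F` which is linear in the first
variable and conjugate-symmetric for an involutive ring hom `σ` (structure `IsHerm`).
-/

namespace Cfsg.Agent.Helper90.HT

open Module

/-- `h` is a `σ`-Hermitian form: linear in the first variable, `h v u = σ (h u v)`, `σ² = 1`. -/
structure IsHerm {F : Type*} [Field F] {V : Type*} [AddCommGroup V] [Module F V]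
    (σ : F →+* F) (h : V → V → F) : Prop where
  add_left : ∀ u u' v, h (u + u') v = h u v + h u' v
  smul_left : ∀ (a : F) u v, h (a • u) v = a * h u v
  symm : ∀ u v, h v u = σ (h u v)
  invol : ∀ a, σ (σ a) = a

/-- `W` is totally isotropic for `h`. -/
def HTI {F : Type*} [Field F] {V : Type*} [AddCommGroup V] [Module F V]
    (h : V → V → F) (W : Submodule F V) : Prop :=
  ∀ u ∈ W, ∀ v ∈ W, h u v = 0

/-- `h` is nondegenerate on the subspace `D`. -/
def HNondegOn {F : Type*} [Field F] {V : Type*} [AddCommGroup V] [Module F V]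
    (h : V → V → F) (D : Submodule F V) : Prop :=
  ∀ v ∈ D, (∀ w ∈ D, h v w = 0) → v = 0

/-- `T` preserves `h`. -/
def HPres {F : Type*} [Field F] {V : Type*} [AddCommGroup V] [Module F V]
    (h : V → V → F) (T : Module.End F V) : Prop :=
  ∀ u v, h (T u) (T v) = h u v

namespace IsHerm

variable {F : Type*} [Field F] {V : Type*} [AddCommGroup V] [Module F V]
  {σ : F →+* F} {h : V → V → F}

theorem add_right (hh : IsHerm σ h) (u v v' : V) : h u (v + v') = h u v + h u v' := by
  rw [hh.symm (v + v') u, hh.add_left, map_add, ← hh.symm, ← hh.symm]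

theorem smul_right (hh : IsHerm σ h) (a : F) (u v : V) : h u (a • v) = σ a * h u v := by
  rw [hh.symm (a • v) u, hh.smul_left, map_mul, ← hh.symm]

theorem zero_left (hh : IsHerm σ h) (v : V) : h 0 v = 0 := by
  have := hh.smul_left 0 0 v
  simpa using this

theorem zero_right (hh : IsHerm σ h) (u : V) : h u 0 = 0 := by
  rw [hh.symm 0 u, hh.zero_left, map_zero]

theorem neg_left (hh : IsHerm σ h) (u v : V) : h (-u) v = -h u v := by
  have := hh.smul_left (-1) u v
  simpa using this

theorem neg_right (hh : IsHerm σ h) (u v : V) : h u (-v) = -h u v := by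
  rw [hh.symm (-v) u, hh.neg_left, map_neg, ← hh.symm]

theorem sub_left (hh : IsHerm σ h) (u u' v : V) : h (u - u') v = h u v - h u' v := by
  rw [sub_eq_add_neg, hh.add_left, hh.neg_left, sub_eq_add_neg]

theorem sub_right (hh : IsHerm σ h) (u v v' : V) : h u (v - v') = h u v - h u v' := by
  rw [sub_eq_add_neg, hh.add_right, hh.neg_right, sub_eq_add_neg]

theorem sum_left (hh : IsHerm σ h) {ι : Type*} (s : Finset ι) (f : ι → V) (v : V) :
    h (∑ j ∈ s, f j) v = ∑ j ∈ s, h (f j) v := by
  classical
  induction s using Finset.induction_on with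
  | empty => simp [hh.zero_left]
  | insert a s ha ih => rw [Finset.sum_insert ha, Finset.sum_insert ha, hh.add_left, ih]

theorem sum_right (hh : IsHerm σ h) {ι : Type*} (s : Finset ι) (u : V) (f : ι → V) :
    h u (∑ j ∈ s, f j) = ∑ j ∈ s, h u (f j) := by
  classical
  induction s using Finset.induction_on with
  | empty => simp [hh.zero_right]
  | insert a s ha ih => rw [Finset.sum_insert ha, Finset.sum_insert ha, hh.add_right, ih]

theorem eq_zero_symm (hh : IsHerm σ h) {u v : V} (huv : h u v = 0) : h v u = 0 := by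
  rw [hh.symm u v, huv, map_zero]

/-- the restriction of a Hermitian form to a subspace (as a form on the subtype). -/
theorem restrict (hh : IsHerm σ h) (A : Submodule F V) :
    IsHerm σ (fun u v : A => h (u : V) (v : V)) where
  add_left u u' v := by simpa using hh.add_left (u : V) (u' : V) (v : V)
  smul_left a u v := by simpa using hh.smul_left a (u : V) (v : V)
  symm u v := hh.symm (u : V) (v : V)
  invol := hh.invol

end IsHerm

section std

variable {F : Type*} [Field F] [Fintype F] {q : ℕ}

/-- The standard form `Cfsg.hermForm n F q` is Hermitian for `σ = (· ^ q)` when `|F| = q²`. -/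
theorem isHerm_hermForm (hq : Fintype.card F = q ^ 2) (σ : F →+* F) (hσ : ∀ a, σ a = a ^ q)
    (n : ℕ) : IsHerm σ (Cfsg.hermForm n F q) where
  add_left u u' v := by
    simp only [Cfsg.hermForm, Pi.add_apply, add_mul, Finset.sum_add_distrib]
  smul_left a u v := by
    simp only [Cfsg.hermForm, Pi.smul_apply, smul_eq_mul, Finset.mul_sum, mul_assoc]
  symm u v := by
    have hinv : ∀ a : F, (a ^ q) ^ q = a := by
      intro a
      rw [← pow_mul, ← pow_two, ← hq, FiniteField.pow_card]
    unfold Cfsg.hermForm
    rw [map_sum]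
    refine Finset.sum_congr rfl fun i _ => ?_
    rw [map_mul, hσ (v i ^ q), hσ (u i), hinv, mul_comm]
  invol a := by
    rw [hσ, hσ, ← pow_mul, ← pow_two, ← hq, FiniteField.pow_card]

/-- The standard form is nondegenerate. -/
theorem hermForm_nondeg (hq : Fintype.card F = q ^ 2) (n : ℕ) (v : Fin n → F)
    (hv : ∀ w, Cfsg.hermForm n F q v w = 0) : v = 0 := by
  classical
  funext i
  have h1 := hv (Pi.single i 1)
  simp only [Cfsg.hermForm] at h1
  rw [Finset.sum_eq_single i] at h1
  · simpa using h1
  · intro j _ hji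
    have hq0 : q ≠ 0 := by
      rintro rfl
      have := Fintype.one_lt_card (α := F)
      omega
    simp [Pi.single_eq_of_ne hji, hq0]
  · intro hi
    exact absurd (Finset.mem_univ i) hi

omit [Fintype F] in
/-- Membership in `SU`. -/
theorem mem_SU_iff (n : ℕ) (x : Matrix.SpecialLinearGroup (Fin n) F) :
    x ∈ Cfsg.SU n F q ↔ ∀ u v, Cfsg.hermForm n F q ((x : Matrix (Fin n) (Fin n) F).mulVec u)
      ((x : Matrix (Fin n) (Fin n) F).mulVec v) = Cfsg.hermForm n F q u v :=
  Iff.rfl

omit [Fintype F] in
/-- An element of `SU` preserves the standard form (as an endomorphism). -/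
theorem hpres_of_mem_SU (n : ℕ) (x : Matrix.SpecialLinearGroup (Fin n) F)
    (hx : x ∈ Cfsg.SU n F q) :
    HPres (Cfsg.hermForm n F q) (Matrix.toLin' (x : Matrix (Fin n) (Fin n) F)) := by
  intro u v
  rw [Matrix.toLin'_apply, Matrix.toLin'_apply]
  exact (mem_SU_iff n x).mp hx u v

omit [Fintype F] in
/-- A matrix of determinant one preserving the standard form gives an element of `SU`. -/
theorem exists_SU_of_matrix (n : ℕ) (M : Matrix (Fin n) (Fin n) F) (hdet : M.det = 1)
    (hM : ∀ u v, Cfsg.hermForm n F q (M.mulVec u) (M.mulVec v) = Cfsg.hermForm n F q u v) :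
    ∃ x : Matrix.SpecialLinearGroup (Fin n) F, x ∈ Cfsg.SU n F q ∧
      (x : Matrix (Fin n) (Fin n) F) = M :=
  ⟨⟨M, hdet⟩, (mem_SU_iff n _).mpr hM, rfl⟩

end std

end Cfsg.Agent.Helper90.HT
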