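import Mathlib
import Cfsg.Prelude.Def_GeometricClasses

/-!
# S5965 (subfield subgroups of `SL_n`, odd prime `r ≠ p`): shared definitions
-/

set_option autoImplicit false

namespace Cfsg.Agent.Helper90.SFR

open Module

/-- the subfield subgroup `H` of `SL_n(F)` of the statement -/
def subH {F : Type*} [Field F] (F₀ : Subfield F) (n : ℕ) :
    Subgroup (Matrix.SpecialLinearGroup (Fin n) F) :=
  (Cfsg.Geo.subfieldSubgroup F₀ (1 : GL (Fin n) F)).comap
    (Matrix.SpecialLinearGroup.toGL : Matrix.SpecialLinearGroup (Fin n) F →* GL (Fin n) F)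

/-- `x` is conjugate in `SL_n(F)` into `H` -/
def IsConj {F : Type*} [Field F] (F₀ : Subfield F) {n : ℕ}
    (x : Matrix.SpecialLinearGroup (Fin n) F) : Prop :=
  ∃ P : Matrix.SpecialLinearGroup (Fin n) F, P⁻¹ * x * P ∈ subH F₀ n

/-- there is an element of order `r` modulo scalars with no conjugate in `H` -/
def IsBad {F : Type*} [Field F] (F₀ : Subfield F) (n r : ℕ) : Prop :=
  ∃ x : Matrix.SpecialLinearGroup (Fin n) F,
    (∃ z : F, ((x ^ r : Matrix.SpecialLinearGroup (Fin n) F) : Matrix (Fin n) (Fin n) F)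
      = z • (1 : Matrix (Fin n) (Fin n) F)) ∧
    (∀ z : F, (x : Matrix (Fin n) (Fin n) F) ≠ z • (1 : Matrix (Fin n) (Fin n) F)) ∧
    ¬ IsConj F₀ x

/-- `T` has a matrix with entries in `F₀` with respect to some basis -/
def IsRat {F : Type*} [Field F] (F₀ : Subfield F) {V : Type*} [AddCommGroup V] [Module F V]
    (T : V →ₗ[F] V) : Prop :=
  ∃ (ι : Type) (_ : Fintype ι) (b : Basis ι F V), ∀ i j, b.repr (T (b i)) j ∈ F₀

end Cfsg.Agent.Helper90.SFR
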