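import Mathlib

/-!
# Decompositions permuted by a linear map (S5958: imprimitive subgroups, odd `r ≠ p`)
-/

set_option autoImplicit false

namespace Cfsg.Agent.Helper90.IM

open Module

variable {F : Type*} [Field F] {V : Type*} [AddCommGroup V] [Module F V]

/-- `D` is a decomposition of `V` into `t` subspaces of dimension `a`, and `T` maps the
summand `D j` onto `D (σ j)`. -/
def IsDec (T : V →ₗ[F] V) (a : ℕ) {t : ℕ} (D : Fin t → Submodule F V)
    (σ : Equiv.Perm (Fin t)) : Prop :=
  (∀ i, finrank F (D i) = a) ∧ iSupIndep D ∧ iSup D = ⊤ ∧ ∀ j, (D j).map T = D (σ j)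

end Cfsg.Agent.Helper90.IM
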