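import Mathlib
import Cfsg.Prelude.Def_GeometricClasses
import Cfsg.Prelude.Def_Classical
import Cfsg.Agent.Helper58.TSDefs
import Cfsg.Agent.Helper20.TSR2SKTYPE
import Cfsg.Agent.Helper50.TSR2SPLA
import Cfsg.Agent.Helper52.TSR2BADAEX
import Cfsg.Agent.Helper59.TSR2SKOMEGA
import Cfsg.Agent.Helper60.TSR2SKEX
import Cfsg.Agent.Helper66.TSR2LAGQ
import Cfsg.Agent.Helper70.TSR2CH2
import Cfsg.Agent.Helper70.TSR2EIG
import Cfsg.Agent.Helper70.TSR2SPLT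
import Cfsg.Agent.Helper70.TSR2Z
import Cfsg.Agent.Helper80.TSR2SKMAX
import Cfsg.Agent.Helper80.TSR2TSB
import Cfsg.Agent.Helper94.TSR2SKEVEN
import Cfsg.Agent.Helper94.TSR2SKSUB
import Cfsg.Agent.Helper95.TSR2VMT

set_option autoImplicit false

/-!
# The five r = 2 stages of CALL TS (S5973 + S5987), assembled by helper90 from the TSR2 pieces.
-/

namespace Cfsg.Agent.Helper90.TS5973

open Module Cfsg Cfsg.Geo Cfsg.Agent.Helper58.TS
open scoped MatrixGroups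

section stages

variable {ι : Type} [Fintype ι] [DecidableEq ι] {F : Type*} [Field F] [Fintype F]

omit [Fintype F] in
theorem r2a_mem_omegaGL (Q : (ι → F) → F) (x : GL ι F) :
    x ∈ Cfsg.Geo.omegaGL Q ↔ ∃ g : ↥(Cfsg.isometryGroup F Q), g ∈ Cfsg.Omega F Q ∧
      (g : GL ι F) = x := by
  unfold Cfsg.Geo.omegaGL
  rw [Subgroup.mem_map]
  rfl

omit [Fintype F] in
theorem r2a_iso (Q : (ι → F) → F) (g : ↥(Cfsg.isometryGroup F Q)) (v : ι → F) :
    Q (((g : GL ι F) : Matrix ι ι F).mulVec v) = Q v := by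
  have h := g.2 v v
  exact h

omit [Fintype F] [Fintype ι] [DecidableEq ι] in
theorem r2a_quad_zero (Q : (ι → F) → F) (hQ : IsNondegenerateQuadraticForm Q) : Q 0 = 0 := by
  have h := hQ.smul 0 0
  simpa using h

/-- a totally singular subspace of almost half the dimension -/
theorem r2a_half (Q : (ι → F) → F) (hQ : IsNondegenerateQuadraticForm Q) (h2 : (2 : F) ≠ 0)
    (D : Submodule F (ι → F)) (hD : IsNondegenerateOn (QuadraticMap.polar Q) D) :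
    ∃ A : Submodule F (ι → F), A ≤ D ∧ (∀ w ∈ A, Q w = 0) ∧
      finrank F D ≤ 2 * finrank F A + 2 := by
  by_cases h : finrank F D = 0
  · refine ⟨⊥, bot_le, fun w hw => ?_, by omega⟩
    rw [Submodule.mem_bot] at hw
    subst hw
    exact r2a_quad_zero Q hQ
  · obtain ⟨A, hA, hts, hdim⟩ := Cfsg.Agent.Helper66.TSR2.r2_lag Q hQ h2 D hD ((finrank F D - 1) / 2) (by omega)
    exact ⟨A, hA, hts, by omega⟩

/-- involutions of `Ω`: invariant totally singular subspaces -/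
theorem r2a_inv_good (Q : (ι → F) → F) (hQ : IsNondegenerateQuadraticForm Q) (h2 : (2 : F) ≠ 0)
    (d : ℕ) (hd : 1 ≤ d) (hcard : Fintype.card ι = 2 * d) (g : ↥(Cfsg.isometryGroup F Q))
    (hgΩ : g ∈ Cfsg.Omega F Q) (hg2 : ((g : GL ι F) : Matrix ι ι F) * ((g : GL ι F) : Matrix ι ι F) = 1) :
    (∀ k, k + 2 ≤ d → InvTS Q ((g : GL ι F) : Matrix ι ι F) k) ∧
    (IsSquare (-1 : F) → IsPlusTypeOn Q ⊤ → ∀ k, k ≤ d → InvTS Q ((g : GL ι F) : Matrix ι ι F) k) ∧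
    (¬ IsPlusTypeOn Q ⊤ → ∀ k, k + 1 ≤ d → InvTS Q ((g : GL ι F) : Matrix ι ι F) k) := by
  have hM := r2a_iso Q g
  obtain ⟨hVp, hVm, hdim, -⟩ := Cfsg.Agent.Helper50.TSR2.r2_split Q hQ h2 ((g : GL ι F) : Matrix ι ι F) hM hg2
  obtain ⟨hev, htyp⟩ := Cfsg.Agent.Helper95.TSR2.r2_vm_type Q hQ h2 (by omega) g hgΩ hg2
  have hevp : Even (finrank F (LinearMap.ker (Matrix.toLin' ((g : GL ι F) : Matrix ι ι F) - 1))) := by
    obtain ⟨e, he⟩ := hev
    exact ⟨d - e, by omega⟩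
  have hT := Cfsg.Agent.Helper70.TSR2.r2_split_type Q hQ h2 ((g : GL ι F) : Matrix ι ι F) hM hg2 hevp hev
  obtain ⟨A₁, hA₁, hts₁, hd₁⟩ := r2a_half Q hQ h2 _ hVp
  obtain ⟨A₂, hA₂, hts₂, hd₂⟩ := r2a_half Q hQ h2 _ hVm
  refine ⟨fun k hk => ?_, fun hm1 hplus k hk => ?_, fun hminus k hk => ?_⟩
  · exact Cfsg.Agent.Helper50.TSR2.r2_inv_ts Q hQ h2 ((g : GL ι F) : Matrix ι ι F) hM hg2 A₁ A₂ hA₁ hA₂ hts₁ hts₂ k (by omega)
  · have hpm : IsPlusTypeOn Q (LinearMap.ker (Matrix.toLin' ((g : GL ι F) : Matrix ι ι F) + 1)) :=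
      htyp.mpr (hm1.pow _)
    have hpp : IsPlusTypeOn Q (LinearMap.ker (Matrix.toLin' ((g : GL ι F) : Matrix ι ι F) - 1)) :=
      (hT.mp hplus).mpr hpm
    obtain ⟨U₁, hU₁, hUts₁, hUd₁⟩ := hpp
    obtain ⟨U₂, hU₂, hUts₂, hUd₂⟩ := hpm
    exact Cfsg.Agent.Helper50.TSR2.r2_inv_ts Q hQ h2 ((g : GL ι F) : Matrix ι ι F) hM hg2 U₁ U₂ hU₁ hU₂ hUts₁ hUts₂ k (by omega)
  · by_cases hpp : IsPlusTypeOn Q (LinearMap.ker (Matrix.toLin' ((g : GL ι F) : Matrix ι ι F) - 1))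
    · obtain ⟨U₁, hU₁, hUts₁, hUd₁⟩ := hpp
      exact Cfsg.Agent.Helper50.TSR2.r2_inv_ts Q hQ h2 ((g : GL ι F) : Matrix ι ι F) hM hg2 U₁ A₂ hU₁ hA₂ hUts₁ hts₂ k (by omega)
    · have hpm : IsPlusTypeOn Q (LinearMap.ker (Matrix.toLin' ((g : GL ι F) : Matrix ι ι F) + 1)) := by
        by_contra hpm
        exact hminus (hT.mpr ⟨fun h => absurd h hpp, fun h => absurd h hpm⟩)
      obtain ⟨U₂, hU₂, hUts₂, hUd₂⟩ := hpm
      exact Cfsg.Agent.Helper50.TSR2.r2_inv_ts Q hQ h2 ((g : GL ι F) : Matrix ι ι F) hM hg2 A₁ U₂ hA₁ hU₂ hts₁ hUts₂ k (by omega)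

/-- isometries of `Ω` with square `-1` -/
theorem r2a_skew_good (Q : (ι → F) → F) (hQ : IsNondegenerateQuadraticForm Q) (h2 : (2 : F) ≠ 0)
    (d : ℕ) (hd : 1 ≤ d) (hcard : Fintype.card ι = 2 * d) (g : ↥(Cfsg.isometryGroup F Q))
    (hgΩ : g ∈ Cfsg.Omega F Q) (hg2 : ((g : GL ι F) : Matrix ι ι F) * ((g : GL ι F) : Matrix ι ι F) = -1) :
    (IsSquare (-1 : F) → ∀ k, k ≤ d → InvTS Q ((g : GL ι F) : Matrix ι ι F) k) ∧
    (¬ IsSquare (-1 : F) → (IsPlusTypeOn Q ⊤ ↔ Even d) ∧ IsSquare ((2 : F) ^ d) ∧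
      ∀ k, Even k → k + 1 ≤ d → InvTS Q ((g : GL ι F) : Matrix ι ι F) k) := by
  have hM := r2a_iso Q g
  refine ⟨fun hm1 => Cfsg.Agent.Helper70.TSR2.r2_eig Q hQ h2 d hcard ((g : GL ι F) : Matrix ι ι F) hM hg2 hm1, fun hm1 => ⟨?_, ?_, ?_⟩⟩
  · exact Cfsg.Agent.Helper20.TSR2.r2_skew_type Q hQ h2 d hd hcard ((g : GL ι F) : Matrix ι ι F) hM hg2 hm1
  · exact (Cfsg.Agent.Helper59.TSR2.r2_skew_omega Q hQ h2 d hd hcard g hg2 hm1).mp hgΩ
  · intro k hke hk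
    obtain ⟨W, hWts, hWinv, hWd⟩ := Cfsg.Agent.Helper80.TSR2.r2_skew_max Q hQ h2 d hcard ((g : GL ι F) : Matrix ι ι F) hM hg2 hm1
    obtain ⟨W', hW'W, hW'inv, hW'k⟩ := Cfsg.Agent.Helper94.TSR2.r2_skew_sub ((g : GL ι F) : Matrix ι ι F) hg2 hm1 W hWinv k hke (by omega)
    exact ⟨W', hW'k, fun w hw => hWts w (hW'W hw), hW'inv⟩

omit [Fintype F] in
theorem r2a_sq (x : GL ι F) : ((x ^ 2 : GL ι F) : Matrix ι ι F) =
    (x : Matrix ι ι F) * (x : Matrix ι ι F) := by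
  rw [pow_two, Units.val_mul]

omit [Fintype F] in
theorem r2a_neg_one : ((-1 : F) • (1 : Matrix ι ι F)) = -1 := by
  rw [neg_smul, one_smul]

/-- R2-GOOD-PLUS -/
theorem ts_two_good_plus (Q : (ι → F) → F) (hQ : IsNondegenerateQuadraticForm Q) (d : ℕ)
    (hd : 4 ≤ d) (hcard : Fintype.card ι = 2 * d) (hplus : IsPlusTypeOn Q ⊤) (q : ℕ)
    (hq : Fintype.card F = q) (hodd : Odd q) (x : GL ι F) (hx : x ∈ Cfsg.Geo.omegaGL Q) (z : F)
    (hz : ((x ^ 2 : GL ι F) : Matrix ι ι F) = z • (1 : Matrix ι ι F))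
    (hns : ∀ z : F, (x : Matrix ι ι F) ≠ z • (1 : Matrix ι ι F)) :
    (q % 4 = 1 → ∀ k, k ≤ d → InvTS Q (x : Matrix ι ι F) k) ∧
      (∀ k, k + 2 ≤ d → (Even k ∨ Odd d) → InvTS Q (x : Matrix ι ι F) k) := by
  have h2 : (2 : F) ≠ 0 := Cfsg.Agent.Helper70.TSR2.r2_two_ne (by rw [hq]; exact hodd)
  obtain ⟨g, hgΩ, rfl⟩ := (r2a_mem_omegaGL Q x).mp hx
  have hM := r2a_iso Q g
  rw [r2a_sq] at hz
  have hne : Nonempty ι := Fintype.card_pos_iff.mp (by omega)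
  rcases Cfsg.Agent.Helper70.TSR2.r2_z Q hQ hne ((g : GL ι F) : Matrix ι ι F) hM z hz with rfl | rfl
  · rw [one_smul] at hz
    obtain ⟨h1, h2', -⟩ := r2a_inv_good Q hQ h2 d (by omega) hcard g hgΩ hz
    refine ⟨fun hq1 k hk => h2' ?_ hplus k hk, fun k hk _ => h1 k hk⟩
    rw [FiniteField.isSquare_neg_one_iff, hq]
    omega
  · rw [r2a_neg_one] at hz
    obtain ⟨h1, h2'⟩ := r2a_skew_good Q hQ h2 d (by omega) hcard g hgΩ hz
    by_cases hm1 : IsSquare (-1 : F)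
    · exact ⟨fun _ k hk => h1 hm1 k hk, fun k hk _ => h1 hm1 k (by omega)⟩
    · obtain ⟨htype, -, hgood⟩ := h2' hm1
      have hde : Even d := htype.mp hplus
      refine ⟨fun hq1 => absurd ?_ hm1, fun k hk hko => ?_⟩
      · rw [FiniteField.isSquare_neg_one_iff, hq]
        omega
      · rcases hko with hke | hdo
        · exact hgood k hke (by omega)
        · exact absurd hde (Nat.not_even_iff_odd.mpr hdo)

/-- R2-GOOD-MINUS -/
theorem ts_two_good_minus (Q : (ι → F) → F) (hQ : IsNondegenerateQuadraticForm Q) (d : ℕ)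
    (hd : 4 ≤ d) (hcard : Fintype.card ι = 2 * d) (hminus : ¬ IsPlusTypeOn Q ⊤) (q : ℕ)
    (hq : Fintype.card F = q) (hodd : Odd q) (x : GL ι F) (hx : x ∈ Cfsg.Geo.omegaGL Q) (z : F)
    (hz : ((x ^ 2 : GL ι F) : Matrix ι ι F) = z • (1 : Matrix ι ι F))
    (hns : ∀ z : F, (x : Matrix ι ι F) ≠ z • (1 : Matrix ι ι F)) :
    ∀ k, k + 1 ≤ d → (Even d ∨ Even k ∨ q % 8 ≠ 7) → InvTS Q (x : Matrix ι ι F) k := by
  have h2 : (2 : F) ≠ 0 := Cfsg.Agent.Helper70.TSR2.r2_two_ne (by rw [hq]; exact hodd)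
  obtain ⟨g, hgΩ, rfl⟩ := (r2a_mem_omegaGL Q x).mp hx
  have hM := r2a_iso Q g
  rw [r2a_sq] at hz
  have hne : Nonempty ι := Fintype.card_pos_iff.mp (by omega)
  intro k hk hcond
  rcases Cfsg.Agent.Helper70.TSR2.r2_z Q hQ hne ((g : GL ι F) : Matrix ι ι F) hM z hz with rfl | rfl
  · rw [one_smul] at hz
    obtain ⟨-, -, h3⟩ := r2a_inv_good Q hQ h2 d (by omega) hcard g hgΩ hz
    exact h3 hminus k hk
  · rw [r2a_neg_one] at hz
    obtain ⟨h1, h2'⟩ := r2a_skew_good Q hQ h2 d (by omega) hcard g hgΩ hz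
    by_cases hm1 : IsSquare (-1 : F)
    · exact h1 hm1 k (by omega)
    · obtain ⟨htype, hsq, hgood⟩ := h2' hm1
      have hdo : ¬ Even d := fun h => hminus (htype.mpr h)
      rcases hcond with hde | hke | hq7
      · exact absurd hde hdo
      · exact hgood k hke hk
      · exfalso
        obtain ⟨e, he⟩ := Nat.not_even_iff_odd.mp hdo
        have hs2 : IsSquare (2 : F) := by
          obtain ⟨c, hc⟩ := hsq
          have hpe : (2 : F) ^ e ≠ 0 := pow_ne_zero _ h2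
          refine ⟨c / 2 ^ e, ?_⟩
          rw [he, pow_succ, pow_mul'] at hc
          field_simp
          linear_combination hc
        rw [FiniteField.isSquare_two_iff, hq] at hs2
        rw [FiniteField.isSquare_neg_one_iff, hq] at hm1
        omega

/-- R2-BAD-PLUS-A -/
theorem ts_two_bad_plus_a (Q : (ι → F) → F) (hQ : IsNondegenerateQuadraticForm Q) (d : ℕ)
    (hd : 4 ≤ d) (hcard : Fintype.card ι = 2 * d) (hplus : IsPlusTypeOn Q ⊤) (q : ℕ)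
    (hq : Fintype.card F = q) (h3 : q % 4 = 3) :
    ∃ x : GL ι F, x ∈ Cfsg.Geo.omegaGL Q ∧ x ^ 2 = 1 ∧
      (∀ z : F, (x : Matrix ι ι F) ≠ z • (1 : Matrix ι ι F)) ∧
      ∀ k, InvTS Q (x : Matrix ι ι F) k → k + 2 ≤ d := by
  have hodd : Odd (Fintype.card F) := by
    rw [hq, Nat.odd_iff]
    omega
  have h2 : (2 : F) ≠ 0 := Cfsg.Agent.Helper70.TSR2.r2_two_ne hodd
  have hm1 : ¬ IsSquare (-1 : F) := by
    rw [FiniteField.isSquare_neg_one_iff, hq]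
    omega
  obtain ⟨g, hgΩ, hg2, hdim, haniso⟩ := Cfsg.Agent.Helper52.TSR2.r2_bad_a_ex Q hQ h2 hm1 (by omega)
  have hM := r2a_iso Q g
  refine ⟨(g : GL ι F), (r2a_mem_omegaGL Q _).mpr ⟨g, hgΩ, rfl⟩, ?_, ?_, ?_⟩
  · apply Units.ext
    rw [r2a_sq]
    exact hg2
  · intro z hzM
    by_cases hz1 : z + 1 = 0
    · have hker : LinearMap.ker (Matrix.toLin' ((g : GL ι F) : Matrix ι ι F) + 1) = ⊤ := by
        rw [eq_top_iff]
        intro v _
        rw [LinearMap.mem_ker, LinearMap.add_apply, Matrix.toLin'_apply]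
        show ((g : GL ι F) : Matrix ι ι F).mulVec v + v = 0
        rw [show ((g : GL ι F) : Matrix ι ι F) = z • (1 : Matrix ι ι F) from hzM, Matrix.smul_mulVec, Matrix.one_mulVec,
          show z • v + v = (z + 1) • v from by rw [add_smul, one_smul], hz1, zero_smul]
      rw [hker, finrank_top, Module.finrank_fintype_fun_eq_card, hcard] at hdim
      omega
    · have hker : LinearMap.ker (Matrix.toLin' ((g : GL ι F) : Matrix ι ι F) + 1) = ⊥ := by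
        rw [eq_bot_iff]
        intro v hv
        rw [LinearMap.mem_ker, LinearMap.add_apply, Matrix.toLin'_apply] at hv
        have hv' : ((g : GL ι F) : Matrix ι ι F).mulVec v + v = 0 := hv
        rw [show ((g : GL ι F) : Matrix ι ι F) = z • (1 : Matrix ι ι F) from hzM, Matrix.smul_mulVec, Matrix.one_mulVec,
          show z • v + v = (z + 1) • v from by rw [add_smul, one_smul]] at hv'
        rw [Submodule.mem_bot]
        exact (smul_eq_zero.mp hv').resolve_left hz1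
      rw [hker, finrank_bot] at hdim
      omega
  · rintro k ⟨W, hWk, hWts, hWinv⟩
    obtain ⟨hVp, hVm, hdimsum, hsplit⟩ := Cfsg.Agent.Helper50.TSR2.r2_split Q hQ h2 ((g : GL ι F) : Matrix ι ι F) hM hg2
    have h1 := hsplit W hWinv
    have hbot : W ⊓ LinearMap.ker (Matrix.toLin' ((g : GL ι F) : Matrix ι ι F) + 1) = ⊥ := by
      rw [eq_bot_iff]
      intro w hw
      rw [Submodule.mem_bot]
      exact haniso w hw.2 (hWts w hw.1)
    rw [hbot, finrank_bot, add_zero] at h1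
    have hb := Cfsg.Agent.Helper80.TSR2.r2_ts_bound Q hQ (LinearMap.ker (Matrix.toLin' ((g : GL ι F) : Matrix ι ι F) - 1))
      (W ⊓ LinearMap.ker (Matrix.toLin' ((g : GL ι F) : Matrix ι ι F) - 1)) hVp inf_le_right
      (fun w hw => hWts w hw.1)
    have hne : 2 * finrank F (W ⊓ LinearMap.ker (Matrix.toLin' ((g : GL ι F) : Matrix ι ι F) - 1) :
        Submodule F (ι → F)) ≠ finrank F (LinearMap.ker (Matrix.toLin' ((g : GL ι F) : Matrix ι ι F) - 1)) := by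
      intro heq
      have hpVp : IsPlusTypeOn Q (LinearMap.ker (Matrix.toLin' ((g : GL ι F) : Matrix ι ι F) - 1)) :=
        ⟨_, inf_le_right, fun w hw => hWts w hw.1, heq⟩
      have hT := Cfsg.Agent.Helper70.TSR2.r2_split_type Q hQ h2 ((g : GL ι F) : Matrix ι ι F) hM hg2 ⟨d - 1, by omega⟩ ⟨1, by omega⟩
      obtain ⟨U, hU, hUts, hUd⟩ := (hT.mp hplus).mp hpVp
      have hU1 : finrank F U = 1 := by omega
      obtain ⟨w, hwU, hw0⟩ : ∃ w ∈ U, w ≠ 0 := by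
        by_contra hcon
        push Not at hcon
        have hUb : U = ⊥ := (Submodule.eq_bot_iff U).mpr hcon
        rw [hUb, finrank_bot] at hU1
        omega
      exact hw0 (haniso w (hU hwU) (hUts w hwU))
    omega

omit [Fintype F] in
theorem r2a_nonscalar (hne : Nonempty ι) (M : Matrix ι ι F) (hM2 : M * M = -1)
    (hm1 : ¬ IsSquare (-1 : F)) (z : F) : M ≠ z • (1 : Matrix ι ι F) := by
  intro hzM
  apply hm1
  refine ⟨z, ?_⟩
  obtain ⟨i⟩ := hne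
  rw [hzM, Matrix.smul_mul, Matrix.one_mul, smul_smul] at hM2
  have h := congrFun (congrFun hM2 i) i
  rw [Matrix.smul_apply, Matrix.one_apply_eq, Matrix.neg_apply, Matrix.one_apply_eq,
    smul_eq_mul, mul_one] at h
  exact h.symm

/-- R2-BAD-PLUS-B -/
theorem ts_two_bad_plus_b (Q : (ι → F) → F) (hQ : IsNondegenerateQuadraticForm Q) (d : ℕ)
    (hd : 4 ≤ d) (hcard : Fintype.card ι = 2 * d) (hplus : IsPlusTypeOn Q ⊤) (q : ℕ)
    (hq : Fintype.card F = q) (h3 : q % 4 = 3) (hde : Even d) :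
    ∃ x : GL ι F, x ∈ Cfsg.Geo.omegaGL Q ∧
      ((x ^ 2 : GL ι F) : Matrix ι ι F) = (-1 : F) • (1 : Matrix ι ι F) ∧
      (∀ z : F, (x : Matrix ι ι F) ≠ z • (1 : Matrix ι ι F)) ∧
      ∀ k, InvTS Q (x : Matrix ι ι F) k → Even k := by
  have hodd : Odd (Fintype.card F) := by
    rw [hq, Nat.odd_iff]
    omega
  have h2 : (2 : F) ≠ 0 := Cfsg.Agent.Helper70.TSR2.r2_two_ne hodd
  have hm1 : ¬ IsSquare (-1 : F) := by
    rw [FiniteField.isSquare_neg_one_iff, hq]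
    omega
  have hne : Nonempty ι := Fintype.card_pos_iff.mp (by omega)
  obtain ⟨g, hg2⟩ := Cfsg.Agent.Helper60.TSR2.r2_skew_ex Q hQ h2 d (by omega) hcard hm1 ⟨fun _ => hde, fun _ => hplus⟩
  have hgΩ : g ∈ Cfsg.Omega F Q := by
    rw [Cfsg.Agent.Helper59.TSR2.r2_skew_omega Q hQ h2 d (by omega) hcard g hg2 hm1]
    obtain ⟨e, he⟩ := hde
    exact ⟨2 ^ e, by rw [he, pow_add]⟩
  refine ⟨(g : GL ι F), (r2a_mem_omegaGL Q _).mpr ⟨g, hgΩ, rfl⟩, ?_, ?_, ?_⟩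
  · rw [r2a_sq, r2a_neg_one]
    exact hg2
  · exact fun z => r2a_nonscalar hne ((g : GL ι F) : Matrix ι ι F) hg2 hm1 z
  · rintro k ⟨W, hWk, -, hWinv⟩
    rw [← hWk]
    exact Cfsg.Agent.Helper94.TSR2.r2_skew_even ((g : GL ι F) : Matrix ι ι F) hg2 hm1 W hWinv

/-- R2-BAD-MINUS -/
theorem ts_two_bad_minus (Q : (ι → F) → F) (hQ : IsNondegenerateQuadraticForm Q) (d : ℕ)
    (hd : 4 ≤ d) (hcard : Fintype.card ι = 2 * d) (hminus : ¬ IsPlusTypeOn Q ⊤) (q : ℕ)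
    (hq : Fintype.card F = q) (h7 : q % 8 = 7) (hdo : Odd d) :
    ∃ x : GL ι F, x ∈ Cfsg.Geo.omegaGL Q ∧
      ((x ^ 2 : GL ι F) : Matrix ι ι F) = (-1 : F) • (1 : Matrix ι ι F) ∧
      (∀ z : F, (x : Matrix ι ι F) ≠ z • (1 : Matrix ι ι F)) ∧
      ∀ k, InvTS Q (x : Matrix ι ι F) k → Even k := by
  have hodd : Odd (Fintype.card F) := by
    rw [hq, Nat.odd_iff]
    omega
  have h2 : (2 : F) ≠ 0 := Cfsg.Agent.Helper70.TSR2.r2_two_ne hodd
  have hm1 : ¬ IsSquare (-1 : F) := by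
    rw [FiniteField.isSquare_neg_one_iff, hq]
    omega
  have hne : Nonempty ι := Fintype.card_pos_iff.mp (by omega)
  obtain ⟨g, hg2⟩ := Cfsg.Agent.Helper60.TSR2.r2_skew_ex Q hQ h2 d (by omega) hcard hm1
    ⟨fun h => absurd h hminus, fun h => absurd hdo (Nat.not_odd_iff_even.mpr h)⟩
  have hgΩ : g ∈ Cfsg.Omega F Q := by
    rw [Cfsg.Agent.Helper59.TSR2.r2_skew_omega Q hQ h2 d (by omega) hcard g hg2 hm1]
    have hs2 : IsSquare (2 : F) := by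
      rw [FiniteField.isSquare_two_iff, hq]
      omega
    exact hs2.pow d
  refine ⟨(g : GL ι F), (r2a_mem_omegaGL Q _).mpr ⟨g, hgΩ, rfl⟩, ?_, ?_, ?_⟩
  · rw [r2a_sq, r2a_neg_one]
    exact hg2
  · exact fun z => r2a_nonscalar hne ((g : GL ι F) : Matrix ι ι F) hg2 hm1 z
  · rintro k ⟨W, hWk, -, hWinv⟩
    rw [← hWk]
    exact Cfsg.Agent.Helper94.TSR2.r2_skew_even ((g : GL ι F) : Matrix ι ι F) hg2 hm1 W hWinv

end stages

end Cfsg.Agent.Helper90.TS5973
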