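import Mathlib
import Cfsg.Prelude.Def_GeometricClasses

/-!
# S5982 (unitary subgroups `GU_n(q₀)` of `SL_n(q₀²)`, elements of prime order): shared definitions
-/

set_option autoImplicit false

namespace Cfsg.Agent.Helper90.UFR

open Module

/-- `x` is conjugate by a matrix of determinant 1 into the similarity group of `f` -/
def IsConjU {F : Type*} [Field F] {n : ℕ} (f : (Fin n → F) → (Fin n → F) → F)
    (x : GL (Fin n) F) : Prop :=
  ∃ g ∈ Cfsg.Geo.specialLinear (Fin n) F, g⁻¹ * x * g ∈ Cfsg.Geo.similarityGroup f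

/-- there is an element of order `r` modulo scalars of `SL_n(F)` with no conjugate in the
similarity group of `f` -/
def IsBadU {F : Type*} [Field F] {n : ℕ} (f : (Fin n → F) → (Fin n → F) → F) (r : ℕ) : Prop :=
  ∃ x ∈ Cfsg.Geo.specialLinear (Fin n) F,
    (∃ z : F, ((x ^ r : GL (Fin n) F) : Matrix (Fin n) (Fin n) F)
      = z • (1 : Matrix (Fin n) (Fin n) F)) ∧
    (∀ z : F, (x : Matrix (Fin n) (Fin n) F) ≠ z • (1 : Matrix (Fin n) (Fin n) F)) ∧
    ¬ IsConjU f x

end Cfsg.Agent.Helper90.UFR
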