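import Mathlib
import Cfsg.Prelude.Def_GeometricClasses
import Cfsg.Agent.Helper90.UFRDefs
import Cfsg.Agent.Helper97.UForm
import Cfsg.Agent.Helper67.HermGS

/-!
# S5982: the matrix interface for unitary forms (`ufr_setup`) and the transfer lemma (`conj_of_model`)
-/

set_option autoImplicit false

namespace Cfsg.Agent.Helper90.UFR

open Module Matrix

variable {F : Type*} [Field F] [Fintype F]

/-- the matrix interface: a unitary form `f` for `t ↦ t ^ q₀` has a hermitian invertible Gram matrix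
`J`, and `g` is a similarity of `f` iff `gᵀ J g^σ = c J` for some `c ≠ 0` -/
theorem ufr_setup (q₀ : ℕ) (hq : Fintype.card F = q₀ ^ 2) (n : ℕ)
    (f : (Fin n → F) → (Fin n → F) → F) (hf : Cfsg.Geo.IsUnitaryFormPow q₀ f) :
    ∃ (σ : F ≃+* F) (J : Matrix (Fin n) (Fin n) F), (∀ t, σ t = t ^ q₀) ∧ (∀ t, σ (σ t) = t) ∧
      J.det ≠ 0 ∧ J.transpose = J.map σ ∧
      ∀ g : GL (Fin n) F, g ∈ Cfsg.Geo.similarityGroup f ↔
        ∃ c : F, c ≠ 0 ∧ (g : Matrix (Fin n) (Fin n) F).transpose * J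
          * (g : Matrix (Fin n) (Fin n) F).map σ = c • J := by
  classical
  obtain ⟨σ, hσ⟩ := Cfsg.Agent.Helper97.exists_sigma hq
  have hs : Cfsg.Agent.Helper97.IsSesq σ f := by
    refine ⟨hf.add_left, hf.smul_left, ?_, ?_⟩
    · intro v x y
      rw [hf.herm v (x + y), hf.add_left, ← hσ.pow, map_add, hσ.pow, hσ.pow, ← hf.herm, ← hf.herm]
    · intro c v x
      rw [hf.herm v (c • x), hf.smul_left, ← hσ.pow, map_mul, hσ.pow (f x v), ← hf.herm]
  refine ⟨σ, Cfsg.Agent.Helper97.gram f, hσ.pow, hσ.inv, ?_, ?_, ?_⟩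
  · exact hs.det_gram_ne_zero (fun v hv => (hf.nondegenerate v hv).1)
  · ext i j
    rw [Matrix.transpose_apply, Matrix.map_apply, Cfsg.Agent.Helper97.gram_apply,
      Cfsg.Agent.Helper97.gram_apply, hσ.pow, ← hf.herm]
  · intro g
    rw [Cfsg.Agent.Helper97.mem_similarityGroup_iff]
    constructor
    · rintro ⟨c, hc⟩
      exact ⟨(c : F), c.ne_zero, hs.gram_of_similar _ _ hc⟩
    · rintro ⟨c, hc0, hc⟩
      exact ⟨Units.mk0 c hc0, fun u v => hs.similar_of_gram _ c hc u v⟩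

/-- PIECE TRB: transfer from a model form.  If `x` is a similarity of SOME hermitian invertible
matrix `J'` and the centraliser of `x` has all determinants, then `x` is conjugate by a matrix of
determinant 1 into the similarity group of `f`. -/
theorem conj_of_model (q₀ : ℕ) (hq : Fintype.card F = q₀ ^ 2) (n : ℕ)
    (f : (Fin n → F) → (Fin n → F) → F) (hf : Cfsg.Geo.IsUnitaryFormPow q₀ f)
    (σ : F ≃+* F) (hσ : ∀ t, σ t = t ^ q₀) (x : GL (Fin n) F)
    (J' : Matrix (Fin n) (Fin n) F) (hJ' : J'.det ≠ 0) (hJ't : J'.transpose = J'.map σ)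
    (c : F) (hc : c ≠ 0)
    (hxJ : (x : Matrix (Fin n) (Fin n) F).transpose * J' * (x : Matrix (Fin n) (Fin n) F).map σ
      = c • J')
    (hcent : ∀ δ : F, δ ≠ 0 → ∃ C : GL (Fin n) F, C * x = x * C ∧
      (C : Matrix (Fin n) (Fin n) F).det = δ) : IsConjU f x := by
  classical
  obtain ⟨τ, J, hτ, hτ2, hJ, hJt, hmem⟩ := ufr_setup q₀ hq n f hf
  have hστ : τ = σ := by
    ext t
    rw [hτ, hσ]
  subst hστ
  obtain ⟨A, hA, hAJ⟩ := Cfsg.Agent.Helper67.herm_gram_schmidt q₀ hq τ hτ n J hJt hJ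
  obtain ⟨A', hA', hAJ'⟩ := Cfsg.Agent.Helper67.herm_gram_schmidt q₀ hq τ hτ n J' hJ't hJ'
  -- `B = A' * A⁻¹` satisfies `Bᵀ J' B^σ = J`
  have hmapmul : ∀ L M : Matrix (Fin n) (Fin n) F, (L * M).map τ = L.map τ * M.map τ :=
    fun L M => Matrix.map_mul (f := (τ : F →+* F))
  have hmapone : (1 : Matrix (Fin n) (Fin n) F).map τ = 1 :=
    Matrix.map_one _ (map_zero τ) (map_one τ)
  obtain ⟨Ag, hAg⟩ : ∃ Ag : GL (Fin n) F, (Ag : Matrix (Fin n) (Fin n) F) = A :=
    ⟨Matrix.GeneralLinearGroup.mkOfDetNeZero A hA, rfl⟩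
  obtain ⟨Ag', hAg'⟩ : ∃ Ag' : GL (Fin n) F, (Ag' : Matrix (Fin n) (Fin n) F) = A' :=
    ⟨Matrix.GeneralLinearGroup.mkOfDetNeZero A' hA', rfl⟩
  -- g₀ = Ag' * Ag⁻¹ : then g₀⁻¹ x g₀ ... we use B = g₀⁻¹ = Ag * Ag'⁻¹ with Bᵀ J B^σ = J'
  obtain ⟨B, hB⟩ : ∃ B : GL (Fin n) F, B = Ag * Ag'⁻¹ := ⟨_, rfl⟩
  have hinv1 : (Ag' : Matrix (Fin n) (Fin n) F) * ((Ag'⁻¹ : GL (Fin n) F) : Matrix (Fin n) (Fin n) F)
      = 1 := by
    rw [← Units.val_mul, mul_inv_cancel, Units.val_one]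
  have hinv2 : ((Ag'⁻¹ : GL (Fin n) F) : Matrix (Fin n) (Fin n) F) * (Ag' : Matrix (Fin n) (Fin n) F)
      = 1 := by
    rw [← Units.val_mul, inv_mul_cancel, Units.val_one]
  have hJ'eq : J' = ((Ag'⁻¹ : GL (Fin n) F) : Matrix (Fin n) (Fin n) F).transpose
      * ((Ag'⁻¹ : GL (Fin n) F) : Matrix (Fin n) (Fin n) F).map τ := by
    have h1 : ((Ag'⁻¹ : GL (Fin n) F) : Matrix (Fin n) (Fin n) F).transpose
        * (A'.transpose * J' * A'.map τ)
        * ((Ag'⁻¹ : GL (Fin n) F) : Matrix (Fin n) (Fin n) F).map τ = J' := by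
      have h2 : ((Ag'⁻¹ : GL (Fin n) F) : Matrix (Fin n) (Fin n) F).transpose * A'.transpose = 1 := by
        rw [← Matrix.transpose_mul, ← hAg', hinv1, Matrix.transpose_one]
      have h3 : A'.map τ * ((Ag'⁻¹ : GL (Fin n) F) : Matrix (Fin n) (Fin n) F).map τ = 1 := by
        rw [← hmapmul, ← hAg', hinv1, hmapone]
      calc ((Ag'⁻¹ : GL (Fin n) F) : Matrix (Fin n) (Fin n) F).transpose
            * (A'.transpose * J' * A'.map τ)
            * ((Ag'⁻¹ : GL (Fin n) F) : Matrix (Fin n) (Fin n) F).map τ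
          = (((Ag'⁻¹ : GL (Fin n) F) : Matrix (Fin n) (Fin n) F).transpose * A'.transpose) * J'
            * (A'.map τ * ((Ag'⁻¹ : GL (Fin n) F) : Matrix (Fin n) (Fin n) F).map τ) := by
            simp only [Matrix.mul_assoc]
        _ = J' := by rw [h2, h3, Matrix.one_mul, Matrix.mul_one]
    rw [hAJ', Matrix.mul_one] at h1
    exact h1.symm
  have hBJ : (B : Matrix (Fin n) (Fin n) F).transpose * J * (B : Matrix (Fin n) (Fin n) F).map τ
      = J' := by
    rw [hB, Units.val_mul, Matrix.transpose_mul, hmapmul, hAg, hJ'eq]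
    calc ((Ag'⁻¹ : GL (Fin n) F) : Matrix (Fin n) (Fin n) F).transpose * A.transpose * J
          * (A.map τ * ((Ag'⁻¹ : GL (Fin n) F) : Matrix (Fin n) (Fin n) F).map τ)
        = ((Ag'⁻¹ : GL (Fin n) F) : Matrix (Fin n) (Fin n) F).transpose
          * (A.transpose * J * A.map τ)
          * ((Ag'⁻¹ : GL (Fin n) F) : Matrix (Fin n) (Fin n) F).map τ := by
          simp only [Matrix.mul_assoc]
      _ = _ := by rw [hAJ, Matrix.mul_one]
  -- `B x B⁻¹` is a similarity of `J`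
  have hBB : ((B⁻¹ : GL (Fin n) F) : Matrix (Fin n) (Fin n) F) * (B : Matrix (Fin n) (Fin n) F)
      = 1 := by
    rw [← Units.val_mul, inv_mul_cancel, Units.val_one]
  have hsim : B * x * B⁻¹ ∈ Cfsg.Geo.similarityGroup f := by
    rw [hmem]
    refine ⟨c, hc, ?_⟩
    rw [Units.val_mul, Units.val_mul, Matrix.transpose_mul, Matrix.transpose_mul, hmapmul, hmapmul]
    have h2 : ((B⁻¹ : GL (Fin n) F) : Matrix (Fin n) (Fin n) F).transpose
        * (B : Matrix (Fin n) (Fin n) F).transpose = 1 := by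
      rw [← Matrix.transpose_mul, ← Units.val_mul, mul_inv_cancel, Units.val_one,
        Matrix.transpose_one]
    have h3 : (B : Matrix (Fin n) (Fin n) F).map τ
        * ((B⁻¹ : GL (Fin n) F) : Matrix (Fin n) (Fin n) F).map τ = 1 := by
      rw [← hmapmul, ← Units.val_mul, mul_inv_cancel, Units.val_one, hmapone]
    have h4 : J = ((B⁻¹ : GL (Fin n) F) : Matrix (Fin n) (Fin n) F).transpose * J'
        * ((B⁻¹ : GL (Fin n) F) : Matrix (Fin n) (Fin n) F).map τ := by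
      rw [← hBJ]
      calc J = (((B⁻¹ : GL (Fin n) F) : Matrix (Fin n) (Fin n) F).transpose
            * (B : Matrix (Fin n) (Fin n) F).transpose) * J
            * ((B : Matrix (Fin n) (Fin n) F).map τ
              * ((B⁻¹ : GL (Fin n) F) : Matrix (Fin n) (Fin n) F).map τ) := by
            rw [h2, h3, Matrix.one_mul, Matrix.mul_one]
        _ = _ := by simp only [Matrix.mul_assoc]
    calc ((B⁻¹ : GL (Fin n) F) : Matrix (Fin n) (Fin n) F).transpose
          * ((x : Matrix (Fin n) (Fin n) F).transpose * (B : Matrix (Fin n) (Fin n) F).transpose) * J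
          * ((B : Matrix (Fin n) (Fin n) F).map τ * (x : Matrix (Fin n) (Fin n) F).map τ
            * ((B⁻¹ : GL (Fin n) F) : Matrix (Fin n) (Fin n) F).map τ)
        = ((B⁻¹ : GL (Fin n) F) : Matrix (Fin n) (Fin n) F).transpose
          * ((x : Matrix (Fin n) (Fin n) F).transpose
            * ((B : Matrix (Fin n) (Fin n) F).transpose * J * (B : Matrix (Fin n) (Fin n) F).map τ)
            * (x : Matrix (Fin n) (Fin n) F).map τ)
          * ((B⁻¹ : GL (Fin n) F) : Matrix (Fin n) (Fin n) F).map τ := by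
          simp only [Matrix.mul_assoc]
      _ = ((B⁻¹ : GL (Fin n) F) : Matrix (Fin n) (Fin n) F).transpose * (c • J')
          * ((B⁻¹ : GL (Fin n) F) : Matrix (Fin n) (Fin n) F).map τ := by rw [hBJ, hxJ]
      _ = c • J := by
          rw [Matrix.mul_smul, Matrix.smul_mul, ← h4]
  -- adjust the determinant
  have hdetB : (B : Matrix (Fin n) (Fin n) F).det ≠ 0 := by
    have h1 := congrArg Matrix.det hBB
    rw [Matrix.det_mul, Matrix.det_one] at h1
    exact right_ne_zero_of_mul_eq_one h1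
  obtain ⟨C, hCx, hCdet⟩ := hcent _ hdetB
  refine ⟨C * B⁻¹, ?_, ?_⟩
  · rw [Cfsg.Geo.specialLinear, MonoidHom.mem_ker]
    apply Units.ext
    rw [Matrix.GeneralLinearGroup.val_det_apply, Units.val_mul, Matrix.det_mul, hCdet, Units.val_one]
    have h1 := congrArg Matrix.det hBB
    rw [Matrix.det_mul, Matrix.det_one] at h1
    rw [mul_comm]
    exact h1
  · have h1 : (C * B⁻¹)⁻¹ * x * (C * B⁻¹) = B * x * B⁻¹ := by
      have h2 : C⁻¹ * x * C = x := by
        rw [mul_assoc, ← hCx, ← mul_assoc, inv_mul_cancel, one_mul]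
      calc (C * B⁻¹)⁻¹ * x * (C * B⁻¹) = B * (C⁻¹ * x * C) * B⁻¹ := by group
        _ = B * x * B⁻¹ := by rw [h2]
    rw [h1]
    exact hsim

end Cfsg.Agent.Helper90.UFR
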