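import Mathlib
import Cfsg.Agent.Helper90.HTDefs

set_option autoImplicit false

/-!
# Totally isotropic frames of the standard Hermitian space (helper90, for S5953)
-/

namespace Cfsg.Agent.Helper90.HT

/-- Linearly independent totally isotropic `m`-families of the standard Hermitian space. -/
def HFam (F : Type*) [Field F] (n q m : ℕ) : Type _ :=
  {v : Fin m → (Fin n → F) // LinearIndependent F v ∧
    ∀ a b, Cfsg.hermForm n F q (v a) (v b) = 0}

end Cfsg.Agent.Helper90.HT
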