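import Mathlib
import Cfsg.Agent.Helper90.LESPair
import Cfsg.Agent.Helper22.Bender
import Cfsg.Agent.Helper48.CharPLocal
import Cfsg.Agent.Helper1.Basic

/-!
# Large extraspecial subgroups: invariant subgroups contain the central involution

* `LES.mem_of_invariant`: a non-trivial subgroup normalised by `Q` contains `z`.
* `LES.exists_sylow`: a Sylow 2-subgroup containing `Q` centralises `z`.
* `asch_caseA`: if `O_2(G) ≠ 1` then `⟨z^G⟩` is abelian and `F*(G) = O_2(G)`.
-/

set_option autoImplicit false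
set_option linter.style.haveILetI false
set_option warn.classDefReducibility false

namespace Cfsg.Agent.Helper90

open Cfsg

section

variable {G : Type*} [Group G]

/-- conjugation action of a subgroup `Q` on a `Q`-invariant subgroup `H` -/
def conjMulAction (Q H : Subgroup G) (hN : ∀ q ∈ Q, ∀ x ∈ H, q * x * q⁻¹ ∈ H) :
    MulAction ↥Q ↥H where
  smul q x := ⟨(q : G) * (x : G) * (q : G)⁻¹, hN q q.2 x x.2⟩
  one_smul x := by
    apply Subtype.ext
    show ((1 : ↥Q) : G) * (x : G) * ((1 : ↥Q) : G)⁻¹ = x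
    simp
  mul_smul a b x := by
    apply Subtype.ext
    show ((a * b : ↥Q) : G) * (x : G) * ((a * b : ↥Q) : G)⁻¹
      = (a : G) * ((b : G) * (x : G) * (b : G)⁻¹) * (a : G)⁻¹
    simp [mul_assoc]

/-- A non-trivial subgroup normalised by a large extraspecial `Q` contains `z`. -/
theorem LES.mem_of_invariant [Finite G] {Q : Subgroup G} {z : G} (h : LES Q z)
    (hQ2 : IsPGroup 2 ↥Q)
    (hL4 : ∀ K : Subgroup G, Odd (Nat.card K) → Q ≤ Subgroup.normalizer (K : Set G) → K = ⊥)
    (H : Subgroup G) (hH : H ≠ ⊥) (hN : ∀ q ∈ Q, ∀ x ∈ H, q * x * q⁻¹ ∈ H) : z ∈ H := by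
  have hnorm : Q ≤ Subgroup.normalizer (H : Set G) := by
    intro q hq
    rw [Subgroup.mem_normalizer_iff]
    intro x
    constructor
    · exact hN q hq x
    · intro hx
      have := hN q⁻¹ (Q.inv_mem hq) _ hx
      have e : q⁻¹ * (q * x * q⁻¹) * q⁻¹⁻¹ = x := by group
      rwa [e] at this
  have heven : 2 ∣ Nat.card ↥H := by
    by_contra hodd
    exact hH (hL4 H (Nat.not_even_iff_odd.mp (fun he => hodd (even_iff_two_dvd.mp he))) hnorm)
  letI := conjMulAction Q H hN
  haveI : Fact (Nat.Prime 2) := ⟨Nat.prime_two⟩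
  have h1fix : (1 : ↥H) ∈ MulAction.fixedPoints ↥Q ↥H := by
    intro q
    apply Subtype.ext
    show (q : G) * ((1 : ↥H) : G) * (q : G)⁻¹ = ((1 : ↥H) : G)
    simp
  obtain ⟨b, hb, hb1⟩ := hQ2.exists_fixed_point_of_prime_dvd_card_of_fixed_point ↥H heven h1fix
  have hbc : ∀ q ∈ Q, q * (b : G) = (b : G) * q := by
    intro q hq
    have := hb ⟨q, hq⟩
    have h2 : q * (b : G) * q⁻¹ = (b : G) := congrArg Subtype.val this
    calc q * (b : G) = (q * (b : G) * q⁻¹) * q := by group
      _ = (b : G) * q := by rw [h2]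
  rcases h.cent _ hbc with h3 | h3
  · exfalso
    apply hb1
    apply Subtype.ext
    exact h3.symm
  · rw [← h3]; exact b.2

/-- A Sylow 2-subgroup containing `Q` centralises `z`. -/
theorem LES.exists_sylow [Finite G] {Q : Subgroup G} {z : G} (h : LES Q z)
    (hQ2 : IsPGroup 2 ↥Q) :
    ∃ S : Sylow 2 G, Q ≤ (S : Subgroup G) ∧ ∀ s ∈ (S : Subgroup G), s * z = z * s := by
  haveI : Fact (Nat.Prime 2) := ⟨Nat.prime_two⟩
  obtain ⟨S, hS⟩ := hQ2.exists_le_sylow
  refine ⟨S, hS, ?_⟩
  have hnt : Nontrivial ↥(S : Subgroup G) :=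
    ⟨⟨⟨z, hS h.mem⟩, 1, fun e => h.ne_one (congrArg Subtype.val e)⟩⟩
  have := IsPGroup.center_nontrivial S.isPGroup'
  obtain ⟨c, hc⟩ := exists_ne (1 : Subgroup.center ↥(S : Subgroup G))
  have hcc : ∀ s ∈ (S : Subgroup G),
      s * ((c : ↥(S : Subgroup G)) : G) = ((c : ↥(S : Subgroup G)) : G) * s := by
    intro s hs
    have := Subgroup.mem_center_iff.mp c.2 ⟨s, hs⟩
    exact congrArg Subtype.val this
  rcases h.cent _ (fun q hq => hcc q (hS hq)) with h1 | h1
  · exfalso
    apply hc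
    apply Subtype.ext
    apply Subtype.ext
    simpa using h1
  · rw [← h1]; exact hcc

/-- If `O_2(G) ≠ 1`, then `⟨z^G⟩` is abelian and `F*(G) = O_2(G)`. -/
theorem asch_caseA [Finite G] {Q : Subgroup G} {z : G} (h : LES Q z) (hQ2 : IsPGroup 2 ↥Q)
    (hL4 : ∀ K : Subgroup G, Odd (Nat.card K) → Q ≤ Subgroup.normalizer (K : Set G) → K = ⊥)
    (hO2 : Cfsg.pCore 2 G ≠ ⊥) :
    (∀ x ∈ Subgroup.normalClosure ({z} : Set G), ∀ y ∈ Subgroup.normalClosure ({z} : Set G),
        x * y = y * x) ∧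
      Cfsg.generalizedFittingSubgroup G = Cfsg.pCore 2 G := by
  haveI : Fact (Nat.Prime 2) := ⟨Nat.prime_two⟩
  set R := Cfsg.pCore 2 G with hR
  have hRn : R.Normal := Cfsg.pCore_normal 2 G
  have hR2 : IsPGroup 2 ↥R := pCore_isPGroup 2 G
  set C := Subgroup.centralizer (R : Set G) with hC
  have hCn : C.Normal := Subgroup.normal_centralizer
  set ZR : Subgroup G := R ⊓ C with hZR
  have hZRn : ZR.Normal := Subgroup.normal_inf_normal R C
  have hZR1 : ZR ≠ ⊥ := by
    have hnt : Nontrivial ↥R := (Subgroup.nontrivial_iff_ne_bot R).mpr hO2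
    have := IsPGroup.center_nontrivial hR2
    obtain ⟨c, hc⟩ := exists_ne (1 : Subgroup.center ↥R)
    intro hbot
    apply hc
    have hmem : ((c : ↥R) : G) ∈ ZR := by
      refine Subgroup.mem_inf.mpr ⟨(c : ↥R).2, ?_⟩
      refine Subgroup.mem_centralizer_iff.mpr ?_
      intro r hr
      have := Subgroup.mem_center_iff.mp c.2 ⟨r, hr⟩
      exact congrArg Subtype.val this
    rw [hbot, Subgroup.mem_bot] at hmem
    apply Subtype.ext
    apply Subtype.ext
    simpa using hmem
  have hzZR : z ∈ ZR :=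
    h.mem_of_invariant hQ2 hL4 ZR hZR1 (fun q _ x hx => hZRn.conj_mem x hx q)
  have hM : Subgroup.normalClosure ({z} : Set G) ≤ ZR :=
    Subgroup.normalClosure_le_normal (by simpa using hzZR)
  refine ⟨?_, ?_⟩
  · intro x hx y hy
    exact Subgroup.mem_centralizer_iff.mp (hM hy).2 x (hM hx).1
  · apply (Cfsg.Agent.Helper48.generalizedFittingSubgroup_eq_pCore_iff (p := 2)).mpr
    refine ⟨?_, ?_⟩
    · unfold Cfsg.pPrimeCore
      rw [sSup_eq_bot]
      rintro N ⟨hNn, hNc⟩
      apply hL4 N (Nat.coprime_two_right.mp hNc)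
      rw [Subgroup.normalizer_eq_top]
      exact le_top
    · have hzR : z ∈ R := hzZR.1
      have hCz : ∀ c ∈ C, c * z = z * c := fun c hc =>
        (Subgroup.mem_centralizer_iff.mp hc z hzR).symm
      have hQC : Q ⊓ C ≤ R := by
        apply Cfsg.Agent.Helper22.le_pCore_of_isSubnormal 2
        · apply Subgroup.IsSubnormal.trans (inf_le_right : Q ⊓ C ≤ C) _ hCn.isSubnormal
          apply Subgroup.Normal.isSubnormal
          refine ⟨fun x hx n => ?_⟩
          rw [Subgroup.mem_subgroupOf] at hx ⊢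
          refine ⟨?_, ?_⟩
          · have := h.norm (n : G) (hCz n n.2) (x : G) hx.1
            simpa using this
          · exact (n * x * n⁻¹).2
        · exact hQ2.to_le inf_le_left
      have hodd : ∀ c ∈ C, ∀ m : ℕ, Odd m → c ^ m = 1 → c = 1 := by
        intro c hc m hm hcm
        have hcq : ∀ q ∈ Q, q * c = c * q := by
          intro q hq
          have hwQ : q * c * q⁻¹ * c⁻¹ ∈ Q := by
            have h1 : c * q⁻¹ * c⁻¹ ∈ Q := h.norm c (hCz c hc) q⁻¹ (Q.inv_mem hq)
            have e : q * c * q⁻¹ * c⁻¹ = q * (c * q⁻¹ * c⁻¹) := by group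
            rw [e]; exact Q.mul_mem hq h1
          have hwC : q * c * q⁻¹ * c⁻¹ ∈ C :=
            C.mul_mem (hCn.conj_mem c hc q) (C.inv_mem hc)
          have hwR : q * c * q⁻¹ * c⁻¹ ∈ R := hQC ⟨hwQ, hwC⟩
          have hcw : (q * c * q⁻¹ * c⁻¹) * c = c * (q * c * q⁻¹ * c⁻¹) :=
            Subgroup.mem_centralizer_iff.mp hc _ hwR
          have h3 : ((q * c * q⁻¹ * c⁻¹) * c) ^ m = (q * c * q⁻¹ * c⁻¹) ^ m * c ^ m :=
            Commute.mul_pow hcw m
          have h4 : (q * c * q⁻¹ * c⁻¹) * c = q * c * q⁻¹ := by group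
          have h5 : (q * c * q⁻¹) ^ m = 1 := by rw [conj_pow, hcm]; group
          rw [h4, h5, hcm, mul_one] at h3
          have hw4 : (q * c * q⁻¹ * c⁻¹) ^ 4 = 1 := by
            have e4 : ∀ w : G, w ^ 4 = (w * w) * (w * w) := fun w => by
              rw [show (4 : ℕ) = 2 + 2 from rfl, pow_add, pow_two]
            rw [e4]
            rcases h.sq_mem hwQ with h6 | h6
            · rw [h6]; simp
            · rw [h6]; exact h.sq
          have hw1 : q * c * q⁻¹ * c⁻¹ = 1 := by
            have hd1 : orderOf (q * c * q⁻¹ * c⁻¹) ∣ m := orderOf_dvd_of_pow_eq_one h3.symm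
            have hd2 : orderOf (q * c * q⁻¹ * c⁻¹) ∣ 4 := orderOf_dvd_of_pow_eq_one hw4
            have hd3 : orderOf (q * c * q⁻¹ * c⁻¹) ∣ Nat.gcd m 4 := Nat.dvd_gcd hd1 hd2
            have hg : Nat.gcd m 4 = 1 := by
              have h7 : Nat.Coprime m 2 := Nat.coprime_two_right.mpr hm
              have h8 : Nat.Coprime m (2 ^ 2) := Nat.Coprime.pow_right 2 h7
              exact h8
            rw [hg, Nat.dvd_one] at hd3
            exact orderOf_eq_one_iff.mp hd3
          calc q * c = (q * c * q⁻¹ * c⁻¹) * c * q := by group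
            _ = c * q := by rw [hw1, one_mul]
        rcases h.cent c hcq with h7 | h7
        · exact h7
        · exfalso
          rw [h7] at hcm
          obtain ⟨k, rfl⟩ := hm
          have h9 : z ^ (2 * k + 1) = z := by
            rw [pow_succ, pow_mul, pow_two, h.sq, one_pow, one_mul]
          rw [h9] at hcm
          exact h.ne_one hcm
      have h2C : IsPGroup 2 ↥C := by
        intro c
        obtain ⟨k, m, hm, hkm⟩ := Nat.exists_eq_two_pow_mul_odd (orderOf_pos (c : G)).ne'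
        refine ⟨k, ?_⟩
        have h8 : ((c : G) ^ 2 ^ k) ^ m = 1 := by rw [← pow_mul, ← hkm, pow_orderOf_eq_one]
        have h9 := hodd ((c : G) ^ 2 ^ k) (C.pow_mem c.2 _) m hm h8
        apply Subtype.ext
        simpa using h9
      exact Cfsg.Agent.Helper1.le_pCore hCn h2C

end

end Cfsg.Agent.Helper90
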