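import Mathlib
import Cfsg.Agent.Helper90.AschT1
import Cfsg.Agent.Helper48.StrEmbFStar
import Cfsg.Agent.Helper50.SubnSylow
import Cfsg.Agent.Helper12.Idx2

/-!
# Components when `F(G) = 1`, and a non-simplicity criterion

* `comp_cent_trivial`, `comp_commute`, `comp_inf_eq_bot`, `comp_inf_sSup_eq_bot`: elementwise
  facts on components of a finite group with trivial Fitting subgroup.
* `dp_unique`: uniqueness of the decomposition in a product of two subgroups meeting trivially.
* `sc_false`: a component `L` (with `F(G) = 1`) normalised by an involution `z` which is centralised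
  by a Sylow 2-subgroup of `G` cannot have `C_L(z)` with at most one non-trivial element.
-/

set_option autoImplicit false
set_option linter.style.haveILetI false

namespace Cfsg.Agent.Helper90

open Cfsg

section conj

variable {G : Type*} [Group G]

theorem conj_mem_map_conj (H : Subgroup G) (g : G) {x : G} (hx : x ∈ H) :
    g * x * g⁻¹ ∈ H.map (MulAut.conj g).toMonoidHom := by
  rw [mem_map_conj_iff]
  have e : g⁻¹ * (g * x * g⁻¹) * g = x := by group
  rw [e]; exact hx

theorem map_conj_mul (H : Subgroup G) (a b : G) :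
    H.map (MulAut.conj (a * b)).toMonoidHom
      = (H.map (MulAut.conj b).toMonoidHom).map (MulAut.conj a).toMonoidHom := by
  ext x
  simp only [mem_map_conj_iff]
  have e : (a * b)⁻¹ * x * (a * b) = b⁻¹ * (a⁻¹ * x * a) * b := by group
  rw [e]

theorem map_conj_injective (g : G) {H K : Subgroup G}
    (h : H.map (MulAut.conj g).toMonoidHom = K.map (MulAut.conj g).toMonoidHom) : H = K := by
  ext x
  have h1 : g * x * g⁻¹ ∈ H.map (MulAut.conj g).toMonoidHom ↔
      g * x * g⁻¹ ∈ K.map (MulAut.conj g).toMonoidHom := by rw [h]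
  simp only [mem_map_conj_iff] at h1
  have e : g⁻¹ * (g * x * g⁻¹) * g = x := by group
  rw [e] at h1
  exact h1

theorem map_conj_one (H : Subgroup G) : H.map (MulAut.conj (1 : G)).toMonoidHom = H := by
  ext x
  simp

/-- uniqueness of the decomposition in a product of two subgroups meeting trivially -/
theorem dp_unique {A B : Subgroup G} (hAB : ∀ x, x ∈ A → x ∈ B → x = 1) {a a' b b' : G}
    (ha : a ∈ A) (ha' : a' ∈ A) (hb : b ∈ B) (hb' : b' ∈ B) (h : a * b = a' * b') :
    a = a' ∧ b = b' := by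
  have h1 : a'⁻¹ * a = b' * b⁻¹ := by
    calc a'⁻¹ * a = a'⁻¹ * (a * b) * b⁻¹ := by group
      _ = b' * b⁻¹ := by rw [h]; group
  have h2 : a'⁻¹ * a = 1 :=
    hAB _ (A.mul_mem (A.inv_mem ha') ha) (h1 ▸ B.mul_mem hb' (B.inv_mem hb))
  have h3 : a = a' := by
    calc a = a' * (a'⁻¹ * a) := by group
      _ = a' := by rw [h2, mul_one]
  refine ⟨h3, ?_⟩
  rw [h3] at h
  exact mul_left_cancel h

theorem comp_commute {K K' : Subgroup G} (hK : Cfsg.IsComponent K) (hK' : Cfsg.IsComponent K')
    (hne : K ≠ K') {x y : G} (hx : x ∈ K) (hy : y ∈ K') : x * y = y * x := by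
  have h1 := Cfsg.Agent.Helper22.components_commute hK hK' hne
  have h2 := Subgroup.commutator_eq_bot_iff_le_centralizer.mp h1
  exact (Subgroup.mem_centralizer_iff.mp (h2 hx) y hy).symm

theorem comp_sSup_le_centralizer {K : Subgroup G} (hK : Cfsg.IsComponent K)
    (S : Set (Subgroup G)) (hS : ∀ K' ∈ S, Cfsg.IsComponent K' ∧ K' ≠ K) :
    sSup S ≤ Subgroup.centralizer (K : Set G) := by
  apply sSup_le
  intro K' hK'
  have := Cfsg.Agent.Helper22.components_commute (hS K' hK').1 hK (hS K' hK').2
  exact Subgroup.commutator_eq_bot_iff_le_centralizer.mp this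

theorem comp_sSup_commute {K : Subgroup G} (hK : Cfsg.IsComponent K)
    (S : Set (Subgroup G)) (hS : ∀ K' ∈ S, Cfsg.IsComponent K' ∧ K' ≠ K) {x y : G}
    (hx : x ∈ K) (hy : y ∈ sSup S) : x * y = y * x :=
  Subgroup.mem_centralizer_iff.mp (comp_sSup_le_centralizer hK S hS hy) x hx

end conj

section comp

variable {G : Type*} [Group G] [Finite G]

/-- With `F(G) = 1`, an element of a component `K` centralising `K` is trivial. -/
theorem comp_cent_trivial (hF : Cfsg.fittingSubgroup G = ⊥) {K : Subgroup G}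
    (hK : Cfsg.IsComponent K) {x : G} (hx : x ∈ K) (hc : ∀ y ∈ K, y * x = x * y) : x = 1 := by
  have h1 := Cfsg.Agent.Helper48.component_center_le_fitting hK
  have h2 : x ∈ (Subgroup.center ↥K).map K.subtype := by
    refine Subgroup.mem_map.mpr ⟨⟨x, hx⟩, ?_, rfl⟩
    rw [Subgroup.mem_center_iff]
    intro y
    apply Subtype.ext
    exact hc y y.2
  have := h1 h2
  rwa [hF, Subgroup.mem_bot] at this

theorem comp_inf_eq_bot (hF : Cfsg.fittingSubgroup G = ⊥) {K K' : Subgroup G}
    (hK : Cfsg.IsComponent K) (hK' : Cfsg.IsComponent K') (hne : K ≠ K') {x : G}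
    (hx : x ∈ K) (hx' : x ∈ K') : x = 1 :=
  comp_cent_trivial hF hK hx (fun _ hy => comp_commute hK hK' hne hy hx')

theorem comp_inf_sSup_eq_bot (hF : Cfsg.fittingSubgroup G = ⊥) {K : Subgroup G}
    (hK : Cfsg.IsComponent K) (S : Set (Subgroup G))
    (hS : ∀ K' ∈ S, Cfsg.IsComponent K' ∧ K' ≠ K) {x : G} (hx : x ∈ K) (hx' : x ∈ sSup S) :
    x = 1 :=
  comp_cent_trivial hF hK hx
    (fun y hy => Subgroup.mem_centralizer_iff.mp (comp_sSup_le_centralizer hK S hS hx') y hy)

theorem comp_not_comm (hF : Cfsg.fittingSubgroup G = ⊥) {L : Subgroup G}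
    (hL : Cfsg.IsComponent L) : ¬ ∀ a b : ↥L, a * b = b * a := by
  intro hab
  apply Cfsg.Agent.Helper22.quasisimple_ne_bot hL.2
  rw [eq_bot_iff]
  intro x hx
  rw [Subgroup.mem_bot]
  apply comp_cent_trivial hF hL hx
  intro y hy
  exact congrArg Subtype.val (hab ⟨y, hy⟩ ⟨x, hx⟩)

theorem comp_not_isMulCommutative (hF : Cfsg.fittingSubgroup G = ⊥) {L : Subgroup G}
    (hL : Cfsg.IsComponent L) : ¬ IsMulCommutative ↥L :=
  fun hc => comp_not_comm hF hL (fun a b => hc.is_comm.comm a b)

/-- A component `L` (with `F(G) = 1`) normalised by an involution `z` centralised by a Sylow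
2-subgroup of `G` cannot have `C_L(z)` with at most one non-trivial element. -/
theorem sc_false (hF : Cfsg.fittingSubgroup G = ⊥) {L : Subgroup G} (hL : Cfsg.IsComponent L)
    {z : G} (hzz : z * z = 1) (hzL : ∀ x ∈ L, z * x * z⁻¹ ∈ L)
    (S : Sylow 2 G) (hS : ∀ s ∈ (S : Subgroup G), s * z = z * s)
    (hP : ∀ x ∈ L, ∀ y ∈ L, x * z = z * x → y * z = z * y → x ≠ 1 → y ≠ 1 → x = y) : False := by
  haveI : Fact (Nat.Prime 2) := ⟨Nat.prime_two⟩
  have hsimple : IsSimpleGroup ↥L :=
    Cfsg.Agent.Helper48.component_isSimpleGroup_of_fitting_eq_bot hF hL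
  have hnonab := comp_not_comm hF hL
  have hex : ∃ p ∈ L, p * z = z * p ∧ p ≠ 1 := by
    by_contra hno
    push Not at hno
    let φ : ↥L →* ↥L :=
      { toFun := fun x => ⟨z * (x : G) * z⁻¹, hzL x x.2⟩
        map_one' := by apply Subtype.ext; simp
        map_mul' := fun a b => by apply Subtype.ext; simp [mul_assoc] }
    have hφ : ∀ x : ↥L, ((φ x : ↥L) : G) = z * (x : G) * z⁻¹ := fun _ => rfl
    have hfpf : MonoidHom.FixedPointFree φ := by
      intro x hx
      have h1 : z * (x : G) * z⁻¹ = (x : G) := by rw [← hφ, hx]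
      have h2 : (x : G) * z = z * (x : G) := by
        calc (x : G) * z = (z * (x : G) * z⁻¹) * z := by rw [h1]
          _ = z * (x : G) := by group
      apply Subtype.ext
      exact hno x x.2 h2
    have hinv : Function.Involutive φ := by
      intro x
      apply Subtype.ext
      rw [hφ, hφ]
      have hz' : z⁻¹ = z := inv_eq_of_mul_eq_one_left hzz
      rw [hz']
      calc z * (z * (x : G) * z) * z = (z * z) * (x : G) * (z * z) := by group
        _ = x := by rw [hzz]; group
    exact hnonab (fun a b => hfpf.commute_all_of_involutive hinv a b)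
  obtain ⟨p, hpL, hpz, hp1⟩ := hex
  have hall : ∀ x ∈ L, x * z = z * x → x = 1 ∨ x = p := by
    intro x hx hxz
    by_cases hx1 : x = 1
    · exact Or.inl hx1
    · exact Or.inr (hP x hx p hpL hxz hpz hx1 hp1)
  have hpp : p * p = 1 := by
    have h1 : (p * p) * z = z * (p * p) := by
      rw [mul_assoc, hpz, ← mul_assoc, hpz, mul_assoc]
    rcases hall (p * p) (L.mul_mem hpL hpL) h1 with h2 | h2
    · exact h2
    · exfalso
      apply hp1
      calc p = p⁻¹ * (p * p) := by group
        _ = p⁻¹ * p := by rw [h2]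
        _ = 1 := by group
  have h2L : 2 ∣ Nat.card ↥L := by
    have ho : orderOf (⟨p, hpL⟩ : ↥L) = 2 := by
      apply orderOf_eq_prime
      · apply Subtype.ext
        simpa [pow_two] using hpp
      · intro h
        exact hp1 (congrArg Subtype.val h)
    rw [← ho]
    exact orderOf_dvd_natCard _
  have hcard := Cfsg.Agent.Helper50.card_sylow_inf_of_isSubnormal S hL.1
  have hle : (S : Subgroup G) ⊓ L ≤ Subgroup.zpowers p := by
    intro x hx
    rcases hall x hx.2 (hS x hx.1) with h1 | h1
    · rw [h1]; exact Subgroup.one_mem _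
    · rw [h1]; exact Subgroup.mem_zpowers p
  have hzp : Nat.card ↥(Subgroup.zpowers p) = 2 := by
    rw [Nat.card_zpowers]
    apply orderOf_eq_prime
    · simpa [pow_two] using hpp
    · exact hp1
  have hdvd : Nat.card ↥((S : Subgroup G) ⊓ L) ∣ 2 := by
    have h0 := Subgroup.card_dvd_of_le hle
    rwa [hzp] at h0
  have hfac : (Nat.card ↥L).factorization 2 = 1 := by
    have h1 : 1 ≤ (Nat.card ↥L).factorization 2 :=
      (Nat.Prime.dvd_iff_one_le_factorization Nat.prime_two Nat.card_pos.ne').mp h2L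
    have h2 : (Nat.card ↥L).factorization 2 ≤ 1 := by
      rw [hcard] at hdvd
      have h3 := Nat.le_of_dvd (by norm_num) hdvd
      by_contra hcon
      push Not at hcon
      have h4 : 2 ^ 2 ≤ 2 ^ (Nat.card ↥L).factorization 2 :=
        Nat.pow_le_pow_right (by norm_num) hcon
      omega
    omega
  obtain ⟨T⟩ : Nonempty (Sylow 2 ↥L) := inferInstance
  have hT : Nat.card ↥(T : Subgroup ↥L) = 2 := by
    rw [T.card_eq_multiplicity, hfac, pow_one]
  have hcyc : IsCyclic ↥(T : Subgroup ↥L) := isCyclic_of_prime_card hT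
  obtain ⟨N, hNn, hNi⟩ := Cfsg.Agent.Helper12.exists_index_two_of_cyclic_sylow h2L T hcyc
  rcases hNn.eq_bot_or_eq_top with h1 | h1
  · rw [h1, Subgroup.index_bot] at hNi
    have hc : IsCyclic ↥L := isCyclic_of_prime_card hNi
    exact hnonab (fun a b => (IsCyclic.commGroup (α := ↥L)).mul_comm a b)
  · rw [h1, Subgroup.index_top] at hNi
    omega

end comp

end Cfsg.Agent.Helper90
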