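import Cfsg.Agent.Helper90.BGChain

set_option autoImplicit false

/-!
# Invariant flags (helper90)

Two-step versions of the results of `BGChain`: invariant subspaces `U ≤ W` of prescribed dimensions.
-/

namespace Cfsg.Agent.Helper90.BG

open Polynomial

section flag

variable {F V : Type*} [Field F] [AddCommGroup V] [Module F V] [FiniteDimensional F V]

/-- uniform case: all irreducible factors of an annihilating polynomial have degree `d` -/
theorem flag_of_uniform (f : V →ₗ[F] V) (P : F[X]) (hP : P ≠ 0) (hPf : aeval f P = 0) (d : ℕ)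
    (hd : ∀ g : F[X], Irreducible g → g ∣ P → g.natDegree = d) (a₁ a₂ : ℕ) (h12 : a₁ ≤ a₂)
    (h2 : d * a₂ ≤ Module.finrank F V) :
    ∃ U W : Submodule F V, U ≤ W ∧ Module.finrank F U = d * a₁ ∧ Module.finrank F W = d * a₂ ∧
      U.map f ≤ U ∧ W.map f ≤ W := by
  have h1 : d * a₁ ≤ d * a₂ := Nat.mul_le_mul_left d h12
  obtain ⟨U, -, -, hU, hUfr⟩ := chain_exists f ⊥ ⊤ bot_le (by simp) le_top P hP
    (fun v _ => by rw [hPf]; simp) d hd a₁ (by rw [finrank_bot, finrank_top]; omega)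
  rw [finrank_bot, zero_add] at hUfr
  obtain ⟨W, hUW, -, hW, hWfr⟩ := chain_exists f U ⊤ le_top hU le_top P hP
    (fun v _ => by rw [hPf]; simp) d hd (a₂ - a₁)
    (by rw [finrank_top, hUfr, Nat.mul_sub]; omega)
  refine ⟨U, W, hUW, hUfr, ?_, hU, hW⟩
  rw [hWfr, hUfr, Nat.mul_sub]; omega

theorem cyc_mod_eq (f : V →ₗ[F] V) (r i : ℕ) (hrF : (r : F) ≠ 0) (hfr : f ^ r = 1)
    (hd : ∀ g : F[X], Irreducible g → g ∣ ∑ j ∈ Finset.range r, (X : F[X]) ^ j → g.natDegree = i)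
    (W : Submodule F V) (hW : W.map f ≤ W)
    (hC : Module.finrank F (LinearMap.ker (f - 1)) < i) :
    Module.finrank F W % i
      = Module.finrank F (W ⊓ LinearMap.ker (f - 1) : Submodule F V) := by
  obtain ⟨t, ht⟩ := cyc_dvd f r i hrF hfr hd W hW
  have h1 : Module.finrank F (W ⊓ LinearMap.ker (f - 1) : Submodule F V)
      ≤ Module.finrank F (LinearMap.ker (f - 1)) := Submodule.finrank_mono inf_le_right
  have h2 : Module.finrank F (W ⊓ LinearMap.ker (f - 1) : Submodule F V)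
      ≤ Module.finrank F W := Submodule.finrank_mono inf_le_left
  have h3 : Module.finrank F W
      = Module.finrank F (W ⊓ LinearMap.ker (f - 1) : Submodule F V) + i * t := by omega
  rw [h3, Nat.add_mul_mod_self_left, Nat.mod_eq_of_lt (by omega)]

theorem cyc_exists_flag (f : V →ₗ[F] V) (r i : ℕ) (hrF : (r : F) ≠ 0) (hfr : f ^ r = 1)
    (hd : ∀ g : F[X], Irreducible g → g ∣ ∑ j ∈ Finset.range r, (X : F[X]) ^ j → g.natDegree = i)
    (c₁ c₂ a₁ a₂ : ℕ) (hc12 : c₁ ≤ c₂) (hc2 : c₂ ≤ Module.finrank F (LinearMap.ker (f - 1)))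
    (ha12 : a₁ ≤ a₂)
    (ha2 : i * a₂ + Module.finrank F (LinearMap.ker (f - 1)) ≤ Module.finrank F V) :
    ∃ U W : Submodule F V, U ≤ W ∧ Module.finrank F U = c₁ + i * a₁ ∧
      Module.finrank F W = c₂ + i * a₂ ∧ U.map f ≤ U ∧ W.map f ≤ W := by
  have hrk := LinearMap.finrank_range_add_finrank_ker (f - 1)
  have hia : i * a₁ ≤ i * a₂ := Nat.mul_le_mul_left i ha12
  have hCinv : (LinearMap.ker (f - 1)).map f ≤ LinearMap.ker (f - 1) := by
    have := ker_invariant f ⊤ le_top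
    simpa using this
  have hd1 : ∀ g : F[X], Irreducible g → g ∣ (X - C 1 : F[X]) → g.natDegree = 1 := fun g hg hdvd =>
    ((Splits.X_sub_C 1).of_dvd (X_sub_C_ne_zero 1) hdvd).natDegree_eq_one_of_irreducible hg
  have hfix : ∀ (U : Submodule F V), ∀ v ∈ LinearMap.ker (f - 1), aeval f (X - C 1 : F[X]) v ∈ U := by
    intro U v hv
    have : f v = v := (mem_ker_sub_one f v).mp hv
    simp [this]
  obtain ⟨C₁, -, hC₁C, hC₁inv, hC₁fr⟩ := chain_exists f ⊥ (LinearMap.ker (f - 1)) bot_le (by simp)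
    hCinv (X - C 1) (X_sub_C_ne_zero 1) (hfix ⊥) 1 hd1 c₁ (by rw [finrank_bot]; omega)
  rw [finrank_bot, zero_add, one_mul] at hC₁fr
  obtain ⟨C₂, hC₁C₂, hC₂C, hC₂inv, hC₂fr⟩ := chain_exists f C₁ (LinearMap.ker (f - 1)) hC₁C hC₁inv
    hCinv (X - C 1) (X_sub_C_ne_zero 1) (hfix C₁) 1 hd1 (c₂ - c₁) (by rw [hC₁fr]; omega)
  have hMinv : (LinearMap.range (f - 1)).map f ≤ LinearMap.range (f - 1) := by
    rintro _ ⟨_, ⟨u, rfl⟩, rfl⟩
    refine ⟨f u, ?_⟩
    simp only [LinearMap.sub_apply, Module.End.one_apply, map_sub]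
  have hmov : ∀ (U : Submodule F V), ∀ v ∈ LinearMap.range (f - 1),
      aeval f (∑ j ∈ Finset.range r, (X : F[X]) ^ j) v ∈ U := by
    intro U v hv
    obtain ⟨u, rfl⟩ := hv
    rw [← Module.End.mul_apply, aeval_phi_mul_sub_one f r hfr, LinearMap.zero_apply]
    exact Submodule.zero_mem _
  obtain ⟨M₁, -, hM₁M, hM₁inv, hM₁fr⟩ := chain_exists f ⊥ (LinearMap.range (f - 1)) bot_le
    (by simp) hMinv _ (phi_ne_zero r hrF) (hmov ⊥) i hd a₁ (by rw [finrank_bot]; omega)
  rw [finrank_bot, zero_add] at hM₁fr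
  obtain ⟨M₂, hM₁M₂, hM₂M, hM₂inv, hM₂fr⟩ := chain_exists f M₁ (LinearMap.range (f - 1)) hM₁M
    hM₁inv hMinv _ (phi_ne_zero r hrF) (hmov M₁) i hd (a₂ - a₁)
    (by rw [hM₁fr, Nat.mul_sub]; omega)
  have hinf : ∀ (A B : Submodule F V), A ≤ LinearMap.ker (f - 1) → B ≤ LinearMap.range (f - 1) →
      Module.finrank F (A ⊔ B : Submodule F V) = Module.finrank F A + Module.finrank F B := by
    intro A B hA hB
    have hbot : A ⊓ B = ⊥ := by
      rw [eq_bot_iff, ← ker_inf_range f r hrF hfr]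
      exact inf_le_inf hA hB
    have h := Submodule.finrank_sup_add_finrank_inf_eq A B
    rw [hbot, finrank_bot, add_zero] at h
    exact h
  refine ⟨C₁ ⊔ M₁, C₂ ⊔ M₂, sup_le_sup hC₁C₂ hM₁M₂, ?_, ?_, ?_, ?_⟩
  · rw [hinf C₁ M₁ hC₁C hM₁M, hC₁fr, hM₁fr]
  · rw [hC₁fr, one_mul] at hC₂fr
    rw [hM₁fr, Nat.mul_sub] at hM₂fr
    rw [hinf C₂ M₂ hC₂C hM₂M]
    omega
  · rw [Submodule.map_sup]; exact sup_le_sup hC₁inv hM₁inv
  · rw [Submodule.map_sup]; exact sup_le_sup hC₂inv hM₂inv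

theorem cyc_exists_flag_dim (f : V →ₗ[F] V) (r i : ℕ) (hrF : (r : F) ≠ 0) (hfr : f ^ r = 1)
    (hi : 0 < i)
    (hd : ∀ g : F[X], Irreducible g → g ∣ ∑ j ∈ Finset.range r, (X : F[X]) ^ j → g.natDegree = i)
    (m : ℕ) (hm : 2 * m ≤ Module.finrank F V)
    (hmod : 2 * (m % i) ≤ Module.finrank F V % i) :
    ∃ U W : Submodule F V, U ≤ W ∧ Module.finrank F U = m ∧
      Module.finrank F W = Module.finrank F V - m ∧ U.map f ≤ U ∧ W.map f ≤ W := by
  obtain ⟨s, hs⟩ := cyc_dvd f r i hrF hfr hd ⊤ (le_top)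
  rw [top_inf_eq, finrank_top] at hs
  have hrk := LinearMap.finrank_range_add_finrank_ker (f - 1)
  have hn : Module.finrank F V = Module.finrank F (LinearMap.ker (f - 1)) + i * s := by omega
  have hk : Module.finrank F V % i = Module.finrank F (LinearMap.ker (f - 1)) % i := by
    rw [hn, Nat.add_mul_mod_self_left]
  have hc0 := Nat.mod_add_div (Module.finrank F (LinearMap.ker (f - 1))) i
  have h1 : i * (m / i) ≤ m := Nat.mul_div_le m i
  have h2 : m % i + i * (m / i) = m := Nat.mod_add_div m i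
  by_cases hcase : m / i ≤ s
  · have h3 : i * (m / i) ≤ i * s := Nat.mul_le_mul_left i hcase
    by_cases hcase2 : m / i ≤ s - m / i
    · -- a₂ = s - a
      have h4 : i * (s - m / i) = i * s - i * (m / i) := Nat.mul_sub i s (m / i)
      obtain ⟨U, W, hUW, hU1, hW1, hU2, hW2⟩ := cyc_exists_flag f r i hrF hfr hd (m % i)
        (Module.finrank F V - m - i * (s - m / i)) (m / i) (s - m / i) (by omega) (by omega)
        hcase2 (by omega)
      exact ⟨U, W, hUW, by omega, by omega, hU2, hW2⟩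
    · -- a₂ = a
      have h4 : i * (s - m / i) ≤ i * (m / i) := Nat.mul_le_mul_left i (by omega)
      have h5 : i * (s - m / i) = i * s - i * (m / i) := Nat.mul_sub i s (m / i)
      obtain ⟨U, W, hUW, hU1, hW1, hU2, hW2⟩ := cyc_exists_flag f r i hrF hfr hd (m % i)
        (Module.finrank F V - m - i * (m / i)) (m / i) (m / i) (by omega) (by omega)
        le_rfl (by omega)
      exact ⟨U, W, hUW, by omega, by omega, hU2, hW2⟩
  · have h3 : i * s ≤ i * (m / i) := Nat.mul_le_mul_left i (by omega)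
    obtain ⟨U, W, hUW, hU1, hW1, hU2, hW2⟩ := cyc_exists_flag f r i hrF hfr hd (m - i * s)
      (Module.finrank F V - m - i * s) s s (by omega) (by omega) le_rfl (by omega)
    exact ⟨U, W, hUW, by omega, by omega, hU2, hW2⟩

end flag

end Cfsg.Agent.Helper90.BG
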