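import Mathlib
import Cfsg.Prelude.Def_MonsterType
import Cfsg.Agent.Helper90.LESPair
import Cfsg.Agent.Helper2.PGroup
import Cfsg.Agent.Helper47.Coprime

set_option autoImplicit false

namespace Cfsg.Agent.Helper90

open scoped commutatorElement

/-- A non-abelian subgroup `D` of an extraspecial-like 2-subgroup `Q` (centre `{1, z}`) which
contains `z` and whose centre is contained in `{1, z}` is extraspecial. -/
theorem isExtraspecial_of_les_sub {G : Type*} [Group G] [Finite G] {Q D : Subgroup G} {z : G}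
    (hQ : LES Q z) (hQ2 : IsPGroup 2 ↥Q) (hDQ : D ≤ Q) (hzD : z ∈ D)
    (hcen : ∀ d ∈ D, (∀ e ∈ D, e * d = d * e) → d = 1 ∨ d = z)
    (hnonab : ∃ d1 ∈ D, ∃ d2 ∈ D, d1 * d2 ≠ d2 * d1) : Cfsg.IsExtraspecial 2 ↥D := by
  have hp : Fact (Nat.Prime 2) := ⟨Nat.prime_two⟩
  have hD2 : IsPGroup 2 ↥D := hQ2.to_le hDQ
  have hcenter : ∀ c : ↥D, c ∈ Subgroup.center ↥D ↔ c = 1 ∨ c = ⟨z, hzD⟩ := by
    intro c
    rw [Subgroup.mem_center_iff]
    constructor
    · intro hc
      rcases hcen c c.2 (fun e he => congrArg Subtype.val (hc ⟨e, he⟩)) with h1 | h1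
      · left; exact Subtype.ext h1
      · right; exact Subtype.ext h1
    · rintro (h1 | h1) g
      · rw [h1, mul_one, one_mul]
      · rw [h1]; apply Subtype.ext; exact hQ.central g (hDQ g.2)
  have hz1 : (⟨z, hzD⟩ : ↥D) ≠ 1 := fun hh => hQ.ne_one (congrArg Subtype.val hh)
  have hcomm_le : commutator ↥D ≤ Subgroup.center ↥D := by
    rw [commutator_eq_closure, Subgroup.closure_le]
    rintro c ⟨x, y, rfl⟩
    rw [SetLike.mem_coe, hcenter]
    rcases hQ.comm x (hDQ x.2) y (hDQ y.2) with h1 | h1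
    · left; apply Subtype.ext; rw [commutatorElement_def]; exact h1
    · right; apply Subtype.ext; rw [commutatorElement_def]; exact h1
  have hz_comm : (⟨z, hzD⟩ : ↥D) ∈ commutator ↥D := by
    obtain ⟨d1, hd1, d2, hd2, hne⟩ := hnonab
    have h1 := hQ.comm_of_ne (hDQ hd1) (hDQ hd2) hne
    have h2 : (⟨z, hzD⟩ : ↥D) = ⁅(⟨d1, hd1⟩ : ↥D), (⟨d2, hd2⟩ : ↥D)⁆ := by
      apply Subtype.ext; rw [commutatorElement_def]; exact h1.symm
    rw [h2]
    exact Subgroup.commutator_mem_commutator (Subgroup.mem_top _) (Subgroup.mem_top _)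
  have hcomm : commutator ↥D = Subgroup.center ↥D := by
    apply le_antisymm hcomm_le
    intro c hc
    rcases (hcenter c).mp hc with h1 | h1
    · rw [h1]; exact Subgroup.one_mem _
    · rw [h1]; exact hz_comm
  have hfr : frattini ↥D = Subgroup.center ↥D := by
    apply le_antisymm
    · have h1 := Cfsg.Agent.Helper47.frattini_le_ker 2
        (Abelianization.of : ↥D →* Abelianization ↥D) (by
          intro x
          rw [← map_pow, ← MonoidHom.mem_ker, Abelianization.ker_of, hcomm, hcenter, pow_two]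
          rcases hQ.sq_mem (hDQ x.2) with h1 | h1
          · left; exact Subtype.ext h1
          · right; exact Subtype.ext h1)
      rw [Abelianization.ker_of, hcomm] at h1
      exact h1
    · rw [← hcomm]
      exact Cfsg.Agent.Helper2.commutator_le_frattini_of_isPGroup hD2
  refine ⟨⟨hD2, hfr, hcomm⟩, ?_⟩
  rw [Nat.card_eq_two_iff]
  refine ⟨⟨1, Subgroup.one_mem _⟩, ⟨⟨z, hzD⟩, (hcenter _).mpr (Or.inr rfl)⟩, ?_, ?_⟩
  · intro hh
    exact hz1 (congrArg Subtype.val hh).symm
  · ext c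
    simp only [Set.mem_insert_iff, Set.mem_singleton_iff, Set.mem_univ, iff_true]
    rcases (hcenter c.1).mp c.2 with h1 | h1
    · left; exact Subtype.ext h1
    · right; exact Subtype.ext h1

end Cfsg.Agent.Helper90
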