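import Mathlib
import Cfsg.Agent.Helper90.ESCriterion
import Cfsg.Agent.S5421

/-!
Helper90: large extraspecial subgroups of sections `T / A`.

* `LES.zmap_iff`, `LES.centralizer_eq`, `LES.centralizer_center_le`: the hypotheses (L2), (L3) from
  the elementwise data.
* `large_of_les`: largeness from the elementwise data and a normal 2-subgroup of the centralizer
  of a non-central involution containing the centre.
* `quot_exists`, `quot_eq_iff`, `quot_eq_one_iff`, `quot_mem_map_iff`: a dictionary for `T / A`.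
* `les_quot`: the elementwise data for the image of `P` in `T / A`.
-/

set_option autoImplicit false

namespace Cfsg.Agent.Helper90

namespace LES

variable {G : Type*} [Group G] {Q : Subgroup G} {z : G}

theorem zmap_iff (h : LES Q z) (c : G) :
    c ∈ (Subgroup.center ↥Q).map Q.subtype ↔ c = 1 ∨ c = z := by
  rw [mem_center_map_iff]
  constructor
  · rintro ⟨_, hc⟩
    exact h.cent c hc
  · rintro (rfl | rfl)
    · exact ⟨Q.one_mem, fun q _ => by rw [mul_one, one_mul]⟩
    · exact ⟨h.mem, h.central⟩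

theorem centralizer_eq (h : LES Q z) :
    Subgroup.centralizer (Q : Set G) = (Subgroup.center ↥Q).map Q.subtype := by
  ext x
  rw [h.zmap_iff, Subgroup.mem_centralizer_iff]
  constructor
  · intro hx
    exact h.cent x hx
  · rintro (rfl | rfl) q hq
    · rw [mul_one, one_mul]
    · exact h.central q hq

theorem centralizer_center_le (h : LES Q z) :
    Subgroup.centralizer (((Subgroup.center ↥Q).map Q.subtype : Subgroup G) : Set G) ≤
      Subgroup.normalizer (Q : Set G) := by
  intro x hx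
  rw [Subgroup.mem_centralizer_iff] at hx
  have hxz : x * z = z * x := (hx z ((h.zmap_iff z).mpr (Or.inr rfl))).symm
  exact mem_normalizer_of_conj Q x (fun v hv => h.norm x hxz v hv)
    (fun v hv => h.norm' x hxz v hv)

/-- Double centralizer: an element of `Q` commuting with the whole centralizer in `Q` of an
involution `t` of `Q` lies in `{1, z, t, z t}`. -/
theorem double_centralizer (h : LES Q z) {t : G} (ht : t ∈ Q) (htt : t * t = 1) {x : G}
    (hx : x ∈ Q) (hc : ∀ q ∈ Q, q * t = t * q → q * x = x * q) :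
    x = 1 ∨ x = z ∨ x = t ∨ x = z * t := by
  have htinv : t⁻¹ = t := inv_eq_of_mul_eq_one_left htt
  by_cases hcen : ∀ q ∈ Q, q * x = x * q
  · rcases h.cent x hcen with h1 | h1
    · exact Or.inl h1
    · exact Or.inr (Or.inl h1)
  · push Not at hcen
    obtain ⟨q₀, hq₀, hq₀x⟩ := hcen
    have hq₀t : q₀ * t ≠ t * q₀ := fun hh => hq₀x (hc q₀ hq₀ hh)
    have h0 : q₀ * t * q₀⁻¹ * t⁻¹ = z := h.comm_of_ne hq₀ ht hq₀t
    have hxt : ∀ q ∈ Q, q * (x * t) = (x * t) * q := by
      intro q hq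
      by_cases hqt : q * t = t * q
      · have hqx := hc q hq hqt
        calc q * (x * t) = (q * x) * t := by group
          _ = (x * q) * t := by rw [hqx]
          _ = x * (q * t) := by group
          _ = x * (t * q) := by rw [hqt]
          _ = (x * t) * q := by group
      · have h1 : q * t * q⁻¹ * t⁻¹ = z := h.comm_of_ne hq ht hqt
        have hqx : q * x ≠ x * q := by
          intro hqx
          apply hq₀x
          have h2 : (q⁻¹ * q₀) * t = t * (q⁻¹ * q₀) := by
            have e1 : q₀ * t = z * t * q₀ := by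
              calc q₀ * t = (q₀ * t * q₀⁻¹ * t⁻¹) * t * q₀ := by group
                _ = z * t * q₀ := by rw [h0]
            have e2 : q * t = z * t * q := by
              calc q * t = (q * t * q⁻¹ * t⁻¹) * t * q := by group
                _ = z * t * q := by rw [h1]
            have e3 : q⁻¹ * (z * t) = t * q⁻¹ := by
              calc q⁻¹ * (z * t) = q⁻¹ * (z * t * q) * q⁻¹ := by group
                _ = q⁻¹ * (q * t) * q⁻¹ := by rw [e2]
                _ = t * q⁻¹ := by group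
            calc (q⁻¹ * q₀) * t = q⁻¹ * (q₀ * t) := by group
              _ = q⁻¹ * (z * t * q₀) := by rw [e1]
              _ = (q⁻¹ * (z * t)) * q₀ := by group
              _ = (t * q⁻¹) * q₀ := by rw [e3]
              _ = t * (q⁻¹ * q₀) := by group
          have h3 := hc _ (Q.mul_mem (Q.inv_mem hq) hq₀) h2
          calc q₀ * x = q * ((q⁻¹ * q₀) * x) := by group
            _ = q * (x * (q⁻¹ * q₀)) := by rw [h3]
            _ = (q * x) * q⁻¹ * q₀ := by group
            _ = (x * q) * q⁻¹ * q₀ := by rw [hqx]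
            _ = x * q₀ := by group
        have h4 : q * x * q⁻¹ * x⁻¹ = z := h.comm_of_ne hq hx hqx
        have e1 : q * x = z * x * q := by
          calc q * x = (q * x * q⁻¹ * x⁻¹) * x * q := by group
            _ = z * x * q := by rw [h4]
        have e2 : q * t = z * t * q := by
          calc q * t = (q * t * q⁻¹ * t⁻¹) * t * q := by group
            _ = z * t * q := by rw [h1]
        have e3 : x * z = z * x := h.central x hx
        calc q * (x * t) = (q * x) * t := by group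
          _ = z * x * q * t := by rw [e1]
          _ = z * x * (q * t) := by group
          _ = z * x * (z * t * q) := by rw [e2]
          _ = z * (x * z) * t * q := by group
          _ = z * (z * x) * t * q := by rw [e3]
          _ = (z * z) * x * t * q := by group
          _ = (x * t) * q := by rw [h.sq]; group
    rcases h.cent (x * t) hxt with h1 | h1
    · right; right; left
      calc x = (x * t) * t⁻¹ := by group
        _ = t := by rw [h1, htinv, one_mul]
    · right; right; right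
      calc x = (x * t) * t⁻¹ := by group
        _ = z * t := by rw [h1, htinv]

end LES

/-- Largeness from the elementwise data: `P` non-abelian 2-group, `β` a non-central involution of
`P`, and `X` a 2-subgroup containing `ζ`, centralizing `β` and normalized by the centralizer of
`β`. -/
theorem large_of_les {G : Type*} [Group G] [Finite G] (P : Subgroup G) (ζ : G) (hLES : LES P ζ)
    (h2 : IsPGroup 2 ↥P) (hnonab : ∃ d1 ∈ P, ∃ d2 ∈ P, d1 * d2 ≠ d2 * d1)
    (β : G) (hβP : β ∈ P) (hβ1 : β ≠ 1) (hβζ : β ≠ ζ) (hββ : β * β = 1)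
    (X : Subgroup G) (hX2 : IsPGroup 2 ↥X) (hζX : ζ ∈ X) (hXc : ∀ x ∈ X, x * β = β * x)
    (hXn : ∀ c : G, c * β = β * c → ∀ x ∈ X, c * x * c⁻¹ ∈ X) :
    Cfsg.IsLargeExtraspecial P := by
  have hp : Fact (Nat.Prime 2) := ⟨Nat.prime_two⟩
  have hL1 : Cfsg.IsExtraspecial 2 ↥P :=
    isExtraspecial_of_les_sub hLES h2 le_rfl hLES.mem (fun d _ hd => hLES.cent d hd) hnonab
  refine Cfsg.Agent.S5421.result P hL1 hLES.centralizer_eq hLES.centralizer_center_le β hβP
    ?_ ?_ ?_
  · intro hb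
    rcases (hLES.zmap_iff β).mp hb with h | h
    · exact hβ1 h
    · exact hβζ h
  · apply orderOf_eq_prime
    · rw [pow_two]; exact hββ
    · exact hβ1
  · intro c hc
    have hζmem : ζ ∈ (Cfsg.pCore 2 ↥(Subgroup.centralizer ({β} : Set G))).map
        (Subgroup.centralizer ({β} : Set G)).subtype := by
      have hXC : X ≤ Subgroup.centralizer ({β} : Set G) := by
        intro x hx
        rw [Subgroup.mem_centralizer_iff]
        intro y hy
        rw [Set.mem_singleton_iff.mp hy]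
        exact (hXc x hx).symm
      have hnorm : (X.subgroupOf (Subgroup.centralizer ({β} : Set G))).Normal := by
        constructor
        intro n hn x
        rw [Subgroup.mem_subgroupOf] at hn ⊢
        have hx : (x : G) * β = β * x := (Subgroup.mem_centralizer_iff.mp x.2 β rfl).symm
        exact hXn x hx n hn
      have hpg : IsPGroup 2 ↥(X.subgroupOf (Subgroup.centralizer ({β} : Set G))) :=
        hX2.comap_subtype
      have hle : X.subgroupOf (Subgroup.centralizer ({β} : Set G)) ≤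
          Cfsg.pCore 2 ↥(Subgroup.centralizer ({β} : Set G)) := le_sSup ⟨hnorm, hpg⟩
      exact Subgroup.mem_map.mpr ⟨⟨ζ, hXC hζX⟩, hle (Subgroup.mem_subgroupOf.mpr hζX), rfl⟩
    rcases (hLES.zmap_iff c).mp hc with h | h
    · rw [h]; exact Subgroup.one_mem _
    · rw [h]; exact hζmem

section Dict

variable {G : Type*} [Group G] (T A : Subgroup G) [hn : (A.subgroupOf T).Normal]

theorem quot_exists (γ : ↥T ⧸ A.subgroupOf T) :
    ∃ (x : G) (hx : x ∈ T), γ = QuotientGroup.mk' (A.subgroupOf T) ⟨x, hx⟩ := by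
  obtain ⟨y, rfl⟩ := QuotientGroup.mk'_surjective (A.subgroupOf T) γ
  exact ⟨y.1, y.2, rfl⟩

theorem quot_eq_iff {x y : G} (hx : x ∈ T) (hy : y ∈ T) :
    QuotientGroup.mk' (A.subgroupOf T) ⟨x, hx⟩ = QuotientGroup.mk' (A.subgroupOf T) ⟨y, hy⟩ ↔
      x⁻¹ * y ∈ A := by
  rw [QuotientGroup.mk'_apply, QuotientGroup.mk'_apply, QuotientGroup.eq, Subgroup.mem_subgroupOf]
  rfl

theorem quot_eq_one_iff {x : G} (hx : x ∈ T) :
    QuotientGroup.mk' (A.subgroupOf T) ⟨x, hx⟩ = 1 ↔ x ∈ A := by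
  rw [QuotientGroup.mk'_apply, QuotientGroup.eq_one_iff, Subgroup.mem_subgroupOf]

theorem quot_mem_map_iff (P : Subgroup G) {x : G} (hx : x ∈ T) :
    QuotientGroup.mk' (A.subgroupOf T) ⟨x, hx⟩ ∈
      (P.subgroupOf T).map (QuotientGroup.mk' (A.subgroupOf T)) ↔
      ∃ p ∈ P, p ∈ T ∧ p⁻¹ * x ∈ A := by
  constructor
  · rintro ⟨y, hy, hyx⟩
    exact ⟨y.1, Subgroup.mem_subgroupOf.mp hy, y.2, (quot_eq_iff T A y.2 hx).mp hyx⟩
  · rintro ⟨p, hp, hpT, hpx⟩
    exact ⟨⟨p, hpT⟩, Subgroup.mem_subgroupOf.mpr hp, (quot_eq_iff T A hpT hx).mpr hpx⟩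

/-- The elementwise data for the image of `P` in `T / A`, from the corresponding statements
modulo `A`. -/
theorem les_quot (P : Subgroup G) (ζ : G) (hζT : ζ ∈ T) (mem : ζ ∈ P) (ne_one : ζ ∉ A)
    (sq : ζ * ζ ∈ A)
    (central : ∀ p ∈ P, p ∈ T → (ζ * p)⁻¹ * (p * ζ) ∈ A)
    (comm : ∀ x ∈ P, x ∈ T → ∀ y ∈ P, y ∈ T →
      x * y * x⁻¹ * y⁻¹ ∈ A ∨ ζ⁻¹ * (x * y * x⁻¹ * y⁻¹) ∈ A)
    (cent : ∀ c ∈ T, (∀ p ∈ P, p ∈ T → (c * p)⁻¹ * (p * c) ∈ A) → c ∈ A ∨ ζ⁻¹ * c ∈ A)
    (norm : ∀ c ∈ T, (ζ * c)⁻¹ * (c * ζ) ∈ A → ∀ p ∈ P, p ∈ T →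
      ∃ p' ∈ P, p' ∈ T ∧ p'⁻¹ * (c * p * c⁻¹) ∈ A) :
    LES ((P.subgroupOf T).map (QuotientGroup.mk' (A.subgroupOf T)))
      (QuotientGroup.mk' (A.subgroupOf T) ⟨ζ, hζT⟩) := by
  refine ⟨?_, ?_, ?_, ?_, ?_, ?_, ?_⟩
  · exact Subgroup.mem_map_of_mem _ (Subgroup.mem_subgroupOf.mpr mem)
  · intro h
    exact ne_one ((quot_eq_one_iff T A hζT).mp h)
  · rw [← map_mul]
    exact (quot_eq_one_iff T A (T.mul_mem hζT hζT)).mpr sq
  · rintro q ⟨y, hy, rfl⟩
    rw [← map_mul, ← map_mul]
    exact ((quot_eq_iff T A (T.mul_mem hζT y.2) (T.mul_mem y.2 hζT)).mpr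
      (central y.1 (Subgroup.mem_subgroupOf.mp hy) y.2)).symm
  · rintro x ⟨x', hx', rfl⟩ y ⟨y', hy', rfl⟩
    rw [← map_inv, ← map_inv, ← map_mul, ← map_mul, ← map_mul]
    have hT : (x' : G) * y' * (x' : G)⁻¹ * (y' : G)⁻¹ ∈ T :=
      T.mul_mem (T.mul_mem (T.mul_mem x'.2 y'.2) (T.inv_mem x'.2)) (T.inv_mem y'.2)
    rcases comm x'.1 (Subgroup.mem_subgroupOf.mp hx') x'.2 y'.1 (Subgroup.mem_subgroupOf.mp hy')
      y'.2 with h | h
    · left
      exact (quot_eq_one_iff T A hT).mpr h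
    · right
      exact ((quot_eq_iff T A hζT hT).mpr h).symm
  · intro x hx
    obtain ⟨c, hc, rfl⟩ := quot_exists T A x
    have h1 : ∀ p ∈ P, p ∈ T → (c * p)⁻¹ * (p * c) ∈ A := by
      intro p hp hpT
      have h2 := hx (QuotientGroup.mk' (A.subgroupOf T) ⟨p, hpT⟩)
        (Subgroup.mem_map_of_mem _ (Subgroup.mem_subgroupOf.mpr hp))
      rw [← map_mul, ← map_mul] at h2
      exact (quot_eq_iff T A (T.mul_mem hc hpT) (T.mul_mem hpT hc)).mp h2.symm
    rcases cent c hc h1 with h | h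
    · left
      exact (quot_eq_one_iff T A hc).mpr h
    · right
      exact ((quot_eq_iff T A hζT hc).mpr h).symm
  · intro x hx q hq
    obtain ⟨c, hc, rfl⟩ := quot_exists T A x
    obtain ⟨y, hy, rfl⟩ := hq
    rw [← map_mul, ← map_mul] at hx
    have h1 : (ζ * c)⁻¹ * (c * ζ) ∈ A :=
      (quot_eq_iff T A (T.mul_mem hζT hc) (T.mul_mem hc hζT)).mp hx.symm
    obtain ⟨p', hp', hp'T, h⟩ := norm c hc h1 y.1 (Subgroup.mem_subgroupOf.mp hy) y.2
    rw [← map_inv, ← map_mul, ← map_mul]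
    have hT : c * (y : G) * c⁻¹ ∈ T := T.mul_mem (T.mul_mem hc y.2) (T.inv_mem hc)
    have h2 : QuotientGroup.mk' (A.subgroupOf T) ⟨c * (y : G) * c⁻¹, hT⟩ =
        QuotientGroup.mk' (A.subgroupOf T) ⟨p', hp'T⟩ :=
      ((quot_eq_iff T A hp'T hT).mpr h).symm
    have h3 : (⟨c, hc⟩ : ↥T) * y * (⟨c, hc⟩ : ↥T)⁻¹ = ⟨c * (y : G) * c⁻¹, hT⟩ := rfl
    rw [h3, h2]
    exact Subgroup.mem_map_of_mem _ (Subgroup.mem_subgroupOf.mpr hp')

end Dict

end Cfsg.Agent.Helper90
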