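import Mathlib
import Cfsg.Prelude.Def_MonsterType
import Cfsg.Agent.Helper90.LESQuot
import Cfsg.Agent.Helper90.FStarES
import Cfsg.Agent.Helper48.CharPLocal
import Cfsg.Agent.Helper92.MonsterInter2

/-!
Helper90: packaging theorem for groups of Baby Monster type.

* `equiv_of_rel`: a multiplicative, total, functional, onto relation between two groups with
  kernel `N` gives an isomorphism of the quotient by `N`.
* `BabyData ζ PD RepD RelD`: elementwise data in a group `D`: a subgroup `PD` of order `2^23` with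
  the elementwise extraspecial data at `ζ`, a representation relation `RepD` between the vectors
  of the Leech lattice orthogonal (modulo 2) to `u = (4,4,0^22)` and the elements of `PD`, and a
  relation `RelD` between the centralizer of `ζ` and the stabilizer of `u`.
* `baby_of_data`: such data make `D` a group of Baby Monster type.
-/

set_option autoImplicit false

namespace Cfsg.Agent.Helper90

open Cfsg

/-- An isomorphism from a multiplicative relation. -/
theorem equiv_of_rel {Y K : Type*} [Group Y] [Group K] (N : Subgroup Y) [N.Normal]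
    (Rel : Y → K → Prop) (tot : ∀ y, ∃ k, Rel y k)
    (uniq : ∀ y k k', Rel y k → Rel y k' → k = k')
    (mul : ∀ y y' k k', Rel y k → Rel y' k' → Rel (y * y') (k * k'))
    (surj : ∀ k, ∃ y, Rel y k) (ker : ∀ y, Rel y 1 ↔ y ∈ N) :
    ∃ e : Y ⧸ N ≃* K, ∀ y k, Rel y k → e (QuotientGroup.mk y) = k := by
  classical
  choose f hf using tot
  let φ : Y →* K :=
    MonoidHom.mk' f (fun a b => uniq _ _ _ (hf (a * b)) (mul _ _ _ _ (hf a) (hf b)))
  have hφ : ∀ y k, Rel y k → φ y = k := fun y k h => uniq _ _ _ (hf y) h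
  have hker : φ.ker = N := by
    ext y
    rw [MonoidHom.mem_ker, ← ker]
    constructor
    · intro h
      have h1 := hf y
      have h2 : f y = 1 := h
      rw [h2] at h1
      exact h1
    · intro h
      exact hφ y 1 h
  have hsurj : Function.Surjective φ := by
    intro k
    obtain ⟨y, hy⟩ := surj k
    exact ⟨y, hφ y k hy⟩
  refine ⟨(QuotientGroup.quotientMulEquivOfEq hker.symm).trans
    (QuotientGroup.quotientKerEquivOfSurjective φ hsurj), ?_⟩
  intro y k h
  show φ y = k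
  exact hφ y k h

/-- Elementwise data for a group of Baby Monster type. -/
structure BabyData {D : Type*} [Group D] (ζ : D) (PD : Subgroup D)
    (RepD : leechLattice → D → Prop) (RelD : D → Co0 → Prop) : Prop where
  les : LES PD ζ
  card : Nat.card PD = 2 ^ 23
  mem : ∀ v d, RepD v d → d ∈ PD
  perp : ∀ v d, RepD v d → v ∈ leechPerpU
  ex : ∀ v ∈ leechPerpU, ∃ d, RepD v d
  surj : ∀ d ∈ PD, ∃ v, RepD v d
  mul : ∀ v w d d', RepD v d → RepD w d' → RepD (v + w) (d * d')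
  uniq : ∀ v d d', RepD v d → RepD v d' → d' = d ∨ d' = d * ζ
  mulz : ∀ v d, RepD v d → RepD v (d * ζ)
  ker : ∀ v d, RepD v d → ((d = 1 ∨ d = ζ) ↔
    ((∃ w : leechLattice, v = w + w) ∨ ∃ w : leechLattice, v = Cfsg.Spor.leechU + (w + w)))
  rel_tot : ∀ y, y * ζ = ζ * y → ∃ γ, RelD y γ
  rel_fix : ∀ y γ, RelD y γ → γ • Cfsg.Spor.leechU = Cfsg.Spor.leechU
  rel_comm : ∀ y γ, RelD y γ → y * ζ = ζ * y
  rel_uniq : ∀ y γ γ', RelD y γ → RelD y γ' → γ = γ'
  rel_mul : ∀ y y' γ γ', RelD y γ → RelD y' γ' → RelD (y * y') (γ * γ')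
  rel_surj : ∀ γ : Co0, γ • Cfsg.Spor.leechU = Cfsg.Spor.leechU → ∃ y, RelD y γ
  rel_ker : ∀ y, RelD y 1 ↔ y ∈ PD
  rel_act : ∀ y γ v d, RelD y γ → RepD v d → RepD (γ • v) (y * d * y⁻¹)
  wit : ∃ g, g * ζ * g⁻¹ ∈ PD ∧ g * ζ * g⁻¹ ≠ ζ

namespace BabyData

variable {D : Type*} [Group D] {ζ : D} {PD : Subgroup D} {RepD : leechLattice → D → Prop}
  {RelD : D → Co0 → Prop}

theorem rel_one (B : BabyData ζ PD RepD RelD) : RelD 1 1 := (B.rel_ker 1).mpr PD.one_mem

theorem rel_inv (B : BabyData ζ PD RepD RelD) {y : D} {γ : Co0} (h : RelD y γ) :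
    RelD y⁻¹ γ⁻¹ := by
  have hc := B.rel_comm _ _ h
  have hc' : y⁻¹ * ζ = ζ * y⁻¹ := by
    calc y⁻¹ * ζ = y⁻¹ * (ζ * y) * y⁻¹ := by group
      _ = y⁻¹ * (y * ζ) * y⁻¹ := by rw [hc]
      _ = ζ * y⁻¹ := by group
  obtain ⟨γ', hγ'⟩ := B.rel_tot _ hc'
  have h1 := B.rel_mul _ _ _ _ h hγ'
  rw [mul_inv_cancel] at h1
  have h2 : γ * γ' = 1 := B.rel_uniq _ _ _ h1 B.rel_one
  have h3 : γ' = γ⁻¹ := eq_inv_of_mul_eq_one_right h2
  rw [← h3]
  exact hγ'

theorem rel_pow (B : BabyData ζ PD RepD RelD) {y : D} {γ : Co0} (h : RelD y γ) (n : ℕ) :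
    RelD (y ^ n) (γ ^ n) := by
  induction n with
  | zero =>
    rw [pow_zero, pow_zero]
    exact B.rel_one
  | succ n ih =>
    rw [pow_succ, pow_succ]
    exact B.rel_mul _ _ _ _ ih h

theorem le_centralizer (B : BabyData ζ PD RepD RelD) :
    PD ≤ Subgroup.centralizer ({ζ} : Set D) := by
  intro p hp
  rw [Cfsg.Agent.Helper92.mem_centralizer_singleton_iff]
  exact B.les.central p hp

/-- A normal 2-subgroup of the centralizer of `ζ` lies in `PD`. -/
theorem normal_two_le (B : BabyData ζ PD RepD RelD)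
    (N : Subgroup ↥(Subgroup.centralizer ({ζ} : Set D))) (hN : N.Normal) (h2 : IsPGroup 2 ↥N) :
    ∀ y ∈ N, (y : D) ∈ PD := by
  intro y hy
  let R : Subgroup Co0 :=
    { carrier := {γ | ∃ y : ↥(Subgroup.centralizer ({ζ} : Set D)), y ∈ N ∧ RelD (y : D) γ}
      one_mem' := ⟨1, N.one_mem, B.rel_one⟩
      mul_mem' := by
        rintro a b ⟨y, hy, ha⟩ ⟨y', hy', hb⟩
        exact ⟨y * y', N.mul_mem hy hy', B.rel_mul _ _ _ _ ha hb⟩
      inv_mem' := by
        rintro a ⟨y, hy, ha⟩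
        exact ⟨y⁻¹, N.inv_mem hy, B.rel_inv ha⟩ }
  have hR : R = ⊥ := by
    apply Cfsg.Agent.Helper92.stabU_normal_two_eq_bot R
    · rintro γ ⟨y, -, h⟩
      exact B.rel_fix _ _ h
    · rintro σ hσ γ ⟨y, hy, h⟩
      obtain ⟨s, hs⟩ := B.rel_surj σ hσ
      have hsY : s ∈ Subgroup.centralizer ({ζ} : Set D) :=
        (Cfsg.Agent.Helper92.mem_centralizer_singleton_iff ζ s).mpr (B.rel_comm _ _ hs)
      exact ⟨⟨s, hsY⟩ * y * ⟨s, hsY⟩⁻¹, hN.conj_mem y hy ⟨s, hsY⟩,
        B.rel_mul _ _ _ _ (B.rel_mul _ _ _ _ hs h) (B.rel_inv hs)⟩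
    · rintro ⟨γ, y, hy, h⟩
      obtain ⟨k, hk⟩ := h2 ⟨y, hy⟩
      refine ⟨k, Subtype.ext ?_⟩
      have h1 := B.rel_pow h (2 ^ k)
      have h3 : (y : D) ^ 2 ^ k = 1 := by
        have h4 := congrArg (fun t : ↥N =>
          (((t : ↥(Subgroup.centralizer ({ζ} : Set D))) : D))) hk
        exact h4
      rw [h3] at h1
      exact B.rel_uniq _ _ _ h1 B.rel_one
  have hyc : (y : D) * ζ = ζ * (y : D) :=
    (Cfsg.Agent.Helper92.mem_centralizer_singleton_iff ζ y).mp y.2
  obtain ⟨γ, hγ⟩ := B.rel_tot (y : D) hyc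
  have hγR : γ ∈ R := ⟨y, hy, hγ⟩
  rw [hR, Subgroup.mem_bot] at hγR
  rw [hγR] at hγ
  exact (B.rel_ker _).mp hγ

end BabyData

/-- An element of the second Conway group as a lattice automorphism. -/
def co2ToCo0 (k : ↥Cfsg.Spor.Co2) : Co0 := ⟨k.1, (Subgroup.mem_inf.mp k.2).1⟩

/-- A lattice automorphism fixing `u` as an element of the second Conway group. -/
def co2OfCo0 (γ : Co0) (h : γ • Cfsg.Spor.leechU = Cfsg.Spor.leechU) : ↥Cfsg.Spor.Co2 :=
  ⟨γ.1, Subgroup.mem_inf.mpr ⟨γ.2, MulAction.mem_stabilizer_iff.mpr h⟩⟩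

theorem co2ToCo0_fix (k : ↥Cfsg.Spor.Co2) :
    co2ToCo0 k • Cfsg.Spor.leechU = Cfsg.Spor.leechU :=
  MulAction.mem_stabilizer_iff.mp (Subgroup.mem_inf.mp k.2).2

theorem co2ToCo0_inj {k k' : ↥Cfsg.Spor.Co2} (h : co2ToCo0 k = co2ToCo0 k') : k = k' :=
  Subtype.ext (congrArg (fun g : Co0 => g.1) h)

theorem co2ToCo0_of (γ : Co0) (h : γ • Cfsg.Spor.leechU = Cfsg.Spor.leechU) :
    co2ToCo0 (co2OfCo0 γ h) = γ := rfl

theorem co2ToCo0_one : co2ToCo0 1 = 1 := rfl

theorem co2ToCo0_mul (k k' : ↥Cfsg.Spor.Co2) : co2ToCo0 (k * k') = co2ToCo0 k * co2ToCo0 k' :=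
  rfl

theorem co2ToCo0_smul (k : ↥Cfsg.Spor.Co2) (v : leechLattice) : co2ToCo0 k • v = k • v := rfl

namespace BabyData

section
variable {D : Type*} [Group D] [Finite D] {ζ : D} {PD : Subgroup D}
  {RepD : leechLattice → D → Prop} {RelD : D → Co0 → Prop}

theorem normal_subgroupOf (B : BabyData ζ PD RepD RelD) :
    (PD.subgroupOf (Subgroup.centralizer ({ζ} : Set D))).Normal := by
  constructor
  intro q hq y
  rw [Subgroup.mem_subgroupOf] at hq ⊢
  exact B.les.norm (y : D) ((Cfsg.Agent.Helper92.mem_centralizer_singleton_iff ζ y).mp y.2)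
    (q : D) hq

theorem two_group (B : BabyData ζ PD RepD RelD) : IsPGroup 2 ↥PD :=
  IsPGroup.of_card (n := 23) B.card

theorem nonab (B : BabyData ζ PD RepD RelD) : ∃ a ∈ PD, ∃ b ∈ PD, a * b ≠ b * a := by
  by_contra hcon
  push Not at hcon
  have hall : ∀ p ∈ PD, p = 1 ∨ p = ζ := fun p hp =>
    B.les.cent p (fun q hq => hcon q hq p hp)
  have hsub : (PD : Set D) ⊆ {1, ζ} := by
    intro x hx
    rcases hall x hx with h | h
    · left; exact h
    · right; exact h
  have h1 : Nat.card PD ≤ 2 := by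
    rw [← SetLike.coe_sort_coe, Nat.card_coe_set_eq]
    calc (PD : Set D).ncard ≤ ({1, ζ} : Set D).ncard :=
          Set.ncard_le_ncard hsub (Set.toFinite _)
      _ ≤ ({ζ} : Set D).ncard + 1 := Set.ncard_insert_le _ _
      _ = 2 := by rw [Set.ncard_singleton]
  rw [B.card] at h1
  norm_num at h1

theorem extraspecial (B : BabyData ζ PD RepD RelD) :
    Cfsg.IsExtraspecial 2 ↥(PD.subgroupOf (Subgroup.centralizer ({ζ} : Set D))) := by
  have h1 : Cfsg.IsExtraspecial 2 ↥PD :=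
    isExtraspecial_of_les_sub B.les B.two_group le_rfl B.les.mem
      (fun d _ hd => B.les.cent d hd) B.nonab
  exact isExtraspecial_of_equiv (Subgroup.subgroupOfEquivOfLe B.le_centralizer).symm h1

theorem card_subgroupOf (B : BabyData ζ PD RepD RelD) :
    Nat.card ↥(PD.subgroupOf (Subgroup.centralizer ({ζ} : Set D))) = 2 ^ (2 * 11 + 1) := by
  rw [Nat.card_congr (Subgroup.subgroupOfEquivOfLe B.le_centralizer).toEquiv, B.card]

theorem centralizer_le (B : BabyData ζ PD RepD RelD) :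
    Subgroup.centralizer
      ((PD.subgroupOf (Subgroup.centralizer ({ζ} : Set D)) :
        Subgroup ↥(Subgroup.centralizer ({ζ} : Set D))) :
          Set ↥(Subgroup.centralizer ({ζ} : Set D))) ≤
      PD.subgroupOf (Subgroup.centralizer ({ζ} : Set D)) := by
  intro y hy
  rw [Subgroup.mem_centralizer_iff] at hy
  rw [Subgroup.mem_subgroupOf]
  have h1 : ∀ q ∈ PD, q * (y : D) = (y : D) * q := by
    intro q hq
    have h2 := hy ⟨q, B.le_centralizer hq⟩ (Subgroup.mem_subgroupOf.mpr hq)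
    exact congrArg Subtype.val h2
  rcases B.les.cent (y : D) h1 with h | h
  · rw [h]; exact PD.one_mem
  · rw [h]; exact B.les.mem

theorem fstar (B : BabyData ζ PD RepD RelD) :
    Cfsg.generalizedFittingSubgroup ↥(Subgroup.centralizer ({ζ} : Set D)) =
      PD.subgroupOf (Subgroup.centralizer ({ζ} : Set D)) := by
  have hp : Fact (Nat.Prime 2) := ⟨Nat.prime_two⟩
  have hnorm := B.normal_subgroupOf
  have hpg : IsPGroup 2 ↥(PD.subgroupOf (Subgroup.centralizer ({ζ} : Set D))) :=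
    B.two_group.comap_subtype
  have hcore : Cfsg.pCore 2 ↥(Subgroup.centralizer ({ζ} : Set D)) =
      PD.subgroupOf (Subgroup.centralizer ({ζ} : Set D)) := by
    apply le_antisymm
    · apply sSup_le
      rintro N ⟨hN, hN2⟩
      intro y hy
      exact Subgroup.mem_subgroupOf.mpr (B.normal_two_le N hN hN2 y hy)
    · exact le_sSup ⟨hnorm, hpg⟩
  have h1 : Subgroup.centralizer
      (Cfsg.pCore 2 ↥(Subgroup.centralizer ({ζ} : Set D)) :
        Set ↥(Subgroup.centralizer ({ζ} : Set D))) ≤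
      Cfsg.pCore 2 ↥(Subgroup.centralizer ({ζ} : Set D)) := by
    rw [hcore]
    exact B.centralizer_le
  rw [← hcore]
  exact Cfsg.Agent.Helper48.generalizedFittingSubgroup_eq_pCore_iff.mpr
    (Cfsg.Agent.Helper48.coreProps_of_centralizer_le h1)

theorem exists_equiv (B : BabyData ζ PD RepD RelD)
    [hn : (PD.subgroupOf (Subgroup.centralizer ({ζ} : Set D))).Normal] :
    ∃ e : ↥(Subgroup.centralizer ({ζ} : Set D)) ⧸
        PD.subgroupOf (Subgroup.centralizer ({ζ} : Set D)) ≃* ↥Cfsg.Spor.Co2,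
      ∀ (y : ↥(Subgroup.centralizer ({ζ} : Set D))) (k : ↥Cfsg.Spor.Co2),
        e (QuotientGroup.mk y) = k → RelD (y : D) (co2ToCo0 k) := by
  have htot : ∀ y : ↥(Subgroup.centralizer ({ζ} : Set D)), ∃ k : ↥Cfsg.Spor.Co2,
      RelD (y : D) (co2ToCo0 k) := by
    intro y
    obtain ⟨γ, hγ⟩ := B.rel_tot (y : D)
      ((Cfsg.Agent.Helper92.mem_centralizer_singleton_iff ζ y).mp y.2)
    exact ⟨co2OfCo0 γ (B.rel_fix _ _ hγ), hγ⟩
  obtain ⟨e, he⟩ := equiv_of_rel (PD.subgroupOf (Subgroup.centralizer ({ζ} : Set D)))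
    (fun (y : ↥(Subgroup.centralizer ({ζ} : Set D))) (k : ↥Cfsg.Spor.Co2) =>
      RelD (y : D) (co2ToCo0 k)) htot
    (fun y k k' h h' => co2ToCo0_inj (B.rel_uniq _ _ _ h h'))
    (fun y y' k k' h h' => B.rel_mul _ _ _ _ h h')
    (fun k => by
      obtain ⟨y, hy⟩ := B.rel_surj (co2ToCo0 k) (co2ToCo0_fix k)
      exact ⟨⟨y, (Cfsg.Agent.Helper92.mem_centralizer_singleton_iff ζ y).mpr
        (B.rel_comm _ _ hy)⟩, hy⟩)
    (fun y => (B.rel_ker (y : D)).trans Subgroup.mem_subgroupOf.symm)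
  refine ⟨e, ?_⟩
  intro y k hk
  obtain ⟨k', hk'⟩ := htot y
  have h1 := he y k' hk'
  rw [hk] at h1
  rw [h1]
  exact hk'

theorem center_iff (B : BabyData ζ PD RepD RelD)
    (c : ↥(PD.subgroupOf (Subgroup.centralizer ({ζ} : Set D)))) :
    c ∈ Subgroup.center ↥(PD.subgroupOf (Subgroup.centralizer ({ζ} : Set D))) ↔
      ((c : ↥(Subgroup.centralizer ({ζ} : Set D))) : D) = 1 ∨
        ((c : ↥(Subgroup.centralizer ({ζ} : Set D))) : D) = ζ := by
  rw [Subgroup.mem_center_iff]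
  constructor
  · intro hc
    apply B.les.cent
    intro q hq
    have h2 := hc ⟨⟨q, B.le_centralizer hq⟩, Subgroup.mem_subgroupOf.mpr hq⟩
    exact congrArg (fun t : ↥(PD.subgroupOf (Subgroup.centralizer ({ζ} : Set D))) =>
      ((t : ↥(Subgroup.centralizer ({ζ} : Set D))) : D)) h2
  · rintro (h | h) q
    · apply Subtype.ext
      apply Subtype.ext
      show ((q : ↥(Subgroup.centralizer ({ζ} : Set D))) : D) *
        ((c : ↥(Subgroup.centralizer ({ζ} : Set D))) : D) =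
        ((c : ↥(Subgroup.centralizer ({ζ} : Set D))) : D) *
          ((q : ↥(Subgroup.centralizer ({ζ} : Set D))) : D)
      rw [h, mul_one, one_mul]
    · apply Subtype.ext
      apply Subtype.ext
      show ((q : ↥(Subgroup.centralizer ({ζ} : Set D))) : D) *
        ((c : ↥(Subgroup.centralizer ({ζ} : Set D))) : D) =
        ((c : ↥(Subgroup.centralizer ({ζ} : Set D))) : D) *
          ((q : ↥(Subgroup.centralizer ({ζ} : Set D))) : D)
      rw [h]
      exact B.les.central _ (Subgroup.mem_subgroupOf.mp q.2)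

theorem mk_eq_of_rep (B : BabyData ζ PD RepD RelD) {v : leechLattice}
    (q q' : ↥(PD.subgroupOf (Subgroup.centralizer ({ζ} : Set D))))
    (h : RepD v ((q : ↥(Subgroup.centralizer ({ζ} : Set D))) : D))
    (h' : RepD v ((q' : ↥(Subgroup.centralizer ({ζ} : Set D))) : D)) :
    (QuotientGroup.mk q : ↥(PD.subgroupOf (Subgroup.centralizer ({ζ} : Set D))) ⧸
      Subgroup.center ↥(PD.subgroupOf (Subgroup.centralizer ({ζ} : Set D)))) =
      QuotientGroup.mk q' := by
  rw [QuotientGroup.eq, B.center_iff]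
  show ((q : ↥(Subgroup.centralizer ({ζ} : Set D))) : D)⁻¹ *
      ((q' : ↥(Subgroup.centralizer ({ζ} : Set D))) : D) = 1 ∨
    ((q : ↥(Subgroup.centralizer ({ζ} : Set D))) : D)⁻¹ *
      ((q' : ↥(Subgroup.centralizer ({ζ} : Set D))) : D) = ζ
  rcases B.uniq _ _ _ h h' with h1 | h1
  · left
    rw [h1, inv_mul_cancel]
  · right
    rw [h1, inv_mul_cancel_left]

theorem exists_psi (B : BabyData ζ PD RepD RelD)
    [hn : (PD.subgroupOf (Subgroup.centralizer ({ζ} : Set D))).Normal]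
    (e : ↥(Subgroup.centralizer ({ζ} : Set D)) ⧸
        PD.subgroupOf (Subgroup.centralizer ({ζ} : Set D)) ≃* ↥Cfsg.Spor.Co2)
    (he : ∀ (y : ↥(Subgroup.centralizer ({ζ} : Set D))) (k : ↥Cfsg.Spor.Co2),
        e (QuotientGroup.mk y) = k → RelD (y : D) (co2ToCo0 k)) :
    ∃ ψ : leechPerpU → ↥(PD.subgroupOf (Subgroup.centralizer ({ζ} : Set D))) ⧸
        Subgroup.center ↥(PD.subgroupOf (Subgroup.centralizer ({ζ} : Set D))),
      Cfsg.IsLeechPerpModTwoIso (PD.subgroupOf (Subgroup.centralizer ({ζ} : Set D))) e ψ := by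
  classical
  have hex : ∀ x : leechPerpU, ∃ q : ↥(PD.subgroupOf (Subgroup.centralizer ({ζ} : Set D))),
      RepD (x : leechLattice) ((q : ↥(Subgroup.centralizer ({ζ} : Set D))) : D) := by
    intro x
    obtain ⟨d, hd⟩ := B.ex x.1 x.2
    have hdP := B.mem _ _ hd
    exact ⟨⟨⟨d, B.le_centralizer hdP⟩, Subgroup.mem_subgroupOf.mpr hdP⟩, hd⟩
  choose rep hrep using hex
  refine ⟨fun x => QuotientGroup.mk (rep x), ?_, ?_, ?_, ?_⟩
  · intro x y
    show (QuotientGroup.mk (rep (x + y)) :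
      ↥(PD.subgroupOf (Subgroup.centralizer ({ζ} : Set D))) ⧸
        Subgroup.center ↥(PD.subgroupOf (Subgroup.centralizer ({ζ} : Set D)))) =
      QuotientGroup.mk (rep x) * QuotientGroup.mk (rep y)
    rw [← QuotientGroup.mk_mul]
    exact B.mk_eq_of_rep _ _ (hrep (x + y)) (B.mul _ _ _ _ (hrep x) (hrep y))
  · intro c
    obtain ⟨q, rfl⟩ := QuotientGroup.mk_surjective c
    have hqP : ((q : ↥(Subgroup.centralizer ({ζ} : Set D))) : D) ∈ PD :=
      Subgroup.mem_subgroupOf.mp q.2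
    obtain ⟨v, hv⟩ := B.surj _ hqP
    exact ⟨⟨v, B.perp _ _ hv⟩, B.mk_eq_of_rep _ _ (hrep _) hv⟩
  · intro x
    show (QuotientGroup.mk (rep x) :
      ↥(PD.subgroupOf (Subgroup.centralizer ({ζ} : Set D))) ⧸
        Subgroup.center ↥(PD.subgroupOf (Subgroup.centralizer ({ζ} : Set D)))) = 1 ↔ _
    rw [QuotientGroup.eq_one_iff, B.center_iff]
    exact B.ker _ _ (hrep x)
  · intro h g hg x y hxy q hq
    have hrel := he h g hg
    have hq' : RepD (x : leechLattice) ((q : ↥(Subgroup.centralizer ({ζ} : Set D))) : D) := by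
      have h1 : (QuotientGroup.mk (rep x) :
          ↥(PD.subgroupOf (Subgroup.centralizer ({ζ} : Set D))) ⧸
            Subgroup.center ↥(PD.subgroupOf (Subgroup.centralizer ({ζ} : Set D)))) =
          QuotientGroup.mk q := hq
      rw [QuotientGroup.eq, B.center_iff] at h1
      have h1' : ((rep x : ↥(Subgroup.centralizer ({ζ} : Set D))) : D)⁻¹ *
            ((q : ↥(Subgroup.centralizer ({ζ} : Set D))) : D) = 1 ∨
          ((rep x : ↥(Subgroup.centralizer ({ζ} : Set D))) : D)⁻¹ *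
            ((q : ↥(Subgroup.centralizer ({ζ} : Set D))) : D) = ζ := h1
      rcases h1' with h2 | h2
      · have h3 : ((q : ↥(Subgroup.centralizer ({ζ} : Set D))) : D) =
            ((rep x : ↥(Subgroup.centralizer ({ζ} : Set D))) : D) :=
          (inv_mul_eq_one.mp h2).symm
        rw [h3]
        exact hrep x
      · have h3 : ((q : ↥(Subgroup.centralizer ({ζ} : Set D))) : D) =
            ((rep x : ↥(Subgroup.centralizer ({ζ} : Set D))) : D) * ζ :=
          eq_mul_of_inv_mul_eq h2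
        rw [h3]
        exact B.mulz _ _ (hrep x)
    have h3 := B.rel_act _ _ _ _ hrel hq'
    have h4 : co2ToCo0 g • (x : leechLattice) = (y : leechLattice) := hxy
    rw [h4] at h3
    exact B.mk_eq_of_rep _ _ (hrep y) h3

/-- **Packaging**: the elementwise data make `D` a group of Baby Monster type. -/
theorem baby_of_data (B : BabyData ζ PD RepD RelD) : Cfsg.IsOfBabyMonsterType D := by
  have hp : Fact (Nat.Prime 2) := ⟨Nat.prime_two⟩
  have hn := B.normal_subgroupOf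
  obtain ⟨e, he⟩ := B.exists_equiv
  obtain ⟨ψ, hψ⟩ := B.exists_psi e he
  refine ⟨ζ, PD.subgroupOf (Subgroup.centralizer ({ζ} : Set D)), hn,
    ⟨?_, B.fstar, B.extraspecial, B.card_subgroupOf, ?_⟩, e, ψ, hψ⟩
  · exact orderOf_eq_prime (by rw [pow_two]; exact B.les.sq) B.les.ne_one
  · obtain ⟨g, hg, hgz⟩ := B.wit
    exact ⟨g, ⟨B.le_centralizer hg, Subgroup.mem_subgroupOf.mpr hg⟩, hgz⟩

end

end BabyData

end Cfsg.Agent.Helper90
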