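import Mathlib
import Cfsg.Agent.Helper90.LESPair

/-!
Helper90: counting in extraspecial-like subgroups (`LES Q z`).

* `LES.two_mul_card_inf_centralizer`: for `B ≤ Q`, `y ∈ Q` not centralized by `B`, the centralizer
  of `y` in `B` has index 2.
* `LES.card_mul_card_centralizer`: `|B| * |C_Q(B)| = 2 * |Q|` for `z ∈ B ≤ Q`.
* `LES.card_sq_le_of_abelian`: an abelian subgroup `B` of `Q` containing `z` has `|B|^2 ≤ 2 |Q|`.
-/

set_option autoImplicit false

namespace Cfsg.Agent.Helper90

theorem card_eq_ncard_coe {G : Type*} [Group G] (H : Subgroup G) :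
    Nat.card ↥H = (H : Set G).ncard := by
  rw [← SetLike.coe_sort_coe, Nat.card_coe_set_eq]

theorem card_eq_card_filter {G : Type*} [Group G] [Fintype G] (H : Subgroup G)
    [DecidablePred (fun x => x ∈ H)] :
    Nat.card ↥H = (Finset.univ.filter (fun x => x ∈ H)).card := by
  rw [card_eq_ncard_coe, Set.ncard_eq_toFinset_card' (H : Set G)]
  congr 1
  ext x
  simp

/-- For `B ≤ Q` and `y ∈ Q` not centralized by `B`, the centralizer of `y` in `B` has index 2. -/
theorem LES.two_mul_card_inf_centralizer {G : Type*} [Group G] [Finite G] {Q : Subgroup G}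
    {z : G} (h : LES Q z) (B : Subgroup G) (hBQ : B ≤ Q) {y b0 : G} (hy : y ∈ Q)
    (hb0 : b0 ∈ B) (hne : b0 * y ≠ y * b0) :
    2 * Nat.card ↥(B ⊓ Subgroup.centralizer ({y} : Set G)) = Nat.card ↥B := by
  classical
  have hcomm : b0 * y * b0⁻¹ * y⁻¹ = z := h.comm_of_ne (hBQ hb0) hy hne
  have hmemC : ∀ c : G, c ∈ B ⊓ Subgroup.centralizer ({y} : Set G) ↔ c ∈ B ∧ c * y = y * c :=
    fun c => mem_inf_centralizer_singleton
  obtain ⟨C, hCdef⟩ : ∃ C : Subgroup G, C = B ⊓ Subgroup.centralizer ({y} : Set G) := ⟨_, rfl⟩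
  rw [← hCdef] at hmemC ⊢
  have himg : (fun c => b0 * c) '' (C : Set G) = (B : Set G) \ (C : Set G) := by
    ext q
    constructor
    · rintro ⟨c, hc, rfl⟩
      have hc' := (hmemC c).mp hc
      refine ⟨B.mul_mem hb0 hc'.1, ?_⟩
      intro hcon
      have h2 := (hmemC _).mp hcon
      apply hne
      have e : b0 * y * c = y * b0 * c := by
        calc b0 * y * c = b0 * (y * c) := by group
          _ = b0 * (c * y) := by rw [hc'.2]
          _ = b0 * c * y := by group
          _ = y * (b0 * c) := h2.2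
          _ = y * b0 * c := by group
      exact mul_right_cancel e
    · rintro ⟨hqB, hqC⟩
      have hqB' : q ∈ B := hqB
      refine ⟨b0⁻¹ * q, (hmemC _).mpr ⟨B.mul_mem (B.inv_mem hb0) hqB', ?_⟩, ?_⟩
      · have hqy : q * y ≠ y * q := fun hh => hqC ((hmemC q).mpr ⟨hqB', hh⟩)
        have hq : q * y * q⁻¹ * y⁻¹ = z := h.comm_of_ne (hBQ hqB') hy hqy
        have e1 : q * y = z * (y * q) := by
          calc q * y = (q * y * q⁻¹ * y⁻¹) * (y * q) := by group
            _ = z * (y * q) := by rw [hq]
        have e2 : b0 * y = z * (y * b0) := by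
          calc b0 * y = (b0 * y * b0⁻¹ * y⁻¹) * (y * b0) := by group
            _ = z * (y * b0) := by rw [hcomm]
        have e3 : y * b0⁻¹ = b0⁻¹ * (z * y) := by
          calc y * b0⁻¹ = b0⁻¹ * (b0 * y) * b0⁻¹ := by group
            _ = b0⁻¹ * (z * (y * b0)) * b0⁻¹ := by rw [e2]
            _ = b0⁻¹ * (z * y) := by group
        calc b0⁻¹ * q * y = b0⁻¹ * (q * y) := by group
          _ = b0⁻¹ * (z * (y * q)) := by rw [e1]
          _ = b0⁻¹ * (z * y) * q := by group
          _ = y * b0⁻¹ * q := by rw [e3]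
          _ = y * (b0⁻¹ * q) := by group
      · show b0 * (b0⁻¹ * q) = q
        group
  have hsub : (C : Set G) ⊆ (B : Set G) := fun c hc => ((hmemC c).mp hc).1
  have h1 : ((B : Set G) \ (C : Set G)).ncard = (C : Set G).ncard := by
    rw [← himg]
    exact Set.ncard_image_of_injective _ (mul_right_injective b0)
  have h2 := Set.ncard_sdiff_add_ncard_of_subset hsub (Set.toFinite _)
  rw [card_eq_ncard_coe, card_eq_ncard_coe]
  omega

/-- A non-central element of `Q` has centralizer of index 2 in `Q`. -/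
theorem LES.two_mul_card_centralizer {G : Type*} [Group G] [Finite G] {Q : Subgroup G}
    {z : G} (h : LES Q z) {x : G} (hx : x ∈ Q) (hx1 : x ≠ 1) (hxz : x ≠ z) :
    2 * Nat.card ↥(Q ⊓ Subgroup.centralizer ({x} : Set G)) = Nat.card ↥Q := by
  obtain ⟨q, hq, hqx⟩ : ∃ q ∈ Q, q * x ≠ x * q := by
    by_contra hcon
    push Not at hcon
    rcases h.cent x hcon with h1 | h1
    · exact hx1 h1
    · exact hxz h1
  exact h.two_mul_card_inf_centralizer Q le_rfl hx hq hqx

/-- `|B| * |C_Q(B)| = 2 |Q|` for a subgroup `B` of `Q` containing the centre. -/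
theorem LES.card_mul_card_centralizer {G : Type*} [Group G] [Finite G] {Q : Subgroup G}
    {z : G} (h : LES Q z) (B : Subgroup G) (hBQ : B ≤ Q) (hzB : z ∈ B) :
    Nat.card ↥B * Nat.card ↥(Q ⊓ Subgroup.centralizer (B : Set G)) = 2 * Nat.card ↥Q := by
  classical
  have : Fintype G := Fintype.ofFinite G
  have key := Finset.sum_card_bipartiteAbove_eq_sum_card_bipartiteBelow
    (s := Finset.univ.filter (fun x : G => x ∈ B)) (t := Finset.univ.filter (fun x : G => x ∈ Q))
    (r := fun b y => y * b = b * y)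
  -- the left-hand side
  have hL : ∀ b ∈ Finset.univ.filter (fun x : G => x ∈ B),
      2 * ((Finset.univ.filter (fun x : G => x ∈ Q)).bipartiteAbove
        (fun b y => y * b = b * y) b).card =
      Nat.card ↥Q + (if b = 1 ∨ b = z then Nat.card ↥Q else 0) := by
    intro b hb
    have hbB : b ∈ B := (Finset.mem_filter.mp hb).2
    have e : (Finset.univ.filter (fun x : G => x ∈ Q)).bipartiteAbove
        (fun b y => y * b = b * y) b =
        Finset.univ.filter (fun x : G => x ∈ Q ⊓ Subgroup.centralizer ({b} : Set G)) := by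
      ext y
      rw [Finset.mem_bipartiteAbove, Finset.mem_filter, Finset.mem_filter,
        mem_inf_centralizer_singleton]
      simp
    rw [e, ← card_eq_card_filter]
    by_cases hb1 : b = 1 ∨ b = z
    · rw [if_pos hb1]
      have e2 : Q ⊓ Subgroup.centralizer ({b} : Set G) = Q := by
        apply le_antisymm inf_le_left
        intro y hy
        refine mem_inf_centralizer_singleton.mpr ⟨hy, ?_⟩
        rcases hb1 with h1 | h1
        · rw [h1, mul_one, one_mul]
        · rw [h1]; exact h.central y hy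
      rw [e2]
      ring
    · rw [if_neg hb1, add_zero]
      push Not at hb1
      exact h.two_mul_card_centralizer (hBQ hbB) hb1.1 hb1.2
  -- the right-hand side
  have hR : ∀ y ∈ Finset.univ.filter (fun x : G => x ∈ Q),
      2 * ((Finset.univ.filter (fun x : G => x ∈ B)).bipartiteBelow
        (fun b y => y * b = b * y) y).card =
      Nat.card ↥B + (if y ∈ Subgroup.centralizer (B : Set G) then Nat.card ↥B else 0) := by
    intro y hy
    have hyQ : y ∈ Q := (Finset.mem_filter.mp hy).2
    have e : (Finset.univ.filter (fun x : G => x ∈ B)).bipartiteBelow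
        (fun b y => y * b = b * y) y =
        Finset.univ.filter (fun x : G => x ∈ B ⊓ Subgroup.centralizer ({y} : Set G)) := by
      ext b
      rw [Finset.mem_bipartiteBelow, Finset.mem_filter, Finset.mem_filter,
        mem_inf_centralizer_singleton]
      simp only [Finset.mem_univ, true_and]
      constructor
      · rintro ⟨h1, h2⟩; exact ⟨h1, h2.symm⟩
      · rintro ⟨h1, h2⟩; exact ⟨h1, h2.symm⟩
    rw [e, ← card_eq_card_filter]
    by_cases hyc : y ∈ Subgroup.centralizer (B : Set G)
    · rw [if_pos hyc]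
      have e2 : B ⊓ Subgroup.centralizer ({y} : Set G) = B := by
        apply le_antisymm inf_le_left
        intro b hb
        refine mem_inf_centralizer_singleton.mpr ⟨hb, ?_⟩
        exact Subgroup.mem_centralizer_iff.mp hyc b hb
      rw [e2]
      ring
    · rw [if_neg hyc, add_zero]
      have hex : ∃ b0 ∈ B, b0 * y ≠ y * b0 := by
        by_contra hcon
        push Not at hcon
        apply hyc
        rw [Subgroup.mem_centralizer_iff]
        intro b hb
        exact hcon b hb
      obtain ⟨b0, hb0, hb0y⟩ := hex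
      exact h.two_mul_card_inf_centralizer B hBQ hyQ hb0 hb0y
  have hcardB : (Finset.univ.filter (fun x : G => x ∈ B)).card = Nat.card ↥B :=
    (card_eq_card_filter B).symm
  have hcardQ : (Finset.univ.filter (fun x : G => x ∈ Q)).card = Nat.card ↥Q :=
    (card_eq_card_filter Q).symm
  have hsumL : 2 * ∑ b ∈ Finset.univ.filter (fun x : G => x ∈ B),
      ((Finset.univ.filter (fun x : G => x ∈ Q)).bipartiteAbove
        (fun b y => y * b = b * y) b).card =
      Nat.card ↥B * Nat.card ↥Q + 2 * Nat.card ↥Q := by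
    rw [Finset.mul_sum, Finset.sum_congr rfl hL, Finset.sum_add_distrib, Finset.sum_const,
      hcardB, smul_eq_mul, ← Finset.sum_filter, Finset.sum_const, smul_eq_mul]
    congr 1
    have e : (Finset.univ.filter (fun x : G => x ∈ B)).filter (fun b => b = 1 ∨ b = z) =
        {1, z} := by
      ext b
      rw [Finset.mem_filter, Finset.mem_filter, Finset.mem_insert, Finset.mem_singleton]
      constructor
      · rintro ⟨-, h1⟩; exact h1
      · rintro (h1 | h1)
        · rw [h1]; exact ⟨⟨Finset.mem_univ _, B.one_mem⟩, Or.inl rfl⟩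
        · rw [h1]; exact ⟨⟨Finset.mem_univ _, hzB⟩, Or.inr rfl⟩
    rw [e, Finset.card_pair (fun hh => h.ne_one hh.symm)]
  have hsumR : 2 * ∑ y ∈ Finset.univ.filter (fun x : G => x ∈ Q),
      ((Finset.univ.filter (fun x : G => x ∈ B)).bipartiteBelow
        (fun b y => y * b = b * y) y).card =
      Nat.card ↥Q * Nat.card ↥B +
        Nat.card ↥(Q ⊓ Subgroup.centralizer (B : Set G)) * Nat.card ↥B := by
    rw [Finset.mul_sum, Finset.sum_congr rfl hR, Finset.sum_add_distrib, Finset.sum_const,
      hcardQ, smul_eq_mul, ← Finset.sum_filter, Finset.sum_const, smul_eq_mul]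
    congr 2
    rw [card_eq_card_filter]
    congr 1
    ext y
    rw [Finset.mem_filter, Finset.mem_filter, Finset.mem_filter, Subgroup.mem_inf]
    exact and_assoc
  rw [key, hsumR] at hsumL
  have e3 : Nat.card ↥Q * Nat.card ↥B = Nat.card ↥B * Nat.card ↥Q := Nat.mul_comm _ _
  have e4 : Nat.card ↥(Q ⊓ Subgroup.centralizer (B : Set G)) * Nat.card ↥B =
      Nat.card ↥B * Nat.card ↥(Q ⊓ Subgroup.centralizer (B : Set G)) := Nat.mul_comm _ _
  omega

/-- An abelian subgroup `B` of `Q` containing the centre has `|B|^2 ≤ 2 |Q|`. -/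
theorem LES.card_sq_le_of_abelian {G : Type*} [Group G] [Finite G] {Q : Subgroup G}
    {z : G} (h : LES Q z) (B : Subgroup G) (hBQ : B ≤ Q) (hzB : z ∈ B)
    (hab : ∀ a ∈ B, ∀ b ∈ B, a * b = b * a) :
    Nat.card ↥B * Nat.card ↥B ≤ 2 * Nat.card ↥Q := by
  rw [← h.card_mul_card_centralizer B hBQ hzB]
  apply Nat.mul_le_mul_left
  apply Subgroup.card_le_of_le
  intro b hb
  refine Subgroup.mem_inf.mpr ⟨hBQ hb, ?_⟩
  rw [Subgroup.mem_centralizer_iff]
  intro a ha
  exact hab a ha b hb

end Cfsg.Agent.Helper90
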