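import Mathlib
import Cfsg.Agent.Helper92.LeechCong

/-!
Helper90: a normal subset of `M24` that is closed under products and consists of elements of
square one is trivial (the Mathieu group has no non-trivial normal elementary abelian 2-subgroup).
-/

set_option autoImplicit false

namespace Cfsg.Agent.Helper90

open Cfsg

theorem exists_golayPt_notMem (s : Finset GolayPt) (hs : s.card < 24) : ∃ x : GolayPt, x ∉ s := by
  by_contra hcon
  push Not at hcon
  have h1 : s = Finset.univ := Finset.eq_univ_iff_forall.mpr hcon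
  have h2 : (Finset.univ : Finset GolayPt).card = 24 := by decide
  rw [h1, h2] at hs
  exact lt_irrefl _ hs

/-- A subset of `M24` closed under products and under conjugation by `M24`, all of whose
elements square to one, consists of the identity only. -/
theorem m24_normal_exponent_two (N : Set (Equiv.Perm GolayPt))
    (hmul : ∀ σ ∈ N, ∀ τ ∈ N, σ * τ ∈ N)
    (hconj : ∀ σ ∈ N, ∀ τ ∈ M24, τ * σ * τ⁻¹ ∈ N)
    (hsq : ∀ σ ∈ N, σ * σ = 1) : ∀ σ ∈ N, σ = 1 := by
  -- commutativity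
  have hcomm : ∀ σ ∈ N, ∀ τ ∈ N, σ * τ = τ * σ := by
    intro σ hσ τ hτ
    have h1 := hsq σ hσ
    have h2 := hsq τ hτ
    have h3 := hsq _ (hmul σ hσ τ hτ)
    calc σ * τ = σ * (σ * τ * (σ * τ)) * τ := by rw [h3, mul_one]
      _ = (σ * σ) * (τ * σ) * (τ * τ) := by group
      _ = τ * σ := by rw [h1, h2, one_mul, mul_one]
  -- an element of `N` with a fixed point is trivial, provided some element of `N` moves a point
  have hsemi : ∀ σ ∈ N, ∀ a : GolayPt, σ a ≠ a → ∀ ρ ∈ N, ∀ p : GolayPt, ρ p = p → ρ = 1 := by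
    intro σ hσ a ha ρ hρ p hp
    -- move to the point `p`
    obtain ⟨τ₀, hτ₀, hτ₀a⟩ := Cfsg.Agent.Helper7.m24_trans1 a p
    have hσp : τ₀ * σ * τ₀⁻¹ ∈ N := hconj σ hσ τ₀ hτ₀
    have hmove : (τ₀ * σ * τ₀⁻¹) p ≠ p := by
      intro h
      apply ha
      have h1 : (τ₀ * σ * τ₀⁻¹) p = τ₀ (σ a) := by
        rw [← hτ₀a]
        simp
      rw [h1, ← hτ₀a] at h
      exact τ₀.injective h
    obtain ⟨σ', hσ', hσ'p⟩ : ∃ σ' ∈ N, σ' p ≠ p := ⟨_, hσp, hmove⟩
    apply Equiv.ext
    intro q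
    by_cases hq : q = p
    · rw [hq, hp]; rfl
    · obtain ⟨τ, hτ, hτp, hτb⟩ := Cfsg.Agent.Helper7.m24_trans2 (p := p) (q := σ' p)
        (p' := p) (q' := q) (fun h => hσ'p h.symm) (fun h => hq h.symm)
      have hn : τ * σ' * τ⁻¹ ∈ N := hconj σ' hσ' τ hτ
      have hnp : (τ * σ' * τ⁻¹) p = q := by
        have h1 : τ⁻¹ p = p := by
          rw [Equiv.Perm.inv_eq_iff_eq]
          exact hτp.symm
        rw [Equiv.Perm.mul_apply, Equiv.Perm.mul_apply, h1, hτb]
      have hc := hcomm ρ hρ _ hn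
      have h2 : ρ q = (ρ * (τ * σ' * τ⁻¹)) p := by
        rw [Equiv.Perm.mul_apply, hnp]
      rw [h2, hc, Equiv.Perm.mul_apply, hp, hnp]
      rfl
  intro σ hσ
  by_contra hne
  obtain ⟨a, ha⟩ : ∃ a : GolayPt, σ a ≠ a := by
    by_contra hcon
    push Not at hcon
    exact hne (Equiv.ext hcon)
  have hss : ∀ x : GolayPt, σ (σ x) = x := by
    intro x
    have h1 := hsq σ hσ
    have h2 : (σ * σ) x = x := by rw [h1]; rfl
    exact h2
  obtain ⟨b, hb⟩ : ∃ b : GolayPt, b = σ a := ⟨_, rfl⟩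
  have hab : a ≠ b := fun h => ha (by rw [← hb, ← h])
  have hσb : σ b = a := by rw [hb, hss]
  obtain ⟨c, hc⟩ := exists_golayPt_notMem {a, b} (by
    calc ({a, b} : Finset GolayPt).card ≤ 2 := Finset.card_le_two
      _ < 24 := by norm_num)
  have hca : c ≠ a := fun h => hc (by rw [h]; simp)
  have hcb : c ≠ b := fun h => hc (by rw [h]; simp)
  obtain ⟨d, hd⟩ : ∃ d : GolayPt, d = σ c := ⟨_, rfl⟩
  have hdc : d ≠ c := by
    intro h
    have h1 : σ c = c := by rw [← hd, h]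
    exact hne (hsemi σ hσ a ha σ hσ c h1)
  have hda : d ≠ a := by
    intro h
    apply hcb
    have h1 : σ c = a := by rw [← hd, h]
    have h2 : σ (σ c) = σ a := by rw [h1]
    rw [hss] at h2
    rw [h2, hb]
  have hdb : d ≠ b := by
    intro h
    apply hca
    have h1 : σ c = σ a := by rw [← hd, h, hb]
    exact σ.injective h1
  obtain ⟨d', hd'⟩ := exists_golayPt_notMem {a, b, c, d} (by
    calc ({a, b, c, d} : Finset GolayPt).card ≤ 4 := Finset.card_le_four
      _ < 24 := by norm_num)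
  have hd'a : d' ≠ a := fun h => hd' (by rw [h]; simp)
  have hd'b : d' ≠ b := fun h => hd' (by rw [h]; simp)
  have hd'c : d' ≠ c := fun h => hd' (by rw [h]; simp)
  have hd'd : d' ≠ d := fun h => hd' (by rw [h]; simp)
  obtain ⟨τ, hτ, hτa, hτb, hτc, hτd⟩ := Cfsg.Agent.Helper92.m24_trans4
    (p := a) (q := b) (r := c) (s := d) (p' := a) (q' := b) (r' := c) (s' := d')
    (by
      simp only [List.nodup_cons, List.mem_cons, List.not_mem_nil,
        or_false, not_or, List.nodup_nil, and_true, not_false_eq_true]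
      exact ⟨⟨hab, fun h => hca h.symm, fun h => hda h.symm⟩, ⟨fun h => hcb h.symm,
        fun h => hdb h.symm⟩, fun h => hdc h.symm⟩)
    (by
      simp only [List.nodup_cons, List.mem_cons, List.not_mem_nil,
        or_false, not_or, List.nodup_nil, and_true, not_false_eq_true]
      exact ⟨⟨hab, fun h => hca h.symm, fun h => hd'a h.symm⟩, ⟨fun h => hcb h.symm,
        fun h => hd'b h.symm⟩, fun h => hd'c h.symm⟩)
  have hσ' : τ * σ * τ⁻¹ ∈ N := hconj σ hσ τ hτ
  have hτinv : ∀ x : GolayPt, τ x = x → τ⁻¹ x = x := by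
    intro x hx
    rw [Equiv.Perm.inv_eq_iff_eq]
    exact hx.symm
  have hσ'a : (τ * σ * τ⁻¹) a = b := by
    rw [Equiv.Perm.mul_apply, Equiv.Perm.mul_apply, hτinv a hτa, ← hb, hτb]
  have hfix : (σ * (τ * σ * τ⁻¹)) a = a := by
    rw [Equiv.Perm.mul_apply, hσ'a, hσb]
  have h1 : σ * (τ * σ * τ⁻¹) = 1 :=
    hsemi σ hσ a ha _ (hmul σ hσ _ hσ') a hfix
  have h2 : τ * σ * τ⁻¹ = σ := by
    calc τ * σ * τ⁻¹ = (σ * σ) * (τ * σ * τ⁻¹) := by rw [hsq σ hσ, one_mul]
      _ = σ * (σ * (τ * σ * τ⁻¹)) := by group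
      _ = σ := by rw [h1, mul_one]
  have h3 : (τ * σ * τ⁻¹) c = d' := by
    rw [Equiv.Perm.mul_apply, Equiv.Perm.mul_apply, hτinv c hτc, ← hd, hτd]
  rw [h2, ← hd] at h3
  exact hd'd h3.symm

end Cfsg.Agent.Helper90
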