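import Mathlib
import Cfsg.Agent.Helper92.MonsterType
import Cfsg.Agent.Helper92.LeechMonomial
import Cfsg.Agent.Helper92.LeechCross
import Cfsg.Agent.Helper90.M24Normal

/-!
Helper90: groups of Monster type, induced lattice automorphisms.

`IndAct Rep h γ`: conjugation by `h` on `Q` induces the lattice automorphism `γ` modulo 2.
`PermPart γ σ`: the automorphism `γ` maps the frame vector `8 e_i` to `± 8 e_{σ i}`.
-/

set_option autoImplicit false

namespace Cfsg.Agent.Helper90

open Cfsg Cfsg.Agent.Helper92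

/-- Conjugation by `h` induces the lattice automorphism `γ`. -/
def IndAct {G : Type*} [Group G] (Rep : leechLattice → G → Prop) (h : G) (γ : Co0) : Prop :=
  ∀ v x, Rep v x → Rep (γ • v) (h * x * h⁻¹)

section
variable {G : Type*} [Group G] {z : G} {QG : Subgroup G} {Rep : leechLattice → G → Prop}

theorem IndAct.mul {h h' : G} {γ γ' : Co0} (H : IndAct Rep h γ) (H' : IndAct Rep h' γ') :
    IndAct Rep (h * h') (γ * γ') := by
  intro v x hx
  have h1 := H _ _ (H' _ _ hx)
  have e : h * h' * x * (h * h')⁻¹ = h * (h' * x * h'⁻¹) * h⁻¹ := by group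
  rw [e, mul_smul]
  exact h1

theorem cong_of_rep (M : MSetting z QG Rep) {u u' : leechLattice} {y : G} (h : Rep u y)
    (h' : Rep u' y) : Cong u u' := by
  have h1 := M.mul _ _ _ _ h h'
  obtain ⟨w, hw⟩ := (M.ker _ _ h1).1 (M.sq_cases (M.mem _ _ h))
  refine ⟨w - u', ?_⟩
  calc u = (u + u') - u' := by abel
    _ = (w + w) - u' := by rw [hw]
    _ = u' + ((w - u') + (w - u')) := by abel

theorem IndAct.unique (M : MSetting z QG Rep) {h : G} {γ γ' : Co0} (H : IndAct Rep h γ)
    (H' : IndAct Rep h γ') : γ' = γ ∨ γ' = γ * negAut := by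
  have key : ∀ v : leechLattice, Cong ((γ⁻¹ * γ') • v) v := by
    intro v
    obtain ⟨x, hx⟩ := M.ex v
    have h1 := cong_of_rep M (H' _ _ hx) (H _ _ hx)
    have h2 := h1.smul γ⁻¹
    rw [inv_smul_smul, ← mul_smul] at h2
    exact h2
  rcases eq_one_or_neg_of_trivial_mod_two key with h1 | h1
  · left
    exact (inv_mul_eq_one.mp h1).symm
  · right
    rw [← h1]
    group

theorem ind_of_mem (M : MSetting z QG Rep) {q : G} (hq : q ∈ QG) : IndAct Rep q 1 := by
  intro v x hx
  rw [one_smul]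
  have hxQ := M.mem _ _ hx
  rcases M.les.comm q hq x hxQ with h1 | h1
  · have e : q * x * q⁻¹ = x := by
      calc q * x * q⁻¹ = (q * x * q⁻¹ * x⁻¹) * x := by group
        _ = x := by rw [h1, one_mul]
    rw [e]
    exact hx
  · have e : q * x * q⁻¹ = x * z := by
      calc q * x * q⁻¹ = (q * x * q⁻¹ * x⁻¹) * x := by group
        _ = z * x := by rw [h1]
        _ = x * z := (M.les.central x hxQ).symm
    rw [e]
    exact M.mulz _ _ hx

theorem IndAct.neg (M : MSetting z QG Rep) {h : G} {γ : Co0} (H : IndAct Rep h γ) :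
    IndAct Rep h (γ * negAut) := by
  intro v x hx
  have h1 := H _ _ hx
  have e : (γ * negAut) • v = -(γ • v) := by rw [mul_smul, negAut_smul, co0_neg]
  rw [e]
  exact M.rep_cong h1 ⟨γ • v, by abel⟩

theorem IndAct.inv (M : MSetting z QG Rep) {h : G} (hz : h * z = z * h) {γ : Co0}
    (H : IndAct Rep h γ) : IndAct Rep h⁻¹ γ⁻¹ := by
  intro v x hx
  obtain ⟨x', hx'⟩ := M.ex (γ⁻¹ • v)
  have h1 := H _ _ hx'
  rw [smul_inv_smul] at h1
  rcases M.uniq _ _ _ hx h1 with h2 | h2
  · have e : h⁻¹ * x * h⁻¹⁻¹ = x' := by rw [← h2]; group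
    rw [e]
    exact hx'
  · have hx2 : x = h * x' * h⁻¹ * z := by rw [h2, mul_assoc, M.zsq, mul_one]
    have e : h⁻¹ * x * h⁻¹⁻¹ = x' * z := by
      rw [hx2]
      calc h⁻¹ * (h * x' * h⁻¹ * z) * h⁻¹⁻¹ = x' * (h⁻¹ * (z * h)) := by group
        _ = x' * (h⁻¹ * (h * z)) := by rw [hz]
        _ = x' * z := by group
    rw [e]
    exact M.mulz _ _ hx'

end

/-! ### The permutation part of a monomial automorphism -/

/-- `γ` maps the frame vector `8 e_i` to `± 8 e_{σ i}`. -/
def PermPart (γ : Co0) (σ : Equiv.Perm GolayPt) : Prop :=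
  ∀ i : GolayPt, γ • P i i = P (σ i) (σ i) ∨ γ • P i i = -P (σ i) (σ i)

theorem PermPart.mul {γ γ' : Co0} {σ σ' : Equiv.Perm GolayPt} (H : PermPart γ σ)
    (H' : PermPart γ' σ') : PermPart (γ * γ') (σ * σ') := by
  intro i
  rw [mul_smul, Equiv.Perm.mul_apply]
  rcases H' i with h1 | h1
  · rw [h1]
    exact H (σ' i)
  · rw [h1, co0_neg]
    rcases H (σ' i) with h2 | h2
    · right; rw [h2]
    · left; rw [h2, neg_neg]

theorem PermPart.inv {γ : Co0} {σ : Equiv.Perm GolayPt} (H : PermPart γ σ) :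
    PermPart γ⁻¹ σ⁻¹ := by
  intro j
  have hj : σ (σ⁻¹ j) = j := by simp
  rcases H (σ⁻¹ j) with h1 | h1
  · left
    rw [hj] at h1
    rw [← h1, inv_smul_smul]
  · right
    rw [hj] at h1
    have h2 : P j j = γ • (-P (σ⁻¹ j) (σ⁻¹ j)) := by rw [co0_neg, h1, neg_neg]
    rw [h2, inv_smul_smul]

theorem PermPart.unique {γ : Co0} {σ σ' : Equiv.Perm GolayPt} (H : PermPart γ σ)
    (H' : PermPart γ σ') : σ = σ' := by
  apply Equiv.ext
  intro i
  by_contra hne
  have h1 := P_diag_ne hne
  have h2 := P_diag_ne (fun h => hne h.symm)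
  rcases H i with h3 | h3 <;> rcases H' i with h4 | h4
  · exact h1.1 (h3.symm.trans h4)
  · exact h1.2 (h3.symm.trans h4)
  · exact h2.2 (h4.symm.trans h3)
  · exact h1.1 (neg_injective (h3.symm.trans h4))

theorem permPart_one : PermPart 1 1 := by
  intro i
  left
  rw [one_smul]
  rfl

theorem permPart_negAut : PermPart negAut 1 := by
  intro i
  right
  rw [negAut_smul]
  rfl

theorem permAut_P_diag (τ : Equiv.Perm GolayPt) (hτ : τ ∈ M24) (i : GolayPt) :
    permAut τ hτ • P i i = P (τ i) (τ i) := by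
  apply Subtype.ext
  rw [permAut_smul, P_diag_val, P_diag_val, permFun_single]

theorem permPart_permAut (τ : Equiv.Perm GolayPt) (hτ : τ ∈ M24) :
    PermPart (permAut τ hτ) τ := fun i => Or.inl (permAut_P_diag τ hτ i)

theorem permPart_signAut (c : Finset GolayPt)
    (hc : c ∈ supports (golayCode : Set (GolayPt → ZMod 2))) : PermPart (signAut c hc) 1 := by
  intro i
  by_cases hi : i ∈ c
  · right
    apply Subtype.ext
    rw [signAut_smul, P_diag_val, signFun_single, if_pos hi]
    show (Pi.single i (-8) : GolayPt → ℤ) = -((P i i : leechLattice) : GolayPt → ℤ)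
    rw [P_diag_val, ← Pi.single_neg]
  · left
    apply Subtype.ext
    rw [signAut_smul, P_diag_val, signFun_single, if_neg hi]
    show (Pi.single i 8 : GolayPt → ℤ) = ((P i i : leechLattice) : GolayPt → ℤ)
    rw [P_diag_val]

theorem permPart_monomial (c : Finset GolayPt)
    (hc : c ∈ supports (golayCode : Set (GolayPt → ZMod 2))) (σ : Equiv.Perm GolayPt)
    (hσ : σ ∈ M24) : PermPart (signAut c hc * permAut σ hσ) σ := by
  have h := (permPart_signAut c hc).mul (permPart_permAut σ hσ)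
  rwa [one_mul] at h

theorem permAut_one (h1 : (1 : Equiv.Perm GolayPt) ∈ M24) : permAut 1 h1 = 1 := by
  apply co0_ext
  intro v
  apply Subtype.ext
  rw [permAut_smul, one_smul]
  rfl

/-- All frame vectors are congruent modulo twice the lattice. -/
theorem cong_P_diag (i : GolayPt) : Cong (P i i) U4 := by
  apply Cong.symm
  refine ⟨P none i - P i i, ?_⟩
  apply Subtype.ext
  have h := single_eight_sub i
  have h1 : ((U4 : leechLattice) : GolayPt → ℤ) = Pi.single none 8 := P_diag_val none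
  have h2 : ((P i i : leechLattice) : GolayPt → ℤ) = Pi.single i 8 := P_diag_val i
  rw [AddSubgroup.coe_add, AddSubgroup.coe_add, h1, h2]
  have h3 : (Pi.single none 8 : GolayPt → ℤ) =
      Pi.single i 8 + ((Pi.single none 8 : GolayPt → ℤ) - Pi.single i 8) := by abel
  rw [h3, h, two_smul]

/-- An automorphism fixing the class of `(8, 0^23)` modulo twice the lattice is monomial. -/
theorem monomial_of_cong_U4 {γ : Co0} (h : Cong (γ • U4) U4) :
    ∃ (c : Finset GolayPt) (hc : c ∈ supports (golayCode : Set (GolayPt → ZMod 2)))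
      (σ : Equiv.Perm GolayPt) (hσ : σ ∈ M24), γ = signAut c hc * permAut σ hσ := by
  apply stabCross_eq
  intro v hv
  have hU : ((U4 : leechLattice) : GolayPt → ℤ) = Pi.single none 8 := P_diag_val none
  rw [← cross_single, ← hU] at hv ⊢
  obtain ⟨hy, hn, hc⟩ := (mem_cross_iff U4 _).mp hv
  refine (mem_cross_iff U4 _).mpr ⟨(γ • v).2, ?_, ?_⟩
  · rw [co0_sqNorm]
    exact hn
  · have h1 : Cong (γ • U4) (γ • v) := Cong.smul γ hc
    exact h.symm.trans h1

end Cfsg.Agent.Helper90
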