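import Mathlib
import Cfsg.Agent.Helper90.MonsterInd
import Cfsg.Agent.Helper90.ESAbelian

/-!
Helper90: groups of Monster type. For a conjugate `s` of `z` in `Q` representing the frame vector
`(8, 0^23)`, with `Q1 = F*(C(s))`: every element of `W = C_{Q1}(z)` induces a sign change
`signAut c` on the Leech lattice modulo 2, and `|Q ∩ Q1| = 2^13`.
-/

set_option autoImplicit false

namespace Cfsg.Agent.Helper90

open Cfsg Cfsg.Agent.Helper92 Cfsg.Agent.Helper26

section
variable {G : Type*} [Group G] {z : G} {QG : Subgroup G} {Rep : leechLattice → G → Prop}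

/-- Every coordinate permutation in `M24` is induced by an element centralizing `z` and `s`. -/
theorem exists_ind_permAut (M : MSetting z QG Rep) {s : G} (hs : Rep U4 s)
    (τ : Equiv.Perm GolayPt) (hτ : τ ∈ M24) :
    ∃ h : G, h * z = z * h ∧ h * s = s * h ∧ IndAct Rep h (permAut τ hτ) := by
  obtain ⟨h, hz, hact⟩ := M.act (permAut τ hτ)
  have hact' : IndAct Rep h (permAut τ hτ) := hact
  have h1 := hact _ _ hs
  have h2 : Rep U4 (h * s * h⁻¹) := by
    apply M.rep_cong h1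
    have e : permAut τ hτ • U4 = P (τ none) (τ none) := permAut_P_diag τ hτ none
    rw [e]
    exact cong_P_diag _
  rcases M.uniq _ _ _ hs h2 with h3 | h3
  · refine ⟨h, hz, ?_, hact'⟩
    calc h * s = (h * s * h⁻¹) * h := by group
      _ = s * h := by rw [h3]
  · have hsQ := M.mem _ _ hs
    have hs1z := M.not_central_of_orb hs (Orb.refl U4) (by rw [sqNorm_U4]; norm_num)
      (by rw [sqNorm_U4])
    obtain ⟨q, hq, hqs⟩ := M.les.exists_conj hsQ hs1z.1 hs1z.2
    have hqz : q * z = z * q := M.les.central q hq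
    have hqz' : q⁻¹ * z = z * q⁻¹ := M.les.central q⁻¹ (QG.inv_mem hq)
    have hzs : z * s = s * z := (M.les.central s hsQ).symm
    refine ⟨q⁻¹ * h, ?_, ?_, ?_⟩
    · calc q⁻¹ * h * z = q⁻¹ * (h * z) := by group
        _ = q⁻¹ * (z * h) := by rw [hz]
        _ = (q⁻¹ * z) * h := by group
        _ = (z * q⁻¹) * h := by rw [hqz']
        _ = z * (q⁻¹ * h) := by group
    · have e1 : h * s = s * z * h := by
        calc h * s = (h * s * h⁻¹) * h := by group
          _ = s * z * h := by rw [h3]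
      have e0 : q⁻¹ * s * q = s * z := by
        calc q⁻¹ * s * q = q⁻¹ * (z * (z * s)) * q := by rw [← mul_assoc z z s, M.zsq, one_mul]
          _ = q⁻¹ * (z * (q * s * q⁻¹)) * q := by rw [hqs]
          _ = q⁻¹ * (z * q) * s := by group
          _ = q⁻¹ * (q * z) * s := by rw [hqz]
          _ = z * s := by group
          _ = s * z := hzs
      calc q⁻¹ * h * s = q⁻¹ * (h * s) := by group
        _ = q⁻¹ * (s * z * h) := by rw [e1]
        _ = (q⁻¹ * s * q) * (q⁻¹ * z) * h := by group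
        _ = s * z * (z * q⁻¹) * h := by rw [e0, hqz']
        _ = s * (z * z) * (q⁻¹ * h) := by group
        _ = s * (q⁻¹ * h) := by rw [M.zsq, mul_one]
    · have h4 := (ind_of_mem M (QG.inv_mem hq)).mul hact'
      rwa [one_mul] at h4

/-- Every element of `C_{Q1}(z)` induces a sign change on the lattice. -/
theorem exists_signAut_of_mem (M : MSetting z QG Rep) {s : G} (hs : Rep U4 s)
    {Q1 : Subgroup G} (hQ1 : LES Q1 s) {x : G} (hx : x ∈ Q1) (hxz : x * z = z * x) :
    ∃ (c : Finset GolayPt) (hc : c ∈ supports (golayCode : Set (GolayPt → ZMod 2))),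
      IndAct Rep x (signAut c hc) := by
  have hmono : ∀ y ∈ Q1, ∀ γ, IndAct Rep y γ →
      ∃ (c : Finset GolayPt) (hc : c ∈ supports (golayCode : Set (GolayPt → ZMod 2)))
        (σ : Equiv.Perm GolayPt) (hσ : σ ∈ M24), γ = signAut c hc * permAut σ hσ := by
    intro y hy γ hγ
    apply monomial_of_cong_U4
    have h1 := hγ _ _ hs
    have e : y * s * y⁻¹ = s := by rw [hQ1.central y hy]; group
    rw [e] at h1
    exact cong_of_rep M h1 hs
  have hN : ∀ σ ∈ {σ : Equiv.Perm GolayPt | ∃ y ∈ Q1, y * z = z * y ∧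
      ∃ γ, IndAct Rep y γ ∧ PermPart γ σ}, σ = 1 := by
    apply m24_normal_exponent_two
    · rintro σ ⟨y, hy, hyz, γ, hγ, hp⟩ τ ⟨y', hy', hyz', γ', hγ', hp'⟩
      refine ⟨y * y', Q1.mul_mem hy hy', ?_, γ * γ', hγ.mul hγ', hp.mul hp'⟩
      calc y * y' * z = y * (y' * z) := by group
        _ = y * (z * y') := by rw [hyz']
        _ = (y * z) * y' := by group
        _ = (z * y) * y' := by rw [hyz]
        _ = z * (y * y') := by group
    · rintro σ ⟨y, hy, hyz, γ, hγ, hp⟩ τ hτ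
      obtain ⟨h, hz, hsc, hact⟩ := exists_ind_permAut M hs τ hτ
      refine ⟨h * y * h⁻¹, hQ1.norm h hsc y hy, ?_, permAut τ hτ * γ * (permAut τ hτ)⁻¹,
        (hact.mul hγ).mul (hact.inv M hz),
        ((permPart_permAut τ hτ).mul hp).mul (permPart_permAut τ hτ).inv⟩
      calc h * y * h⁻¹ * z = h * y * (h⁻¹ * (z * h)) * h⁻¹ := by group
        _ = h * y * (h⁻¹ * (h * z)) * h⁻¹ := by rw [hz]
        _ = h * (y * z) * h⁻¹ := by group
        _ = h * (z * y) * h⁻¹ := by rw [hyz]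
        _ = (h * z) * y * h⁻¹ := by group
        _ = (z * h) * y * h⁻¹ := by rw [hz]
        _ = z * (h * y * h⁻¹) := by group
    · rintro σ ⟨y, hy, hyz, γ, hγ, hp⟩
      have hyy : y * y ∈ QG := by
        rcases hQ1.sq_mem hy with h1 | h1
        · rw [h1]; exact QG.one_mem
        · rw [h1]; exact M.mem _ _ hs
      have h1 := IndAct.unique M (ind_of_mem M hyy) (hγ.mul hγ)
      have h2 : PermPart (γ * γ) 1 := by
        rcases h1 with h1 | h1
        · rw [h1]; exact permPart_one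
        · rw [h1, one_mul]; exact permPart_negAut
      exact (hp.mul hp).unique h2
  obtain ⟨γ, hγ⟩ := M.act' x hxz
  have hγ' : IndAct Rep x γ := hγ
  obtain ⟨c, hc, σ, hσ, rfl⟩ := hmono x hx γ hγ'
  have hσ1 : σ = 1 := hN σ ⟨x, hx, hxz, _, hγ', permPart_monomial c hc σ hσ⟩
  subst hσ1
  refine ⟨c, hc, ?_⟩
  rw [permAut_one, mul_one] at hγ'
  exact hγ'

theorem signAut_compl (c : Finset GolayPt)
    (hc : c ∈ supports (golayCode : Set (GolayPt → ZMod 2))) :
    signAut cᶜ (supports_compl hc) = signAut c hc * negAut := by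
  apply co0_ext
  intro v
  apply Subtype.ext
  rw [mul_smul, negAut_smul, signAut_smul, signAut_smul, AddSubgroup.coe_neg]
  funext i
  simp only [signFun_apply, Finset.mem_compl, Pi.neg_apply]
  by_cases hi : i ∈ c
  · simp [hi]
  · simp [hi]

/-- The sign change can be chosen on a code set avoiding the point at infinity. -/
theorem exists_signAut_of_mem' (M : MSetting z QG Rep) {s : G} (hs : Rep U4 s)
    {Q1 : Subgroup G} (hQ1 : LES Q1 s) {x : G} (hx : x ∈ Q1) (hxz : x * z = z * x) :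
    ∃ (c : Finset GolayPt) (hc : c ∈ supports (golayCode : Set (GolayPt → ZMod 2))),
      (none : GolayPt) ∉ c ∧ IndAct Rep x (signAut c hc) := by
  obtain ⟨c, hc, h⟩ := exists_signAut_of_mem M hs hQ1 hx hxz
  by_cases hn : (none : GolayPt) ∈ c
  · refine ⟨cᶜ, supports_compl hc, by simp [hn], ?_⟩
    rw [signAut_compl]
    exact h.neg M
  · exact ⟨c, hc, hn, h⟩

theorem fiber_aux (M : MSetting z QG Rep)
    (hfaith : ∀ h : G, h * z = z * h → IndAct Rep h 1 → h ∈ QG) {x x0 : G}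
    (hx0z : x0 * z = z * x0) (hxz : x * z = z * x) {c c' : Finset GolayPt} (hcc : c = c')
    (hc : c ∈ supports (golayCode : Set (GolayPt → ZMod 2)))
    (hc' : c' ∈ supports (golayCode : Set (GolayPt → ZMod 2)))
    (h : IndAct Rep x (signAut c hc)) (h0 : IndAct Rep x0 (signAut c' hc')) :
    x0⁻¹ * x ∈ QG := by
  subst hcc
  have h1 := (h0.inv M hx0z).mul h
  rw [inv_mul_cancel] at h1
  apply hfaith _ _ h1
  have e : x0⁻¹ * z = z * x0⁻¹ := by
    calc x0⁻¹ * z = x0⁻¹ * (z * x0) * x0⁻¹ := by group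
      _ = x0⁻¹ * (x0 * z) * x0⁻¹ := by rw [hx0z]
      _ = z * x0⁻¹ := by group
  calc x0⁻¹ * x * z = x0⁻¹ * (x * z) := by group
    _ = x0⁻¹ * (z * x) := by rw [hxz]
    _ = (x0⁻¹ * z) * x := by group
    _ = (z * x0⁻¹) * x := by rw [e]
    _ = z * (x0⁻¹ * x) := by group

theorem exists_half_aux (F : Finset (Finset GolayPt)) (hF : ∀ c ∈ F, cᶜ ∈ F)
    (hcard : F.card = 4096) (p : GolayPt) :
    ∃ H : Finset (Finset GolayPt), (∀ c, c ∈ H ↔ c ∈ F ∧ p ∉ c) ∧ H.card ≤ 2048 := by
  refine ⟨F.filter (fun c => p ∉ c), fun c => Finset.mem_filter, ?_⟩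
  have h1 : (F.filter (fun c => p ∈ c)).card + (F.filter (fun c => ¬ p ∈ c)).card = F.card :=
    Finset.card_filter_add_card_filter_not _
  have h2 : (F.filter (fun c => ¬ p ∈ c)).card ≤ (F.filter (fun c => p ∈ c)).card := by
    apply Finset.card_le_card_of_injOn (fun c => cᶜ)
    · intro c hc
      have hc' := Finset.mem_filter.mp (Finset.mem_coe.mp hc)
      refine Finset.mem_coe.mpr (Finset.mem_filter.mpr ⟨hF c hc'.1, ?_⟩)
      rw [Finset.mem_compl]
      exact hc'.2
    · intro c _ c' _ hcc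
      exact compl_injective hcc
  omega

/-- The code sets avoiding the point at infinity: at most 2048 of them. -/
theorem exists_codeHalf : ∃ H : Finset (Finset GolayPt),
    (∀ c, c ∈ H ↔ c ∈ supports (golayCode : Set (GolayPt → ZMod 2)) ∧ (none : GolayPt) ∉ c) ∧
      H.card ≤ 2048 := by
  obtain ⟨H, h1, h2⟩ := exists_half_aux codeF
    (fun c hc => (mem_codeF _).mpr (supports_compl ((mem_codeF c).mp hc))) card_codeF none
  exact ⟨H, fun c => by rw [h1, mem_codeF], h2⟩

end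

section
variable {G : Type*} [Group G] [Finite G] {z : G} {QG : Subgroup G}
  {Rep : leechLattice → G → Prop}

/-- Counting `C_{Q1}(z)` through the induced sign changes. -/
theorem card_le_mul_card_signs (M : MSetting z QG Rep)
    (hfaith : ∀ h : G, h * z = z * h → IndAct Rep h 1 → h ∈ QG) {s : G} (hs : Rep U4 s)
    {Q1 : Subgroup G} (hQ1 : LES Q1 s) :
    ∃ T : Finset (Finset GolayPt),
      (∀ c ∈ T, (none : GolayPt) ∉ c ∧ ∃ x ∈ Q1, x * z = z * x ∧
        ∃ hc : c ∈ supports (golayCode : Set (GolayPt → ZMod 2)), IndAct Rep x (signAut c hc)) ∧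
      Nat.card ↥(Q1 ⊓ Subgroup.centralizer ({z} : Set G)) ≤
        Nat.card ↥(QG ⊓ Q1) * T.card := by
  classical
  have : Fintype G := Fintype.ofFinite G
  have hex : ∀ x : G, ∃ c : Finset GolayPt, x ∈ Q1 ⊓ Subgroup.centralizer ({z} : Set G) →
      ((none : GolayPt) ∉ c ∧ ∃ hc : c ∈ supports (golayCode : Set (GolayPt → ZMod 2)),
        IndAct Rep x (signAut c hc)) := by
    intro x
    by_cases hx : x ∈ Q1 ⊓ Subgroup.centralizer ({z} : Set G)
    · obtain ⟨hx1, hx2⟩ := mem_inf_centralizer_singleton.mp hx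
      obtain ⟨c, hc, hn, h⟩ := exists_signAut_of_mem' M hs hQ1 hx1 hx2
      exact ⟨c, fun _ => ⟨hn, hc, h⟩⟩
    · exact ⟨∅, fun h => absurd h hx⟩
  choose Φ hΦ using hex
  refine ⟨(Finset.univ.filter (fun x => x ∈ Q1 ⊓ Subgroup.centralizer ({z} : Set G))).image Φ,
    ?_, ?_⟩
  · intro c hc
    obtain ⟨x, hx, rfl⟩ := Finset.mem_image.mp hc
    have hxW := (Finset.mem_filter.mp hx).2
    obtain ⟨hn, hc', h⟩ := hΦ x hxW
    obtain ⟨hx1, hx2⟩ := mem_inf_centralizer_singleton.mp hxW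
    exact ⟨hn, x, hx1, hx2, hc', h⟩
  · rw [card_eq_card_filter (Q1 ⊓ Subgroup.centralizer ({z} : Set G))]
    apply Finset.card_le_mul_card_image
    intro a ha
    obtain ⟨x0, hx0, rfl⟩ := Finset.mem_image.mp ha
    have hx0W := (Finset.mem_filter.mp hx0).2
    obtain ⟨-, hc0, h0⟩ := hΦ x0 hx0W
    obtain ⟨hx01, hx02⟩ := mem_inf_centralizer_singleton.mp hx0W
    rw [card_eq_card_filter (QG ⊓ Q1)]
    apply Finset.card_le_card_of_injOn (fun x => x0⁻¹ * x)
    · intro x hx
      have hx' := Finset.mem_filter.mp (Finset.mem_coe.mp hx)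
      have hxW := (Finset.mem_filter.mp hx'.1).2
      obtain ⟨-, hc, h⟩ := hΦ x hxW
      obtain ⟨hx1, hx2⟩ := mem_inf_centralizer_singleton.mp hxW
      have h1 := fiber_aux M hfaith hx02 hx2 hx'.2 hc hc0 h h0
      exact Finset.mem_coe.mpr (Finset.mem_filter.mpr ⟨Finset.mem_univ _,
        Subgroup.mem_inf.mpr ⟨h1, Q1.mul_mem (Q1.inv_mem hx01) hx1⟩⟩)
    · intro x _ y _ hxy
      exact mul_left_cancel hxy

/-- **The normalized main theorem**: if `s = g z g⁻¹` represents the frame vector `(8, 0^23)` then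
`|Q ∩ Q^g| = 2^13`, `|C_{Q^g}(z)| = 2^24`, and the automorphisms induced by `C_{Q^g}(z)` on the
lattice modulo 2 are exactly the sign changes on the code sets. -/
theorem card_inf_of_rep_U4 (M : MSetting z QG Rep)
    (hfaith : ∀ h : G, h * z = z * h → IndAct Rep h 1 → h ∈ QG) (g : G)
    (hg : Rep U4 (g * z * g⁻¹)) :
    Nat.card ↥(QG ⊓ QG.map (MulAut.conj g).toMonoidHom) = 2 ^ 13 ∧
    Nat.card ↥(QG.map (MulAut.conj g).toMonoidHom ⊓ Subgroup.centralizer ({z} : Set G)) =
      2 ^ 24 ∧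
    (∀ x ∈ QG.map (MulAut.conj g).toMonoidHom, x * z = z * x →
      ∃ (c : Finset GolayPt) (hc : c ∈ supports (golayCode : Set (GolayPt → ZMod 2))),
        IndAct Rep x (signAut c hc)) ∧
    (∀ (c : Finset GolayPt) (hc : c ∈ supports (golayCode : Set (GolayPt → ZMod 2))),
      ∃ x ∈ QG.map (MulAut.conj g).toMonoidHom, x * z = z * x ∧
        IndAct Rep x (signAut c hc)) := by
  classical
  have hsQ := M.mem _ _ hg
  have hs1z := M.not_central_of_orb hg (Orb.refl U4) (by rw [sqNorm_U4]; norm_num)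
    (by rw [sqNorm_U4])
  have hc8 : 8 < Nat.card ↥QG := by rw [M.card]; norm_num
  have hpair := pair_of_les M.les hc8 g hsQ hs1z.2
  have hcardQ1 : Nat.card ↥(QG.map (MulAut.conj g).toMonoidHom) = 2 ^ 25 := by
    rw [Subgroup.card_map_of_injective (MulAut.conj g).injective, M.card]
  obtain ⟨Q1, hQ1def⟩ : ∃ Q1 : Subgroup G, Q1 = QG.map (MulAut.conj g).toMonoidHom := ⟨_, rfl⟩
  obtain ⟨s, hsdef⟩ : ∃ s : G, s = g * z * g⁻¹ := ⟨_, rfl⟩
  rw [← hQ1def, ← hsdef] at hpair
  rw [← hsdef] at hg hsQ hs1z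
  rw [← hQ1def] at hcardQ1
  rw [← hQ1def]
  have hQ1 : LES Q1 s := hpair.hQ1
  have hzQ1 : z ∈ Q1 := hpair.aQ1
  have hW := hQ1.two_mul_card_centralizer hzQ1 M.les.ne_one (fun h => hs1z.2 h.symm)
  have hWcard : Nat.card ↥(Q1 ⊓ Subgroup.centralizer ({z} : Set G)) = 2 ^ 24 := by
    rw [hcardQ1] at hW
    norm_num at hW ⊢
    omega
  have hab : ∀ a ∈ QG ⊓ Q1, ∀ b ∈ QG ⊓ Q1, a * b = b * a := by
    intro a ha b hb
    have ha' := Subgroup.mem_inf.mp ha
    have hb' := Subgroup.mem_inf.mp hb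
    have key : a * b * a⁻¹ * b⁻¹ = 1 := by
      rcases M.les.comm a ha'.1 b hb'.1 with h1 | h1
      · exact h1
      · rcases hQ1.comm a ha'.2 b hb'.2 with h2 | h2
        · exact h2
        · exact absurd (h2.symm.trans h1) hs1z.2
    calc a * b = (a * b * a⁻¹ * b⁻¹) * (b * a) := by group
      _ = b * a := by rw [key, one_mul]
  have hsq := M.les.card_sq_le_of_abelian (QG ⊓ Q1) inf_le_left
    (Subgroup.mem_inf.mpr ⟨M.les.mem, hzQ1⟩) hab
  rw [M.card] at hsq
  obtain ⟨T, hT, hle⟩ := card_le_mul_card_signs M hfaith hg hQ1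
  obtain ⟨H, hH, hHcard⟩ := exists_codeHalf
  have hTH : T ⊆ H := by
    intro c hc
    obtain ⟨hn, x, -, -, hc', -⟩ := hT c hc
    exact (hH c).mpr ⟨hc', hn⟩
  have hTcard : T.card ≤ 2048 := (Finset.card_le_card hTH).trans hHcard
  rw [hWcard] at hle
  obtain ⟨n, hn⟩ : ∃ n : ℕ, n = Nat.card ↥(QG ⊓ Q1) := ⟨_, rfl⟩
  rw [← hn] at hsq hle ⊢
  have hn1 : n ≤ 8192 := by
    by_contra hcon
    push Not at hcon
    have h1 : 8193 * 8193 ≤ n * n := Nat.mul_le_mul hcon hcon
    norm_num at hsq h1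
    omega
  have hn2 : 8192 ≤ n := by
    have h1 : n * T.card ≤ n * 2048 := Nat.mul_le_mul_left n hTcard
    norm_num at hle
    omega
  have hn3 : n = 8192 := le_antisymm hn1 hn2
  have hT2 : 2048 ≤ T.card := by
    rw [hn3] at hle
    norm_num at hle
    omega
  have hTeq : T = H := Finset.eq_of_subset_of_card_le hTH (hHcard.trans hT2)
  refine ⟨by rw [hn3]; norm_num, hWcard, ?_, ?_⟩
  · intro x hx hxz
    exact exists_signAut_of_mem M hg hQ1 hx hxz
  · intro c hc
    by_cases hnc : (none : GolayPt) ∈ c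
    · have hc2 : cᶜ ∈ T := by
        rw [hTeq]
        exact (hH _).mpr ⟨supports_compl hc, by simp [hnc]⟩
      obtain ⟨-, x, hx, hxz, hc', h⟩ := hT _ hc2
      refine ⟨x, hx, hxz, ?_⟩
      have h2 := h.neg M
      have e : signAut cᶜ hc' * negAut = signAut c hc := by
        have e1 : signAut cᶜ hc' = signAut c hc * negAut := signAut_compl c hc
        rw [e1, mul_assoc, negAut_mul_self, mul_one]
      rw [e] at h2
      exact h2
    · have hc2 : c ∈ T := by
        rw [hTeq]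
        exact (hH _).mpr ⟨hc, hnc⟩
      obtain ⟨-, x, hx, hxz, hc', h⟩ := hT _ hc2
      exact ⟨x, hx, hxz, h⟩

end

end Cfsg.Agent.Helper90
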