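import Mathlib
import Cfsg.Agent.Helper90.BabyPack
import Cfsg.Agent.Helper90.MonsterE

/-!
Helper90: the centralizer of an involution `t` of `Q` of Leech type 2 in a group of Monster type.

Setting: `MF : MSettingF z QG Rep` and `ht : Rep leechU t` (`t` represents `(4,4,0^22)`).

* `baby_t_mem`, `baby_t_sq`, `baby_t_ne`, `baby_not_conj`: basic facts on `t`.
* `baby_ind_exists`, `baby_ind_unique`, `baby_act_exists`: the correspondence between
  `C_G(z) ∩ C_G(t)` and the stabilizer of `u` in `Co0`.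
* `baby_faithful`: an element of `C_G(z) ∩ C_G(t)` acting trivially on `C_Q(t)` modulo `⟨t, z⟩`
  lies in `Q`.
* `baby_wit`: an element of `C_G(t)` moving `z` into `Q`.
-/

set_option autoImplicit false

namespace Cfsg.Agent.Helper90

open Cfsg Cfsg.Agent.Helper92

section
variable {G : Type*} [Group G] {z t : G} {QG : Subgroup G} {Rep : leechLattice → G → Prop}

theorem baby_t_mem (MF : MSettingF z QG Rep) (ht : Rep Cfsg.Spor.leechU t) : t ∈ QG :=
  MF.toM.mem _ _ ht

theorem baby_t_sq (MF : MSettingF z QG Rep) (ht : Rep Cfsg.Spor.leechU t) : t * t = 1 :=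
  MF.toM.sq_of_orb ht (Orb.refl _) (by rw [sqNorm_leechU]; norm_num)

theorem baby_t_ne (MF : MSettingF z QG Rep) (ht : Rep Cfsg.Spor.leechU t) : t ≠ 1 ∧ t ≠ z :=
  MF.toM.not_central_of_orb ht (Orb.refl _) (by rw [sqNorm_leechU]; norm_num)
    (by rw [sqNorm_leechU]; norm_num)

theorem baby_t_inv (MF : MSettingF z QG Rep) (ht : Rep Cfsg.Spor.leechU t) : t⁻¹ = t :=
  inv_eq_of_mul_eq_one_left (baby_t_sq MF ht)

theorem baby_tz (MF : MSettingF z QG Rep) (ht : Rep Cfsg.Spor.leechU t) : t * z = z * t :=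
  MF.toM.les.central t (baby_t_mem MF ht)

theorem baby_not_conj [Finite G] (MF : MSettingF z QG Rep) {x : G}
    (hx : Rep Cfsg.Spor.leechU x) : ¬ IsConj z x := by
  intro hc
  obtain ⟨g, hg⟩ := isConj_iff.mp hc
  subst hg
  exact MF.no_type2 g (MF.toM.mem _ _ hx) (baby_t_ne MF hx).2 hx

theorem baby_ind_exists (MF : MSettingF z QG Rep) (ht : Rep Cfsg.Spor.leechU t) {h : G}
    (hz : h * z = z * h) (hht : h * t = t * h) :
    ∃ γ : Co0, IndAct Rep h γ ∧ γ • Cfsg.Spor.leechU = Cfsg.Spor.leechU := by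
  have M := MF.toM
  obtain ⟨γ₀, hγ₀⟩ := M.act' h hz
  have e : h * t * h⁻¹ = t := by rw [hht]; group
  have h1 := hγ₀ _ _ ht
  rw [e] at h1
  have hc : Cong (γ₀ • Cfsg.Spor.leechU) Cfsg.Spor.leechU := cong_of_rep M h1 ht
  rcases eq_or_neg_of_cong32 hc (by rw [co0_sqNorm, sqNorm_leechU]) sqNorm_leechU with h2 | h2
  · exact ⟨γ₀, hγ₀, h2⟩
  · refine ⟨γ₀ * negAut, IndAct.neg M hγ₀, ?_⟩
    rw [mul_smul, negAut_smul, co0_neg, h2, neg_neg]

theorem baby_ind_unique (MF : MSettingF z QG Rep) {h : G} {γ γ' : Co0} (H : IndAct Rep h γ)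
    (H' : IndAct Rep h γ') (hγ : γ • Cfsg.Spor.leechU = Cfsg.Spor.leechU)
    (hγ' : γ' • Cfsg.Spor.leechU = Cfsg.Spor.leechU) : γ = γ' := by
  rcases IndAct.unique MF.toM H H' with h1 | h1
  · exact h1.symm
  · exfalso
    rw [h1, mul_smul] at hγ'
    have h2 : γ⁻¹ • (γ • negAut • Cfsg.Spor.leechU) = γ⁻¹ • Cfsg.Spor.leechU :=
      congrArg (fun w => γ⁻¹ • w) hγ'
    rw [inv_smul_smul] at h2
    have h3 : γ⁻¹ • Cfsg.Spor.leechU = Cfsg.Spor.leechU := by
      rw [inv_smul_eq_iff, hγ]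
    exact negAut_leechU_ne (h2.trans h3)

theorem baby_act_exists (MF : MSettingF z QG Rep) (ht : Rep Cfsg.Spor.leechU t) {γ : Co0}
    (hγ : γ • Cfsg.Spor.leechU = Cfsg.Spor.leechU) :
    ∃ h : G, h * z = z * h ∧ h * t = t * h ∧ IndAct Rep h γ := by
  have M := MF.toM
  obtain ⟨h₁, hz₁, H₁⟩ := M.act γ
  have h1 := H₁ _ _ ht
  rw [hγ] at h1
  rcases M.uniq _ _ _ ht h1 with h2 | h2
  · refine ⟨h₁, hz₁, ?_, H₁⟩
    calc h₁ * t = (h₁ * t * h₁⁻¹) * h₁ := by group
      _ = t * h₁ := by rw [h2]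
  · obtain ⟨q, hq, hqt⟩ := M.les.exists_conj (baby_t_mem MF ht) (baby_t_ne MF ht).1
      (baby_t_ne MF ht).2
    have hqz : q * z = z * q := M.les.central q hq
    refine ⟨q * h₁, ?_, ?_, ?_⟩
    · calc q * h₁ * z = q * (h₁ * z) := by group
        _ = q * (z * h₁) := by rw [hz₁]
        _ = (q * z) * h₁ := by group
        _ = (z * q) * h₁ := by rw [hqz]
        _ = z * (q * h₁) := by group
    · calc q * h₁ * t = q * (h₁ * t * h₁⁻¹) * h₁ := by group
        _ = q * (t * z) * h₁ := by rw [h2]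
        _ = (q * t * q⁻¹) * (q * z) * h₁ := by group
        _ = (z * t) * (z * q) * h₁ := by rw [hqt, hqz]
        _ = z * (t * z) * q * h₁ := by group
        _ = z * (z * t) * q * h₁ := by rw [baby_tz MF ht]
        _ = (z * z) * t * q * h₁ := by group
        _ = t * (q * h₁) := by rw [M.zsq]; group
    · have h3 := IndAct.mul (ind_of_mem M hq) H₁
      rwa [one_mul] at h3

theorem baby_perp (MF : MSettingF z QG Rep) (ht : Rep Cfsg.Spor.leechU t) {v : leechLattice}
    {q : G} (hq : Rep v q) : q * t = t * q ↔ v ∈ leechPerpU :=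
  MF.toM.comm_iff hq ht

/-- An element of `C_G(z) ∩ C_G(t)` acting trivially on `C_Q(t)` modulo `⟨t, z⟩` lies in `Q`. -/
theorem baby_faithful (MF : MSettingF z QG Rep) (ht : Rep Cfsg.Spor.leechU t) {h : G}
    (hz : h * z = z * h) (hht : h * t = t * h)
    (hP : ∀ x ∈ QG, x * t = t * x → h * x * h⁻¹ * x⁻¹ = 1 ∨ h * x * h⁻¹ * x⁻¹ = z ∨
      h * x * h⁻¹ * x⁻¹ = t ∨ h * x * h⁻¹ * x⁻¹ = t * z) : h ∈ QG := by
  have M := MF.toM
  obtain ⟨γ, Hγ, hγu⟩ := baby_ind_exists MF ht hz hht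
  have key : ∀ x : leechLattice, (16 : ℤ) ∣ dotInt (x : GolayPt → ℤ) Cfsg.Spor.vecU →
      Cong (γ • x) x ∨ Cong (γ • x) (x + Cfsg.Spor.leechU) := by
    intro x hx
    obtain ⟨q, hq⟩ := M.ex x
    have hqt : q * t = t * q := (baby_perp MF ht hq).mpr hx
    have hqQ := M.mem _ _ hq
    have h1 := Hγ _ _ hq
    have e : h * q * h⁻¹ = (h * q * h⁻¹ * q⁻¹) * q := by group
    rw [e] at h1
    rcases hP q hqQ hqt with h2 | h2 | h2 | h2
    · left
      rw [h2, one_mul] at h1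
      exact cong_of_rep M h1 hq
    · left
      rw [h2, ← M.les.central q hqQ] at h1
      exact cong_of_rep M h1 (M.mulz _ _ hq)
    · right
      rw [h2, ← hqt] at h1
      exact cong_of_rep M h1 (M.mul _ _ _ _ hq ht)
    · right
      have e2 : t * z * q = q * t * z := by
        calc t * z * q = t * (z * q) := by group
          _ = t * (q * z) := by rw [M.les.central q hqQ]
          _ = (t * q) * z := by group
          _ = q * t * z := by rw [hqt]
      rw [h2, e2] at h1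
      exact cong_of_rep M h1 (M.mulz _ _ (M.mul _ _ _ _ hq ht))
  rcases eq_one_or_neg_of_trivial_perp γ key with h1 | h1
  · rw [h1] at Hγ
    exact MF.faith h hz (fun v x hx => by
      have h2 := Hγ v x hx
      rwa [one_smul] at h2)
  · exfalso
    rw [h1] at hγu
    exact negAut_leechU_ne hγu

/-- An element of `C_G(t)` moving `z` to another element of `Q`. -/
theorem baby_wit [Finite G] (MF : MSettingF z QG Rep) (ht : Rep Cfsg.Spor.leechU t) :
    ∃ g : G, g * t = t * g ∧ g * z * g⁻¹ ∈ QG ∧ g * z * g⁻¹ ≠ z := by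
  have M := MF.toM
  obtain ⟨g, k, hgQ, hgz, hkQ, hkQ1, x, hx, hox⟩ := MF.exists_type2_inf
  have hk1z := M.not_central_of_orb hx hox (by rw [sqNorm_leechU]; norm_num)
    (by rw [sqNorm_leechU]; norm_num)
  obtain ⟨h, hhz, hhk⟩ := M.exists_conj_of_orb hx ht hox hk1z.1 hk1z.2
  have htQ := baby_t_mem MF ht
  have htt := baby_t_sq MF ht
  have ht1 := (baby_t_ne MF ht).1
  -- `t₂ = g⁻¹ k g`
  have ht2Q : g⁻¹ * k * g ∈ QG := (mem_map_conj_iff QG g k).mp hkQ1
  have e2 : g⁻¹ * k * g = (h * g)⁻¹ * t * (h * g) := by rw [← hhk]; group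
  have hconj : IsConj (g⁻¹ * k * g) t := by
    rw [isConj_iff]
    exact ⟨h * g, by rw [e2]; group⟩
  have ht2sq : (g⁻¹ * k * g) * (g⁻¹ * k * g) = 1 := by
    rw [e2]
    calc (h * g)⁻¹ * t * (h * g) * ((h * g)⁻¹ * t * (h * g))
        = (h * g)⁻¹ * (t * t) * (h * g) := by group
      _ = 1 := by rw [htt]; group
  have ht2ne : g⁻¹ * k * g ≠ 1 := by
    intro h1
    apply ht1
    have e3 : t = (h * g) * (g⁻¹ * k * g) * (h * g)⁻¹ := by rw [e2]; group
    rw [e3, h1]
    group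
  have hnc : ¬ IsConj z (g⁻¹ * k * g) := fun hc => baby_not_conj MF ht (hc.trans hconj)
  obtain ⟨c, hcz, hct⟩ := M.noncentral_invol_trans ht2Q htQ ht2sq htt ht2ne ht1 hnc
    (baby_not_conj MF ht)
  have hcz' : c⁻¹ * z * c = z := by
    calc c⁻¹ * z * c = c⁻¹ * (z * c) := by group
      _ = c⁻¹ * (c * z) := by rw [hcz]
      _ = z := by group
  have e4 : h * g * c⁻¹ * z * (h * g * c⁻¹)⁻¹ = h * (g * z * g⁻¹) * h⁻¹ := by
    calc h * g * c⁻¹ * z * (h * g * c⁻¹)⁻¹ = h * g * (c⁻¹ * z * c) * g⁻¹ * h⁻¹ := by group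
      _ = h * (g * z * g⁻¹) * h⁻¹ := by rw [hcz']; group
  refine ⟨h * g * c⁻¹, ?_, ?_, ?_⟩
  · have e5 : h * g * c⁻¹ * t * (h * g * c⁻¹)⁻¹ = t := by
      calc h * g * c⁻¹ * t * (h * g * c⁻¹)⁻¹
          = (h * g) * (c⁻¹ * t * c) * (h * g)⁻¹ := by group
        _ = (h * g) * (g⁻¹ * k * g) * (h * g)⁻¹ := by rw [← hct]; group
        _ = h * k * h⁻¹ := by group
        _ = t := hhk
    calc h * g * c⁻¹ * t = (h * g * c⁻¹ * t * (h * g * c⁻¹)⁻¹) * (h * g * c⁻¹) := by group
      _ = t * (h * g * c⁻¹) := by rw [e5]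
  · rw [e4]
    exact M.les.norm h hhz _ hgQ
  · rw [e4]
    intro h1
    apply hgz
    have hhz' : h⁻¹ * z * h = z := by
      calc h⁻¹ * z * h = h⁻¹ * (z * h) := by group
        _ = h⁻¹ * (h * z) := by rw [hhz]
        _ = z := by group
    calc g * z * g⁻¹ = h⁻¹ * (h * (g * z * g⁻¹) * h⁻¹) * h := by group
      _ = h⁻¹ * z * h := by rw [h1]
      _ = z := hhz'

end

/-! ### The quotient `C_G(t) / ⟨t⟩` -/

theorem mem_zpowers_of_sq {G : Type*} [Group G] {t : G} (htt : t * t = 1) (x : G) :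
    x ∈ Subgroup.zpowers t ↔ x = 1 ∨ x = t := by
  constructor
  · intro hx
    obtain ⟨k, rfl⟩ := Subgroup.mem_zpowers_iff.mp hx
    have h2 : t ^ (2 : ℤ) = 1 := by rw [zpow_two]; exact htt
    rcases Int.even_or_odd' k with ⟨m, rfl | rfl⟩
    · left
      rw [zpow_mul, h2, one_zpow]
    · right
      rw [zpow_add, zpow_mul, h2, one_zpow, one_mul, zpow_one]
  · rintro (rfl | rfl)
    · exact Subgroup.one_mem _
    · exact Subgroup.mem_zpowers _

theorem card_quot_map {G : Type*} [Group G] (T A : Subgroup G) [hn : (A.subgroupOf T).Normal]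
    (P : Subgroup G) (hAP : A ≤ P) (hPT : P ≤ T) :
    Nat.card ↥P = Nat.card ↥A *
      Nat.card ↥((P.subgroupOf T).map (QuotientGroup.mk' (A.subgroupOf T))) := by
  have h1 := QuotientGroup.card_preimage_mk (A.subgroupOf T)
    (((P.subgroupOf T).map (QuotientGroup.mk' (A.subgroupOf T)) :
      Subgroup (↥T ⧸ A.subgroupOf T)) : Set (↥T ⧸ A.subgroupOf T))
  have h2 : (QuotientGroup.mk ⁻¹' (((P.subgroupOf T).map (QuotientGroup.mk' (A.subgroupOf T)) :
      Subgroup (↥T ⧸ A.subgroupOf T)) : Set (↥T ⧸ A.subgroupOf T))) =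
      ((P.subgroupOf T : Subgroup ↥T) : Set ↥T) := by
    ext x
    constructor
    · rintro ⟨y, hy, hyx⟩
      have h3 : (y : ↥T)⁻¹ * x ∈ A.subgroupOf T := QuotientGroup.eq.mp hyx
      have h4 : (y⁻¹ * x : ↥T) ∈ P.subgroupOf T :=
        Subgroup.mem_subgroupOf.mpr (hAP (Subgroup.mem_subgroupOf.mp h3))
      have h5 : x = y * (y⁻¹ * x) := by group
      rw [h5]
      exact (P.subgroupOf T).mul_mem hy h4
    · intro hx
      exact ⟨x, hx, rfl⟩
  rw [h2] at h1
  have h3 : Nat.card ↥(P.subgroupOf T) = Nat.card ↥P :=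
    Nat.card_congr (Subgroup.subgroupOfEquivOfLe hPT).toEquiv
  have h4 : Nat.card ↥(A.subgroupOf T) = Nat.card ↥A :=
    Nat.card_congr (Subgroup.subgroupOfEquivOfLe (hAP.trans hPT)).toEquiv
  rw [← h3, ← h4]
  exact h1

section
variable {G : Type*} [Group G] [Finite G] {z t : G} {QG : Subgroup G}
  {Rep : leechLattice → G → Prop}

theorem baby_comm_z (MF : MSettingF z QG Rep) (ht : Rep Cfsg.Spor.leechU t) {c : G}
    (h : (z * c)⁻¹ * (c * z) ∈ Subgroup.zpowers t) : c * z = z * c := by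
  have M := MF.toM
  rcases (mem_zpowers_of_sq (baby_t_sq MF ht) _).mp h with h1 | h1
  · exact (inv_mul_eq_one.mp h1).symm
  · exfalso
    have hzinv : z⁻¹ = z := M.les.inv_eq
    have e : c⁻¹ * z * c⁻¹⁻¹ = t * z := by
      have e1 : c⁻¹ * z * c⁻¹⁻¹ = ((z * c)⁻¹ * (c * z) * z⁻¹)⁻¹ := by group
      rw [e1, h1, hzinv, mul_inv_rev, hzinv, baby_t_inv MF ht, baby_tz MF ht]
    exact baby_not_conj MF (M.mulz _ _ ht) (isConj_iff.mpr ⟨c⁻¹, e⟩)

theorem baby_ker (MF : MSettingF z QG Rep) (ht : Rep Cfsg.Spor.leechU t) {v : leechLattice}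
    {q : G} (hR : Rep v q) :
    (q = 1 ∨ q = z ∨ q = t ∨ q = t * z) ↔
      ((∃ w : leechLattice, v = w + w) ∨
        ∃ w : leechLattice, v = Cfsg.Spor.leechU + (w + w)) := by
  have M := MF.toM
  constructor
  · rintro (h | h | h | h)
    · left
      exact (M.ker _ _ hR).mp (Or.inl h)
    · left
      exact (M.ker _ _ hR).mp (Or.inr h)
    · right
      rw [h] at hR
      exact cong_of_rep M hR ht
    · right
      rw [h] at hR
      exact cong_of_rep M hR (M.mulz _ _ ht)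
  · rintro (h | h)
    · rcases (M.ker _ _ hR).mpr h with h1 | h1
      · exact Or.inl h1
      · exact Or.inr (Or.inl h1)
    · have h1 : Rep Cfsg.Spor.leechU q := M.rep_cong hR h
      rcases M.uniq _ _ _ ht h1 with h2 | h2
      · exact Or.inr (Or.inr (Or.inl h2))
      · exact Or.inr (Or.inr (Or.inr h2))

theorem baby_cent (MF : MSettingF z QG Rep) (ht : Rep Cfsg.Spor.leechU t) {c : G}
    (hct : c * t = t * c)
    (hc : ∀ p ∈ QG, p * t = t * p → (c * p)⁻¹ * (p * c) ∈ Subgroup.zpowers t) :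
    c = 1 ∨ c = z ∨ c = t ∨ c = z * t := by
  have M := MF.toM
  have htQ := baby_t_mem MF ht
  have htt := baby_t_sq MF ht
  have hA := mem_zpowers_of_sq htt
  have hcz : c * z = z * c := by
    apply baby_comm_z MF ht
    have h1 := hc z M.les.mem (baby_tz MF ht).symm
    have h2 := (Subgroup.zpowers t).inv_mem h1
    have e : ((c * z)⁻¹ * (z * c))⁻¹ = (z * c)⁻¹ * (c * z) := by group
    rwa [e] at h2
  have hcz' : c⁻¹ * z = z * c⁻¹ := by
    calc c⁻¹ * z = c⁻¹ * (z * c) * c⁻¹ := by group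
      _ = c⁻¹ * (c * z) * c⁻¹ := by rw [hcz]
      _ = z * c⁻¹ := by group
  have hct' : c⁻¹ * t = t * c⁻¹ := by
    calc c⁻¹ * t = c⁻¹ * (t * c) * c⁻¹ := by group
      _ = c⁻¹ * (c * t) * c⁻¹ := by rw [hct]
      _ = t * c⁻¹ := by group
  have hcinvQ : c⁻¹ ∈ QG := by
    apply baby_faithful MF ht hcz' hct'
    intro x hx hxt
    have e : c⁻¹ * x * c⁻¹⁻¹ * x⁻¹ = x * ((c * x)⁻¹ * (x * c)) * x⁻¹ := by group
    rw [e]
    rcases (hA _).mp (hc x hx hxt) with h1 | h1
    · left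
      rw [h1]
      group
    · right; right; left
      rw [h1, hxt]
      group
  have hcQ : c ∈ QG := by
    have := QG.inv_mem hcinvQ
    rwa [inv_inv] at this
  have hcomm : ∀ q ∈ QG, q * t = t * q → q * c = c * q := by
    intro q hq hqt
    have h1 := hc q hq hqt
    have e : (c * q)⁻¹ * (q * c) = q⁻¹ * c⁻¹ * q⁻¹⁻¹ * c⁻¹⁻¹ := by group
    rcases M.les.comm q⁻¹ (QG.inv_mem hq) c⁻¹ hcinvQ with h2 | h2
    · rw [← e] at h2
      exact (inv_mul_eq_one.mp h2).symm
    · exfalso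
      rw [← e] at h2
      rw [h2] at h1
      rcases (hA _).mp h1 with h3 | h3
      · exact M.les.ne_one h3
      · exact (baby_t_ne MF ht).2 h3.symm
  exact M.les.double_centralizer htQ htt hcQ hcomm

/-- **The elementwise data of `C_G(t) / ⟨t⟩`.** -/
theorem baby_data (MF : MSettingF z QG Rep) (ht : Rep Cfsg.Spor.leechU t)
    [hn : ((Subgroup.zpowers t).subgroupOf (Subgroup.centralizer ({t} : Set G))).Normal] :
    ∃ (ζ : ↥(Subgroup.centralizer ({t} : Set G)) ⧸
          (Subgroup.zpowers t).subgroupOf (Subgroup.centralizer ({t} : Set G)))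
      (PD : Subgroup (↥(Subgroup.centralizer ({t} : Set G)) ⧸
          (Subgroup.zpowers t).subgroupOf (Subgroup.centralizer ({t} : Set G))))
      (RepD : leechLattice → ↥(Subgroup.centralizer ({t} : Set G)) ⧸
          (Subgroup.zpowers t).subgroupOf (Subgroup.centralizer ({t} : Set G)) → Prop)
      (RelD : ↥(Subgroup.centralizer ({t} : Set G)) ⧸
          (Subgroup.zpowers t).subgroupOf (Subgroup.centralizer ({t} : Set G)) → Co0 → Prop),
      BabyData ζ PD RepD RelD := by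
  have M := MF.toM
  have htQ := baby_t_mem MF ht
  have htt := baby_t_sq MF ht
  have ht1 := (baby_t_ne MF ht).1
  have htz := (baby_t_ne MF ht).2
  have htzc := baby_tz MF ht
  have hzinv : z⁻¹ = z := M.les.inv_eq
  have hA := mem_zpowers_of_sq htt
  have hTm : ∀ x : G, x ∈ Subgroup.centralizer ({t} : Set G) ↔ x * t = t * x :=
    fun x => mem_centralizer_singleton_iff t x
  have hzT : z ∈ Subgroup.centralizer ({t} : Set G) := (hTm z).mpr htzc.symm
  have hzQ : z ∈ QG := M.les.mem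
  have hPm : ∀ x : G, x ∈ QG ⊓ Subgroup.centralizer ({t} : Set G) ↔ x ∈ QG ∧ x * t = t * x :=
    fun x => by rw [Subgroup.mem_inf, hTm]
  -- the extraspecial data
  have hles : LES (((QG ⊓ Subgroup.centralizer ({t} : Set G)).subgroupOf
      (Subgroup.centralizer ({t} : Set G))).map (QuotientGroup.mk'
        ((Subgroup.zpowers t).subgroupOf (Subgroup.centralizer ({t} : Set G)))))
      (QuotientGroup.mk' ((Subgroup.zpowers t).subgroupOf (Subgroup.centralizer ({t} : Set G)))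
        ⟨z, hzT⟩) := by
    apply les_quot (Subgroup.centralizer ({t} : Set G)) (Subgroup.zpowers t)
      (QG ⊓ Subgroup.centralizer ({t} : Set G)) z hzT
    · exact (hPm z).mpr ⟨hzQ, htzc.symm⟩
    · intro h
      rcases (hA z).mp h with h1 | h1
      · exact M.les.ne_one h1
      · exact htz h1.symm
    · rw [M.zsq]
      exact Subgroup.one_mem _
    · intro p hp _
      have h1 : (z * p)⁻¹ * (p * z) = 1 := by
        rw [M.les.central p ((hPm p).mp hp).1]
        group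
      rw [h1]
      exact Subgroup.one_mem _
    · intro x hx _ y hy _
      rcases M.les.comm x ((hPm x).mp hx).1 y ((hPm y).mp hy).1 with h1 | h1
      · left
        rw [h1]
        exact Subgroup.one_mem _
      · right
        rw [h1, inv_mul_cancel]
        exact Subgroup.one_mem _
    · intro c hc hcp
      have hct := (hTm c).mp hc
      rcases baby_cent MF ht hct (fun p hp hpt => hcp p ((hPm p).mpr ⟨hp, hpt⟩)
        ((hTm p).mpr hpt)) with h1 | h1 | h1 | h1
      · left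
        rw [h1]
        exact Subgroup.one_mem _
      · right
        rw [h1, inv_mul_cancel]
        exact Subgroup.one_mem _
      · left
        rw [h1]
        exact Subgroup.mem_zpowers _
      · right
        rw [h1, inv_mul_cancel_left]
        exact Subgroup.mem_zpowers _
    · intro c hc hcz p hp hpT
      have hcz' := baby_comm_z MF ht hcz
      refine ⟨c * p * c⁻¹, (hPm _).mpr ⟨M.les.norm c hcz' p ((hPm p).mp hp).1, ?_⟩, ?_, ?_⟩
      · exact (hTm _).mp (Subgroup.mul_mem _ (Subgroup.mul_mem _ hc hpT) (Subgroup.inv_mem _ hc))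
      · exact Subgroup.mul_mem _ (Subgroup.mul_mem _ hc hpT) (Subgroup.inv_mem _ hc)
      · rw [inv_mul_cancel]
        exact Subgroup.one_mem _
  -- the order
  have hcard : Nat.card ↥(((QG ⊓ Subgroup.centralizer ({t} : Set G)).subgroupOf
      (Subgroup.centralizer ({t} : Set G))).map (QuotientGroup.mk'
        ((Subgroup.zpowers t).subgroupOf (Subgroup.centralizer ({t} : Set G))))) = 2 ^ 23 := by
    have hAP : Subgroup.zpowers t ≤ QG ⊓ Subgroup.centralizer ({t} : Set G) := by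
      rw [Subgroup.zpowers_le]
      exact (hPm t).mpr ⟨htQ, rfl⟩
    have h1 := card_quot_map (Subgroup.centralizer ({t} : Set G)) (Subgroup.zpowers t)
      (QG ⊓ Subgroup.centralizer ({t} : Set G)) hAP inf_le_right
    have h2 := M.les.two_mul_card_centralizer htQ ht1 htz
    rw [M.card] at h2
    have hp2 : Fact (Nat.Prime 2) := ⟨Nat.prime_two⟩
    have h3 : Nat.card ↥(Subgroup.zpowers t) = 2 := by
      rw [Nat.card_zpowers]
      exact orderOf_eq_prime (by rw [pow_two]; exact htt) ht1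
    rw [h3] at h1
    obtain ⟨n, hn'⟩ : ∃ n : ℕ, n = Nat.card ↥(((QG ⊓ Subgroup.centralizer ({t} : Set G)).subgroupOf
      (Subgroup.centralizer ({t} : Set G))).map (QuotientGroup.mk'
        ((Subgroup.zpowers t).subgroupOf (Subgroup.centralizer ({t} : Set G))))) := ⟨_, rfl⟩
    obtain ⟨m, hm⟩ : ∃ m : ℕ, m = Nat.card ↥(QG ⊓ Subgroup.centralizer ({t} : Set G)) :=
      ⟨_, rfl⟩
    rw [← hn', ← hm] at h1
    rw [← hm] at h2
    rw [← hn']
    have e25 : (2 : ℕ) ^ 25 = 33554432 := by norm_num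
    have e23 : (2 : ℕ) ^ 23 = 8388608 := by norm_num
    rw [e25] at h2
    rw [e23]
    omega
  refine ⟨QuotientGroup.mk' _ ⟨z, hzT⟩,
    ((QG ⊓ Subgroup.centralizer ({t} : Set G)).subgroupOf
      (Subgroup.centralizer ({t} : Set G))).map (QuotientGroup.mk' _),
    fun v d => ∃ (q : G) (hq : q ∈ Subgroup.centralizer ({t} : Set G)), q ∈ QG ∧ Rep v q ∧
      d = QuotientGroup.mk' _ ⟨q, hq⟩,
    fun y γ => γ • Cfsg.Spor.leechU = Cfsg.Spor.leechU ∧
      ∃ (h : G) (hT : h ∈ Subgroup.centralizer ({t} : Set G)), h * z = z * h ∧ IndAct Rep h γ ∧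
        y = QuotientGroup.mk' _ ⟨h, hT⟩, ?_⟩
  refine
    { les := hles
      card := hcard
      mem := ?_
      perp := ?_
      ex := ?_
      surj := ?_
      mul := ?_
      uniq := ?_
      mulz := ?_
      ker := ?_
      rel_tot := ?_
      rel_fix := ?_
      rel_comm := ?_
      rel_uniq := ?_
      rel_mul := ?_
      rel_surj := ?_
      rel_ker := ?_
      rel_act := ?_
      wit := ?_ }
  · -- mem
    rintro v d ⟨q, hq, hqQ, -, rfl⟩
    exact Subgroup.mem_map_of_mem _ (Subgroup.mem_subgroupOf.mpr ((hPm q).mpr ⟨hqQ, (hTm q).mp hq⟩))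
  · -- perp
    rintro v d ⟨q, hq, -, hR, -⟩
    exact (baby_perp MF ht hR).mp ((hTm q).mp hq)
  · -- ex
    intro v hv
    obtain ⟨q, hq⟩ := M.ex v
    exact ⟨_, q, (hTm q).mpr ((baby_perp MF ht hq).mpr hv), M.mem _ _ hq, hq, rfl⟩
  · -- surj
    rintro d ⟨y, hy, rfl⟩
    have hyQ : (y : G) ∈ QG := ((hPm _).mp (Subgroup.mem_subgroupOf.mp hy)).1
    obtain ⟨v, hv⟩ := M.surj _ hyQ
    exact ⟨v, y.1, y.2, hyQ, hv, rfl⟩
  · -- mul
    rintro v w d d' ⟨q, hq, hqQ, hR, rfl⟩ ⟨q', hq', hqQ', hR', rfl⟩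
    exact ⟨q * q', Subgroup.mul_mem _ hq hq', QG.mul_mem hqQ hqQ', M.mul _ _ _ _ hR hR', rfl⟩
  · -- uniq
    rintro v d d' ⟨q, hq, hqQ, hR, rfl⟩ ⟨q', hq', hqQ', hR', rfl⟩
    rcases M.uniq _ _ _ hR hR' with h1 | h1
    · left
      subst h1
      rfl
    · right
      subst h1
      rfl
  · -- mulz
    rintro v d ⟨q, hq, hqQ, hR, rfl⟩
    exact ⟨q * z, Subgroup.mul_mem _ hq hzT, QG.mul_mem hqQ hzQ, M.mulz _ _ hR, rfl⟩
  · -- ker
    rintro v d ⟨q, hq, hqQ, hR, rfl⟩
    rw [← baby_ker MF ht hR, quot_eq_one_iff, quot_eq_iff, hA, hA]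
    constructor
    · rintro ((h | h) | (h | h))
      · exact Or.inl h
      · exact Or.inr (Or.inr (Or.inl h))
      · right; left
        exact (inv_mul_eq_one.mp h)
      · right; right; right
        have e : q = z * (q⁻¹ * z)⁻¹ := by group
        rw [e, h, baby_t_inv MF ht, htzc]
    · rintro (h | h | h | h)
      · exact Or.inl (Or.inl h)
      · right; left
        rw [h, inv_mul_cancel]
      · exact Or.inl (Or.inr h)
      · right; right
        rw [h, mul_inv_rev, hzinv, baby_t_inv MF ht, ← htzc, mul_assoc, M.zsq, mul_one]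
  · -- rel_tot
    intro y hy
    obtain ⟨h, hT, rfl⟩ := quot_exists (Subgroup.centralizer ({t} : Set G)) (Subgroup.zpowers t) y
    rw [← map_mul, ← map_mul] at hy
    have h1 := (quot_eq_iff (Subgroup.centralizer ({t} : Set G)) (Subgroup.zpowers t)
      (Subgroup.mul_mem _ hT hzT) (Subgroup.mul_mem _ hzT hT)).mp hy
    have h2 := (Subgroup.zpowers t).inv_mem h1
    have e : ((h * z)⁻¹ * (z * h))⁻¹ = (z * h)⁻¹ * (h * z) := by group
    rw [e] at h2
    have hz := baby_comm_z MF ht h2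
    obtain ⟨γ, Hγ, hγu⟩ := baby_ind_exists MF ht hz ((hTm h).mp hT)
    exact ⟨γ, hγu, h, hT, hz, Hγ, rfl⟩
  · -- rel_fix
    rintro y γ ⟨hu, -⟩
    exact hu
  · -- rel_comm
    rintro y γ ⟨-, h, hT, hz, -, rfl⟩
    rw [← map_mul, ← map_mul]
    congr 1
    exact Subtype.ext hz
  · -- rel_uniq
    rintro y γ γ' ⟨hu, h, hT, hz, H, rfl⟩ ⟨hu', h', hT', hz', H', heq⟩
    have h1 := (quot_eq_iff (Subgroup.centralizer ({t} : Set G)) (Subgroup.zpowers t) hT hT').mp heq
    rcases (hA _).mp h1 with h2 | h2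
    · have h3 : h' = h := (inv_mul_eq_one.mp h2).symm
      rw [h3] at H'
      exact baby_ind_unique MF H H' hu hu'
    · have h3 : h' = h * t := eq_mul_of_inv_mul_eq h2
      rw [h3] at H'
      have H2 := IndAct.mul H (ind_of_mem M htQ)
      rw [mul_one] at H2
      exact baby_ind_unique MF H2 H' hu hu'
  · -- rel_mul
    rintro y y' γ γ' ⟨hu, h, hT, hz, H, rfl⟩ ⟨hu', h', hT', hz', H', rfl⟩
    refine ⟨by rw [mul_smul, hu', hu], h * h', Subgroup.mul_mem _ hT hT', ?_, IndAct.mul H H', rfl⟩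
    calc h * h' * z = h * (h' * z) := by group
      _ = h * (z * h') := by rw [hz']
      _ = (h * z) * h' := by group
      _ = (z * h) * h' := by rw [hz]
      _ = z * (h * h') := by group
  · -- rel_surj
    intro γ hγ
    obtain ⟨h, hz, hht, H⟩ := baby_act_exists MF ht hγ
    exact ⟨_, hγ, h, (hTm h).mpr hht, hz, H, rfl⟩
  · -- rel_ker
    intro y
    constructor
    · rintro ⟨-, h, hT, hz, H, rfl⟩
      have hQ : h ∈ QG := MF.faith h hz (fun v x hx => by
        have h2 := H v x hx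
        rwa [one_smul] at h2)
      exact Subgroup.mem_map_of_mem _
        (Subgroup.mem_subgroupOf.mpr ((hPm h).mpr ⟨hQ, (hTm h).mp hT⟩))
    · rintro ⟨p, hp, rfl⟩
      have hpQ : (p : G) ∈ QG := ((hPm _).mp (Subgroup.mem_subgroupOf.mp hp)).1
      exact ⟨one_smul _ _, p.1, p.2, M.les.central _ hpQ, ind_of_mem M hpQ, rfl⟩
  · -- rel_act
    rintro y γ v d ⟨-, h, hT, hz, H, rfl⟩ ⟨q, hq, hqQ, hR, rfl⟩
    exact ⟨h * q * h⁻¹, Subgroup.mul_mem _ (Subgroup.mul_mem _ hT hq) (Subgroup.inv_mem _ hT),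
      M.les.norm h hz q hqQ, H _ _ hR, rfl⟩
  · -- wit
    obtain ⟨g, hgt, hgQ, hgz⟩ := baby_wit MF ht
    have hgT : g ∈ Subgroup.centralizer ({t} : Set G) := (hTm g).mpr hgt
    have hsT : g * z * g⁻¹ ∈ Subgroup.centralizer ({t} : Set G) :=
      Subgroup.mul_mem _ (Subgroup.mul_mem _ hgT hzT) (Subgroup.inv_mem _ hgT)
    refine ⟨QuotientGroup.mk' _ ⟨g, hgT⟩, ?_, ?_⟩
    · exact Subgroup.mem_map_of_mem _
        (Subgroup.mem_subgroupOf.mpr ((hPm _).mpr ⟨hgQ, (hTm _).mp hsT⟩))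
    · intro heq
      have heq' : QuotientGroup.mk' ((Subgroup.zpowers t).subgroupOf
          (Subgroup.centralizer ({t} : Set G))) ⟨g * z * g⁻¹, hsT⟩ =
          QuotientGroup.mk' _ ⟨z, hzT⟩ := heq
      have h1 := (quot_eq_iff (Subgroup.centralizer ({t} : Set G)) (Subgroup.zpowers t)
        hsT hzT).mp heq'
      rcases (hA _).mp h1 with h2 | h2
      · exact hgz (inv_mul_eq_one.mp h2)
      · have e : g * z * g⁻¹ = t * z := by
          have e1 : g * z * g⁻¹ = z * ((g * z * g⁻¹)⁻¹ * z)⁻¹ := by group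
          rw [e1, h2, baby_t_inv MF ht, htzc]
        exact baby_not_conj MF (M.mulz _ _ ht) (isConj_iff.mpr ⟨g, e⟩)

/-- **`C_G(t) / ⟨t⟩` is of Baby Monster type.** -/
theorem baby_core (MF : MSettingF z QG Rep) (ht : Rep Cfsg.Spor.leechU t)
    [hn : ((Subgroup.zpowers t).subgroupOf (Subgroup.centralizer ({t} : Set G))).Normal] :
    Cfsg.IsOfBabyMonsterType (↥(Subgroup.centralizer ({t} : Set G)) ⧸
      (Subgroup.zpowers t).subgroupOf (Subgroup.centralizer ({t} : Set G))) := by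
  obtain ⟨ζ, PD, RepD, RelD, B⟩ := baby_data MF ht
  exact B.baby_of_data

end

end Cfsg.Agent.Helper90
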