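import Mathlib
import Cfsg.Prelude.Def_Transfer
import Cfsg.Agent.Helper90.ClifGroup

set_option autoImplicit false
set_option linter.unusedSectionVars false
set_option linter.style.haveILetI false

/-!
# The kernel of `θ` is extraspecial of order `2 * |V|`

(helper90, for S3084.)
-/

namespace Cfsg.Agent.Helper90.Clif

variable {V : Type*} [AddCommGroup V] [Module (ZMod 2) V] [Fintype V] [DecidableEq V]
variable {β : V →ₗ[ZMod 2] V →ₗ[ZMod 2] ZMod 2}
variable {K : Type*} [Group K] {ρ : Representation (ZMod 2) K V}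

namespace Model

variable {R : Type*} [Group R] (m : Model β ρ R)

theorem isExtraspecial_ker [Finite R] (hnd : ∀ w : V, (∀ u, β u w + β w u = 0) → w = 0)
    (hV2 : ∃ w : V, w ≠ 0) : Cfsg.IsExtraspecial 2 m.θ.ker := by
  obtain ⟨z₀, hz1, hz2⟩ := m.exists_ker 1 0
  rw [L_zero, sg_one] at hz2
  set z : m.θ.ker := ⟨z₀, MonoidHom.mem_ker.mpr hz1⟩ with hz_def
  have hscal : ∀ (a : m.θ.ker) (s : ZMod 2),
      ((m.μ a.1 : (Matrix V V (ZMod 3))ˣ) : Matrix V V (ZMod 3)) = sg s • 1 → a = 1 ∨ a = z := by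
    intro a s hs
    rcases sg_cases s with h | h
    · left
      apply Subtype.ext
      apply m.ext'
      · rw [Subgroup.coe_one, map_one]
        exact MonoidHom.mem_ker.mp a.2
      · apply Units.ext
        rw [hs, h, one_smul, Subgroup.coe_one, map_one, Units.val_one]
    · right
      apply Subtype.ext
      apply m.ext'
      · rw [MonoidHom.mem_ker.mp a.2]
        exact hz1.symm
      · apply Units.ext
        rw [hs, h]
        exact hz2.symm
  have hscal' : ∀ (a : m.θ.ker), (a = 1 ∨ a = z) →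
      ∃ s, ((m.μ a.1 : (Matrix V V (ZMod 3))ˣ) : Matrix V V (ZMod 3)) = sg s • 1 := by
    rintro a (h | h)
    · exact ⟨0, by rw [h, Subgroup.coe_one, map_one, Units.val_one, sg_zero, one_smul]⟩
    · exact ⟨1, by rw [h, sg_one]; exact hz2⟩
  apply isExtraspecial_two_of_elem z
  · intro h
    have h1 : ((m.μ z.1 : (Matrix V V (ZMod 3))ˣ) : Matrix V V (ZMod 3)) = 1 := by
      rw [h, Subgroup.coe_one, map_one, Units.val_one]
    rw [hz2] at h1
    have h2 := congrFun (congrFun h1 0) 0
    rw [Matrix.smul_apply, Matrix.one_apply_eq, smul_eq_mul, mul_one] at h2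
    exact absurd h2 (by decide)
  · intro c
    rw [← m.ker_chi_eq_center hnd, mem_ker_chi_iff]
    exact ⟨fun ⟨s, hs⟩ => hscal c s hs, hscal' c⟩
  · intro x
    exact hscal (x * x) _ (m.mu_sq hnd x)
  · intro x y
    obtain ⟨s, hs⟩ := m.vec_spec hnd x
    obtain ⟨t, ht⟩ := m.vec_spec hnd y
    have key : ((m.μ (x.1 * y.1) : (Matrix V V (ZMod 3))ˣ) : Matrix V V (ZMod 3)) =
        sg (β (m.vec hnd x) (m.vec hnd y) + β (m.vec hnd y) (m.vec hnd x)) •
          ((m.μ (y.1 * x.1) : (Matrix V V (ZMod 3))ˣ) : Matrix V V (ZMod 3)) := by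
      rw [map_mul, map_mul, Units.val_mul, Units.val_mul, hs, ht, Matrix.smul_mul,
        Matrix.mul_smul, Matrix.smul_mul, Matrix.mul_smul,
        L_mul_L_comm β (m.vec hnd x) (m.vec hnd y)]
      simp only [smul_smul]
      congr 1
      ring
    rcases sg_cases (β (m.vec hnd x) (m.vec hnd y) + β (m.vec hnd y) (m.vec hnd x)) with h | h
    · left
      apply Subtype.ext
      apply m.ext'
      · rw [Subgroup.coe_mul, Subgroup.coe_mul, map_mul, map_mul, MonoidHom.mem_ker.mp x.2,
          MonoidHom.mem_ker.mp y.2]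
      · apply Units.ext
        rw [Subgroup.coe_mul, Subgroup.coe_mul, key, h, one_smul]
    · right
      apply Subtype.ext
      apply m.ext'
      · rw [Subgroup.coe_mul, Subgroup.coe_mul, Subgroup.coe_mul, map_mul, map_mul, map_mul,
          MonoidHom.mem_ker.mp x.2, MonoidHom.mem_ker.mp y.2, MonoidHom.mem_ker.mp z.2, mul_one,
          mul_one]
      · apply Units.ext
        rw [Subgroup.coe_mul, key, h, Subgroup.coe_mul, map_mul (m.μ) z.1, Units.val_mul, hz2,
          Matrix.smul_mul, one_mul, Subgroup.coe_mul]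
  · obtain ⟨w, hw⟩ := hV2
    have hex : ∃ u, β u w + β w u ≠ 0 := by
      by_contra hcon
      push Not at hcon
      exact hw (hnd w hcon)
    obtain ⟨u, hu⟩ := hex
    obtain ⟨r1, h11, h12⟩ := m.exists_ker 0 u
    obtain ⟨r2, h21, h22⟩ := m.exists_ker 0 w
    refine ⟨⟨r1, MonoidHom.mem_ker.mpr h11⟩, ⟨r2, MonoidHom.mem_ker.mpr h21⟩, fun h => hu ?_⟩
    have h4 : ((m.μ (r1 * r2) : (Matrix V V (ZMod 3))ˣ) : Matrix V V (ZMod 3)) =
        ((m.μ (r2 * r1) : (Matrix V V (ZMod 3))ˣ) : Matrix V V (ZMod 3)) := by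
      rw [show r1 * r2 = r2 * r1 from congrArg Subtype.val h]
    rw [map_mul, map_mul, Units.val_mul, Units.val_mul, h12, h22, sg_zero, one_smul, one_smul,
      L_mul_L, L_mul_L, add_comm w u] at h4
    have h5 := (smul_L_inj β h4).2
    rw [h5]
    exact CharTwo.add_self_eq_zero _

theorem card_ker [Finite R] (hnd : ∀ w : V, (∀ u, β u w + β w u = 0) → w = 0)
    (hES : Cfsg.IsExtraspecial 2 m.θ.ker) : Nat.card m.θ.ker = 2 * Nat.card V := by
  have h1 := Subgroup.card_eq_card_quotient_mul_card_subgroup (m.chi hnd).ker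
  have h2 : Nat.card (m.θ.ker ⧸ (m.chi hnd).ker) = Nat.card V := by
    rw [Nat.card_congr (QuotientGroup.quotientKerEquivOfSurjective (m.chi hnd)
      (m.chi_surjective hnd)).toEquiv]
    exact Nat.card_congr Multiplicative.toAdd
  rw [h1, h2, m.ker_chi_eq_center hnd, hES.2, mul_comm]

end Model

/-- The main construction: for a group `K` acting on the finite `ZMod 2`-space `V` preserving the
quadratic map `u ↦ β u u` whose polar form is nondegenerate, there is a finite group `R` in `Type`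
with a surjection `θ` onto `K` whose kernel is extraspecial of order `2 * |V|`, with `ker θ / Z`
identified with `V` compatibly with the action and with squaring given by the quadratic map. -/
theorem exists_extension [Finite K] (β : V →ₗ[ZMod 2] V →ₗ[ZMod 2] ZMod 2)
    (ρ : Representation (ZMod 2) K V)
    (hnd : ∀ w : V, (∀ u, β u w + β w u = 0) → w = 0)
    (hV : (Fintype.card V : ZMod 3) ≠ 0) (hV2 : ∃ w : V, w ≠ 0)
    (hinv : ∀ k u, β (ρ k u) (ρ k u) = β u u) :
    ∃ (R : Type) (_ : Group R) (_ : Finite R) (θ : R →* K) (χ : θ.ker →* Multiplicative V),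
      Function.Surjective θ ∧ Cfsg.IsExtraspecial 2 θ.ker ∧ Nat.card θ.ker = 2 * Nat.card V ∧
      Function.Surjective χ ∧ χ.ker = Subgroup.center θ.ker ∧
      (∀ (r : R) (a : θ.ker) (h : r * a.1 * r⁻¹ ∈ θ.ker),
        χ ⟨r * a.1 * r⁻¹, h⟩ = Multiplicative.ofAdd (ρ (θ r) (Multiplicative.toAdd (χ a)))) ∧
      ∀ a : θ.ker, a * a = 1 ↔
        β (Multiplicative.toAdd (χ a)) (Multiplicative.toAdd (χ a)) = 0 := by
  obtain ⟨R, hG, hF, ⟨m⟩⟩ := exists_model β ρ
  have hES := m.isExtraspecial_ker hnd hV2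
  exact ⟨R, hG, hF, m.θ, m.chi hnd, m.θ_surjective hnd hV hinv, hES, m.card_ker hnd hES,
    m.chi_surjective hnd, m.ker_chi_eq_center hnd, fun r a h => m.chi_conj hnd r a h,
    fun a => m.sq_iff hnd a⟩

end Cfsg.Agent.Helper90.Clif
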