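import Mathlib
import Cfsg.Agent.Helper53.TwoGroup

/-!
Helper90: a recognition lemma for the dihedral group of order 8.
-/

set_option autoImplicit false

namespace Cfsg.Agent.Helper90

open Subgroup

/-- A finite nonabelian group all of whose squares lie in `{1, c}` (with `c` an involution) and in
which the square roots of `c` are exactly `y` and `y * c` is dihedral of order 8. -/
theorem nonempty_mulEquiv_dihedralGroup_four {P : Type*} [Group P] [Finite P] (c : P)
    (hc1 : c ≠ 1) (hcc : c * c = 1)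
    (hsq : ∀ r : P, r * r = 1 ∨ r * r = c)
    (huniq : ∀ y y' : P, y * y = c → y' * y' = c → y' = y ∨ y' = y * c)
    (hnc : ∃ r s : P, r * s ≠ s * r) : Nonempty (P ≃* DihedralGroup 4) := by
  have hy : ∃ y : P, y * y = c := by
    by_contra hno
    push_neg at hno
    have h1 : ∀ r : P, r * r = 1 := fun r => (hsq r).resolve_right (hno r)
    obtain ⟨r, s, hrs⟩ := hnc
    apply hrs
    have hr : r⁻¹ = r := inv_eq_of_mul_eq_one_right (h1 r)
    have hs : s⁻¹ = s := inv_eq_of_mul_eq_one_right (h1 s)
    have hrs' : (r * s)⁻¹ = r * s := inv_eq_of_mul_eq_one_right (h1 (r * s))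
    calc r * s = (r * s)⁻¹ := hrs'.symm
      _ = s⁻¹ * r⁻¹ := mul_inv_rev _ _
      _ = s * r := by rw [hr, hs]
  obtain ⟨y, hyy⟩ := hy
  have hy4 : orderOf y = 4 := by
    have h1 : ¬ y ^ 2 ^ 1 = 1 := by
      rw [pow_one, pow_two, hyy]; exact hc1
    have h2 : y ^ 2 ^ (1 + 1) = 1 := by
      show y ^ (2 + 2) = 1
      rw [pow_add, pow_two, hyy, hcc]
    exact orderOf_eq_prime_pow h1 h2
  have hcy : c ∈ zpowers y := hyy ▸ mul_mem (mem_zpowers y) (mem_zpowers y)
  have hout : ∀ t : P, t ∉ zpowers y → t * t = 1 := by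
    intro t ht
    rcases hsq t with h | h
    · exact h
    · exfalso
      apply ht
      rcases huniq y t hyy h with h' | h'
      · rw [h']; exact mem_zpowers y
      · rw [h']; exact mul_mem (mem_zpowers y) hcy
  have hinvt : ∀ t : P, t ∉ zpowers y → t * y * t⁻¹ = y⁻¹ := by
    intro t ht
    have h1 := hout t ht
    have h2 : y * t ∉ zpowers y := fun h => ht (by
      have h3 : t = y⁻¹ * (y * t) := by group
      rw [h3]; exact mul_mem (inv_mem (mem_zpowers y)) h)
    have h3 := hout (y * t) h2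
    have h4 : t⁻¹ = t := inv_eq_of_mul_eq_one_right h1
    rw [h4]
    symm
    apply inv_eq_of_mul_eq_one_right
    calc y * (t * y * t) = y * t * (y * t) := by group
      _ = 1 := h3
  obtain ⟨t, ht⟩ : ∃ t : P, t ∉ zpowers y := by
    by_contra hno
    push_neg at hno
    obtain ⟨r, s, hrs⟩ := hnc
    apply hrs
    obtain ⟨i, rfl⟩ := mem_zpowers_iff.mp (hno r)
    obtain ⟨j, rfl⟩ := mem_zpowers_iff.mp (hno s)
    rw [← zpow_add, ← zpow_add, add_comm]
  have hidx : (zpowers y).index = 2 := by
    rw [Subgroup.index_eq_two_iff]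
    refine ⟨t, fun b => ?_⟩
    by_cases hb : b ∈ zpowers y
    · right
      refine ⟨hb, fun h => ht ?_⟩
      have h3 : t = b⁻¹ * (b * t) := by group
      rw [h3]; exact mul_mem (inv_mem hb) h
    · left
      refine ⟨?_, hb⟩
      by_contra hbt
      have h1 := hinvt _ hbt
      have h2 := hinvt b hb
      have h3 := hinvt t ht
      have h4 : b * t * y * (b * t)⁻¹ = y := by
        calc b * t * y * (b * t)⁻¹ = b * (t * y * t⁻¹) * b⁻¹ := by group
          _ = b * y⁻¹ * b⁻¹ := by rw [h3]
          _ = (b * y * b⁻¹)⁻¹ := by group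
          _ = y := by rw [h2, inv_inv]
      rw [h4] at h1
      apply hc1
      rw [← hyy]
      have h5 := mul_inv_cancel y
      rwa [← h1] at h5
  have hcard : Nat.card P = 2 * 4 := by
    rw [← Subgroup.card_mul_index (zpowers y), hidx, Nat.card_zpowers, hy4]
  exact Cfsg.Agent.Helper53.nonempty_mulEquiv_dihedralGroup_of 4 y t hcard hy4 (hout t ht)
    (hinvt t ht) ht

end Cfsg.Agent.Helper90
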