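import Mathlib

set_option autoImplicit false

namespace Cfsg.Agent.Helper90

/-- An involution `a` inverts the powers of `a * b` when `b` is also an involution. -/
theorem invol_mul_pow {G : Type*} [Group G] (a b : G) (ha : a * a = 1) (hb : b * b = 1) (k : ℕ) :
    a * (a * b) ^ k = ((a * b) ^ k)⁻¹ * a := by
  have hainv : a⁻¹ = a := inv_eq_of_mul_eq_one_left ha
  have hbinv : b⁻¹ = b := inv_eq_of_mul_eq_one_left hb
  have h1 : a * (a * b) = (a * b)⁻¹ * a := by
    rw [mul_inv_rev, hainv, hbinv, ← mul_assoc, ha, one_mul, mul_assoc, ha, mul_one]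
  induction k with
  | zero => simp
  | succ k ih =>
    have e : a * (a * b) ^ (k + 1) = a * (a * b) ^ k * (a * b) := by rw [pow_succ, mul_assoc]
    rw [e, ih, mul_assoc, h1, ← mul_assoc, ← mul_inv_rev, ← pow_succ']

/-- The second involution `b` also inverts the powers of `a * b`. -/
theorem invol_mul_pow' {G : Type*} [Group G] (a b : G) (ha : a * a = 1) (hb : b * b = 1) (k : ℕ) :
    b * (a * b) ^ k = ((a * b) ^ k)⁻¹ * b := by
  have hainv : a⁻¹ = a := inv_eq_of_mul_eq_one_left ha
  have hbinv : b⁻¹ = b := inv_eq_of_mul_eq_one_left hb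
  have h1 : b * (a * b) = (a * b)⁻¹ * b := by
    rw [mul_inv_rev, hainv, hbinv, mul_assoc]
  induction k with
  | zero => simp
  | succ k ih =>
    have e : b * (a * b) ^ (k + 1) = b * (a * b) ^ k * (a * b) := by rw [pow_succ, mul_assoc]
    rw [e, ih, mul_assoc, h1, ← mul_assoc, ← mul_inv_rev, ← pow_succ']

/-- Two non-conjugate involutions `a`, `b` whose product has finite order: the dihedral group they
generate has a central involution `w`, and `a * w` is conjugate to `a` or to `b`. -/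
theorem dihedral_central_involution {G : Type*} [Group G] (a b : G) (ha : a * a = 1)
    (hb : b * b = 1) (hfin : 0 < orderOf (a * b)) (hnc : ¬ IsConj a b) :
    ∃ w : G, w ≠ 1 ∧ w * w = 1 ∧ a * w = w * a ∧ b * w = w * b ∧
      ((∃ c : G, c * a * c⁻¹ = a * w) ∨ (∃ c : G, c * b * c⁻¹ = a * w)) := by
  have hainv : a⁻¹ = a := inv_eq_of_mul_eq_one_left ha
  have hbinv : b⁻¹ = b := inv_eq_of_mul_eq_one_left hb
  rcases Nat.even_or_odd' (orderOf (a * b)) with ⟨m, hm | hm⟩
  · -- even order 2m
    have hm0 : 0 < m := by omega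
    have hww : (a * b) ^ m * (a * b) ^ m = 1 := by
      rw [← pow_add, ← two_mul, ← hm, pow_orderOf_eq_one]
    have hwinv : ((a * b) ^ m)⁻¹ = (a * b) ^ m := inv_eq_of_mul_eq_one_left hww
    refine ⟨(a * b) ^ m, ?_, hww, ?_, ?_, ?_⟩
    · intro h
      have hd := orderOf_dvd_of_pow_eq_one h
      rw [hm] at hd
      have := Nat.le_of_dvd hm0 hd
      omega
    · rw [invol_mul_pow a b ha hb, hwinv]
    · rw [invol_mul_pow' a b ha hb, hwinv]
    · rcases Nat.even_or_odd' m with ⟨k, hk | hk⟩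
      · left
        refine ⟨((a * b) ^ k)⁻¹, ?_⟩
        rw [inv_inv, ← invol_mul_pow a b ha hb, mul_assoc, ← pow_add, ← two_mul, ← hk]
      · right
        refine ⟨((a * b) ^ k)⁻¹, ?_⟩
        rw [inv_inv, ← invol_mul_pow' a b ha hb, mul_assoc, ← pow_add, ← two_mul, hk, pow_succ',
          ← mul_assoc, ← mul_assoc, ha, one_mul]
  · -- odd order 2m+1: a and b are conjugate
    exfalso
    apply hnc
    rw [isConj_iff]
    refine ⟨(a * b) ^ m, ?_⟩
    have h1 : (a * b) ^ m * a = a * ((a * b) ^ m)⁻¹ := by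
      have := invol_mul_pow a b ha hb m
      rw [eq_mul_inv_iff_mul_eq, mul_assoc, this, mul_inv_cancel_left]
    have h2 : (a * b) ^ (2 * m) * (a * b) = 1 := by
      rw [← pow_succ, ← hm, pow_orderOf_eq_one]
    have h3 : (a * b) ^ (2 * m) = b * a := by
      have : (a * b) ^ (2 * m) = (a * b)⁻¹ := eq_inv_of_mul_eq_one_left h2
      rw [this, mul_inv_rev, hainv, hbinv]
    rw [mul_assoc, ← h1, ← mul_assoc, ← pow_add, ← two_mul, h3, mul_assoc, ha, mul_one]

end Cfsg.Agent.Helper90
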