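import Mathlib
import Cfsg.Agent.Helper90.Conj

set_option autoImplicit false

namespace Cfsg.Agent.Helper90

/-- The cyclic group generated by an element with `t * t = 1` is a 2-group. -/
theorem isPGroup_two_zpowers {D : Type*} [Group D] (t : D) (ht : t * t = 1) :
    IsPGroup 2 (Subgroup.zpowers t) := by
  rintro ⟨g, hg⟩
  obtain ⟨n, rfl⟩ := Subgroup.mem_zpowers_iff.mp hg
  refine ⟨1, ?_⟩
  apply Subtype.ext
  show (t ^ n) ^ 2 ^ 1 = 1
  rw [pow_one, pow_two, ← zpow_add, ← two_mul, zpow_mul, zpow_two, ht, one_zpow]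

/-- Membership in a conjugate of a Sylow subgroup. -/
theorem sylow_mem_smul_iff {G : Type*} [Group G] {p : ℕ} (P : Sylow p G) (g x : G) :
    x ∈ g • P ↔ g⁻¹ * x * g ∈ P := by
  rw [Sylow.smul_def]
  show x ∈ ((MulAut.conj g • P : Sylow p G) : Subgroup G) ↔ _
  rw [Sylow.pointwise_smul_def, Subgroup.mem_pointwise_smul_iff_inv_smul_mem]
  simp only [MulAut.smul_def, MulAut.conj_inv_apply]
  exact Iff.rfl

/-- Let `t₁`, `t₂` be elements of a finite group `D` with `tᵢ * tᵢ = 1` and `K` a subgroup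
containing `t₁` such that the coset `K` is the only coset of `K` fixed by `t₁`. Then `t₂` fixes
some coset of `K` (the number of cosets is odd). -/
theorem exists_conj_mem_of_unique_fixed {D : Type*} [Group D] [Finite D] (K : Subgroup D)
    (t₁ t₂ : D) (h₁ : t₁ * t₁ = 1) (h₂ : t₂ * t₂ = 1) (ht₁ : t₁ ∈ K)
    (huniq : ∀ d : D, d⁻¹ * t₁ * d ∈ K → d ∈ K) : ∃ d : D, d⁻¹ * t₂ * d ∈ K := by
  have : Fact (Nat.Prime 2) := ⟨Nat.prime_two⟩
  have hP1 := isPGroup_two_zpowers t₁ h₁
  have hP2 := isPGroup_two_zpowers t₂ h₂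
  have hfix1 : MulAction.fixedPoints (Subgroup.zpowers t₁) (D ⧸ K) = {QuotientGroup.mk 1} := by
    ext q
    constructor
    · intro hq
      induction q using QuotientGroup.induction_on with
      | H d =>
        have h' : t₁ • (QuotientGroup.mk d : D ⧸ K) = QuotientGroup.mk d :=
          hq ⟨t₁, Subgroup.mem_zpowers t₁⟩
        rw [smul_coset_eq_iff] at h'
        have := huniq d h'
        rw [Set.mem_singleton_iff, eq_comm, QuotientGroup.eq]
        simpa using this
    · intro hq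
      rw [Set.mem_singleton_iff] at hq
      subst hq
      rintro ⟨s, hs⟩
      show s • (QuotientGroup.mk 1 : D ⧸ K) = QuotientGroup.mk 1
      rw [smul_coset_eq_iff]
      have : s ∈ K := (Subgroup.zpowers_le.mpr ht₁) hs
      simpa using this
  have hcard : Nat.card (D ⧸ K) ≡ 1 [MOD 2] := by
    have := hP1.card_modEq_card_fixedPoints (D ⧸ K)
    rw [hfix1] at this
    simpa using this
  have hnd : ¬ 2 ∣ Nat.card (D ⧸ K) := by
    intro h
    have h0 : Nat.card (D ⧸ K) % 2 = 0 := Nat.mod_eq_zero_of_dvd h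
    have h1 : Nat.card (D ⧸ K) % 2 = 1 % 2 := hcard
    omega
  obtain ⟨q, hq⟩ := hP2.nonempty_fixed_point_of_prime_not_dvd_card (D ⧸ K) hnd
  induction q using QuotientGroup.induction_on with
  | H d => exact ⟨d, (smul_coset_eq_iff K t₂ d).mp (hq ⟨t₂, Subgroup.mem_zpowers t₂⟩)⟩

end Cfsg.Agent.Helper90
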