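import Mathlib
import Cfsg.Prelude.Def_Transfer
import Cfsg.Agent.Helper2.PGroup

set_option autoImplicit false
set_option linter.unusedSectionVars false
set_option linter.style.haveILetI false

/-!
# Elementwise data of an extraspecial 2-group (as a type) and lifts of reflections

(helper90, for S3085: Griess' non-splitting of `Aut(2^{1+2n})` over `Inn`.)
-/

namespace Cfsg.Agent.Helper90.Griess

open scoped commutatorElement

/-- Elementwise data of an extraspecial 2-group `Q` with centre `{1, z}`. -/
structure ESData (Q : Type*) [Group Q] (z : Q) : Prop where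
  ne_one : z ≠ 1
  sq : z * z = 1
  central : ∀ x : Q, x * z = z * x
  comm : ∀ x y : Q, x * y = y * x ∨ x * y = z * (y * x)
  sqs : ∀ x : Q, x * x = 1 ∨ x * x = z
  center : ∀ c : Q, (∀ x, x * c = c * x) → c = 1 ∨ c = z
  nonab : ∃ x y : Q, x * y ≠ y * x

theorem exists_esdata {Q : Type*} [Group Q] [Finite Q] (hQ : Cfsg.IsExtraspecial 2 Q) :
    ∃ z : Q, ESData Q z := by
  have hp : Fact (Nat.Prime 2) := ⟨Nat.prime_two⟩
  obtain ⟨⟨hP, hfr, hcomm⟩, hcard⟩ := hQ
  obtain ⟨z, hz1, hzu⟩ := (Nat.card_eq_two_iff' (1 : Subgroup.center Q)).mp hcard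
  have hz1' : (z : Q) ≠ 1 := fun h => hz1 (Subtype.ext h)
  have hcen : ∀ c : Q, c ∈ Subgroup.center Q → c = 1 ∨ c = z := by
    intro c hc
    by_cases h : c = 1
    · left; exact h
    · right
      have h2 := hzu ⟨c, hc⟩ (fun hh => h (congrArg Subtype.val hh))
      exact congrArg Subtype.val h2
  have hzc : ∀ x : Q, x * z = z * x := fun x => (Subgroup.mem_center_iff.mp z.2 x)
  refine ⟨z, hz1', ?_, hzc, ?_, ?_, ?_, ?_⟩
  · rcases hcen ((z : Q) * z) (Subgroup.mul_mem _ z.2 z.2) with h | h
    · exact h
    · exfalso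
      apply hz1'
      have h2 := congrArg (· * (z : Q)⁻¹) h
      simpa using h2
  · intro x y
    have hmem : ⁅x, y⁆ ∈ Subgroup.center Q := by
      rw [← hcomm, commutator_def]
      exact Subgroup.commutator_mem_commutator (Subgroup.mem_top _) (Subgroup.mem_top _)
    rcases hcen _ hmem with h | h
    · left; exact commutatorElement_eq_one_iff_mul_comm.mp h
    · right
      rw [commutatorElement_def] at h
      have h2 : x * y = (x * y * x⁻¹ * y⁻¹) * (y * x) := by group
      rw [h2, h]
  · intro x
    have hmem : x ^ 2 ∈ Subgroup.center Q := by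
      rw [← hfr]
      exact Cfsg.Agent.Helper2.pow_mem_frattini_of_isPGroup hP x
    rw [pow_two] at hmem
    exact hcen _ hmem
  · intro c hc
    exact hcen c (Subgroup.mem_center_iff.mpr hc)
  · by_contra hcon
    push Not at hcon
    have h1 : commutator Q = ⊥ := by
      rw [commutator_eq_closure, Subgroup.closure_eq_bot_iff]
      rintro c ⟨x, y, rfl⟩
      exact commutatorElement_eq_one_iff_mul_comm.mpr (hcon x y)
    rw [h1] at hcomm
    rw [← hcomm] at hcard
    simp at hcard

namespace ESData

variable {Q : Type*} [Group Q] {z : Q} (h : ESData Q z)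
include h

theorem not_comm {x y : Q} (hxy : x * y ≠ y * x) : x * y = z * (y * x) :=
  (h.comm x y).resolve_left hxy

theorem central' (x y : Q) : x * (z * y) = z * (x * y) := by
  rw [← mul_assoc, h.central, mul_assoc]

theorem zz' (x : Q) : z * (z * x) = x := by
  rw [← mul_assoc, h.sq, one_mul]

theorem mul_comm_of_not {x y c : Q} (hx : x * c ≠ c * x) (hy : y * c ≠ c * y) :
    (x * y) * c = c * (x * y) := by
  have h1 := h.not_comm hx
  have h2 := h.not_comm hy
  rw [mul_assoc, h2, h.central' x (c * y), ← mul_assoc x c y, h1, mul_assoc z (c * x) y, h.zz',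
    mul_assoc]

theorem aut_z (α : MulAut Q) : α z = z := by
  have hc : ∀ x, x * α z = α z * x := by
    intro x
    have h1 := congrArg α (h.central (α.symm x))
    simpa using h1
  rcases h.center _ hc with h1 | h1
  · exfalso
    apply h.ne_one
    have h2 : α z = α 1 := by rw [h1, map_one]
    exact α.injective h2
  · exact h1

theorem conj_eq (w y : Q) : w * y * w⁻¹ = y ∨ w * y * w⁻¹ = z * y := by
  rcases h.comm w y with h1 | h1
  · left; rw [h1, mul_assoc, mul_inv_cancel, mul_one]
  · right; rw [h1, mul_assoc, mul_assoc, mul_inv_cancel, mul_one]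

theorem exists_sq_eq : ∃ c : Q, c * c = z := by
  by_contra hcon
  push Not at hcon
  have hinv : ∀ x : Q, x * x = 1 := fun x => (h.sqs x).resolve_right (hcon x)
  obtain ⟨x, y, hxy⟩ := h.nonab
  apply hxy
  have h1 := hinv (x * y)
  have hx : x⁻¹ = x := inv_eq_of_mul_eq_one_right (hinv x)
  have hy : y⁻¹ = y := inv_eq_of_mul_eq_one_right (hinv y)
  have h2 : x * y = (x * y)⁻¹ := (inv_eq_of_mul_eq_one_right h1).symm
  rw [h2, mul_inv_rev, hx, hy]

theorem exists_not_comm {c : Q} (hc : c ≠ 1) (hc' : c ≠ z) : ∃ x, x * c ≠ c * x := by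
  by_contra hcon
  push Not at hcon
  rcases h.center c hcon with h1 | h1
  · exact hc h1
  · exact hc' h1

/-- If `c` has order 4 and `d` is a non-central involution commuting with `c`, some element
commutes with `c` but not with `d`. -/
theorem exists_comm_not_comm {c d : Q} (hc : c * c = z) (hd : d * d = 1) (hd1 : d ≠ 1)
    (hdz : d ≠ z) : ∃ x, x * c = c * x ∧ x * d ≠ d * x := by
  by_contra hcon
  push Not at hcon
  obtain ⟨w, hw⟩ := h.exists_not_comm hd1 hdz
  have hwc : w * c ≠ c * w := fun hh => hw (hcon w hh)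
  have hdinv : d⁻¹ = d := inv_eq_of_mul_eq_one_right hd
  have hcent : ∀ y, y * (c * d) = (c * d) * y := by
    intro y
    by_cases hy : y * c = c * y
    · have hyd := hcon y hy
      rw [← mul_assoc, hy, mul_assoc, hyd, mul_assoc]
    · have h1 : (w * y) * c = c * (w * y) := h.mul_comm_of_not hwc hy
      have h2 : (w * y) * d = d * (w * y) := hcon _ h1
      have hyd : y * d ≠ d * y := by
        intro hyd
        apply hw
        have h3 : w * d * y = d * w * y := by
          rw [mul_assoc, ← hyd, ← mul_assoc, h2, mul_assoc]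
        exact mul_right_cancel h3
      have e1 := h.not_comm hy
      have e2 := h.not_comm hyd
      rw [← mul_assoc, e1, mul_assoc z, mul_assoc c y d, e2, h.central' c, h.zz', mul_assoc]
  rcases h.center _ hcent with h1 | h1
  · have h2 : c = d := by
      rw [← hdinv]
      exact eq_inv_of_mul_eq_one_left h1
    rw [h2, hd] at hc
    exact h.ne_one hc.symm
  · have h2 : c = z * d := by
      rw [← h1, mul_assoc, hd, mul_one]
    rw [h2, mul_assoc, h.central' d, h.zz', hd] at hc
    exact h.ne_one hc.symm

end ESData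

end Cfsg.Agent.Helper90.Griess
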