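import Mathlib
import Cfsg.Prelude.Def_Transfer
import Cfsg.Prelude.Def_KGroupFacts
import Cfsg.Agent.Helper90.GriessBasic

set_option autoImplicit false
set_option linter.unusedSectionVars false
set_option linter.style.haveILetI false

/-!
# Lifts of reflections to automorphisms of an extraspecial 2-group

For `t` of order 4 (`t * t = z`) the map `x ↦ x` (if `x` commutes with `t`), `x ↦ x * t` (otherwise)
is an automorphism `tau t` inducing the reflection in `t` on `Q / Z`.  (helper90, for S3085.)
-/

namespace Cfsg.Agent.Helper90.Griess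

variable {Q : Type*} [Group Q] {z : Q}

open Classical in
/-- The automorphism `x ↦ x` or `x * t` lifting the reflection in `t`. -/
noncomputable def tau (h : ESData Q z) (t : Q) (ht : t * t = z) : MulAut Q where
  toFun x := if x * t = t * x then x else x * t
  invFun x := if x * t = t * x then x else x * t⁻¹
  left_inv x := by
    beta_reduce
    by_cases hx : x * t = t * x
    · rw [if_pos hx, if_pos hx]
    · have h2 : ¬ (x * t * t = t * (x * t)) := by
        intro hh
        apply hx
        rw [← mul_assoc] at hh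
        exact mul_right_cancel hh
      rw [if_neg hx, if_neg h2, mul_inv_cancel_right]
  right_inv x := by
    beta_reduce
    by_cases hx : x * t = t * x
    · rw [if_pos hx, if_pos hx]
    · have h2 : ¬ (x * t⁻¹ * t = t * (x * t⁻¹)) := by
        intro hh
        apply hx
        rw [inv_mul_cancel_right, ← mul_assoc] at hh
        conv_lhs => rw [hh]
        rw [inv_mul_cancel_right]
      rw [if_neg hx, if_neg h2, inv_mul_cancel_right]
  map_mul' x y := by
    by_cases hx : x * t = t * x <;> by_cases hy : y * t = t * y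
    · have hxy : x * y * t = t * (x * y) := by
        rw [mul_assoc, hy, ← mul_assoc, hx, mul_assoc]
      rw [if_pos hx, if_pos hy, if_pos hxy]
    · have hxy : ¬ (x * y * t = t * (x * y)) := by
        intro hh
        apply hy
        rw [mul_assoc, ← mul_assoc t, ← hx, mul_assoc] at hh
        exact mul_left_cancel hh
      rw [if_pos hx, if_neg hy, if_neg hxy, mul_assoc]
    · have hxy : ¬ (x * y * t = t * (x * y)) := by
        intro hh
        apply hx
        rw [mul_assoc, hy, ← mul_assoc, ← mul_assoc] at hh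
        exact mul_right_cancel hh
      rw [if_neg hx, if_pos hy, if_neg hxy, mul_assoc, hy, mul_assoc]
    · have hxy : x * y * t = t * (x * y) := h.mul_comm_of_not hx hy
      rw [if_neg hx, if_neg hy, if_pos hxy]
      have e2 := h.not_comm hy
      rw [e2, mul_assoc x t, h.central' t, ← mul_assoc t t, ht, h.zz']

open Classical in
theorem tau_comm_apply (h : ESData Q z) {t : Q} (ht : t * t = z) {x : Q} (hx : x * t = t * x) :
    tau h t ht x = x := by
  show (if x * t = t * x then x else x * t) = x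
  rw [if_pos hx]

open Classical in
theorem tau_not_apply (h : ESData Q z) {t : Q} (ht : t * t = z) {x : Q} (hx : x * t ≠ t * x) :
    tau h t ht x = x * t := by
  show (if x * t = t * x then x else x * t) = x * t
  rw [if_neg hx]

theorem tau_mul_comm (h : ESData Q z) {t s : Q} (ht : t * t = z) (hs : s * s = z)
    (hts : t * s = s * t) : tau h t ht * tau h s hs = tau h s hs * tau h t ht := by
  apply MulEquiv.ext
  intro x
  rw [MulAut.mul_apply, MulAut.mul_apply]
  have hst1 : tau h t ht s = s := tau_comm_apply h ht hts.symm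
  have hts1 : tau h s hs t = t := tau_comm_apply h hs hts
  by_cases hxt : x * t = t * x <;> by_cases hxs : x * s = s * x
  · rw [tau_comm_apply h hs hxs, tau_comm_apply h ht hxt, tau_comm_apply h hs hxs]
  · rw [tau_not_apply h hs hxs, map_mul, hst1, tau_comm_apply h ht hxt, tau_not_apply h hs hxs]
  · rw [tau_comm_apply h hs hxs, tau_not_apply h ht hxt, map_mul, hts1, tau_comm_apply h hs hxs]
  · rw [tau_not_apply h hs hxs, map_mul, hst1, tau_not_apply h ht hxt, map_mul, hts1,
      tau_not_apply h hs hxs, mul_assoc, hts, mul_assoc]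

theorem tau_sq (h : ESData Q z) {t : Q} (ht : t * t = z) :
    tau h t ht * tau h t ht = MulAut.conj t := by
  apply MulEquiv.ext
  intro x
  rw [MulAut.mul_apply, MulAut.conj_apply]
  by_cases hx : x * t = t * x
  · rw [tau_comm_apply h ht hx, tau_comm_apply h ht hx, ← hx, mul_inv_cancel_right]
  · rw [tau_not_apply h ht hx, map_mul, tau_not_apply h ht hx, tau_comm_apply h ht rfl]
    have e := h.not_comm hx
    have e' : t * x = z * (x * t) := by rw [e, h.zz']
    rw [mul_assoc, ht, h.central x, e', mul_assoc, mul_assoc, mul_inv_cancel, mul_one]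

/-- Central elements `1`, `z`. -/
def IsZ (z ζ : Q) : Prop := ζ = 1 ∨ ζ = z

theorem IsZ.central (h : ESData Q z) {ζ : Q} (hζ : IsZ z ζ) (y : Q) : y * ζ = ζ * y := by
  rcases hζ with rfl | rfl
  · rw [mul_one, one_mul]
  · exact h.central y

theorem IsZ.sq (h : ESData Q z) {ζ : Q} (hζ : IsZ z ζ) : ζ * ζ = 1 := by
  rcases hζ with rfl | rfl
  · rw [mul_one]
  · exact h.sq

theorem IsZ.aut (h : ESData Q z) {ζ : Q} (hζ : IsZ z ζ) (α : MulAut Q) : α ζ = ζ := by
  rcases hζ with rfl | rfl
  · exact map_one α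
  · exact h.aut_z α

/-- `l` is a lift of the reflection in `t`. -/
def IsLift (z t : Q) (l : MulAut Q) : Prop :=
  ∀ x, ∃ ζ, IsZ z ζ ∧ (x * t = t * x → l x = ζ * x) ∧ (x * t ≠ t * x → l x = ζ * (x * t))

theorem isLift_conj_tau (h : ESData Q z) {t : Q} (ht : t * t = z) (w : Q) :
    IsLift z t (MulAut.conj w * tau h t ht) := by
  intro x
  by_cases hx : x * t = t * x
  · rcases h.conj_eq w x with h1 | h1
    · refine ⟨1, Or.inl rfl, fun _ => ?_, fun hh => absurd hx hh⟩
      rw [MulAut.mul_apply, tau_comm_apply h ht hx, MulAut.conj_apply, h1, one_mul]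
    · refine ⟨z, Or.inr rfl, fun _ => ?_, fun hh => absurd hx hh⟩
      rw [MulAut.mul_apply, tau_comm_apply h ht hx, MulAut.conj_apply, h1]
  · rcases h.conj_eq w (x * t) with h1 | h1
    · refine ⟨1, Or.inl rfl, fun hh => absurd hh hx, fun _ => ?_⟩
      rw [MulAut.mul_apply, tau_not_apply h ht hx, MulAut.conj_apply, h1, one_mul]
    · refine ⟨z, Or.inr rfl, fun hh => absurd hh hx, fun _ => ?_⟩
      rw [MulAut.mul_apply, tau_not_apply h ht hx, MulAut.conj_apply, h1]

/-- An involutory lift of the reflection in `t` maps `t` to `z * t`. -/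
theorem lift_sq (h : ESData Q z) {t : Q} (ht : t * t = z) {l : MulAut Q} (hl : IsLift z t l)
    (hll : l * l = 1) : l t = z * t := by
  obtain ⟨ζ₃, hζ₃, h3, -⟩ := hl t
  have h3' := h3 rfl
  rcases hζ₃ with rfl | rfl
  · exfalso
    rw [one_mul] at h3'
    have ht1 : t ≠ 1 := by
      rintro rfl
      rw [one_mul] at ht
      exact h.ne_one ht.symm
    have htz : t ≠ z := by
      rintro rfl
      rw [h.sq] at ht
      exact h.ne_one ht.symm
    obtain ⟨x, hx⟩ := h.exists_not_comm ht1 htz
    have h2 : l (l x) = x := by rw [← MulAut.mul_apply, hll, MulAut.one_apply]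
    obtain ⟨ζ₁, hζ₁, -, h1⟩ := hl x
    have h1' := h1 hx
    rw [h1', map_mul, hζ₁.aut h, map_mul, h1', h3', mul_assoc ζ₁ (x * t) t, ← mul_assoc ζ₁ ζ₁,
      hζ₁.sq h, one_mul, mul_assoc, ht] at h2
    apply h.ne_one
    simpa using h2
  · exact h3'

/-- If lifts `l`, `m` of the reflections in commuting `t`, `s` commute, and some `x` commutes with
`t` but not with `s`, then `l` fixes `s`. -/
theorem lift_comm (h : ESData Q z) {t s : Q} (hts : s * t = t * s) {l m : MulAut Q}
    (hl : IsLift z t l) (hm : IsLift z s m) (hlm : l * m = m * l) {x : Q} (hxt : x * t = t * x)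
    (hxs : x * s ≠ s * x) : l s = s := by
  have h0 : l (m x) = m (l x) := by rw [← MulAut.mul_apply, hlm, MulAut.mul_apply]
  obtain ⟨ζ₃, hζ₃, h3, -⟩ := hl s
  obtain ⟨ζ₁, hζ₁, h1, -⟩ := hl x
  obtain ⟨ζ₂, hζ₂, -, h2⟩ := hm x
  have h3' := h3 hts
  have h1' := h1 hxt
  have h2' := h2 hxs
  rw [h2', h1', map_mul, map_mul, map_mul, hζ₂.aut h, hζ₁.aut h, h1', h3', h2'] at h0
  -- h0 : ζ₂ * (ζ₁ * x * (ζ₃ * s)) = ζ₁ * (ζ₂ * (x * s))
  have key : ζ₃ * (ζ₂ * (ζ₁ * (x * s))) = ζ₂ * (ζ₁ * (x * s)) := by
    calc ζ₃ * (ζ₂ * (ζ₁ * (x * s))) = ζ₂ * (ζ₁ * x * (ζ₃ * s)) := by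
          rw [← hζ₃.central h (ζ₂ * (ζ₁ * (x * s)))]
          simp only [mul_assoc]
          rw [hζ₃.central h s]
      _ = ζ₁ * (ζ₂ * (x * s)) := h0
      _ = ζ₂ * (ζ₁ * (x * s)) := by
          rw [← mul_assoc, hζ₂.central h ζ₁, mul_assoc]
  have hζ1 : ζ₃ = 1 := by simpa using key
  rw [h3', hζ1, one_mul]

end Cfsg.Agent.Helper90.Griess
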