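import Mathlib
import Cfsg.Prelude.Def_Transfer
import Cfsg.Prelude.Def_KGroupFacts
import Cfsg.Agent.Helper90.GriessTau

set_option autoImplicit false
set_option linter.unusedSectionVars false
set_option linter.style.haveILetI false

/-!
# Griess: `Inn(Q)` has no complement in `Aut(Q)` for `Q = 2^{1+2n}`, `n ≥ 3`

Four pairwise commuting elements `c, c a, c b, c a b` of order 4 with product `1` give four commuting
reflections; commuting involutory lifts `l₁, …` in a complement would satisfy `l₁ c = z c` and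
`l₁ (c d) = c d` for `d = a, b, a b`, contradicting `c (c a) (c b) (c a b) = 1`.
(helper90, for S3085.)
-/

namespace Cfsg.Agent.Helper90.Griess

variable {Q : Type*} [Group Q] {z : Q}

theorem exists_lift_mem {L : Subgroup (MulAut Q)} (hL : (Cfsg.Inn Q).IsComplement' L)
    (α : MulAut Q) : ∃ w : Q, MulAut.conj w * α ∈ L := by
  obtain ⟨⟨ν, l⟩, hνl⟩ := hL.2 α
  obtain ⟨w, hw⟩ : ∃ w, MulAut.conj w = ν.1 := ν.2
  refine ⟨w⁻¹, ?_⟩
  have h1 : MulAut.conj w⁻¹ * α = l.1 := by
    rw [← hνl]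
    show MulAut.conj w⁻¹ * (ν.1 * l.1) = l.1
    rw [← hw, ← mul_assoc, ← map_mul, inv_mul_cancel, map_one, one_mul]
  rw [h1]
  exact l.2

theorem inn_inter {L : Subgroup (MulAut Q)} (hL : (Cfsg.Inn Q).IsComplement' L) {g : Q}
    (hg : MulAut.conj g ∈ L) : MulAut.conj g = 1 :=
  Subgroup.disjoint_def.mp hL.disjoint ⟨g, rfl⟩ hg

theorem eq_of_conj_mul {L : Subgroup (MulAut Q)} (hL : (Cfsg.Inn Q).IsComplement' L)
    {l l' : MulAut Q} (hl : l ∈ L) (hl' : l' ∈ L) (g : Q) (h : l = MulAut.conj g * l') :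
    l = l' := by
  have h1 : MulAut.conj g = l * l'⁻¹ := by rw [h, mul_inv_cancel_right]
  have h2 : MulAut.conj g ∈ L := by
    rw [h1]
    exact L.mul_mem hl (L.inv_mem hl')
  have h3 := inn_inter hL h2
  rw [h, h3, one_mul]

theorem aut_mul_conj (α : MulAut Q) (w : Q) :
    α * MulAut.conj w = MulAut.conj (α w) * α := by
  apply MulEquiv.ext
  intro x
  simp [MulAut.mul_apply, MulAut.conj_apply]

/-- An involution-lift in the complement. -/
theorem lift_sq_of_mem (h : ESData Q z) {L : Subgroup (MulAut Q)}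
    (hL : (Cfsg.Inn Q).IsComplement' L) {c : Q} (hc : c * c = z) {w : Q}
    (hl : MulAut.conj w * tau h c hc ∈ L) : (MulAut.conj w * tau h c hc) c = z * c := by
  apply lift_sq h hc (isLift_conj_tau h hc w)
  apply eq_of_conj_mul hL (L.mul_mem hl hl) L.one_mem (w * tau h c hc w * c)
  rw [mul_one, mul_assoc, ← mul_assoc (tau h c hc), aut_mul_conj, mul_assoc, tau_sq, ← map_mul,
    ← map_mul, mul_assoc]

theorem step (h : ESData Q z) {L : Subgroup (MulAut Q)} (hL : (Cfsg.Inn Q).IsComplement' L)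
    {c d : Q} (hc : c * c = z) (hd : d * d = 1) (hd1 : d ≠ 1) (hdz : d ≠ z)
    (hdc : d * c = c * d) {w₁ : Q} (hl₁ : MulAut.conj w₁ * tau h c hc ∈ L) :
    (MulAut.conj w₁ * tau h c hc) (c * d) = c * d := by
  have ht : (c * d) * (c * d) = z := by
    rw [mul_assoc, ← mul_assoc d c d, hdc, mul_assoc c d d, hd, mul_one, hc]
  have hcomm : (c * d) * c = c * (c * d) := by rw [mul_assoc, hdc]
  obtain ⟨w, hw⟩ := exists_lift_mem hL (tau h (c * d) ht)
  obtain ⟨x, hxc, hxd⟩ := h.exists_comm_not_comm hc hd hd1 hdz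
  have hxt : x * (c * d) ≠ (c * d) * x := by
    intro hh
    apply hxd
    rw [← mul_assoc, hxc, mul_assoc, mul_assoc] at hh
    exact mul_left_cancel hh
  have hτ : tau h c hc * tau h (c * d) ht = tau h (c * d) ht * tau h c hc :=
    tau_mul_comm h hc ht hcomm.symm
  have e1 : MulAut.conj w₁ * tau h c hc * (MulAut.conj w * tau h (c * d) ht) =
      MulAut.conj (w₁ * tau h c hc w) * (tau h c hc * tau h (c * d) ht) := by
    rw [mul_assoc, ← mul_assoc (tau h c hc), aut_mul_conj, map_mul, mul_assoc, mul_assoc]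
  have e2 : MulAut.conj w * tau h (c * d) ht * (MulAut.conj w₁ * tau h c hc) =
      MulAut.conj (w * tau h (c * d) ht w₁) * (tau h c hc * tau h (c * d) ht) := by
    rw [mul_assoc, ← mul_assoc (tau h (c * d) ht), aut_mul_conj, map_mul, mul_assoc, mul_assoc,
      hτ]
  have hlm : (MulAut.conj w₁ * tau h c hc) * (MulAut.conj w * tau h (c * d) ht) =
      (MulAut.conj w * tau h (c * d) ht) * (MulAut.conj w₁ * tau h c hc) := by
    apply eq_of_conj_mul hL (L.mul_mem hl₁ hw) (L.mul_mem hw hl₁)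
      (w₁ * tau h c hc w * (w * tau h (c * d) ht w₁)⁻¹)
    rw [e1, e2, ← mul_assoc (MulAut.conj _) (MulAut.conj _), ← map_mul, inv_mul_cancel_right]
  exact lift_comm h hcomm (isLift_conj_tau h hc w₁) (isLift_conj_tau h ht w) hlm hxc hxt

/-- The main argument. -/
theorem no_complement (h : ESData Q z) {a b c : Q} (hc : c * c = z) (ha : a * a = 1)
    (hb : b * b = 1) (hab : a * b = b * a) (hac : a * c = c * a) (hbc : b * c = c * b)
    (ha1 : a ≠ 1) (haz : a ≠ z) (hb1 : b ≠ 1) (hbz : b ≠ z) (hab1 : a * b ≠ 1)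
    (habz : a * b ≠ z) (L : Subgroup (MulAut Q)) : ¬ (Cfsg.Inn Q).IsComplement' L := by
  intro hL
  obtain ⟨w₁, hl₁⟩ := exists_lift_mem hL (tau h c hc)
  have h1 := lift_sq_of_mem h hL hc hl₁
  have h2 := step h hL hc ha ha1 haz hac hl₁
  have h3 := step h hL hc hb hb1 hbz hbc hl₁
  have habsq : (a * b) * (a * b) = 1 := by
    rw [mul_assoc, ← mul_assoc b a b, ← hab, mul_assoc a b b, hb, mul_one, ha]
  have habc : (a * b) * c = c * (a * b) := by
    rw [mul_assoc, hbc, ← mul_assoc, hac, mul_assoc]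
  have h4 := step h hL hc habsq hab1 habz habc hl₁
  have hac' : ∀ y, a * (c * y) = c * (a * y) := fun y => by rw [← mul_assoc, hac, mul_assoc]
  have hbc' : ∀ y, b * (c * y) = c * (b * y) := fun y => by rw [← mul_assoc, hbc, mul_assoc]
  have hba : b * a = a * b := hab.symm
  have hba' : ∀ y, b * (a * y) = a * (b * y) := fun y => by rw [← mul_assoc, hba, mul_assoc]
  have hcc' : ∀ y, c * (c * y) = z * y := fun y => by rw [← mul_assoc, hc]
  have hprod : c * (c * a) * (c * b) * (c * (a * b)) = 1 := by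
    simp only [mul_assoc, hac', hbc', hba', hcc', hc, ha, hb, h.sq, mul_one]
  have h5 := congrArg (MulAut.conj w₁ * tau h c hc) hprod
  rw [map_mul, map_mul, map_mul, h1, h2, h3, h4, map_one] at h5
  have h6 : z * (c * (c * a) * (c * b) * (c * (a * b))) = 1 := by
    rw [← h5]
    simp only [mul_assoc]
  rw [hprod, mul_one] at h6
  exact h.ne_one h6

/-- Existence of the configuration `a, b, c` from an elementary abelian subgroup of order `≥ 16`. -/
theorem exists_abc [Finite Q] (h : ESData Q z) (E : Subgroup Q)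
    (hE : Cfsg.IsElementaryAbelian 2 E) (hcard : 16 ≤ Nat.card E) :
    ∃ a b c : Q, c * c = z ∧ a * a = 1 ∧ b * b = 1 ∧ a * b = b * a ∧ a * c = c * a ∧
      b * c = c * b ∧ a ≠ 1 ∧ a ≠ z ∧ b ≠ 1 ∧ b ≠ z ∧ a * b ≠ 1 ∧ a * b ≠ z := by
  classical
  obtain ⟨c, hc⟩ := h.exists_sq_eq
  have hc1 : c ≠ 1 := by
    rintro rfl
    rw [one_mul] at hc
    exact h.ne_one hc.symm
  have hcz : c ≠ z := by
    rintro rfl
    rw [h.sq] at hc
    exact h.ne_one hc.symm
  obtain ⟨y₀, hy₀⟩ := h.exists_not_comm hc1 hcz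
  set C : Subgroup Q := Subgroup.centralizer {c} with hC
  have hmemC : ∀ g, g ∈ C ↔ g * c = c * g := by
    intro g
    rw [hC, Subgroup.mem_centralizer_iff]
    simp [eq_comm]
  have hidx : C.index = 2 := by
    rw [Subgroup.index_eq_two_iff]
    refine ⟨y₀, fun b => ?_⟩
    by_cases hb : b * c = c * b
    · right
      refine ⟨(hmemC b).mpr hb, fun hby => ?_⟩
      apply hy₀
      have h1 := (hmemC _).mp hby
      rw [mul_assoc, ← mul_assoc c, ← hb, mul_assoc] at h1
      exact mul_left_cancel h1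
    · left
      exact ⟨(hmemC _).mpr (h.mul_comm_of_not hb hy₀), fun hb' => hb ((hmemC b).mp hb')⟩
  haveI : C.Normal := Subgroup.normal_of_index_eq_two hidx
  have hrel : C.relIndex E ∣ 2 := by
    rw [← hidx]
    exact Subgroup.relIndex_dvd_index_of_normal C E
  have hle : (C.subgroupOf E).index ≤ 2 := Nat.le_of_dvd (by norm_num) hrel
  have hcardF : 8 ≤ Nat.card (C.subgroupOf E) := by
    have h1 := Subgroup.card_mul_index (C.subgroupOf E)
    nlinarith
  have pick : ∀ S : Finset Q, S.card < 8 → ∃ x : C.subgroupOf E, ((x : E) : Q) ∉ S := by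
    intro S hS
    by_contra hcon
    push Not at hcon
    have hinj : Function.Injective
        (fun x : C.subgroupOf E => (⟨((x : E) : Q), hcon x⟩ : S)) := by
      intro x y hxy
      have h1 := congrArg Subtype.val hxy
      exact Subtype.ext (Subtype.ext h1)
    have h2 := Nat.card_le_card_of_injective _ hinj
    rw [Nat.card_eq_fintype_card (α := S), Fintype.card_coe] at h2
    omega
  obtain ⟨a, ha⟩ := pick {1, z} (lt_of_le_of_lt Finset.card_le_two (by norm_num))
  obtain ⟨b, hb⟩ := pick {1, z, ((a : E) : Q), z * ((a : E) : Q)}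
    (lt_of_le_of_lt Finset.card_le_four (by norm_num))
  simp only [Finset.mem_insert, Finset.mem_singleton, not_or] at ha hb
  have hasq : ((a : E) : Q) * a = 1 := by
    have h1 := hE.2 _ (a : E).2
    rwa [pow_two] at h1
  have hbsq : ((b : E) : Q) * b = 1 := by
    have h1 := hE.2 _ (b : E).2
    rwa [pow_two] at h1
  have hab : ((a : E) : Q) * b = b * a := by
    have h1 : (a : E) * (b : E) = (b : E) * (a : E) := hE.1.is_comm.comm _ _
    exact congrArg Subtype.val h1
  have hac : ((a : E) : Q) * c = c * a := (hmemC _).mp (Subgroup.mem_subgroupOf.mp a.2)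
  have hbc : ((b : E) : Q) * c = c * b := (hmemC _).mp (Subgroup.mem_subgroupOf.mp b.2)
  refine ⟨a, b, c, hc, hasq, hbsq, hab, hac, hbc, ha.1, ha.2, hb.1, hb.2.1, ?_, ?_⟩
  · intro h1
    apply hb.2.2.1
    exact mul_left_cancel (h1.trans hasq.symm)
  · intro h1
    apply hb.2.2.2
    have h2 : ((a : E) : Q) * (z * a) = z := by rw [h.central', hasq, mul_one]
    exact mul_left_cancel (h1.trans h2.symm)

end Cfsg.Agent.Helper90.Griess
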