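import Mathlib
import Cfsg.Agent.Helper90.HTDefs
import Cfsg.Agent.Helper90.BGChain
import Cfsg.Agent.Helper46.BGLIRR
import Cfsg.Agent.Helper51.TIORD
import Cfsg.Agent.Helper34.HTHFIX
import Cfsg.Agent.Helper10.HTHMAX
import Cfsg.Agent.Helper22.HTHODD
import Cfsg.Agent.Helper88.HTHANISO
import Cfsg.Agent.Helper10.HTHLAG
import Cfsg.Agent.Helper33.HTHSUM

set_option autoImplicit false

/-!
# S5953: piece HB1G (helper90)
-/

namespace Cfsg.Agent.Helper90.HT

open Module Polynomial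
open Cfsg.Agent.Helper90.BG

variable {F : Type*} [Field F] {V : Type*} [AddCommGroup V] [Module F V] [FiniteDimensional F V]
  (σ : F →+* F) (h : V → V → F)

theorem ht_b1g [Fintype F] (q : ℕ) (hq : Fintype.card F = q ^ 2) (hσ : ∀ a, σ a = a ^ q)
    (hh : IsHerm σ h) (hnd : ∀ v, (∀ w, h v w = 0) → v = 0)
    (T : Module.End F V) (hT : HPres h T) (r : ℕ) [Fact r.Prime] (hr2 : 2 < r)
    (hrF : (r : F) ≠ 0) (hTr : T ^ r = 1) (b : ℕ)
    (hb : b = orderOf ((Fintype.card F : ℕ) : ZMod r)) :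
    ∃ e u b₀ : ℕ, finrank F V = e + b * u ∧
      (orderOf ((q : ℕ) : ZMod r) % 4 ≠ 2 → u = 2 * b₀) ∧
      u ≤ 2 * b₀ + (r - 1) / b ∧ 2 * b₀ ≤ u ∧
      ∀ t m₀ : ℕ, t ≤ b₀ → 2 * m₀ ≤ e →
        ∃ W : Submodule F V, finrank F W = b * t + m₀ ∧ HTI h W ∧ W.map T ≤ W := by
  classical
  have hrpr : r.Prime := Fact.out
  have hdeg : ∀ g : F[X], Irreducible g → g ∣ ∑ j ∈ Finset.range r, (X : F[X]) ^ j →
      g.natDegree = b := fun g hg hdvd => by
    rw [hb]
    exact Cfsg.Agent.Helper46.bgl_irr_factor_degree r hrF g hg hdvd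
  have hb0 : 0 < b := by
    obtain ⟨p, hp⟩ := CharP.exists F
    have hpp : p.Prime := by
      rcases CharP.char_is_prime_or_zero F p with h | h
      · exact h
      · exfalso
        subst h
        have : CharZero F := CharP.charP_to_charZero F
        exact not_finite F
    have : Fact p.Prime := ⟨hpp⟩
    have hrq : ¬ r ∣ Fintype.card F := by
      intro h
      obtain ⟨n, -, hn⟩ := FiniteField.card F p
      rw [hn] at h
      have h3 := (Nat.prime_dvd_prime_iff_eq hrpr hpp).mp (hrpr.dvd_of_dvd_pow h)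
      apply hrF
      rw [h3]
      exact CharP.cast_eq_zero F p
    rw [hb]
    exact (Cfsg.Agent.Helper51.TI5955.ord_pos r _ hrq).1
  obtain ⟨hDT, hcompl, hCD, hDC, hCnd, hDnd⟩ := Cfsg.Agent.Helper34.HT5953.ht_fix σ h hh hnd T hT r hrF hTr
  have hCDbot : LinearMap.ker (T - 1) ⊓ LinearMap.range (T - 1) = ⊥ := hcompl.inf_eq_bot
  have hfr : finrank F (LinearMap.ker (T - 1)) + finrank F (LinearMap.range (T - 1)) =
      finrank F V := Submodule.finrank_add_eq_of_isCompl hcompl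
  have hClag := Cfsg.Agent.Helper10.HT5953.ht_lag σ h q hq hσ hh (LinearMap.ker (T - 1)) hCnd
  obtain ⟨W₀, U, hW₀D, hUD, hW₀ti, hW₀T, hUT, hDdim, hUmax⟩ :=
    Cfsg.Agent.Helper10.HT5953.ht_max σ h hh T hT r hrF hTr (LinearMap.range (T - 1)) hDT hDnd
  have hDk : LinearMap.range (T - 1) ⊓ LinearMap.ker (T - 1) = ⊥ := by
    rw [inf_comm]
    exact hCDbot
  have hW₀k : W₀ ⊓ LinearMap.ker (T - 1) = ⊥ := by
    rw [eq_bot_iff]
    exact (inf_le_inf_right _ hW₀D).trans (le_of_eq hDk)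
  have hUk : U ⊓ LinearMap.ker (T - 1) = ⊥ := by
    rw [eq_bot_iff]
    exact (inf_le_inf_right _ hUD).trans (le_of_eq hDk)
  obtain ⟨u, hu⟩ : b ∣ finrank F (LinearMap.range (T - 1)) := by
    have h1 := cyc_dvd T r b hrF hTr hdeg (LinearMap.range (T - 1)) hDT
    rw [hDk] at h1
    simpa using h1
  obtain ⟨b₀, hb₀⟩ : b ∣ finrank F W₀ := by
    have h1 := cyc_dvd T r b hrF hTr hdeg W₀ hW₀T
    rw [hW₀k] at h1
    simpa using h1
  have h1 : b * u = 2 * (b * b₀) + finrank F U := by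
    rw [← hu, ← hb₀]
    exact hDdim
  have hbu : 2 * b₀ ≤ u := by
    by_contra hlt
    push Not at hlt
    have h2 : b * u < b * (2 * b₀) := Nat.mul_lt_mul_of_pos_left hlt hb0
    have h3 : b * (2 * b₀) = 2 * (b * b₀) := by ring
    omega
  have hUdim : finrank F U = b * (u - 2 * b₀) := by
    rw [Nat.mul_sub]
    have h3 : b * (2 * b₀) = 2 * (b * b₀) := by ring
    omega
  have hUbot : orderOf ((q : ℕ) : ZMod r) % 4 ≠ 2 → U = ⊥ := by
    intro hio
    by_contra hne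
    obtain ⟨W', hW'U, hW'ti, hW'T, hW'ne⟩ :=
      Cfsg.Agent.Helper22.HT5953.ht_odd σ h q hq hσ hh T hT r hr2 hrF hTr hio U hUT hne hUk
    exact hW'ne (hUmax W' hW'U hW'ti hW'T)
  refine ⟨finrank F (LinearMap.ker (T - 1)), u, b₀, ?_, ?_, ?_, hbu, ?_⟩
  · rw [← hfr, hu]
  · intro hio
    have h2 : finrank F U = 0 := by
      rw [hUbot hio]
      simp
    rw [hUdim] at h2
    have h3 := (Nat.mul_eq_zero.mp h2).resolve_left (by omega)
    omega
  · have hUle : finrank F U ≤ r - 1 := by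
      by_cases hi4 : orderOf ((q : ℕ) : ZMod r) % 4 = 2
      · by_contra hlt
        push Not at hlt
        obtain ⟨W', hW'U, hW'ti, hW'T, hW'ne⟩ :=
          Cfsg.Agent.Helper88.HT5953.ht_aniso σ h q hq hσ hh T hT r hr2 hrF hTr hi4 U hUT hUk (by omega)
        exact hW'ne (hUmax W' hW'U hW'ti hW'T)
      · rw [hUbot hi4]
        simp
    rw [hUdim] at hUle
    have h5 : u - 2 * b₀ ≤ (r - 1) / b := by
      rw [Nat.le_div_iff_mul_le hb0, mul_comm]
      exact hUle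
    omega
  · intro t m₀ ht hm₀
    have hPW : ∀ v ∈ W₀, aeval T (∑ j ∈ Finset.range r, (X : F[X]) ^ j) v ∈
        (⊥ : Submodule F V) := by
      intro v hv
      have h2 : aeval T (∑ j ∈ Finset.range r, (X : F[X]) ^ j) v ∈
          W₀ ⊓ LinearMap.ker (T - 1) := by
        refine ⟨aeval_mem T W₀ hW₀T _ hv, ?_⟩
        rw [SetLike.mem_coe, LinearMap.mem_ker, ← Module.End.mul_apply,
          sub_one_mul_aeval_phi T r hTr, LinearMap.zero_apply]
      rw [hW₀k] at h2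
      exact h2
    obtain ⟨Wb, -, hWbW₀, hWbT, hWbdim⟩ := chain_exists T ⊥ W₀ bot_le (by simp) hW₀T _
      (phi_ne_zero r hrF) hPW b hdeg t (by
        rw [finrank_bot, zero_add, hb₀]
        exact Nat.mul_le_mul_left b ht)
    obtain ⟨A, hAC, hAti, hAdim⟩ := hClag m₀ hm₀
    obtain ⟨hti, hdim⟩ := Cfsg.Agent.Helper33.HT5953.ht_sum σ h hh A Wb (LinearMap.ker (T - 1)) (LinearMap.range (T - 1)) hAC
      (hWbW₀.trans hW₀D) hCDbot hCD hAti
      (fun u hu v hv => hW₀ti u (hWbW₀ hu) v (hWbW₀ hv))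
    refine ⟨A ⊔ Wb, ?_, hti, ?_⟩
    · rw [hdim, hAdim, hWbdim, finrank_bot]
      ring
    · rw [Submodule.map_sup]
      refine sup_le_sup ?_ hWbT
      rintro _ ⟨a, ha, rfl⟩
      have h6 : T a = a := (mem_ker_sub_one T a).mp (hAC ha)
      rw [h6]
      exact ha

end Cfsg.Agent.Helper90.HT
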