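import Mathlib
import Cfsg.Agent.Helper90.HTDefs
import Cfsg.Agent.Helper90.HTDefs2
import Cfsg.Agent.Helper10.HTHB3
import Cfsg.Agent.Helper27.HTHINV
import Cfsg.Agent.Helper31.HTBAB
import Cfsg.Agent.Helper33.HTARC
import Cfsg.Agent.Helper33.HTB1A
import Cfsg.Agent.Helper33.HTDETINV
import Cfsg.Agent.Helper33.HTHNEG
import Cfsg.Agent.Helper33.HTSCAL
import Cfsg.Agent.Helper33.HTSQRT
import Cfsg.Agent.Helper35.HTBT
import Cfsg.Agent.Helper35.HTHTW
import Cfsg.Agent.Helper37.HTCNTB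
import Cfsg.Agent.Helper37.HTORDC
import Cfsg.Agent.Helper42.HTCNTA
import Cfsg.Agent.Helper46.HTB2
import Cfsg.Agent.Helper47.HTNEG1
import Cfsg.Agent.Helper47.HTROOT
import Cfsg.Agent.Helper58.HTCNTAR
import Cfsg.Agent.Helper94.HTBC
import Cfsg.Agent.Helper97.HTBD
import Cfsg.Agent.Helper90.HTB1G
import Cfsg.Agent.Helper44.Unitary
import Cfsg.Agent.Helper60.SFRDETB
import Cfsg.Agent.Helper13.TIChar

set_option autoImplicit false

/-!
# S5953: final assembly (helper90)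
-/

namespace Cfsg.Agent.Helper90.HT

open Module Polynomial

variable {F : Type*} [Field F]

theorem ht_toLin_pow (n : ℕ) (x : Matrix.SpecialLinearGroup (Fin n) F) (k : ℕ) :
    Matrix.toLin' ((x ^ k : Matrix.SpecialLinearGroup (Fin n) F) : Matrix (Fin n) (Fin n) F) =
      Matrix.toLin' (x : Matrix (Fin n) (Fin n) F) ^ k := by
  induction k with
  | zero => simp; rfl
  | succ k ih =>
    rw [pow_succ, Matrix.SpecialLinearGroup.coe_mul, Matrix.toLin'_mul, ih, pow_succ]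
    rfl

theorem ht_toLin_pow_scalar (n : ℕ) (x : Matrix.SpecialLinearGroup (Fin n) F) (k : ℕ) (z : F)
    (hz : ((x ^ k : Matrix.SpecialLinearGroup (Fin n) F) : Matrix (Fin n) (Fin n) F) = z • 1) :
    Matrix.toLin' (x : Matrix (Fin n) (Fin n) F) ^ k = z • (1 : Module.End F (Fin n → F)) := by
  rw [← ht_toLin_pow, hz, map_smul, Matrix.toLin'_one]
  rfl

theorem ht_finrank (n : ℕ) : finrank F (Fin n → F) = n := by
  rw [Module.finrank_fintype_fun_eq_card, Fintype.card_fin]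

/-- Rescaling an isometry by a norm-one scalar. -/
theorem ht_rescale {V : Type*} [AddCommGroup V] [Module F V] (σ : F →+* F) (h : V → V → F)
    (hh : IsHerm σ h) (T : Module.End F V) (hT : HPres h T) (w : F) (hw : w * σ w = 1) (k : ℕ)
    (z : F) (hTk : T ^ k = z • (1 : Module.End F V)) (hwk : w ^ k = z) :
    HPres h (w⁻¹ • T) ∧ (w⁻¹ • T) ^ k = 1 ∧
      ∀ W : Submodule F V, W.map (w⁻¹ • T) ≤ W → W.map T ≤ W := by
  have hw0 : w ≠ 0 := by
    rintro rfl
    simp at hw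
  have hsw : σ w⁻¹ = (σ w)⁻¹ := map_inv₀ σ w
  refine ⟨?_, ?_, ?_⟩
  · intro u v
    rw [LinearMap.smul_apply, LinearMap.smul_apply, hh.smul_left, hh.smul_right, hT u v, hsw,
      ← mul_assoc, ← mul_inv, hw, inv_one, one_mul]
  · rw [_root_.smul_pow, hTk, smul_smul, ← hwk, inv_pow, inv_mul_cancel₀ (pow_ne_zero k hw0),
      one_smul]
  · intro W hW
    rintro _ ⟨v, hv, rfl⟩
    have h1 : (w⁻¹ • T) v ∈ W := hW (Submodule.mem_map_of_mem hv)
    have h2 : T v = w • ((w⁻¹ • T) v) := by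
      rw [LinearMap.smul_apply, smul_smul, mul_inv_cancel₀ hw0, one_smul]
    rw [h2]
    exact W.smul_mem w h1

variable [Fintype F]

theorem ht_q_facts (p : ℕ) [Fact p.Prime] [CharP F p] (q : ℕ) (hq : Fintype.card F = q ^ 2) :
    ∃ f : ℕ, 1 ≤ f ∧ q = p ^ f := by
  have hp : p.Prime := Fact.out
  obtain ⟨k, -, hk⟩ := FiniteField.card F p
  have hqd : q ∣ p ^ (k : ℕ) := by
    rw [← hk, hq]
    exact dvd_pow_self q (by norm_num)
  obtain ⟨f, -, hf⟩ := (Nat.dvd_prime_pow hp).mp hqd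
  refine ⟨f, ?_, hf⟩
  rcases Nat.eq_zero_or_pos f with h0 | h0
  · subst h0
    rw [hf, pow_zero, one_pow] at hq
    have := Fintype.one_lt_card (α := F)
    omega
  · exact h0

theorem ht_count_main (p : ℕ) [Fact p.Prime] [CharP F p] (q : ℕ) (hq : Fintype.card F = q ^ 2)
    (n m : ℕ) (hm : 1 ≤ m) (hmn : 2 * m ≤ n) (r : ℕ) [Fact r.Prime]
    (hr : r ∣ Nat.card {W : Submodule F (Fin n → F) // Module.finrank F ↥W = m ∧
      (∀ u ∈ W, ∀ v ∈ W, Cfsg.hermForm n F q u v = 0)}) :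
    r ≠ p ∧ ∃ j, n + 1 ≤ j + 2 * m ∧ j ≤ n ∧ r ∣ (if Even j then q ^ j - 1 else q ^ j + 1) := by
  obtain ⟨f, hf1, hf⟩ := ht_q_facts p q hq
  have hcast : ((∏ j ∈ Finset.range m, (Fintype.card F ^ m - Fintype.card F ^ j) : ℕ) : ℤ) =
      ∏ j ∈ Finset.range m, (((q : ℤ) ^ 2) ^ m - ((q : ℤ) ^ 2) ^ j) := by
    rw [Nat.cast_prod]
    refine Finset.prod_congr rfl fun j hj => ?_
    have hjm : j ≤ m := (Finset.mem_range.mp hj).le
    have hq1 : 1 ≤ Fintype.card F := Fintype.card_pos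
    rw [Nat.cast_sub (Nat.pow_le_pow_right hq1 hjm), hq]
    push_cast
    ring
  have hA : (Nat.card (HFam F n q m) : ℤ) = ∏ j ∈ Finset.range m, ((q : ℤ) ^ (2 * j) *
      (((q : ℤ) ^ (n - 2 * j) - (-1) ^ (n - 2 * j)) *
        ((q : ℤ) ^ (n - 2 * j - 1) - (-1) ^ (n - 2 * j - 1)))) := Cfsg.Agent.Helper42.HT5953.ht_cnt_a F q hq n m hmn
  have hB : Nat.card (HFam F n q m) =
      Nat.card {W : Submodule F (Fin n → F) // Module.finrank F ↥W = m ∧
        (∀ u ∈ W, ∀ v ∈ W, Cfsg.hermForm n F q u v = 0)} *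
      ∏ j ∈ Finset.range m, (Fintype.card F ^ m - Fintype.card F ^ j) := Cfsg.Agent.Helper37.HT5953.ht_cnt_b F q hq n m
  have key := Cfsg.Agent.Helper58.HT5953.ht_cnt_ar p f q n m _ (Fact.out) hf1 hf hm hmn (by
    rw [← hcast, ← hA, hB]
    push_cast
    ring)
  refine ⟨?_, key.2 r Fact.out hr⟩
  rintro rfl
  exact key.1 hr

/-- (⟸) for odd `r`. -/
theorem ht_back_odd (p : ℕ) [Fact p.Prime] [CharP F p] (q : ℕ) (hq : Fintype.card F = q ^ 2)
    (n m : ℕ) (hn : 1 ≤ n) (hmn : 2 * m ≤ n) (r : ℕ) [Fact r.Prime] (hrp : r ≠ p) (hr2 : 2 < r)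
    (i b c : ℕ) (hi : i = orderOf (q : ZMod r)) (hb : b = if Even i then i / 2 else i)
    (hc : c = if i % 4 = 0 then i else if i % 4 = 2 then i / 2 else 2 * i)
    (h1 : 2 * (m % b) ≤ n % c)
    (h2 : i % 4 ≠ 2 ∨ (i % 4 = 2 ∧ (r - 1) / b + 2 * (m / b) ≤ n / b ∧
      (2 < i ∨ (i = 2 ∧ (r ∣ m ∨ padicValNat r n ≤ padicValNat r (q + 1))))))
    (x : Matrix.SpecialLinearGroup (Fin n) F) (hx : x ∈ Cfsg.SU n F q) (z : F)
    (hz : ((x ^ r : Matrix.SpecialLinearGroup (Fin n) F) : Matrix (Fin n) (Fin n) F) = z • 1) :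
    ∃ W : Submodule F (Fin n → F), finrank F W = m ∧
      (∀ u ∈ W, ∀ v ∈ W, Cfsg.hermForm n F q u v = 0) ∧
      W.map (Matrix.toLin' (x : Matrix (Fin n) (Fin n) F)) ≤ W := by
  have hrpr : r.Prime := Fact.out
  obtain ⟨σ, hσ⟩ := Cfsg.Agent.Helper44.exists_conj hq
  have hh := isHerm_hermForm hq σ hσ n
  have hnd := hermForm_nondeg hq n
  obtain ⟨hrF, hrq2⟩ := Cfsg.Agent.Helper13.TIsp.ti_char_facts (F := F) p r hrp
  have hrq : ¬ r ∣ q := fun hd => hrq2 (by rw [hq]; exact dvd_pow hd (by norm_num))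
  obtain ⟨hi0, hb0, hc0, hbord, hbr, hsd, hpr, hi2, hcj⟩ := Cfsg.Agent.Helper37.HT5953.ht_ordc r q hr2 hrq i b c hi hb hc
  have hbF : b = orderOf ((Fintype.card F : ℕ) : ZMod r) := by rw [hq]; exact hbord
  obtain ⟨hzz, hzn⟩ := Cfsg.Agent.Helper33.HT5953.ht_scal q hq σ hσ n hn x hx r z hz
  have hT := hpres_of_mem_SU n x hx
  have hTr := ht_toLin_pow_scalar n x r z hz
  have hfr : finrank F (Fin n → F) = n := ht_finrank n
  rcases Cfsg.Agent.Helper47.HT5953.ht_root_or_irr q hq σ hσ r hr2 z hzz with ⟨w, hw, hwr⟩ | ⟨hrq1, hirr, hord⟩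
  · obtain ⟨hT', hT'r, hinv⟩ := ht_rescale σ _ hh _ hT w hw r z hTr hwr
    obtain ⟨e, u, b₀, hdim, ho, he, hb2, hex⟩ := ht_b1g σ _ q hq hσ hh hnd _ hT' r hr2 hrF hT'r b
      hbF
    rw [hfr] at hdim
    obtain ⟨t, m₀, ht, hm₀, hmeq⟩ := Cfsg.Agent.Helper33.HT5953.b1_arith_u r i b c n m e u b₀ hr2 hb0 hbr
      (fun h => (hsd h).1) hpr hdim (by rw [hi]; exact ho) he hb2 hmn h1
      (h2.imp id fun h => h.2.1)
    obtain ⟨W, hW1, hW2, hW3⟩ := hex t m₀ ht hm₀
    exact ⟨W, by rw [hW1, hmeq], hW2, hinv W hW3⟩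
  · have hi2' : i = 2 := hi2.mpr hrq1
    have h2' : r ∣ m ∨ padicValNat r n ≤ padicValNat r (q + 1) := by
      rcases h2 with h | ⟨-, -, h | ⟨-, h⟩⟩
      · omega
      · omega
      · exact h
    have hxr : (x : Matrix (Fin n) (Fin n) F) ^ r = z • (1 : Matrix (Fin n) (Fin n) F) := by
      rw [← hz, Matrix.SpecialLinearGroup.coe_pow]
    obtain ⟨s, hns, hdet⟩ := Cfsg.Agent.Helper60.det_of_irr r (by omega) n
      (x : Matrix (Fin n) (Fin n) F) z hirr hxr
    have hzs : z ^ s = 1 := by rw [← hdet]; exact x.2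
    have hdv := hord s hzs
    rcases h2' with hrm | hv
    · -- the twisted case with `r ∣ m`
      obtain ⟨f, hf1, hf⟩ := ht_q_facts p q hq
      have hqF : (q : F) = 0 := by
        rw [hf, Nat.cast_pow, CharP.cast_eq_zero F p, zero_pow (by omega)]
      have hzq : z ^ (q + 1) = 1 := by
        rw [pow_succ, ← hσ, mul_comm]; exact hzz
      have hTN : Matrix.toLin' (x : Matrix (Fin n) (Fin n) F) ^ (r * (q + 1)) = 1 := by
        rw [pow_mul, hTr, _root_.smul_pow, one_pow, hzq, one_smul]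
      have hN : ((r * (q + 1) : ℕ) : F) ≠ 0 := by
        rw [Nat.cast_mul, Nat.cast_add, hqF, zero_add, Nat.cast_one, mul_one]
        exact hrF
      exact Cfsg.Agent.Helper35.HT5953.ht_twist σ _ hh hnd _ hT r hr2 z hTr hirr (r * (q + 1)) hN hTN m hrm
        (by rw [hfr]; exact hmn)
    · exfalso
      have hn0 : n ≠ 0 := by omega
      have h3 : r ^ (padicValNat r (q + 1) + 1) ∣ n := by
        rw [hns, pow_succ, mul_comm]
        exact Nat.mul_dvd_mul_left r hdv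
      have h4 := (padicValNat_dvd_iff_le (p := r) hn0).mp h3
      omega

/-- (⟸) for `r = 2`. -/
theorem ht_back_two (p : ℕ) [Fact p.Prime] [CharP F p] (hp2 : p ≠ 2) (q : ℕ)
    (hq : Fintype.card F = q ^ 2) (n m : ℕ) (hn : 1 ≤ n) (hmn : 2 * m ≤ n)
    (hcond : 2 * m < n ∨ padicValNat 2 (q + 1) ≤ padicValNat 2 n)
    (x : Matrix.SpecialLinearGroup (Fin n) F) (hx : x ∈ Cfsg.SU n F q) (z : F)
    (hz : ((x ^ 2 : Matrix.SpecialLinearGroup (Fin n) F) : Matrix (Fin n) (Fin n) F) = z • 1) :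
    ∃ W : Submodule F (Fin n → F), finrank F W = m ∧
      (∀ u ∈ W, ∀ v ∈ W, Cfsg.hermForm n F q u v = 0) ∧
      W.map (Matrix.toLin' (x : Matrix (Fin n) (Fin n) F)) ≤ W := by
  have hp : p.Prime := Fact.out
  have h2F : (2 : F) ≠ 0 := by
    intro h
    have h' : ((2 : ℕ) : F) = 0 := by exact_mod_cast h
    rw [CharP.cast_eq_zero_iff F p] at h'
    exact hp2 ((Nat.prime_dvd_prime_iff_eq hp Nat.prime_two).mp h')
  obtain ⟨σ, hσ⟩ := Cfsg.Agent.Helper44.exists_conj hq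
  have hh := isHerm_hermForm hq σ hσ n
  have hnd := hermForm_nondeg hq n
  obtain ⟨hzz, hzn⟩ := Cfsg.Agent.Helper33.HT5953.ht_scal q hq σ hσ n hn x hx 2 z hz
  have hT := hpres_of_mem_SU n x hx
  have hTr := ht_toLin_pow_scalar n x 2 z hz
  have hfr : finrank F (Fin n → F) = n := ht_finrank n
  rcases Cfsg.Agent.Helper33.HT5953.ht_sqrt q hq σ hσ h2F z hzz with ⟨w, hw, hw2⟩ | ⟨y, hy, hy2⟩
  · obtain ⟨hT', hT'r, hinv⟩ := ht_rescale σ _ hh _ hT w hw 2 z hTr hw2
    obtain ⟨hsum, hex, -⟩ := Cfsg.Agent.Helper27.HT5953.ht_inv σ _ q hq hσ hh hnd _ hT' h2F hT'r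
    rw [hfr] at hsum
    have hle : m ≤ finrank F (LinearMap.ker (w⁻¹ • Matrix.toLin' (x : Matrix (Fin n) (Fin n) F) - 1)) / 2 +
        finrank F (LinearMap.ker (w⁻¹ • Matrix.toLin' (x : Matrix (Fin n) (Fin n) F) + 1)) / 2 := by
      by_cases hlt : 2 * m < n
      · omega
      · have hv : padicValNat 2 (q + 1) ≤ padicValNat 2 n := hcond.resolve_left hlt
        have heven : Even (finrank F
            (LinearMap.ker (w⁻¹ • Matrix.toLin' (x : Matrix (Fin n) (Fin n) F) + 1))) := by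
          by_contra hodd
          rw [Nat.not_even_iff_odd] at hodd
          have hdet := Cfsg.Agent.Helper33.HT5953.ht_det_inv (w⁻¹ • Matrix.toLin' (x : Matrix (Fin n) (Fin n) F)) h2F hT'r
          rw [LinearMap.det_smul, LinearMap.det_toLin', hfr, hodd.neg_one_pow] at hdet
          have hx1 : (x : Matrix (Fin n) (Fin n) F).det = 1 := x.2
          rw [hx1, mul_one, inv_pow] at hdet
          have hwn : w ^ n = -1 := by
            have h5 : w ^ n = (-1 : F)⁻¹ := by rw [← hdet, inv_inv]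
            rw [h5]
            norm_num
          have := (Cfsg.Agent.Helper47.HT5953.ht_neg_one_pow q hq σ hσ h2F n (by omega)).mp ⟨w, hw, hwn⟩
          omega
        obtain ⟨k, hk⟩ := heven
        omega
    obtain ⟨W, hW1, hW2, hW3⟩ := hex m hle
    exact ⟨W, hW1, hW2, hinv W hW3⟩
  · rw [← hy2] at hTr
    exact Cfsg.Agent.Helper33.HT5953.ht_neg σ _ hh _ hT h2F y hy hTr m (by rw [hfr]; exact hmn)

/-- (⟹) -/
theorem ht_fwd (p : ℕ) [Fact p.Prime] [CharP F p] (q : ℕ) (hq : Fintype.card F = q ^ 2)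
    (n m : ℕ) (hn : 3 ≤ n) (hm : 1 ≤ m) (hmn : 2 * m ≤ n) (r : ℕ) [Fact r.Prime]
    (hrΩ : r ∣ Nat.card {W : Submodule F (Fin n → F) // Module.finrank F ↥W = m ∧
      (∀ u ∈ W, ∀ v ∈ W, Cfsg.hermForm n F q u v = 0)})
    (i b c : ℕ) (hi : i = orderOf (q : ZMod r)) (hb : b = if Even i then i / 2 else i)
    (hc : c = if i % 4 = 0 then i else if i % 4 = 2 then i / 2 else 2 * i)
    (hL : ∀ x : Matrix.SpecialLinearGroup (Fin n) F, x ∈ Cfsg.SU n F q →
      (∃ z : F, ((x ^ r : Matrix.SpecialLinearGroup (Fin n) F) : Matrix (Fin n) (Fin n) F) =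
        z • (1 : Matrix (Fin n) (Fin n) F)) →
      (∀ z : F, (x : Matrix (Fin n) (Fin n) F) ≠ z • (1 : Matrix (Fin n) (Fin n) F)) →
      ∃ W : Submodule F (Fin n → F), Module.finrank F ↥W = m ∧
        (∀ u ∈ W, ∀ v ∈ W, Cfsg.hermForm n F q u v = 0) ∧
        W.map (Matrix.toLin' (x : Matrix (Fin n) (Fin n) F)) ≤ W) :
    (r = 2 ∧ p ≠ 2 ∧ (2 * m < n ∨ padicValNat 2 (q + 1) ≤ padicValNat 2 n)) ∨
     (r ≠ p ∧ 2 < r ∧ b ≤ m ∧ 2 * (m % b) ≤ n % c ∧
       (i % 4 ≠ 2 ∨ (i % 4 = 2 ∧ (r - 1) / b + 2 * (m / b) ≤ n / b ∧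
         (2 < i ∨ (i = 2 ∧ (r ∣ m ∨ padicValNat r n ≤ padicValNat r (q + 1))))))) := by
  obtain ⟨hrp, j, hj1, hj2, hj⟩ := ht_count_main p q hq n m hm hmn r hrΩ
  have hrpr : r.Prime := Fact.out
  have hp : p.Prime := Fact.out
  obtain ⟨σ, hσ⟩ := Cfsg.Agent.Helper44.exists_conj hq
  have hh := isHerm_hermForm hq σ hσ n
  have hnd := hermForm_nondeg hq n
  by_cases hr2 : r = 2
  · left
    have hp2 : p ≠ 2 := fun h => hrp (hr2.trans h.symm)
    refine ⟨hr2, hp2, ?_⟩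
    by_contra hcon
    push Not at hcon
    have h2F : (2 : F) ≠ 0 := by
      intro h
      have h' : ((2 : ℕ) : F) = 0 := by exact_mod_cast h
      rw [CharP.cast_eq_zero_iff F p] at h'
      exact hp2 ((Nat.prime_dvd_prime_iff_eq hp Nat.prime_two).mp h')
    obtain ⟨x, hx, hxz, hxns, hxW⟩ := Cfsg.Agent.Helper46.HT5953.bad_two_u q hq h2F n hn hcon.2
    obtain ⟨W, hW1, hW2, hW3⟩ := hL x hx (by rw [hr2]; exact hxz) hxns
    have := hxW W hW2 hW3
    omega
  · right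
    have hr2' : 2 < r := lt_of_le_of_ne hrpr.two_le (Ne.symm hr2)
    obtain ⟨hrF, hrq2⟩ := Cfsg.Agent.Helper13.TIsp.ti_char_facts (F := F) p r hrp
    have hrq : ¬ r ∣ q := fun hd => hrq2 (by rw [hq]; exact dvd_pow hd (by norm_num))
    obtain ⟨hi0, hb0, hc0, hbord, hbr, hsd, hpr, hi2, hcj⟩ := Cfsg.Agent.Helper37.HT5953.ht_ordc r q hr2' hrq i b c hi hb hc
    have hbF : b = orderOf ((Fintype.card F : ℕ) : ZMod r) := by rw [hq]; exact hbord
    have hj0 : 1 ≤ j := by omega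
    have hcj' : c ∣ j := (hcj j hj0).mp hj
    have hcn : c ≤ n := (Nat.le_of_dvd hj0 hcj').trans hj2
    have hcmin : ∀ j', 1 ≤ j' → j' < c →
        ¬ r ∣ (if Even j' then q ^ j' - 1 else q ^ j' + 1) := by
      intro j' h1 h2 hd
      have := Nat.le_of_dvd h1 ((hcj j' h1).mp hd)
      omega
    have hb1 : i = 2 → b = 1 := by
      intro h
      rw [hb, h]
      norm_num
    have hc2 : i ≠ 2 → 2 ≤ c := by
      intro hne
      by_contra hlt
      have hc1 : c = 1 := by omega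
      have h3 := (hcj 1 le_rfl).mpr (by rw [hc1])
      rw [if_neg (by decide), pow_one] at h3
      exact hne (hi2.mpr h3)
    have key3 : ∀ x : Matrix.SpecialLinearGroup (Fin n) F, x ∈ Cfsg.SU n F q → x ^ r = 1 →
        (∀ z : F, (x : Matrix (Fin n) (Fin n) F) ≠ z • (1 : Matrix (Fin n) (Fin n) F)) →
        ∃ a, a ≤ m ∧ b ∣ m - a ∧
          2 * a ≤ finrank F (LinearMap.ker (Matrix.toLin' (x : Matrix (Fin n) (Fin n) F) - 1)) := by
      intro x hx hxr hxns
      obtain ⟨W, hW1, hW2, hW3⟩ := hL x hx ⟨1, by rw [hxr]; simp⟩ hxns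
      have hTr : Matrix.toLin' (x : Matrix (Fin n) (Fin n) F) ^ r = 1 := by
        rw [← ht_toLin_pow, hxr]
        simp
        rfl
      obtain ⟨a, ha1, ha2, ha3⟩ := Cfsg.Agent.Helper10.HT5953.ht_b3 σ _ q hq hσ hh hnd _ (hpres_of_mem_SU n x hx) r hrF hTr
        W hW2 hW3
      rw [hW1] at ha1 ha2
      exact ⟨a, ha1, hbF ▸ ha2, ha3⟩
    have hA : b ≤ m := by
      by_cases hi2c : i = 2
      · rw [hb1 hi2c]; exact hm
      · by_contra hlt
        push Not at hlt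
        obtain ⟨u₁, hu₁⟩ := hcj'
        have hu1 : 1 ≤ u₁ := by
          rcases Nat.eq_zero_or_pos u₁ with h0 | h0
          · rw [h0, mul_zero] at hu₁
            omega
          · exact h0
        obtain ⟨x, hx, hxr, hxns, hxk⟩ := Cfsg.Agent.Helper31.HT5953.bad_ab_u q hq r hr2' hrq c (hc2 hi2c)
          ((hcj c hc0).mpr dvd_rfl) hcmin n u₁ (n - j) hu1 (by omega)
        obtain ⟨a, ha1, ha2, ha3⟩ := key3 x hx hxr hxns
        rw [hxk] at ha3
        have h0 : m - a = 0 := Nat.eq_zero_of_dvd_of_lt ha2 (by omega)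
        omega
    have hB : 2 * (m % b) ≤ n % c := by
      by_cases hi2c : i = 2
      · rw [hb1 hi2c, Nat.mod_one]; omega
      · obtain ⟨x, hx, hxr, hxns, hxk⟩ := Cfsg.Agent.Helper31.HT5953.bad_ab_u q hq r hr2' hrq c (hc2 hi2c)
          ((hcj c hc0).mpr dvd_rfl) hcmin n (n / c) (n % c) (Nat.div_pos hcn hc0)
          (Nat.div_add_mod n c).symm
        obtain ⟨a, ha1, ha2, ha3⟩ := key3 x hx hxr hxns
        rw [hxk] at ha3
        have h4 : m % b ≤ a := by
          obtain ⟨k, hk⟩ := ha2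
          have h5 : m = a + b * k := by omega
          rw [h5, Nat.add_mul_mod_self_left]
          exact Nat.mod_le _ _
        omega
    refine ⟨hrp, hr2', hA, hB, ?_⟩
    by_cases hi4 : i % 4 = 2
    · right
      refine ⟨hi4, ?_⟩
      obtain ⟨hcb, hbodd⟩ := hsd hi4
      by_cases hi2c : i = 2
      · have hb1' : b = 1 := hb1 hi2c
        have hrq1 : r ∣ q + 1 := hi2.mp hi2c
        constructor
        · by_contra hcon
          rw [hb1', Nat.div_one, Nat.div_one, Nat.div_one] at hcon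
          obtain ⟨x, hx, hxr, hxns, hxW⟩ := Cfsg.Agent.Helper97.HT5953.bad_diag_u q hq r hr2' hrq1 n m hn hm hmn (by omega)
          obtain ⟨W, hW1, hW2, hW3⟩ := hL x hx ⟨1, by rw [hxr]; simp⟩ hxns
          have := hxW W hW2 hW3
          omega
        · right
          refine ⟨hi2c, ?_⟩
          by_contra hcon
          push Not at hcon
          obtain ⟨x, hx, hxz, hxns, hxW⟩ := Cfsg.Agent.Helper35.HT5953.bad_twist_u q hq r hr2' hrq1 n hn hcon.2
          obtain ⟨W, hW1, hW2, hW3⟩ := hL x hx hxz hxns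
          have := hxW W hW3
          rw [hW1] at this
          exact hcon.1 this
      · have hb3 : 3 ≤ b := by
          have h6 : 6 ≤ i := by omega
          rw [hb, if_pos (by rw [Nat.even_iff]; omega)]
          omega
        constructor
        · have hbn : b ≤ n := hcb ▸ hcn
          have ht : 1 ≤ (r - 1) / b := Nat.div_pos (Nat.le_of_dvd (by omega) hbr) hb0
          obtain ⟨u, hu⟩ : ∃ u, u = min (n / b) ((r - 1) / b) := ⟨_, rfl⟩
          have hu1 : 1 ≤ u := by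
            rw [hu]
            exact le_min (Nat.div_pos hbn hb0) ht
          have hbu : b * u ≤ n := by
            rw [hu]
            exact (Nat.mul_le_mul_left b (min_le_left _ _)).trans (Nat.mul_div_le _ _)
          obtain ⟨x, hx, hxr, hxns, hxW⟩ := Cfsg.Agent.Helper94.HT5953.bad_c_u q hq r hr2' hrq b hbF hb3 (by rw [← hi]; exact hi4)
            n u (n - b * u) hu1 (by rw [hu]; exact min_le_right _ _) (by omega)
          obtain ⟨W, hW1, hW2, hW3⟩ := hL x hx ⟨1, by rw [hxr]; simp⟩ hxns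
          have h7 := hxW W hW2 hW3
          rw [hW1] at h7
          exact Cfsg.Agent.Helper33.HT5953.arith_c_u b n m ((r - 1) / b) (n - b * u) u hb0 hA hu (by omega) h7
        · left
          omega
    · left
      exact hi4

end Cfsg.Agent.Helper90.HT
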