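import Mathlib
import Cfsg.Agent.Helper90.TransvCent

/-!
Helper90: `O_2(SL_n(2)) = 1` for `n ≥ 2`: a normal 2-subgroup of `SL(n, 2)` is trivial.
-/

set_option autoImplicit false

namespace Cfsg.Agent.Helper90

open Matrix

theorem zmod2_add_self (c : ZMod 2) : c + c = 0 := by
  revert c; decide

theorem zmod2_eq_one_of_ne_zero (c : ZMod 2) (h : c ≠ 0) : c = 1 := by
  revert c; decide

theorem zmod2_cases (c : ZMod 2) : c = 0 ∨ c = 1 := by
  revert c; decide

/-- A normal 2-subgroup of `SL(n, 2)`, `n ≥ 2`, is trivial. -/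
theorem normal_two_subgroup_sl_eq_bot {n : ℕ} (hn : 2 ≤ n)
    (P : Subgroup (Matrix.SpecialLinearGroup (Fin n) (ZMod 2))) (hN : P.Normal)
    (hP : IsPGroup 2 ↥P) : P = ⊥ := by
  classical
  have hp : Fact (Nat.Prime 2) := ⟨Nat.prime_two⟩
  have hcc : ∀ c : ZMod 2, c + c = 0 := zmod2_add_self
  have h01 : ∀ c : ZMod 2, c ≠ 0 → c = 1 := zmod2_eq_one_of_ne_zero
  let act : MulAction ↥P (Fin n → ZMod 2) :=
    { smul := fun p v => (p.1 : Matrix (Fin n) (Fin n) (ZMod 2)).mulVec v
      one_smul := fun v => slMulVec_one v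
      mul_smul := fun p q v => slMulVec_mul p.1 q.1 v }
  have hsmul : ∀ (p : ↥P) (v : Fin n → ZMod 2),
      p • v = (p.1 : Matrix (Fin n) (Fin n) (ZMod 2)).mulVec v := fun _ _ => rfl
  have hdvd : 2 ∣ Nat.card (Fin n → ZMod 2) := by
    rw [Nat.card_eq_fintype_card, Fintype.card_fun, ZMod.card, Fintype.card_fin]
    exact dvd_pow_self 2 (by omega)
  have h0 : (0 : Fin n → ZMod 2) ∈ MulAction.fixedPoints ↥P (Fin n → ZMod 2) := by
    intro p
    rw [hsmul, Matrix.mulVec_zero]
  obtain ⟨b, hb, hb0⟩ := hP.exists_fixed_point_of_prime_dvd_card_of_fixed_point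
    (Fin n → ZMod 2) hdvd h0
  -- the fixed space
  let W : Set (Fin n → ZMod 2) :=
    {v | ∀ p ∈ P, (p : Matrix (Fin n) (Fin n) (ZMod 2)).mulVec v = v}
  have hbW : b ∈ W := fun p hp => by
    have := hb ⟨p, hp⟩
    rwa [hsmul] at this
  have hWadd : ∀ v ∈ W, ∀ w ∈ W, v + w ∈ W := by
    intro v hv w hw p hp
    rw [Matrix.mulVec_add, hv p hp, hw p hp]
  have hWact : ∀ (s : Matrix.SpecialLinearGroup (Fin n) (ZMod 2)), ∀ v ∈ W,
      (s : Matrix (Fin n) (Fin n) (ZMod 2)).mulVec v ∈ W := by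
    intro s v hv p hp
    have h1 : s⁻¹ * p * s ∈ P := by
      have := hN.conj_mem p hp s⁻¹
      rwa [inv_inv] at this
    have h2 := hv _ h1
    rw [slMulVec_mul, slMulVec_mul] at h2
    have h3 : (s : Matrix (Fin n) (Fin n) (ZMod 2)).mulVec
        (((s⁻¹ : Matrix.SpecialLinearGroup (Fin n) (ZMod 2)) :
          Matrix (Fin n) (Fin n) (ZMod 2)).mulVec
          ((p : Matrix (Fin n) (Fin n) (ZMod 2)).mulVec
            ((s : Matrix (Fin n) (Fin n) (ZMod 2)).mulVec v))) =
        (s : Matrix (Fin n) (Fin n) (ZMod 2)).mulVec v := by rw [h2]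
    rw [slMulVec_inv'] at h3
    exact h3
  have hWtr : ∀ (i j : Fin n), i ≠ j → ∀ v ∈ W,
      v + v j • (Pi.single i (1 : ZMod 2) : Fin n → ZMod 2) ∈ W := by
    intro i j hij v hv
    have := hWact ⟨Matrix.transvection i j (1 : ZMod 2),
      Matrix.det_transvection_of_ne i j hij 1⟩ v hv
    rwa [Matrix.SpecialLinearGroup.coe_mk, transvection_mulVec] at this
  -- a nonzero coordinate of b
  obtain ⟨i, hi⟩ : ∃ i, b i ≠ 0 := by
    by_contra hcon
    push Not at hcon
    exact hb0 (funext fun i => (hcon i).symm)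
  have hbi : b i = 1 := h01 _ hi
  have hej : ∀ j : Fin n, j ≠ i → (Pi.single j (1 : ZMod 2) : Fin n → ZMod 2) ∈ W := by
    intro j hji
    have h1 := hWtr j i hji b hbW
    rw [hbi, one_smul] at h1
    have h2 := hWadd _ h1 _ hbW
    have h3 : b + (Pi.single j (1 : ZMod 2) : Fin n → ZMod 2) + b = Pi.single j 1 := by
      funext k
      simp only [Pi.add_apply]
      have := hcc (b k)
      calc b k + (Pi.single j (1 : ZMod 2) : Fin n → ZMod 2) k + b k
          = (b k + b k) + (Pi.single j (1 : ZMod 2) : Fin n → ZMod 2) k := by ring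
        _ = _ := by rw [this, zero_add]
    rwa [h3] at h2
  obtain ⟨j0, hj0⟩ : ∃ j0 : Fin n, j0 ≠ i := by
    by_cases h : i = ⟨0, by omega⟩
    · exact ⟨⟨1, by omega⟩, by rw [h]; intro h'; simp [Fin.ext_iff] at h'⟩
    · exact ⟨⟨0, by omega⟩, fun h' => h h'.symm⟩
  have hei : (Pi.single i (1 : ZMod 2) : Fin n → ZMod 2) ∈ W := by
    have h1 := hWtr i j0 hj0.symm _ (hej j0 hj0)
    rw [Pi.single_eq_same, one_smul] at h1
    have h2 := hWadd _ h1 _ (hej j0 hj0)
    have h3 : (Pi.single j0 (1 : ZMod 2) : Fin n → ZMod 2) + Pi.single i 1 + Pi.single j0 1 =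
        Pi.single i 1 := by
      funext k
      simp only [Pi.add_apply]
      have := hcc ((Pi.single j0 (1 : ZMod 2) : Fin n → ZMod 2) k)
      calc (Pi.single j0 (1 : ZMod 2) : Fin n → ZMod 2) k +
            (Pi.single i (1 : ZMod 2) : Fin n → ZMod 2) k +
            (Pi.single j0 (1 : ZMod 2) : Fin n → ZMod 2) k
          = ((Pi.single j0 (1 : ZMod 2) : Fin n → ZMod 2) k +
            (Pi.single j0 (1 : ZMod 2) : Fin n → ZMod 2) k) +
            (Pi.single i (1 : ZMod 2) : Fin n → ZMod 2) k := by ring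
        _ = _ := by rw [this, zero_add]
    rwa [h3] at h2
  have hall : ∀ j : Fin n, (Pi.single j (1 : ZMod 2) : Fin n → ZMod 2) ∈ W := by
    intro j
    by_cases hji : j = i
    · rw [hji]; exact hei
    · exact hej j hji
  rw [Subgroup.eq_bot_iff_forall]
  intro p hp
  apply Subtype.ext
  ext k l
  have h1 := congrFun (hall l p hp) k
  rw [Matrix.mulVec_single_one] at h1
  rw [Matrix.SpecialLinearGroup.coe_one, Matrix.one_apply, ← Pi.single_apply]
  simpa [Matrix.col_apply] using h1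

end Cfsg.Agent.Helper90
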