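import Mathlib
import Cfsg.Agent.Helper90.SLTwoCore

/-!
Helper90: the centralizer of the transvection `1 + E₀₁` in `SL(n + 2, 2)`: its Levi quotient
`SL(n, 2)` and a complement.

* `tz n`: the transvection; `mem_cent_tz`: the centralizer in coordinates.
* `levi`, `leviHom`: the Levi map `C(z) → SL(n, 2)`, `g ↦ (g (i+2) (j+2))`.
* `liftM`, `leviSec`: the section `A ↦ diag(1, 1, A)`.
-/

set_option autoImplicit false

namespace Cfsg.Agent.Helper90

open Matrix

/-- An element commuting with the transvection `1 + E_ab` has column `a` and row `b` standard. -/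
theorem comm_transvection {m : ℕ} (a b : Fin m)
    (x t : Matrix.SpecialLinearGroup (Fin m) (ZMod 2))
    (ht : (t : Matrix (Fin m) (Fin m) (ZMod 2)) = Matrix.transvection a b 1)
    (hx : x * t = t * x) :
    (∀ k, (x : Matrix (Fin m) (Fin m) (ZMod 2)) k a = if k = a then 1 else 0) ∧
    (∀ l, (x : Matrix (Fin m) (Fin m) (ZMod 2)) b l = if l = b then 1 else 0) := by
  classical
  have htv : ∀ v : Fin m → ZMod 2, (t : Matrix (Fin m) (Fin m) (ZMod 2)).mulVec v =
      v + v b • (Pi.single a (1 : ZMod 2) : Fin m → ZMod 2) := fun v => by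
    rw [ht, transvection_mulVec]
  have key : ∀ l : Fin m, (Pi.single l (1 : ZMod 2) : Fin m → ZMod 2) b •
      (x : Matrix (Fin m) (Fin m) (ZMod 2)).mulVec (Pi.single a (1 : ZMod 2)) =
      (x : Matrix (Fin m) (Fin m) (ZMod 2)) b l • (Pi.single a (1 : ZMod 2) : Fin m → ZMod 2) := by
    intro l
    have h1 : (x : Matrix (Fin m) (Fin m) (ZMod 2)).mulVec
        ((t : Matrix (Fin m) (Fin m) (ZMod 2)).mulVec (Pi.single l (1 : ZMod 2))) =
        (t : Matrix (Fin m) (Fin m) (ZMod 2)).mulVec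
          ((x : Matrix (Fin m) (Fin m) (ZMod 2)).mulVec (Pi.single l (1 : ZMod 2))) := by
      rw [← slMulVec_mul, ← slMulVec_mul, hx]
    rw [htv, htv, Matrix.mulVec_add, Matrix.mulVec_smul] at h1
    have h2 := add_left_cancel h1
    rw [h2, Matrix.mulVec_single_one]
    rfl
  have hb := key b
  rw [Pi.single_eq_same, one_smul] at hb
  have hbb : (x : Matrix (Fin m) (Fin m) (ZMod 2)) b b = 1 := by
    apply zmod2_eq_one_of_ne_zero
    intro h0
    rw [h0, zero_smul] at hb
    have h5 := slMulVec_inv x (Pi.single a (1 : ZMod 2))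
    rw [hb, Matrix.mulVec_zero] at h5
    have h6 := congrFun h5 a
    rw [Pi.zero_apply, Pi.single_eq_same] at h6
    exact zero_ne_one h6
  rw [hbb, one_smul] at hb
  refine ⟨fun k => ?_, fun l => ?_⟩
  · have h1 := congrFun hb k
    rw [Matrix.mulVec_single_one, Pi.single_apply] at h1
    exact h1
  · by_cases hl : l = b
    · rw [hl, hbb, if_pos rfl]
    · rw [if_neg hl]
      have h1 := congrFun (key l) a
      rw [Pi.single_eq_of_ne (Ne.symm hl), zero_smul, Pi.zero_apply, Pi.smul_apply,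
        Pi.single_eq_same, smul_eq_mul, mul_one] at h1
      exact h1.symm

section
variable {n : ℕ}

theorem ss_ne_zero (k : Fin n) : k.succ.succ ≠ (0 : Fin (n + 2)) := Fin.succ_ne_zero _

theorem ss_ne_one (k : Fin n) : k.succ.succ ≠ (1 : Fin (n + 2)) := Fin.succ_succ_ne_one k

theorem fin2_cases (i : Fin (n + 2)) : i = 0 ∨ i = 1 ∨ ∃ k : Fin n, i = k.succ.succ := by
  refine Fin.cases (Or.inl rfl) (fun i' => ?_) i
  refine Fin.cases (Or.inr (Or.inl ?_)) (fun k => Or.inr (Or.inr ⟨k, rfl⟩)) i'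
  exact Fin.succ_zero_eq_one

theorem sum_fin2 (f : Fin (n + 2) → ZMod 2) :
    ∑ k, f k = f 0 + f 1 + ∑ k : Fin n, f k.succ.succ := by
  rw [Fin.sum_univ_succ, Fin.sum_univ_succ, Fin.succ_zero_eq_one]
  exact (add_assoc _ _ _).symm

/-- The transvection `1 + E₀₁`. -/
def tz (n : ℕ) : Matrix.SpecialLinearGroup (Fin (n + 2)) (ZMod 2) :=
  ⟨Matrix.transvection 0 1 1, Matrix.det_transvection_of_ne 0 1 (by simp) 1⟩

theorem tz_coe : ((tz n : Matrix.SpecialLinearGroup (Fin (n + 2)) (ZMod 2)) :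
    Matrix (Fin (n + 2)) (Fin (n + 2)) (ZMod 2)) = Matrix.transvection 0 1 1 := rfl

/-- Column 0 and row 1 are standard. -/
def TCond (g : Matrix (Fin (n + 2)) (Fin (n + 2)) (ZMod 2)) : Prop :=
  (∀ k, g k 0 = if k = 0 then 1 else 0) ∧ (∀ l, g 1 l = if l = 1 then 1 else 0)

theorem mem_cent_tz (g : Matrix.SpecialLinearGroup (Fin (n + 2)) (ZMod 2)) :
    g ∈ Subgroup.centralizer ({tz n} : Set (Matrix.SpecialLinearGroup (Fin (n + 2)) (ZMod 2))) ↔
      TCond (g : Matrix (Fin (n + 2)) (Fin (n + 2)) (ZMod 2)) := by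
  classical
  rw [Subgroup.mem_centralizer_iff]
  constructor
  · intro h
    exact comm_transvection 0 1 g (tz n) tz_coe (h (tz n) rfl).symm
  · rintro ⟨h0, h1⟩ t ht
    rw [Set.mem_singleton_iff.mp ht]
    apply Subtype.ext
    rw [Matrix.SpecialLinearGroup.coe_mul, Matrix.SpecialLinearGroup.coe_mul, tz_coe,
      Matrix.transvection, Matrix.single_eq_single_vecMulVec_single, add_mul, mul_add, one_mul,
      mul_one, Matrix.mul_vecMulVec, Matrix.vecMulVec_mul]
    have e1 : (g : Matrix (Fin (n + 2)) (Fin (n + 2)) (ZMod 2)).mulVec (Pi.single 0 1) =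
        Pi.single 0 1 := by
      funext k
      rw [Matrix.mulVec_single_one, Pi.single_apply]
      exact h0 k
    have e2 : Matrix.vecMul (Pi.single 1 1)
        (g : Matrix (Fin (n + 2)) (Fin (n + 2)) (ZMod 2)) = Pi.single 1 1 := by
      funext l
      rw [Matrix.single_one_vecMul, Pi.single_apply]
      exact h1 l
    rw [e1, e2]

/-- The Levi block of a matrix. -/
def levi (g : Matrix (Fin (n + 2)) (Fin (n + 2)) (ZMod 2)) : Matrix (Fin n) (Fin n) (ZMod 2) :=
  Matrix.of fun i j => g i.succ.succ j.succ.succ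

theorem levi_apply (g : Matrix (Fin (n + 2)) (Fin (n + 2)) (ZMod 2)) (i j : Fin n) :
    levi g i j = g i.succ.succ j.succ.succ := rfl

theorem levi_one : levi (1 : Matrix (Fin (n + 2)) (Fin (n + 2)) (ZMod 2)) = 1 := by
  ext i j
  rw [levi_apply, Matrix.one_apply, Matrix.one_apply]
  simp only [Fin.succ_inj]

theorem levi_mul (g h : Matrix (Fin (n + 2)) (Fin (n + 2)) (ZMod 2))
    (hg : ∀ k, g k 0 = if k = 0 then 1 else 0) (hh : ∀ l, h 1 l = if l = 1 then 1 else 0) :
    levi (g * h) = levi g * levi h := by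
  ext i j
  rw [levi_apply, Matrix.mul_apply, sum_fin2, Matrix.mul_apply, hg, hh, if_neg (ss_ne_zero i),
    if_neg (ss_ne_one j), zero_mul, mul_zero, zero_add, zero_add]
  rfl

theorem det_levi (g : Matrix.SpecialLinearGroup (Fin (n + 2)) (ZMod 2))
    (hg : g ∈ Subgroup.centralizer
      ({tz n} : Set (Matrix.SpecialLinearGroup (Fin (n + 2)) (ZMod 2)))) :
    (levi (g : Matrix (Fin (n + 2)) (Fin (n + 2)) (ZMod 2))).det = 1 := by
  have hg' := (mem_cent_tz g).mp hg
  have hi' := (mem_cent_tz g⁻¹).mp (Subgroup.inv_mem _ hg)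
  have h1 : levi (g : Matrix (Fin (n + 2)) (Fin (n + 2)) (ZMod 2)) *
      levi ((g⁻¹ : Matrix.SpecialLinearGroup (Fin (n + 2)) (ZMod 2)) :
        Matrix (Fin (n + 2)) (Fin (n + 2)) (ZMod 2)) = 1 := by
    rw [← levi_mul _ _ hg'.1 hi'.2, ← Matrix.SpecialLinearGroup.coe_mul, mul_inv_cancel,
      Matrix.SpecialLinearGroup.coe_one, levi_one]
  exact zmod2_eq_one_of_ne_zero _ (Matrix.det_ne_zero_of_right_inverse h1)

/-- The Levi homomorphism `C(z) → SL(n, 2)`. -/
def leviHom (n : ℕ) :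
    ↥(Subgroup.centralizer ({tz n} : Set (Matrix.SpecialLinearGroup (Fin (n + 2)) (ZMod 2)))) →*
      Matrix.SpecialLinearGroup (Fin n) (ZMod 2) where
  toFun g := ⟨levi (g.1 : Matrix (Fin (n + 2)) (Fin (n + 2)) (ZMod 2)), det_levi g.1 g.2⟩
  map_one' := Subtype.ext levi_one
  map_mul' g h := Subtype.ext
    (levi_mul _ _ ((mem_cent_tz g.1).mp g.2).1 ((mem_cent_tz h.1).mp h.2).2)

theorem leviHom_coe
    (g : ↥(Subgroup.centralizer
      ({tz n} : Set (Matrix.SpecialLinearGroup (Fin (n + 2)) (ZMod 2))))) :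
    ((leviHom n g : Matrix.SpecialLinearGroup (Fin n) (ZMod 2)) :
      Matrix (Fin n) (Fin n) (ZMod 2)) =
      levi (g.1 : Matrix (Fin (n + 2)) (Fin (n + 2)) (ZMod 2)) := rfl

/-- The block matrix `diag(1, 1, A)`. -/
def liftM (A : Matrix (Fin n) (Fin n) (ZMod 2)) : Matrix (Fin (n + 2)) (Fin (n + 2)) (ZMod 2) :=
  Matrix.of fun i j =>
    Fin.cases (if j = 0 then (1 : ZMod 2) else 0)
      (fun i' => Fin.cases (if j = 1 then (1 : ZMod 2) else 0)
        (fun k => Fin.cases (0 : ZMod 2) (fun j' => Fin.cases (0 : ZMod 2) (fun l => A k l) j') j)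
        i') i

theorem liftM_zero (A : Matrix (Fin n) (Fin n) (ZMod 2)) (j : Fin (n + 2)) :
    liftM A 0 j = if j = 0 then 1 else 0 := rfl

theorem liftM_one (A : Matrix (Fin n) (Fin n) (ZMod 2)) (j : Fin (n + 2)) :
    liftM A 1 j = if j = 1 then 1 else 0 := rfl

theorem liftM_ss_zero (A : Matrix (Fin n) (Fin n) (ZMod 2)) (k : Fin n) :
    liftM A k.succ.succ 0 = 0 := rfl

theorem liftM_ss_one (A : Matrix (Fin n) (Fin n) (ZMod 2)) (k : Fin n) :
    liftM A k.succ.succ 1 = 0 := rfl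

theorem liftM_ss_ss (A : Matrix (Fin n) (Fin n) (ZMod 2)) (k l : Fin n) :
    liftM A k.succ.succ l.succ.succ = A k l := rfl

theorem liftM_tcond (A : Matrix (Fin n) (Fin n) (ZMod 2)) : TCond (liftM A) := by
  refine ⟨fun k => ?_, fun l => liftM_one A l⟩
  rcases fin2_cases k with rfl | rfl | ⟨k, rfl⟩
  · rw [liftM_zero]
  · rw [liftM_one]
    simp
  · rw [liftM_ss_zero, if_neg (ss_ne_zero k)]

theorem levi_liftM (A : Matrix (Fin n) (Fin n) (ZMod 2)) : levi (liftM A) = A := by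
  ext i j
  rw [levi_apply, liftM_ss_ss]

theorem liftM_mul (A B : Matrix (Fin n) (Fin n) (ZMod 2)) :
    liftM (A * B) = liftM A * liftM B := by
  ext i j
  rw [Matrix.mul_apply, sum_fin2]
  rcases fin2_cases i with rfl | rfl | ⟨k, rfl⟩
  · simp only [liftM_zero, if_pos, if_neg (ss_ne_zero _), zero_mul, Finset.sum_const_zero,
      add_zero]
    simp
  · simp only [liftM_one, liftM_zero, if_neg (ss_ne_one _), zero_mul, Finset.sum_const_zero,
      add_zero]
    simp
  · rcases fin2_cases j with rfl | rfl | ⟨l, rfl⟩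
    · simp [liftM_ss_zero, liftM_ss_one, liftM_zero, liftM_one]
    · simp [liftM_ss_zero, liftM_ss_one, liftM_zero, liftM_one]
    · simp only [liftM_ss_zero, liftM_ss_one, liftM_ss_ss, zero_mul, zero_add, Matrix.mul_apply]

theorem liftM_one_eq : liftM (1 : Matrix (Fin n) (Fin n) (ZMod 2)) = 1 := by
  ext i j
  rcases fin2_cases i with rfl | rfl | ⟨k, rfl⟩
  · rw [liftM_zero, Matrix.one_apply]
    simp [eq_comm]
  · rw [liftM_one, Matrix.one_apply]
    simp [eq_comm]
  · rcases fin2_cases j with rfl | rfl | ⟨l, rfl⟩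
    · rw [liftM_ss_zero, Matrix.one_apply, if_neg (ss_ne_zero k)]
    · rw [liftM_ss_one, Matrix.one_apply, if_neg (ss_ne_one k)]
    · rw [liftM_ss_ss, Matrix.one_apply, Matrix.one_apply]
      simp only [Fin.succ_inj]

theorem det_liftM (A : Matrix.SpecialLinearGroup (Fin n) (ZMod 2)) :
    (liftM (A : Matrix (Fin n) (Fin n) (ZMod 2))).det = 1 := by
  have h1 : liftM (A : Matrix (Fin n) (Fin n) (ZMod 2)) *
      liftM ((A⁻¹ : Matrix.SpecialLinearGroup (Fin n) (ZMod 2)) :
        Matrix (Fin n) (Fin n) (ZMod 2)) = 1 := by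
    rw [← liftM_mul, ← Matrix.SpecialLinearGroup.coe_mul, mul_inv_cancel,
      Matrix.SpecialLinearGroup.coe_one, liftM_one_eq]
  exact zmod2_eq_one_of_ne_zero _ (Matrix.det_ne_zero_of_right_inverse h1)

/-- The section `A ↦ diag(1, 1, A)` of the Levi map. -/
def leviSec (n : ℕ) : Matrix.SpecialLinearGroup (Fin n) (ZMod 2) →*
    Matrix.SpecialLinearGroup (Fin (n + 2)) (ZMod 2) where
  toFun A := ⟨liftM (A : Matrix (Fin n) (Fin n) (ZMod 2)), det_liftM A⟩
  map_one' := Subtype.ext liftM_one_eq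
  map_mul' _ _ := Subtype.ext (liftM_mul _ _)

theorem leviSec_coe (A : Matrix.SpecialLinearGroup (Fin n) (ZMod 2)) :
    ((leviSec n A : Matrix.SpecialLinearGroup (Fin (n + 2)) (ZMod 2)) :
      Matrix (Fin (n + 2)) (Fin (n + 2)) (ZMod 2)) =
      liftM (A : Matrix (Fin n) (Fin n) (ZMod 2)) := rfl

theorem leviSec_mem (A : Matrix.SpecialLinearGroup (Fin n) (ZMod 2)) :
    leviSec n A ∈ Subgroup.centralizer
      ({tz n} : Set (Matrix.SpecialLinearGroup (Fin (n + 2)) (ZMod 2))) :=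
  (mem_cent_tz _).mpr (liftM_tcond _)

theorem leviHom_leviSec (A : Matrix.SpecialLinearGroup (Fin n) (ZMod 2)) :
    leviHom n ⟨leviSec n A, leviSec_mem A⟩ = A :=
  Subtype.ext (levi_liftM _)

theorem leviSec_injective : Function.Injective (leviSec n) := by
  intro A B h
  have h1 := leviHom_leviSec A
  have h2 := leviHom_leviSec B
  rw [← h1, ← h2]
  congr 1
  exact Subtype.ext h

theorem leviHom_surjective : Function.Surjective (leviHom n) :=
  fun A => ⟨⟨leviSec n A, leviSec_mem A⟩, leviHom_leviSec A⟩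

end

end Cfsg.Agent.Helper90
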