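import Mathlib
import Cfsg.Agent.Helper90.TransvLevi
import Cfsg.Agent.Helper90.LES

/-!
Helper90: the Heisenberg group `Q = O_2(C(z))` of the transvection `z = 1 + E₀₁` in
`SL(n + 2, 2)`: the matrices `heis r c = 1 + e₀ rᵀ + c e₁ᵀ`.
-/

set_option autoImplicit false

namespace Cfsg.Agent.Helper90

open Matrix

section
variable {n : ℕ}

theorem vec_add_self {ι : Type*} (v : ι → ZMod 2) : v + v = 0 := by
  funext i
  exact zmod2_add_self (v i)

/-- The matrix `1 + e₀ rᵀ + c e₁ᵀ`. -/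
def heis (r c : Fin (n + 2) → ZMod 2) : Matrix (Fin (n + 2)) (Fin (n + 2)) (ZMod 2) :=
  1 + Matrix.vecMulVec (Pi.single 0 1) r + Matrix.vecMulVec c (Pi.single 1 1)

theorem heis_apply (r c : Fin (n + 2) → ZMod 2) (i j : Fin (n + 2)) :
    heis r c i j = (1 : Matrix (Fin (n + 2)) (Fin (n + 2)) (ZMod 2)) i j +
      (Pi.single 0 1 : Fin (n + 2) → ZMod 2) i * r j +
      c i * (Pi.single 1 1 : Fin (n + 2) → ZMod 2) j := rfl

theorem heis_zero : heis (0 : Fin (n + 2) → ZMod 2) 0 = 1 := by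
  rw [heis, Matrix.vecMulVec_zero, Matrix.zero_vecMulVec, add_zero, add_zero]

theorem heis_mul (r c r' c' : Fin (n + 2) → ZMod 2) (hr : r 0 = 0) (hc' : c' 1 = 0) :
    heis r c * heis r' c' =
      heis (r + r' + (r ⬝ᵥ c') • (Pi.single 1 1 : Fin (n + 2) → ZMod 2)) (c + c') := by
  have h1 : r ⬝ᵥ (Pi.single 0 1 : Fin (n + 2) → ZMod 2) = 0 := by
    rw [dotProduct_single, hr, zero_mul]
  have h2 : (Pi.single 1 1 : Fin (n + 2) → ZMod 2) ⬝ᵥ
      (Pi.single 0 1 : Fin (n + 2) → ZMod 2) = 0 := by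
    rw [single_dotProduct, one_mul]
    exact Pi.single_eq_of_ne (by simp) 1
  have h3 : (Pi.single 1 1 : Fin (n + 2) → ZMod 2) ⬝ᵥ c' = 0 := by
    rw [single_dotProduct, hc', mul_zero]
  simp only [heis, add_mul, mul_add, one_mul, mul_one, Matrix.vecMulVec_mul_vecMulVec, h1, h2, h3,
    zero_smul, Matrix.vecMulVec_zero, Matrix.vecMulVec_add, Matrix.add_vecMulVec]
  abel

theorem heis_tcond (r c : Fin (n + 2) → ZMod 2) (hr : r 0 = 0) (hc : c 1 = 0) :
    TCond (heis r c) := by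
  refine ⟨fun k => ?_, fun l => ?_⟩
  · rw [heis_apply, hr, mul_zero, add_zero, Pi.single_eq_of_ne (by simp), mul_zero, add_zero,
      Matrix.one_apply]
  · rw [heis_apply, hc, zero_mul, add_zero, Pi.single_eq_of_ne (by simp), zero_mul, add_zero,
      Matrix.one_apply]
    simp only [eq_comm]

theorem levi_heis (r c : Fin (n + 2) → ZMod 2) : levi (heis r c) = 1 := by
  ext i j
  rw [levi_apply, heis_apply, Pi.single_eq_of_ne (ss_ne_zero i), zero_mul, add_zero,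
    Pi.single_eq_of_ne (ss_ne_one j), mul_zero, add_zero, Matrix.one_apply, Matrix.one_apply]
  simp only [Fin.succ_inj]

theorem det_heis (r c : Fin (n + 2) → ZMod 2) (hr : r 0 = 0) (hc : c 1 = 0) :
    (heis r c).det = 1 := by
  have h1 : heis r c * heis (r + (r ⬝ᵥ c) • (Pi.single 1 1 : Fin (n + 2) → ZMod 2)) c = 1 := by
    rw [heis_mul r c _ c hr hc, vec_add_self c]
    have e1 : r + (r + (r ⬝ᵥ c) • (Pi.single 1 1 : Fin (n + 2) → ZMod 2)) +
        (r ⬝ᵥ c) • (Pi.single 1 1 : Fin (n + 2) → ZMod 2) = 0 := by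
      calc r + (r + (r ⬝ᵥ c) • (Pi.single 1 1 : Fin (n + 2) → ZMod 2)) +
            (r ⬝ᵥ c) • (Pi.single 1 1 : Fin (n + 2) → ZMod 2)
          = (r + r) + ((r ⬝ᵥ c) • (Pi.single 1 1 : Fin (n + 2) → ZMod 2) +
            (r ⬝ᵥ c) • (Pi.single 1 1 : Fin (n + 2) → ZMod 2)) := by abel
        _ = 0 := by rw [vec_add_self, vec_add_self, add_zero]
    rw [e1, heis_zero]
  exact zmod2_eq_one_of_ne_zero _ (Matrix.det_ne_zero_of_right_inverse h1)

/-- The Heisenberg element as an element of `SL(n + 2, 2)`. -/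
def heisSL (r c : Fin (n + 2) → ZMod 2) (hr : r 0 = 0) (hc : c 1 = 0) :
    Matrix.SpecialLinearGroup (Fin (n + 2)) (ZMod 2) :=
  ⟨heis r c, det_heis r c hr hc⟩

theorem heisSL_coe (r c : Fin (n + 2) → ZMod 2) (hr : r 0 = 0) (hc : c 1 = 0) :
    ((heisSL r c hr hc : Matrix.SpecialLinearGroup (Fin (n + 2)) (ZMod 2)) :
      Matrix (Fin (n + 2)) (Fin (n + 2)) (ZMod 2)) = heis r c := rfl

/-- The kernel of the Levi map, as a subgroup of `SL(n + 2, 2)`. -/
def transvQ (n : ℕ) : Subgroup (Matrix.SpecialLinearGroup (Fin (n + 2)) (ZMod 2)) :=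
  (leviHom n).ker.map
    (Subgroup.centralizer ({tz n} : Set (Matrix.SpecialLinearGroup (Fin (n + 2)) (ZMod 2)))).subtype

theorem mem_transvQ (g : Matrix.SpecialLinearGroup (Fin (n + 2)) (ZMod 2)) :
    g ∈ transvQ n ↔ TCond (g : Matrix (Fin (n + 2)) (Fin (n + 2)) (ZMod 2)) ∧
      levi (g : Matrix (Fin (n + 2)) (Fin (n + 2)) (ZMod 2)) = 1 := by
  constructor
  · rintro ⟨x, hx, rfl⟩
    refine ⟨(mem_cent_tz x.1).mp x.2, ?_⟩
    have h1 : leviHom n x = 1 := MonoidHom.mem_ker.mp hx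
    have h2 := leviHom_coe x
    rw [h1, Matrix.SpecialLinearGroup.coe_one] at h2
    exact h2.symm
  · rintro ⟨h1, h2⟩
    exact ⟨⟨g, (mem_cent_tz g).mpr h1⟩, MonoidHom.mem_ker.mpr (Subtype.ext h2), rfl⟩

theorem transvQ_le : transvQ n ≤
    Subgroup.centralizer ({tz n} : Set (Matrix.SpecialLinearGroup (Fin (n + 2)) (ZMod 2))) :=
  fun g hg => (mem_cent_tz g).mpr ((mem_transvQ g).mp hg).1

theorem mem_transvQ_of_heis (g : Matrix.SpecialLinearGroup (Fin (n + 2)) (ZMod 2))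
    (r c : Fin (n + 2) → ZMod 2) (hr : r 0 = 0) (hc : c 1 = 0)
    (hg : (g : Matrix (Fin (n + 2)) (Fin (n + 2)) (ZMod 2)) = heis r c) : g ∈ transvQ n := by
  rw [mem_transvQ, hg]
  exact ⟨heis_tcond r c hr hc, levi_heis r c⟩

theorem heisSL_mem (r c : Fin (n + 2) → ZMod 2) (hr : r 0 = 0) (hc : c 1 = 0) :
    heisSL r c hr hc ∈ transvQ n :=
  mem_transvQ_of_heis _ r c hr hc rfl

theorem exists_heis_of_mem (g : Matrix.SpecialLinearGroup (Fin (n + 2)) (ZMod 2))
    (hg : g ∈ transvQ n) : ∃ r c : Fin (n + 2) → ZMod 2, r 0 = 0 ∧ c 0 = 0 ∧ c 1 = 0 ∧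
      (g : Matrix (Fin (n + 2)) (Fin (n + 2)) (ZMod 2)) = heis r c := by
  classical
  obtain ⟨⟨h0, h1⟩, h2⟩ := (mem_transvQ g).mp hg
  refine ⟨fun j => if j = 0 then 0 else (g : Matrix (Fin (n + 2)) (Fin (n + 2)) (ZMod 2)) 0 j,
    fun i => if i = 0 then 0 else if i = 1 then 0 else
      (g : Matrix (Fin (n + 2)) (Fin (n + 2)) (ZMod 2)) i 1, if_pos rfl, if_pos rfl, ?_, ?_⟩
  · beta_reduce
    rw [if_neg (by simp), if_pos rfl]
  · ext i j
    rw [heis_apply]
    rcases fin2_cases i with rfl | rfl | ⟨k, rfl⟩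
    · rw [Pi.single_eq_same, one_mul, if_pos rfl, zero_mul, add_zero, Matrix.one_apply]
      by_cases hj : j = 0
      · rw [hj, if_pos rfl, if_pos rfl, add_zero, h0, if_pos rfl]
      · rw [if_neg (Ne.symm hj), if_neg hj, zero_add]
    · rw [Pi.single_eq_of_ne (by simp), zero_mul, add_zero, if_neg (by simp), if_pos rfl, zero_mul,
        add_zero, Matrix.one_apply, h1]
      simp only [eq_comm]
    · rw [Pi.single_eq_of_ne (ss_ne_zero k), zero_mul, add_zero, if_neg (ss_ne_zero k),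
        if_neg (ss_ne_one k), Matrix.one_apply]
      rcases fin2_cases j with rfl | rfl | ⟨l, rfl⟩
      · rw [h0, if_neg (ss_ne_zero k), Pi.single_eq_of_ne (by simp), mul_zero, add_zero]
      · rw [if_neg (ss_ne_one k), Pi.single_eq_same, mul_one, zero_add]
      · rw [Pi.single_eq_of_ne (ss_ne_one l), mul_zero, add_zero]
        have h3 := congrFun (congrFun h2 k) l
        rw [levi_apply, Matrix.one_apply] at h3
        rw [h3]
        simp only [Fin.succ_inj]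

end

end Cfsg.Agent.Helper90
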