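import Mathlib
import Cfsg.Agent.Helper90.TransvQ
import Cfsg.Agent.Helper90.ESCriterion
import Cfsg.Agent.Helper90.FStarES

/-!
Helper90: `Q = O_2(C(z))` for the transvection `z = 1 + E₀₁` of `SL(n + 2, 2)` is extraspecial
of order `2^(2n+1)`; the elementary abelian subgroup `E`; the `LES` structure.
-/

set_option autoImplicit false

namespace Cfsg.Agent.Helper90

open Matrix

section
variable {n : ℕ}

theorem card_transvQ : Nat.card ↥(transvQ n) = 2 ^ (2 * n + 1) := by
  classical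
  let Ψ : (Fin (n + 1) → ZMod 2) × (Fin n → ZMod 2) → ↥(transvQ n) := fun p =>
    ⟨heisSL (Fin.cons 0 p.1) (Fin.cons 0 (Fin.cons 0 p.2)) rfl rfl, heisSL_mem _ _ _ _⟩
  have hinj : Function.Injective Ψ := by
    rintro ⟨r, c⟩ ⟨r', c'⟩ h
    have h1 : heis (Fin.cons 0 r : Fin (n + 2) → ZMod 2) (Fin.cons 0 (Fin.cons 0 c)) =
        heis (Fin.cons 0 r') (Fin.cons 0 (Fin.cons 0 c')) :=
      congrArg (fun x : ↥(transvQ n) =>
        ((x.1 : Matrix.SpecialLinearGroup (Fin (n + 2)) (ZMod 2)) :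
          Matrix (Fin (n + 2)) (Fin (n + 2)) (ZMod 2))) h
    refine Prod.ext (funext fun k => ?_) (funext fun k => ?_)
    · have h2 := congrFun (congrFun h1 0) k.succ
      simp only [heis_apply, Fin.cons_zero, Fin.cons_succ, Pi.single_eq_same, one_mul, zero_mul,
        add_zero] at h2
      exact add_left_cancel h2
    · have h2 := congrFun (congrFun h1 k.succ.succ) 1
      simp only [heis_apply, Pi.single_eq_of_ne (ss_ne_zero k), Fin.cons_succ, Pi.single_eq_same,
        zero_mul, mul_one, add_zero] at h2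
      exact add_left_cancel h2
  have hsurj : Function.Surjective Ψ := by
    rintro ⟨g, hg⟩
    obtain ⟨r, c, hr, hc0, hc1, hgrc⟩ := exists_heis_of_mem g hg
    refine ⟨(Fin.tail r, Fin.tail (Fin.tail c)), ?_⟩
    apply Subtype.ext
    apply Subtype.ext
    show heis (Fin.cons 0 (Fin.tail r)) (Fin.cons 0 (Fin.cons 0 (Fin.tail (Fin.tail c)))) =
      (g : Matrix (Fin (n + 2)) (Fin (n + 2)) (ZMod 2))
    rw [hgrc]
    have e1 : (Fin.cons 0 (Fin.tail r) : Fin (n + 2) → ZMod 2) = r := by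
      have := Fin.cons_self_tail r
      rwa [hr] at this
    have t1 : Fin.tail c 0 = 0 := hc1
    have e2 : (Fin.cons 0 (Fin.tail (Fin.tail c)) : Fin (n + 1) → ZMod 2) = Fin.tail c := by
      have := Fin.cons_self_tail (Fin.tail c)
      rwa [t1] at this
    have e3 : (Fin.cons 0 (Fin.tail c) : Fin (n + 2) → ZMod 2) = c := by
      have := Fin.cons_self_tail c
      rwa [hc0] at this
    rw [e1, e2, e3]
  have h := Nat.card_congr (Equiv.ofBijective Ψ ⟨hinj, hsurj⟩)
  rw [← h, Nat.card_prod, Nat.card_eq_fintype_card, Nat.card_eq_fintype_card, Fintype.card_fun,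
    Fintype.card_fun, ZMod.card, Fintype.card_fin, Fintype.card_fin, ← pow_add]
  congr 1
  omega

theorem isPGroup_transvQ : IsPGroup 2 ↥(transvQ n) :=
  IsPGroup.of_card card_transvQ

/-- The elementary abelian subgroup `{1 + e₀ rᵀ}`. -/
def transvE (n : ℕ) : Subgroup (Matrix.SpecialLinearGroup (Fin (n + 2)) (ZMod 2)) where
  carrier := {g | ∃ r : Fin (n + 2) → ZMod 2, r 0 = 0 ∧
    (g : Matrix (Fin (n + 2)) (Fin (n + 2)) (ZMod 2)) = heis r 0}
  one_mem' := ⟨0, rfl, by rw [Matrix.SpecialLinearGroup.coe_one, heis_zero]⟩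
  mul_mem' := by
    rintro g h ⟨r, hr, hg⟩ ⟨r', hr', hh⟩
    refine ⟨r + r', by rw [Pi.add_apply, hr, hr', add_zero], ?_⟩
    rw [Matrix.SpecialLinearGroup.coe_mul, hg, hh, heis_mul r 0 r' 0 hr rfl, dotProduct_zero,
      zero_smul, add_zero, add_zero]
  inv_mem' := by
    rintro g ⟨r, hr, hg⟩
    have h1 : g * g = 1 := by
      apply Subtype.ext
      rw [Matrix.SpecialLinearGroup.coe_mul, hg, heis_mul r 0 r 0 hr rfl, dotProduct_zero,
        zero_smul, add_zero, add_zero, vec_add_self, heis_zero, Matrix.SpecialLinearGroup.coe_one]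
    have h2 : g⁻¹ = g := inv_eq_of_mul_eq_one_left h1
    rw [h2]
    exact ⟨r, hr, hg⟩

theorem transvE_le : transvE n ≤ transvQ n := by
  rintro g ⟨r, hr, hg⟩
  exact mem_transvQ_of_heis g r 0 hr rfl hg

theorem transvE_elem : Cfsg.IsElementaryAbelian 2 (transvE n) := by
  refine ⟨⟨⟨fun a b => Subtype.ext ?_⟩⟩, fun a ha => ?_⟩
  · obtain ⟨r, hr, hg⟩ := a.2
    obtain ⟨r', hr', hh⟩ := b.2
    apply Subtype.ext
    show ((a.1 * b.1 : Matrix.SpecialLinearGroup (Fin (n + 2)) (ZMod 2)) :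
      Matrix (Fin (n + 2)) (Fin (n + 2)) (ZMod 2)) =
      ((b.1 * a.1 : Matrix.SpecialLinearGroup (Fin (n + 2)) (ZMod 2)) :
      Matrix (Fin (n + 2)) (Fin (n + 2)) (ZMod 2))
    rw [Matrix.SpecialLinearGroup.coe_mul, Matrix.SpecialLinearGroup.coe_mul, hg, hh,
      heis_mul r 0 r' 0 hr rfl, heis_mul r' 0 r 0 hr' rfl, dotProduct_zero, dotProduct_zero,
      zero_smul, add_zero, add_zero, add_zero, add_comm r r']
  · obtain ⟨r, hr, hg⟩ := ha
    apply Subtype.ext
    rw [pow_two, Matrix.SpecialLinearGroup.coe_mul, hg, heis_mul r 0 r 0 hr rfl, dotProduct_zero,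
      zero_smul, add_zero, add_zero, vec_add_self, heis_zero, Matrix.SpecialLinearGroup.coe_one]

theorem card_transvE : Nat.card ↥(transvE n) = 2 ^ (n + 1) := by
  classical
  let Ψ : (Fin (n + 1) → ZMod 2) → ↥(transvE n) := fun p =>
    ⟨heisSL (Fin.cons 0 p) 0 rfl rfl, ⟨Fin.cons 0 p, rfl, rfl⟩⟩
  have hinj : Function.Injective Ψ := by
    intro r r' h
    have h1 : heis (Fin.cons 0 r : Fin (n + 2) → ZMod 2) 0 = heis (Fin.cons 0 r') 0 :=
      congrArg (fun x : ↥(transvE n) =>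
        ((x.1 : Matrix.SpecialLinearGroup (Fin (n + 2)) (ZMod 2)) :
          Matrix (Fin (n + 2)) (Fin (n + 2)) (ZMod 2))) h
    funext k
    have h2 := congrFun (congrFun h1 0) k.succ
    simp only [heis_apply, Fin.cons_succ, Pi.single_eq_same, one_mul, Pi.zero_apply, zero_mul,
      add_zero] at h2
    exact add_left_cancel h2
  have hsurj : Function.Surjective Ψ := by
    rintro ⟨g, r, hr, hg⟩
    refine ⟨Fin.tail r, ?_⟩
    apply Subtype.ext
    apply Subtype.ext
    show heis (Fin.cons 0 (Fin.tail r)) 0 = (g : Matrix (Fin (n + 2)) (Fin (n + 2)) (ZMod 2))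
    rw [hg]
    have e1 : (Fin.cons 0 (Fin.tail r) : Fin (n + 2) → ZMod 2) = r := by
      have := Fin.cons_self_tail r
      rwa [hr] at this
    rw [e1]
  have h := Nat.card_congr (Equiv.ofBijective Ψ ⟨hinj, hsurj⟩)
  rw [← h, Nat.card_eq_fintype_card, Fintype.card_fun, ZMod.card, Fintype.card_fin]

theorem tz_eq_heis : ((tz n : Matrix.SpecialLinearGroup (Fin (n + 2)) (ZMod 2)) :
    Matrix (Fin (n + 2)) (Fin (n + 2)) (ZMod 2)) = heis (Pi.single 1 1) 0 := by
  rw [tz_coe, heis, Matrix.zero_vecMulVec, add_zero, Matrix.transvection,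
    Matrix.single_eq_single_vecMulVec_single]

theorem transv0_eq_heis (b : Fin (n + 2)) :
    (Matrix.transvection 0 b 1 : Matrix (Fin (n + 2)) (Fin (n + 2)) (ZMod 2)) =
      heis (Pi.single b 1) 0 := by
  rw [heis, Matrix.zero_vecMulVec, add_zero, Matrix.transvection,
    Matrix.single_eq_single_vecMulVec_single]

theorem transv1_eq_heis (a : Fin (n + 2)) :
    (Matrix.transvection a 1 1 : Matrix (Fin (n + 2)) (Fin (n + 2)) (ZMod 2)) =
      heis 0 (Pi.single a 1) := by
  rw [heis, Matrix.vecMulVec_zero, add_zero, Matrix.transvection,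
    Matrix.single_eq_single_vecMulVec_single]

theorem tz_mem : tz n ∈ transvQ n :=
  mem_transvQ_of_heis _ (Pi.single 1 1) 0 (Pi.single_eq_of_ne (by simp) 1) rfl tz_eq_heis

theorem tz_ne_one : tz n ≠ 1 := by
  intro h
  have h1 := congrFun (congrFun (congrArg
    (fun x : Matrix.SpecialLinearGroup (Fin (n + 2)) (ZMod 2) =>
      (x : Matrix (Fin (n + 2)) (Fin (n + 2)) (ZMod 2))) h) 0) 1
  simp [tz_coe, Matrix.transvection] at h1

theorem tz_sq : tz n * tz n = 1 := by
  apply Subtype.ext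
  have h := Matrix.transvection_mul_transvection_same (R := ZMod 2) (i := (0 : Fin (n + 2)))
    (j := 1) (by simp) 1 1
  rw [zmod2_add_self, Matrix.transvection_zero] at h
  rw [Matrix.SpecialLinearGroup.coe_mul, tz_coe, Matrix.SpecialLinearGroup.coe_one]
  exact h

theorem transvQ_comm (x : Matrix.SpecialLinearGroup (Fin (n + 2)) (ZMod 2)) (hx : x ∈ transvQ n)
    (y : Matrix.SpecialLinearGroup (Fin (n + 2)) (ZMod 2)) (hy : y ∈ transvQ n) :
    x * y * x⁻¹ * y⁻¹ = 1 ∨ x * y * x⁻¹ * y⁻¹ = tz n := by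
  obtain ⟨r, c, hr, hc0, hc1, hxe⟩ := exists_heis_of_mem x hx
  obtain ⟨r', c', hr', hc0', hc1', hye⟩ := exists_heis_of_mem y hy
  have he0 : (Pi.single 1 1 : Fin (n + 2) → ZMod 2) 0 = 0 := Pi.single_eq_of_ne (by simp) 1
  have hs0 : ((r ⬝ᵥ c' + r' ⬝ᵥ c) • (Pi.single 1 1 : Fin (n + 2) → ZMod 2)) 0 = 0 := by
    rw [Pi.smul_apply, he0, smul_zero]
  have hrr0 : (r' + r + (r' ⬝ᵥ c) • (Pi.single 1 1 : Fin (n + 2) → ZMod 2)) 0 = 0 := by
    rw [Pi.add_apply, Pi.add_apply, Pi.smul_apply, he0, hr, hr', smul_zero, add_zero, add_zero]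
  have key : x * y = y * x * heisSL _ 0 hs0 rfl := by
    apply Subtype.ext
    rw [Matrix.SpecialLinearGroup.coe_mul, Matrix.SpecialLinearGroup.coe_mul,
      Matrix.SpecialLinearGroup.coe_mul, hxe, hye, heisSL_coe, heis_mul r c r' c' hr hc1',
      heis_mul r' c' r c hr' hc1, heis_mul _ _ _ 0 hrr0 rfl, dotProduct_zero, zero_smul,
      add_zero, add_zero, add_smul]
    have hb := vec_add_self ((r' ⬝ᵥ c) • (Pi.single 1 1 : Fin (n + 2) → ZMod 2))
    have e1 : r' + r + (r' ⬝ᵥ c) • (Pi.single 1 1 : Fin (n + 2) → ZMod 2) +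
        ((r ⬝ᵥ c') • (Pi.single 1 1 : Fin (n + 2) → ZMod 2) +
          (r' ⬝ᵥ c) • (Pi.single 1 1 : Fin (n + 2) → ZMod 2)) =
        r + r' + (r ⬝ᵥ c') • (Pi.single 1 1 : Fin (n + 2) → ZMod 2) +
        ((r' ⬝ᵥ c) • (Pi.single 1 1 : Fin (n + 2) → ZMod 2) +
          (r' ⬝ᵥ c) • (Pi.single 1 1 : Fin (n + 2) → ZMod 2)) := by abel
    rw [e1, hb, add_zero, add_comm c' c]
  have hxz : x * tz n = tz n * x :=
    (Subgroup.mem_centralizer_iff.mp (transvQ_le hx) (tz n) rfl).symm
  have hyz : y * tz n = tz n * y :=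
    (Subgroup.mem_centralizer_iff.mp (transvQ_le hy) (tz n) rfl).symm
  rcases zmod2_cases (r ⬝ᵥ c' + r' ⬝ᵥ c) with hs | hs
  · left
    have hw : heisSL _ 0 hs0 rfl = 1 := by
      apply Subtype.ext
      rw [heisSL_coe, hs, zero_smul, heis_zero, Matrix.SpecialLinearGroup.coe_one]
    rw [key, hw]
    group
  · right
    have hw : heisSL _ 0 hs0 rfl = tz n := by
      apply Subtype.ext
      rw [heisSL_coe, hs, one_smul, tz_eq_heis]
    rw [key, hw]
    calc y * x * tz n * x⁻¹ * y⁻¹ = y * (x * tz n) * x⁻¹ * y⁻¹ := by group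
      _ = y * (tz n * x) * x⁻¹ * y⁻¹ := by rw [hxz]
      _ = (y * tz n) * y⁻¹ := by group
      _ = tz n * y * y⁻¹ := by rw [hyz]
      _ = tz n := by group

theorem transvQ_cent (x : Matrix.SpecialLinearGroup (Fin (n + 2)) (ZMod 2))
    (h : ∀ q ∈ transvQ n, q * x = x * q) : x = 1 ∨ x = tz n := by
  classical
  obtain ⟨col0, row1⟩ := comm_transvection 0 1 x (tz n) tz_coe (h (tz n) tz_mem).symm
  have hrow : ∀ (j : Fin n) (l : Fin (n + 2)),
      (x : Matrix (Fin (n + 2)) (Fin (n + 2)) (ZMod 2)) j.succ.succ l =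
        if l = j.succ.succ then 1 else 0 := fun j =>
    (comm_transvection 0 j.succ.succ x
      ⟨Matrix.transvection 0 j.succ.succ 1,
        Matrix.det_transvection_of_ne 0 j.succ.succ (ss_ne_zero j).symm 1⟩ rfl
      (h _ (mem_transvQ_of_heis _ (Pi.single j.succ.succ 1) 0
        (Pi.single_eq_of_ne (ss_ne_zero j).symm 1) rfl (transv0_eq_heis _))).symm).2
  have hcol : ∀ (i : Fin n) (k : Fin (n + 2)),
      (x : Matrix (Fin (n + 2)) (Fin (n + 2)) (ZMod 2)) k i.succ.succ =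
        if k = i.succ.succ then 1 else 0 := fun i =>
    (comm_transvection i.succ.succ 1 x
      ⟨Matrix.transvection i.succ.succ 1 1,
        Matrix.det_transvection_of_ne i.succ.succ 1 (ss_ne_one i) 1⟩ rfl
      (h _ (mem_transvQ_of_heis _ 0 (Pi.single i.succ.succ 1) rfl
        (Pi.single_eq_of_ne (ss_ne_one i).symm 1) (transv1_eq_heis _))).symm).1
  rcases zmod2_cases ((x : Matrix (Fin (n + 2)) (Fin (n + 2)) (ZMod 2)) 0 1) with h01 | h01
  · left
    apply Subtype.ext
    ext i j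
    rw [Matrix.SpecialLinearGroup.coe_one, Matrix.one_apply]
    rcases fin2_cases i with rfl | rfl | ⟨k, rfl⟩
    · rcases fin2_cases j with rfl | rfl | ⟨l, rfl⟩
      · rw [col0]
      · rw [h01, if_neg (by simp)]
      · rw [hcol]
    · rw [row1]
      simp only [eq_comm]
    · rw [hrow]
      simp only [eq_comm]
  · right
    apply Subtype.ext
    ext i j
    rw [tz_coe, Matrix.transvection, Matrix.add_apply, Matrix.one_apply, Matrix.single_apply]
    rcases fin2_cases i with rfl | rfl | ⟨k, rfl⟩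
    · rcases fin2_cases j with rfl | rfl | ⟨l, rfl⟩
      · rw [col0]
        simp
      · rw [h01]
        simp
      · rw [hcol, if_neg (ss_ne_zero l).symm,
          if_neg (show ¬((0 : Fin (n + 2)) = 0 ∧ (1 : Fin (n + 2)) = l.succ.succ) from
            fun hh => (ss_ne_one l) hh.2.symm), add_zero]
    · rw [row1, if_neg (show ¬((0 : Fin (n + 2)) = 1 ∧ 1 = j) from
        fun hh => Fin.zero_ne_one hh.1), add_zero]
      simp only [eq_comm]
    · rw [hrow, if_neg (show ¬((0 : Fin (n + 2)) = k.succ.succ ∧ 1 = j) from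
        fun hh => (ss_ne_zero k) hh.1.symm), add_zero]
      simp only [eq_comm]

theorem transvQ_norm (c : Matrix.SpecialLinearGroup (Fin (n + 2)) (ZMod 2))
    (hc : c * tz n = tz n * c) (x : Matrix.SpecialLinearGroup (Fin (n + 2)) (ZMod 2))
    (hq : x ∈ transvQ n) : c * x * c⁻¹ ∈ transvQ n := by
  have hcC : c ∈ Subgroup.centralizer
      ({tz n} : Set (Matrix.SpecialLinearGroup (Fin (n + 2)) (ZMod 2))) := by
    rw [Subgroup.mem_centralizer_iff]
    intro t ht
    rw [Set.mem_singleton_iff.mp ht]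
    exact hc.symm
  obtain ⟨q', hq', hqq⟩ := Subgroup.mem_map.mp hq
  have h1 := (MonoidHom.normal_ker (leviHom n)).conj_mem q' hq' ⟨c, hcC⟩
  refine Subgroup.mem_map.mpr ⟨_, h1, ?_⟩
  rw [← hqq, map_mul, map_mul, map_inv]
  rfl

theorem les_transvQ : LES (transvQ n) (tz n) where
  mem := tz_mem
  ne_one := tz_ne_one
  sq := tz_sq
  central := fun q hq => (Subgroup.mem_centralizer_iff.mp (transvQ_le hq) (tz n) rfl).symm
  comm := transvQ_comm
  cent := transvQ_cent
  norm := transvQ_norm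

end

end Cfsg.Agent.Helper90
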