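import Mathlib
import Cfsg.Agent.Helper90.TransvES

/-!
Helper90: the centralizer of a transvection in `SL(n + 2, 2)`, `n ≥ 2`: `O_2` is a large
extraspecial subgroup `2^{1+2n}` with complement `SL(n, 2)` (`transv_main`).
-/

set_option autoImplicit false

namespace Cfsg.Agent.Helper90

open Matrix

section
variable {n : ℕ}

theorem pCore_cent_tz (hn : 2 ≤ n) :
    Cfsg.pCore 2 ↥(Subgroup.centralizer
      ({tz n} : Set (Matrix.SpecialLinearGroup (Fin (n + 2)) (ZMod 2)))) = (leviHom n).ker := by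
  apply le_antisymm
  · intro x hx
    rw [MonoidHom.mem_ker]
    have hbot := normal_two_subgroup_sl_eq_bot hn
      ((Cfsg.pCore 2 ↥(Subgroup.centralizer
        ({tz n} : Set (Matrix.SpecialLinearGroup (Fin (n + 2)) (ZMod 2))))).map (leviHom n))
      (Subgroup.Normal.map (Cfsg.pCore_normal 2 _) (leviHom n) leviHom_surjective)
      ((Cfsg.Agent.Helper22.pCore_isPGroup 2 _).map (leviHom n))
    have h1 : leviHom n x ∈ (Cfsg.pCore 2 ↥(Subgroup.centralizer
        ({tz n} : Set (Matrix.SpecialLinearGroup (Fin (n + 2)) (ZMod 2))))).map (leviHom n) :=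
      Subgroup.mem_map_of_mem _ hx
    rw [hbot, Subgroup.mem_bot] at h1
    exact h1
  · refine le_sSup ⟨MonoidHom.normal_ker _, ?_⟩
    have hc : Nat.card ↥(leviHom n).ker = 2 ^ (2 * n + 1) := by
      rw [← card_transvQ (n := n)]
      exact (Subgroup.card_map_of_injective (Subgroup.subtype_injective _)).symm
    exact IsPGroup.of_card hc

theorem transvQ_nonab (hn : 1 ≤ n) :
    ∃ d1 ∈ transvQ n, ∃ d2 ∈ transvQ n, d1 * d2 ≠ d2 * d1 := by
  by_contra hcon
  push Not at hcon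
  have hb0 : ((⟨0, hn⟩ : Fin n).succ.succ : Fin (n + 2)) ≠ 0 := ss_ne_zero _
  have hb1 : ((⟨0, hn⟩ : Fin n).succ.succ : Fin (n + 2)) ≠ 1 := ss_ne_one _
  have hq : heisSL (Pi.single ((⟨0, hn⟩ : Fin n).succ.succ : Fin (n + 2)) 1) 0
      (Pi.single_eq_of_ne hb0.symm 1) rfl ∈ transvQ n := heisSL_mem _ _ _ _
  rcases transvQ_cent _ (fun q' hq' => hcon q' hq' _ hq) with h | h
  · have h1 := congrFun (congrFun (congrArg
      (fun x : Matrix.SpecialLinearGroup (Fin (n + 2)) (ZMod 2) =>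
        (x : Matrix (Fin (n + 2)) (Fin (n + 2)) (ZMod 2))) h) 0) (⟨0, hn⟩ : Fin n).succ.succ
    simp only [heisSL_coe, heis_apply, Matrix.SpecialLinearGroup.coe_one, Matrix.one_apply,
      if_neg hb0.symm, Pi.single_eq_same, Pi.zero_apply, zero_mul, mul_one, zero_add,
      add_zero] at h1
    exact one_ne_zero h1
  · have h1 := congrFun (congrFun (congrArg
      (fun x : Matrix.SpecialLinearGroup (Fin (n + 2)) (ZMod 2) =>
        (x : Matrix (Fin (n + 2)) (Fin (n + 2)) (ZMod 2))) h) 0) (⟨0, hn⟩ : Fin n).succ.succ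
    simp only [heisSL_coe, heis_apply, tz_coe, Matrix.transvection, Matrix.add_apply,
      Matrix.one_apply, Matrix.single_apply, if_neg hb0.symm, Pi.single_eq_same, Pi.zero_apply,
      zero_mul, mul_one, zero_add, add_zero] at h1
    exact one_ne_zero h1

/-- A transvection as an element of `SL`. -/
def tvSL {m : ℕ} (a b : Fin m) (hab : a ≠ b) : Matrix.SpecialLinearGroup (Fin m) (ZMod 2) :=
  ⟨Matrix.transvection a b 1, Matrix.det_transvection_of_ne a b hab 1⟩

theorem tvSL_coe {m : ℕ} (a b : Fin m) (hab : a ≠ b) :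
    ((tvSL a b hab : Matrix.SpecialLinearGroup (Fin m) (ZMod 2)) :
      Matrix (Fin m) (Fin m) (ZMod 2)) = Matrix.transvection a b 1 := rfl

theorem exists_conj_tz (hn : 1 ≤ n) :
    ∃ g : Matrix.SpecialLinearGroup (Fin (n + 2)) (ZMod 2),
      g * tz n * g⁻¹ ∈ transvQ n ∧ g * tz n * g⁻¹ ≠ tz n := by
  have hb0 : ((⟨0, hn⟩ : Fin n).succ.succ : Fin (n + 2)) ≠ 0 := ss_ne_zero _
  have hb1 : ((⟨0, hn⟩ : Fin n).succ.succ : Fin (n + 2)) ≠ 1 := ss_ne_one _
  have he1 : (Pi.single 1 1 : Fin (n + 2) → ZMod 2) 0 = 0 := Pi.single_eq_of_ne (by simp) 1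
  have heb : (Pi.single ((⟨0, hn⟩ : Fin n).succ.succ : Fin (n + 2)) 1 : Fin (n + 2) → ZMod 2) 1
      = 0 := Pi.single_eq_of_ne hb1.symm 1
  have key : tvSL ((⟨0, hn⟩ : Fin n).succ.succ : Fin (n + 2)) 0 hb0 * tz n =
      heisSL (Pi.single 1 1) (Pi.single ((⟨0, hn⟩ : Fin n).succ.succ : Fin (n + 2)) 1) he1 heb *
        tvSL ((⟨0, hn⟩ : Fin n).succ.succ : Fin (n + 2)) 0 hb0 := by
    apply Subtype.ext
    rw [Matrix.SpecialLinearGroup.coe_mul, Matrix.SpecialLinearGroup.coe_mul, tz_coe, heisSL_coe,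
      tvSL_coe]
    show Matrix.transvection ((⟨0, hn⟩ : Fin n).succ.succ : Fin (n + 2)) 0 (1 : ZMod 2) *
      Matrix.transvection 0 1 1 = heis (Pi.single 1 1)
        (Pi.single ((⟨0, hn⟩ : Fin n).succ.succ : Fin (n + 2)) 1) *
      Matrix.transvection ((⟨0, hn⟩ : Fin n).succ.succ : Fin (n + 2)) 0 1
    have h1 : (Pi.single 0 1 : Fin (n + 2) → ZMod 2) ⬝ᵥ
        (Pi.single 0 1 : Fin (n + 2) → ZMod 2) = 1 := by
      rw [single_dotProduct, one_mul, Pi.single_eq_same]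
    have h2 : (Pi.single 1 1 : Fin (n + 2) → ZMod 2) ⬝ᵥ
        (Pi.single ((⟨0, hn⟩ : Fin n).succ.succ : Fin (n + 2)) 1 : Fin (n + 2) → ZMod 2) = 0 := by
      rw [single_dotProduct, one_mul, heb]
    simp only [heis, Matrix.transvection, Matrix.single_eq_single_vecMulVec_single, add_mul,
      mul_add, one_mul, mul_one, Matrix.vecMulVec_mul_vecMulVec, h1, h2, zero_smul, one_smul,
      Matrix.vecMulVec_zero]
    abel
  refine ⟨tvSL ((⟨0, hn⟩ : Fin n).succ.succ : Fin (n + 2)) 0 hb0, ?_, ?_⟩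
  · rw [key, mul_inv_cancel_right]
    exact heisSL_mem _ _ _ _
  · rw [key, mul_inv_cancel_right]
    intro h
    have h3 := congrFun (congrFun (congrArg
      (fun x : Matrix.SpecialLinearGroup (Fin (n + 2)) (ZMod 2) =>
        (x : Matrix (Fin (n + 2)) (Fin (n + 2)) (ZMod 2))) h) (⟨0, hn⟩ : Fin n).succ.succ) 1
    simp only [heisSL_coe, heis_apply, tz_coe, Matrix.transvection, Matrix.add_apply,
      Matrix.one_apply, Matrix.single_apply, if_neg hb1, Pi.single_eq_same,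
      Pi.single_eq_of_ne hb0, mul_one, zero_add, add_zero] at h3
    exact one_ne_zero h3

theorem leviSec_range_le : (leviSec n).range ≤ Subgroup.centralizer
    ({tz n} : Set (Matrix.SpecialLinearGroup (Fin (n + 2)) (ZMod 2))) := by
  rintro _ ⟨A, rfl⟩
  exact leviSec_mem A

theorem transvQ_inf_range : transvQ n ⊓ (leviSec n).range = ⊥ := by
  rw [Subgroup.eq_bot_iff_forall]
  rintro x ⟨hxQ, ⟨A, rfl⟩⟩
  have h1 := ((mem_transvQ _).mp hxQ).2
  rw [leviSec_coe, levi_liftM] at h1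
  have hA : A = 1 := Subtype.ext h1
  rw [hA, map_one]

theorem transvQ_sup_range : transvQ n ⊔ (leviSec n).range = Subgroup.centralizer
    ({tz n} : Set (Matrix.SpecialLinearGroup (Fin (n + 2)) (ZMod 2))) := by
  apply le_antisymm (sup_le transvQ_le leviSec_range_le)
  intro x hx
  have h1 : x * (leviSec n (leviHom n ⟨x, hx⟩))⁻¹ ∈ transvQ n := by
    refine Subgroup.mem_map.mpr
      ⟨⟨x, hx⟩ * ⟨leviSec n (leviHom n ⟨x, hx⟩), leviSec_mem _⟩⁻¹, ?_, rfl⟩
    rw [MonoidHom.mem_ker, map_mul, map_inv, leviHom_leviSec, mul_inv_cancel]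
  have h2 : x = x * (leviSec n (leviHom n ⟨x, hx⟩))⁻¹ * leviSec n (leviHom n ⟨x, hx⟩) := by
    group
  rw [h2]
  exact Subgroup.mul_mem_sup h1 ⟨_, rfl⟩

/-- **The centralizer of a transvection in `SL(n + 2, 2)`.** -/
theorem transv_main (n : ℕ) (hn : 2 ≤ n)
    (Q : Subgroup (Matrix.SpecialLinearGroup (Fin (n + 2)) (ZMod 2)))
    (hQ : Q = (Cfsg.pCore 2 ↥(Subgroup.centralizer
      ({tz n} : Set (Matrix.SpecialLinearGroup (Fin (n + 2)) (ZMod 2))))).map
      (Subgroup.centralizer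
        ({tz n} : Set (Matrix.SpecialLinearGroup (Fin (n + 2)) (ZMod 2)))).subtype) :
    Cfsg.IsExtraspecial 2 ↥Q ∧ Nat.card ↥Q = 2 ^ (2 * n + 1) ∧
    (∃ E : Subgroup (Matrix.SpecialLinearGroup (Fin (n + 2)) (ZMod 2)), E ≤ Q ∧
      Cfsg.IsElementaryAbelian 2 E ∧ Nat.card ↥E = 2 ^ (n + 1)) ∧
    Cfsg.IsLargeExtraspecial Q ∧
    ∃ K : Subgroup (Matrix.SpecialLinearGroup (Fin (n + 2)) (ZMod 2)),
      K ≤ Subgroup.centralizer
        ({tz n} : Set (Matrix.SpecialLinearGroup (Fin (n + 2)) (ZMod 2))) ∧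
      Q ⊓ K = ⊥ ∧
      Q ⊔ K = Subgroup.centralizer
        ({tz n} : Set (Matrix.SpecialLinearGroup (Fin (n + 2)) (ZMod 2))) ∧
      Nonempty (↥K ≃* Matrix.SpecialLinearGroup (Fin n) (ZMod 2)) := by
  have hQ' : Q = transvQ n := by
    rw [hQ, pCore_cent_tz hn]
    rfl
  subst hQ'
  have hES : Cfsg.IsExtraspecial 2 ↥(transvQ n) :=
    isExtraspecial_of_les_sub les_transvQ isPGroup_transvQ le_rfl tz_mem
      (fun d _ h => transvQ_cent d h) (transvQ_nonab (by omega))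
  have hz2 : orderOf (tz n) = 2 :=
    orderOf_eq_prime (by rw [pow_two]; exact tz_sq) tz_ne_one
  have hF : (Cfsg.generalizedFittingSubgroup ↥(Subgroup.centralizer
      ({tz n} : Set (Matrix.SpecialLinearGroup (Fin (n + 2)) (ZMod 2))))).map
      (Subgroup.centralizer
        ({tz n} : Set (Matrix.SpecialLinearGroup (Fin (n + 2)) (ZMod 2)))).subtype =
      transvQ n := by
    rw [fstar_centralizer_transvection (ZMod.card 2) 0 1 (by simp) (tz n) tz_coe,
      pCore_cent_tz hn]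
    rfl
  obtain ⟨g, hgQ, hgz⟩ := exists_conj_tz (n := n) (by omega)
  refine ⟨hES, card_transvQ, ⟨transvE n, transvE_le, transvE_elem, card_transvE⟩,
    large_of_fstar (tz n) hz2 (transvQ n) hF hES n hn card_transvQ g hgQ hgz,
    (leviSec n).range, leviSec_range_le, transvQ_inf_range, transvQ_sup_range,
    ⟨(MonoidHom.ofInjective leviSec_injective).symm⟩⟩

end

end Cfsg.Agent.Helper90
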