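import Mathlib
import Cfsg.Agent.Helper90.TransvMain

/-!
Helper90: block matrices `blk σ X = [[1, σ], [0, X]]` in `SL(n + 2, 2)` (the stabilizer of the
first basis vector, an affine group), the isomorphism `SL(n, 2) ≃ GL(n, 2)`, and small
complements to the transvection-centralizer library (valid for `n ≥ 1`).
-/

set_option autoImplicit false

namespace Cfsg.Agent.Helper90

open Matrix

section
variable {n : ℕ}

/-- The block matrix `[[1, σ], [0, X]]`. -/
def blk (σ : Fin (n + 1) → ZMod 2) (X : Matrix (Fin (n + 1)) (Fin (n + 1)) (ZMod 2)) :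
    Matrix (Fin (n + 2)) (Fin (n + 2)) (ZMod 2) :=
  Matrix.of (Fin.cons (Fin.cons 1 σ) (fun i => Fin.cons 0 (X i)))

theorem blk_zero_zero (σ : Fin (n + 1) → ZMod 2)
    (X : Matrix (Fin (n + 1)) (Fin (n + 1)) (ZMod 2)) : blk σ X 0 0 = 1 := rfl

theorem blk_zero_succ (σ : Fin (n + 1) → ZMod 2)
    (X : Matrix (Fin (n + 1)) (Fin (n + 1)) (ZMod 2)) (j : Fin (n + 1)) :
    blk σ X 0 j.succ = σ j := rfl

theorem blk_succ_zero (σ : Fin (n + 1) → ZMod 2)
    (X : Matrix (Fin (n + 1)) (Fin (n + 1)) (ZMod 2)) (i : Fin (n + 1)) :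
    blk σ X i.succ 0 = 0 := rfl

theorem blk_succ_succ (σ : Fin (n + 1) → ZMod 2)
    (X : Matrix (Fin (n + 1)) (Fin (n + 1)) (ZMod 2)) (i j : Fin (n + 1)) :
    blk σ X i.succ j.succ = X i j := rfl

theorem blk_mul (σ σ' : Fin (n + 1) → ZMod 2)
    (X X' : Matrix (Fin (n + 1)) (Fin (n + 1)) (ZMod 2)) :
    blk σ X * blk σ' X' = blk (Matrix.vecMul σ X' + σ') (X * X') := by
  ext i j
  rw [Matrix.mul_apply, Fin.sum_univ_succ]
  refine Fin.cases ?_ (fun i' => ?_) i
  · refine Fin.cases ?_ (fun j' => ?_) j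
    · simp only [blk_zero_zero, blk_zero_succ, blk_succ_zero, mul_zero, Finset.sum_const_zero,
        mul_one, add_zero]
    · simp only [blk_zero_zero, blk_zero_succ, blk_succ_succ, one_mul, Pi.add_apply,
        Matrix.vecMul, dotProduct]
      rw [add_comm]
  · refine Fin.cases ?_ (fun j' => ?_) j
    · simp only [blk_succ_zero, blk_zero_zero, mul_zero, zero_mul, Finset.sum_const_zero,
        add_zero]
    · simp only [blk_succ_zero, blk_succ_succ, zero_mul, zero_add, Matrix.mul_apply]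

theorem blk_zero_one :
    blk (0 : Fin (n + 1) → ZMod 2) (1 : Matrix (Fin (n + 1)) (Fin (n + 1)) (ZMod 2)) = 1 := by
  ext i j
  refine Fin.cases ?_ (fun i' => ?_) i
  · refine Fin.cases ?_ (fun j' => ?_) j
    · rw [blk_zero_zero, Matrix.one_apply, if_pos rfl]
    · rw [blk_zero_succ, Matrix.one_apply, if_neg (Fin.succ_ne_zero j').symm]
      rfl
  · refine Fin.cases ?_ (fun j' => ?_) j
    · rw [blk_succ_zero, Matrix.one_apply, if_neg (Fin.succ_ne_zero i')]
    · rw [blk_succ_succ, Matrix.one_apply, Matrix.one_apply]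
      simp only [Fin.succ_inj]

theorem blk_inj {σ σ' : Fin (n + 1) → ZMod 2}
    {X X' : Matrix (Fin (n + 1)) (Fin (n + 1)) (ZMod 2)} (h : blk σ X = blk σ' X') :
    σ = σ' ∧ X = X' := by
  refine ⟨funext fun j => ?_, ?_⟩
  · have := congrFun (congrFun h 0) j.succ
    rwa [blk_zero_succ, blk_zero_succ] at this
  · ext i j
    have := congrFun (congrFun h i.succ) j.succ
    rwa [blk_succ_succ, blk_succ_succ] at this

theorem blk_tcond (σ : Fin (n + 1) → ZMod 2) (X : Matrix (Fin (n + 1)) (Fin (n + 1)) (ZMod 2))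
    (hX : ∀ j, X 0 j = if j = 0 then 1 else 0) : TCond (blk σ X) := by
  refine ⟨fun k => ?_, fun l => ?_⟩
  · refine Fin.cases ?_ (fun k' => ?_) k
    · rw [blk_zero_zero, if_pos rfl]
    · rw [blk_succ_zero, if_neg (Fin.succ_ne_zero k')]
  · have h1 : (1 : Fin (n + 2)) = (0 : Fin (n + 1)).succ := Fin.succ_zero_eq_one.symm
    rw [h1]
    refine Fin.cases ?_ (fun l' => ?_) l
    · rw [blk_succ_zero, if_neg (Fin.succ_ne_zero 0).symm]
    · rw [blk_succ_succ, hX]
      simp only [Fin.succ_inj]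

theorem exists_blk_of_col (c : Matrix (Fin (n + 2)) (Fin (n + 2)) (ZMod 2))
    (hc : ∀ k, c k 0 = if k = 0 then 1 else 0) :
    c = blk (fun j => c 0 j.succ) (Matrix.of fun i j => c i.succ j.succ) := by
  ext i j
  refine Fin.cases ?_ (fun i' => ?_) i
  · refine Fin.cases ?_ (fun j' => ?_) j
    · rw [blk_zero_zero, hc, if_pos rfl]
    · rw [blk_zero_succ]
  · refine Fin.cases ?_ (fun j' => ?_) j
    · rw [blk_succ_zero, hc, if_neg (Fin.succ_ne_zero i')]
    · rw [blk_succ_succ]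
      rfl

theorem blk_single_one :
    blk (Pi.single 0 1 : Fin (n + 1) → ZMod 2) 1 = Matrix.transvection 0 1 1 := by
  ext i j
  rw [Matrix.transvection, Matrix.add_apply, Matrix.single_apply]
  refine Fin.cases ?_ (fun i' => ?_) i
  · refine Fin.cases ?_ (fun j' => ?_) j
    · rw [blk_zero_zero, Matrix.one_apply, if_pos rfl,
        if_neg (fun hh : (0 : Fin (n + 2)) = 0 ∧ (1 : Fin (n + 2)) = 0 => by
          have := hh.2; simp at this), add_zero]
    · rw [blk_zero_succ, Matrix.one_apply, if_neg (Fin.succ_ne_zero j').symm, zero_add,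
        Pi.single_apply]
      have h1 : (1 : Fin (n + 2)) = (0 : Fin (n + 1)).succ := Fin.succ_zero_eq_one.symm
      rw [h1]
      simp only [Fin.succ_inj, true_and, eq_comm]
  · rw [if_neg (fun hh : (0 : Fin (n + 2)) = i'.succ ∧ (1 : Fin (n + 2)) = j =>
      (Fin.succ_ne_zero i') hh.1.symm), add_zero]
    refine Fin.cases ?_ (fun j' => ?_) j
    · rw [blk_succ_zero, Matrix.one_apply, if_neg (Fin.succ_ne_zero i')]
    · rw [blk_succ_succ, Matrix.one_apply, Matrix.one_apply]
      simp only [Fin.succ_inj]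

theorem levi_blk_one (σ : Fin (n + 1) → ZMod 2) :
    levi (blk σ (1 : Matrix (Fin (n + 1)) (Fin (n + 1)) (ZMod 2))) = 1 := by
  ext i j
  rw [levi_apply, blk_succ_succ, Matrix.one_apply, Matrix.one_apply]
  simp only [Fin.succ_inj]

end

/-- Over `ZMod 2` the special and general linear groups coincide. -/
theorem toGL_surjective_zmod2 (m : ℕ) : Function.Surjective
    (Matrix.SpecialLinearGroup.toGL :
      Matrix.SpecialLinearGroup (Fin m) (ZMod 2) → GL (Fin m) (ZMod 2)) := by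
  intro A
  have h1 : (A : Matrix (Fin m) (Fin m) (ZMod 2)) *
      ((A⁻¹ : GL (Fin m) (ZMod 2)) : Matrix (Fin m) (Fin m) (ZMod 2)) = 1 := by
    rw [← Units.val_mul, mul_inv_cancel, Units.val_one]
  have hdet : (A : Matrix (Fin m) (Fin m) (ZMod 2)).det = 1 :=
    zmod2_eq_one_of_ne_zero _ (Matrix.det_ne_zero_of_right_inverse h1)
  exact ⟨⟨(A : Matrix (Fin m) (Fin m) (ZMod 2)), hdet⟩, Units.ext rfl⟩

/-- `SL(m, 2) ≃* GL(m, 2)`. -/
noncomputable def slEquivGL (m : ℕ) :
    Matrix.SpecialLinearGroup (Fin m) (ZMod 2) ≃* GL (Fin m) (ZMod 2) :=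
  MulEquiv.ofBijective Matrix.SpecialLinearGroup.toGL
    ⟨Matrix.SpecialLinearGroup.toGL_injective, toGL_surjective_zmod2 m⟩

end Cfsg.Agent.Helper90
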