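import Mathlib
import Cfsg.Agent.Helper90.HolBlk

/-!
Helper90: a group `G = U ⋊ M` with `U` elementary abelian of order `2^(n+1)` coordinatized by
`b : (Fin (n+1) → ZMod 2) → G` and `M` inducing all of `GL(U)` embeds into `SL(n + 2, 2)` by
`g = m · b σ ↦ [[1, σ], [0, X_g]]`, where `g⁻¹ (b ρ) g = b (ρ X_g)`.
-/

set_option autoImplicit false

namespace Cfsg.Agent.Helper90

open Matrix

theorem mat_ext_vecMul {m : ℕ} {A B : Matrix (Fin m) (Fin m) (ZMod 2)}
    (H : ∀ ρ : Fin m → ZMod 2, Matrix.vecMul ρ A = Matrix.vecMul ρ B) : A = B := by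
  ext i j
  have h1 := H (Pi.single i 1)
  rw [Matrix.single_one_vecMul, Matrix.single_one_vecMul] at h1
  exact congrFun h1 j

/-- Coordinates on a split extension of an elementary abelian 2-group by its full linear
group. -/
structure HolCoord {G : Type*} [Group G] (U M : Subgroup G) (n : ℕ)
    (b : (Fin (n + 1) → ZMod 2) → G) : Prop where
  mem : ∀ ρ, b ρ ∈ U
  surj : ∀ u ∈ U, ∃ ρ, b ρ = u
  inj : Function.Injective b
  add : ∀ ρ ρ', b (ρ + ρ') = b ρ * b ρ'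
  normal : U.Normal
  compl_inf : U ⊓ M = ⊥
  compl_sup : ∀ g : G, ∃ m ∈ M, ∃ ρ, g = m * b ρ
  faith : ∀ m ∈ M, (∀ u ∈ U, m * u * m⁻¹ = u) → m = 1
  full : ∀ Y Y' : Matrix (Fin (n + 1)) (Fin (n + 1)) (ZMod 2), Y * Y' = 1 → Y' * Y = 1 →
    ∃ m ∈ M, ∀ ρ, m⁻¹ * b ρ * m = b (Matrix.vecMul ρ Y)

namespace HolCoord

variable {G : Type*} [Group G] {U M : Subgroup G} {n : ℕ} {b : (Fin (n + 1) → ZMod 2) → G}

theorem b_zero (h : HolCoord U M n b) : b 0 = 1 := by
  have h1 : b 0 * b 0 = b 0 * 1 := by rw [← h.add, add_zero, mul_one]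
  exact mul_left_cancel h1

theorem b_comm (h : HolCoord U M n b) (ρ ρ' : Fin (n + 1) → ZMod 2) :
    b ρ * b ρ' = b ρ' * b ρ := by
  rw [← h.add, ← h.add, add_comm]

theorem conj_mem (h : HolCoord U M n b) (g : G) (ρ : Fin (n + 1) → ZMod 2) :
    g⁻¹ * b ρ * g ∈ U := by
  have := h.normal.conj_mem (b ρ) (h.mem ρ) g⁻¹
  rwa [inv_inv] at this

/-- The action of `g` on coordinates: `b (fcon g ρ) = g⁻¹ (b ρ) g`. -/
noncomputable def fcon (h : HolCoord U M n b) (g : G) (ρ : Fin (n + 1) → ZMod 2) :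
    Fin (n + 1) → ZMod 2 :=
  Classical.choose (h.surj (g⁻¹ * b ρ * g) (h.conj_mem g ρ))

theorem b_fcon (h : HolCoord U M n b) (g : G) (ρ : Fin (n + 1) → ZMod 2) :
    b (h.fcon g ρ) = g⁻¹ * b ρ * g :=
  Classical.choose_spec (h.surj (g⁻¹ * b ρ * g) (h.conj_mem g ρ))

theorem fcon_add (h : HolCoord U M n b) (g : G) (ρ ρ' : Fin (n + 1) → ZMod 2) :
    h.fcon g (ρ + ρ') = h.fcon g ρ + h.fcon g ρ' := by
  apply h.inj
  rw [h.b_fcon, h.add, h.add, h.b_fcon, h.b_fcon]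
  group

theorem fcon_fcon (h : HolCoord U M n b) (g k : G) (ρ : Fin (n + 1) → ZMod 2) :
    h.fcon k (h.fcon g ρ) = h.fcon (g * k) ρ := by
  apply h.inj
  rw [h.b_fcon, h.b_fcon, h.b_fcon]
  group

theorem fcon_one (h : HolCoord U M n b) (ρ : Fin (n + 1) → ZMod 2) : h.fcon 1 ρ = ρ := by
  apply h.inj
  rw [h.b_fcon]
  group

theorem fcon_b (h : HolCoord U M n b) (σ ρ : Fin (n + 1) → ZMod 2) : h.fcon (b σ) ρ = ρ := by
  apply h.inj
  rw [h.b_fcon, mul_assoc, h.b_comm ρ σ, inv_mul_cancel_left]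

/-- The matrix of the action of `g`, in the row convention. -/
noncomputable def Xm (h : HolCoord U M n b) (g : G) :
    Matrix (Fin (n + 1)) (Fin (n + 1)) (ZMod 2) :=
  Matrix.of fun i j => h.fcon g (Pi.single i 1) j

theorem vecMul_Xm (h : HolCoord U M n b) (g : G) (ρ : Fin (n + 1) → ZMod 2) :
    Matrix.vecMul ρ (h.Xm g) = h.fcon g ρ := by
  classical
  let f : (Fin (n + 1) → ZMod 2) →+ (Fin (n + 1) → ZMod 2) :=
    AddMonoidHom.mk' (h.fcon g) (h.fcon_add g)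
  have hf : ∀ ρ, f ρ = h.fcon g ρ := fun _ => rfl
  have hsingle : ∀ (i : Fin (n + 1)) (c : ZMod 2),
      f (c • (Pi.single i 1 : Fin (n + 1) → ZMod 2)) =
        c • f (Pi.single i 1 : Fin (n + 1) → ZMod 2) := by
    intro i c
    rcases zmod2_cases c with rfl | rfl
    · rw [zero_smul, map_zero, zero_smul]
    · rw [one_smul, one_smul]
  have h1 : f ρ = ∑ i, ρ i • f (Pi.single i 1 : Fin (n + 1) → ZMod 2) := by
    conv_lhs => rw [pi_eq_sum_univ' ρ]
    rw [map_sum]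
    exact Finset.sum_congr rfl (fun i _ => hsingle i (ρ i))
  rw [← hf, h1]
  funext j
  rw [Finset.sum_apply]
  simp only [Matrix.vecMul, dotProduct, Pi.smul_apply, smul_eq_mul]
  rfl

theorem Xm_mul (h : HolCoord U M n b) (g k : G) : h.Xm (g * k) = h.Xm g * h.Xm k := by
  apply mat_ext_vecMul
  intro ρ
  rw [← Matrix.vecMul_vecMul, h.vecMul_Xm, h.vecMul_Xm, h.vecMul_Xm, h.fcon_fcon]

theorem Xm_one (h : HolCoord U M n b) : h.Xm 1 = 1 := by
  apply mat_ext_vecMul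
  intro ρ
  rw [h.vecMul_Xm, h.fcon_one, Matrix.vecMul_one]

theorem Xm_b (h : HolCoord U M n b) (σ : Fin (n + 1) → ZMod 2) : h.Xm (b σ) = 1 := by
  apply mat_ext_vecMul
  intro ρ
  rw [h.vecMul_Xm, h.fcon_b, Matrix.vecMul_one]

theorem uniq (h : HolCoord U M n b) {m m' : G} (hm : m ∈ M) (hm' : m' ∈ M)
    {ρ ρ' : Fin (n + 1) → ZMod 2} (heq : m * b ρ = m' * b ρ') : m = m' ∧ ρ = ρ' := by
  have h1 : m'⁻¹ * m = b ρ' * (b ρ)⁻¹ := by
    rw [eq_mul_inv_iff_mul_eq, mul_assoc, heq, inv_mul_cancel_left]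
  have h2 : m'⁻¹ * m ∈ U ⊓ M :=
    ⟨h1 ▸ U.mul_mem (h.mem ρ') (U.inv_mem (h.mem ρ)), M.mul_mem (M.inv_mem hm') hm⟩
  rw [h.compl_inf, Subgroup.mem_bot] at h2
  have h3 : m' = m := inv_mul_eq_one.mp h2
  subst h3
  exact ⟨rfl, h.inj (mul_left_cancel heq)⟩

/-- The `M`-part of `g = m · b σ`. -/
noncomputable def mpart (h : HolCoord U M n b) (g : G) : G := Classical.choose (h.compl_sup g)

theorem mpart_mem (h : HolCoord U M n b) (g : G) : h.mpart g ∈ M :=
  (Classical.choose_spec (h.compl_sup g)).1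

/-- The `U`-coordinate of `g = m · b σ`. -/
noncomputable def sg (h : HolCoord U M n b) (g : G) : Fin (n + 1) → ZMod 2 :=
  Classical.choose (Classical.choose_spec (h.compl_sup g)).2

theorem eq_mpart_mul (h : HolCoord U M n b) (g : G) : g = h.mpart g * b (h.sg g) :=
  Classical.choose_spec (Classical.choose_spec (h.compl_sup g)).2

theorem sg_eq (h : HolCoord U M n b) {g m : G} (hm : m ∈ M) {σ : Fin (n + 1) → ZMod 2}
    (hg : g = m * b σ) : h.sg g = σ := by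
  subst hg
  have h1 := h.eq_mpart_mul (m * b σ)
  exact (h.uniq hm (h.mpart_mem _) h1).2.symm

theorem sg_mul (h : HolCoord U M n b) (g k : G) :
    h.sg (g * k) = Matrix.vecMul (h.sg g) (h.Xm k) + h.sg k := by
  have hg := h.eq_mpart_mul g
  have hk := h.eq_mpart_mul k
  have hX : h.Xm k = h.Xm (h.mpart k) := by
    conv_lhs => rw [hk]
    rw [h.Xm_mul, h.Xm_b, mul_one]
  apply h.sg_eq (M.mul_mem (h.mpart_mem g) (h.mpart_mem k))
  rw [hX, h.vecMul_Xm, h.add, h.b_fcon]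
  conv_lhs => rw [hg, hk]
  group

theorem sg_one (h : HolCoord U M n b) : h.sg 1 = 0 :=
  h.sg_eq M.one_mem (by rw [h.b_zero, mul_one])

theorem sg_b (h : HolCoord U M n b) (σ : Fin (n + 1) → ZMod 2) : h.sg (b σ) = σ :=
  h.sg_eq M.one_mem (one_mul _).symm

/-- The matrix of `g` in `SL(n + 2, 2)`. -/
noncomputable def iotaM (h : HolCoord U M n b) (g : G) :
    Matrix (Fin (n + 2)) (Fin (n + 2)) (ZMod 2) :=
  blk (h.sg g) (h.Xm g)

theorem iotaM_mul (h : HolCoord U M n b) (g k : G) :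
    h.iotaM (g * k) = h.iotaM g * h.iotaM k := by
  rw [iotaM, iotaM, iotaM, blk_mul, h.sg_mul, h.Xm_mul]

theorem iotaM_one (h : HolCoord U M n b) : h.iotaM 1 = 1 := by
  rw [iotaM, h.sg_one, h.Xm_one, blk_zero_one]

theorem det_iotaM (h : HolCoord U M n b) (g : G) : (h.iotaM g).det = 1 := by
  have h1 : h.iotaM g * h.iotaM g⁻¹ = 1 := by
    rw [← h.iotaM_mul, mul_inv_cancel, h.iotaM_one]
  exact zmod2_eq_one_of_ne_zero _ (Matrix.det_ne_zero_of_right_inverse h1)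

/-- The embedding of `G` into `SL(n + 2, 2)`. -/
noncomputable def iota (h : HolCoord U M n b) :
    G →* Matrix.SpecialLinearGroup (Fin (n + 2)) (ZMod 2) where
  toFun g := ⟨h.iotaM g, h.det_iotaM g⟩
  map_one' := Subtype.ext h.iotaM_one
  map_mul' g k := Subtype.ext (h.iotaM_mul g k)

theorem iota_coe (h : HolCoord U M n b) (g : G) :
    ((h.iota g : Matrix.SpecialLinearGroup (Fin (n + 2)) (ZMod 2)) :
      Matrix (Fin (n + 2)) (Fin (n + 2)) (ZMod 2)) = blk (h.sg g) (h.Xm g) := rfl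

theorem iota_injective (h : HolCoord U M n b) : Function.Injective h.iota := by
  rw [injective_iff_map_eq_one]
  intro g hg
  have h1 : blk (h.sg g) (h.Xm g) =
      blk (0 : Fin (n + 1) → ZMod 2) (1 : Matrix (Fin (n + 1)) (Fin (n + 1)) (ZMod 2)) := by
    rw [blk_zero_one, ← h.iota_coe, hg, Matrix.SpecialLinearGroup.coe_one]
  obtain ⟨h2, h3⟩ := blk_inj h1
  have h4 : g = h.mpart g := by
    have := h.eq_mpart_mul g
    rwa [h2, h.b_zero, mul_one] at this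
  have h5 : g ∈ M := h4 ▸ h.mpart_mem g
  apply h.faith g h5
  intro u hu
  obtain ⟨ρ, rfl⟩ := h.surj u hu
  have h6 : h.fcon g ρ = ρ := by
    rw [← h.vecMul_Xm, h3, Matrix.vecMul_one]
  have h7 := h.b_fcon g ρ
  rw [h6] at h7
  calc g * b ρ * g⁻¹ = g * (g⁻¹ * b ρ * g) * g⁻¹ := by rw [← h7]
    _ = b ρ := by group

theorem iota_b_single (h : HolCoord U M n b) : h.iota (b (Pi.single 0 1)) = tz n := by
  apply Subtype.ext
  rw [h.iota_coe, h.sg_b, h.Xm_b, blk_single_one, tz_coe]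

theorem iota_mem_cent_iff (h : HolCoord U M n b) (g : G) :
    h.iota g ∈ Subgroup.centralizer
      ({tz n} : Set (Matrix.SpecialLinearGroup (Fin (n + 2)) (ZMod 2))) ↔
      g * b (Pi.single 0 1) = b (Pi.single 0 1) * g := by
  rw [Subgroup.mem_centralizer_iff]
  constructor
  · intro hc
    have h1 := hc (tz n) rfl
    rw [← h.iota_b_single, ← map_mul, ← map_mul] at h1
    exact (h.iota_injective h1).symm
  · intro hc t ht
    rw [Set.mem_singleton_iff.mp ht, ← h.iota_b_single, ← map_mul, ← map_mul, hc]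

theorem exists_iota_eq (h : HolCoord U M n b)
    (c : Matrix.SpecialLinearGroup (Fin (n + 2)) (ZMod 2))
    (hc : c ∈ Subgroup.centralizer
      ({tz n} : Set (Matrix.SpecialLinearGroup (Fin (n + 2)) (ZMod 2)))) :
    ∃ g : G, h.iota g = c := by
  have hc1 := ((mem_cent_tz c).mp hc).1
  have hc2 := ((mem_cent_tz c⁻¹).mp (Subgroup.inv_mem _ hc)).1
  have e1 := exists_blk_of_col _ hc1
  have e2 := exists_blk_of_col _ hc2
  have h1 : (c : Matrix (Fin (n + 2)) (Fin (n + 2)) (ZMod 2)) *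
      ((c⁻¹ : Matrix.SpecialLinearGroup (Fin (n + 2)) (ZMod 2)) :
        Matrix (Fin (n + 2)) (Fin (n + 2)) (ZMod 2)) = 1 := by
    rw [← Matrix.SpecialLinearGroup.coe_mul, mul_inv_cancel, Matrix.SpecialLinearGroup.coe_one]
  have h2 : ((c⁻¹ : Matrix.SpecialLinearGroup (Fin (n + 2)) (ZMod 2)) :
        Matrix (Fin (n + 2)) (Fin (n + 2)) (ZMod 2)) *
      (c : Matrix (Fin (n + 2)) (Fin (n + 2)) (ZMod 2)) = 1 := by
    rw [← Matrix.SpecialLinearGroup.coe_mul, inv_mul_cancel, Matrix.SpecialLinearGroup.coe_one]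
  rw [e1, e2, blk_mul, ← blk_zero_one] at h1
  rw [e1, e2, blk_mul, ← blk_zero_one] at h2
  obtain ⟨m, hm, hmb⟩ := h.full _ _ (blk_inj h1).2 (blk_inj h2).2
  have hXm : h.Xm m = Matrix.of fun i j =>
      (c : Matrix (Fin (n + 2)) (Fin (n + 2)) (ZMod 2)) i.succ j.succ := by
    apply mat_ext_vecMul
    intro ρ
    rw [h.vecMul_Xm]
    apply h.inj
    rw [h.b_fcon, hmb]
  refine ⟨m * b (fun j => (c : Matrix (Fin (n + 2)) (Fin (n + 2)) (ZMod 2)) 0 j.succ), ?_⟩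
  apply Subtype.ext
  rw [h.iota_coe, h.sg_eq hm rfl, h.Xm_mul, h.Xm_b, mul_one, hXm]
  exact e1.symm

end HolCoord

end Cfsg.Agent.Helper90
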