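import Mathlib
import Cfsg.Agent.Helper90.TransvMain

/-!
Helper90: complements to `TransvMain` valid for every `n ≥ 1` (including `SL(3, 2)`).
-/

set_option autoImplicit false

namespace Cfsg.Agent.Helper90

open Matrix

theorem sl_subsingleton_of_le_one {m : ℕ} (hm : m ≤ 1) :
    Subsingleton (Matrix.SpecialLinearGroup (Fin m) (ZMod 2)) := by
  have key : ∀ c : Matrix.SpecialLinearGroup (Fin m) (ZMod 2),
      (c : Matrix (Fin m) (Fin m) (ZMod 2)) = 1 := by
    intro c
    obtain rfl | rfl : m = 0 ∨ m = 1 := by omega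
    · ext i j
      exact Fin.elim0 i
    · ext i j
      have hi : i = 0 := Subsingleton.elim _ _
      have hj : j = 0 := Subsingleton.elim _ _
      rw [hi, hj, Matrix.one_apply_eq]
      have h1 := Matrix.det_fin_one (c : Matrix (Fin 1) (Fin 1) (ZMod 2))
      rw [c.2] at h1
      exact h1.symm
  exact ⟨fun a b => Subtype.ext ((key a).trans (key b).symm)⟩

section
variable {n : ℕ}

theorem leviHom_ker_le_pCore : (leviHom n).ker ≤
    Cfsg.pCore 2 ↥(Subgroup.centralizer
      ({tz n} : Set (Matrix.SpecialLinearGroup (Fin (n + 2)) (ZMod 2)))) := by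
  refine le_sSup ⟨MonoidHom.normal_ker _, ?_⟩
  have hc : Nat.card ↥(leviHom n).ker = 2 ^ (2 * n + 1) := by
    rw [← card_transvQ (n := n)]
    exact (Subgroup.card_map_of_injective (Subgroup.subtype_injective _)).symm
  exact IsPGroup.of_card hc

theorem pCore_cent_tz' (n : ℕ) :
    Cfsg.pCore 2 ↥(Subgroup.centralizer
      ({tz n} : Set (Matrix.SpecialLinearGroup (Fin (n + 2)) (ZMod 2)))) = (leviHom n).ker := by
  by_cases hn : 2 ≤ n
  · exact pCore_cent_tz hn
  · have hsub := sl_subsingleton_of_le_one (m := n) (by omega)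
    apply le_antisymm
    · intro x _
      rw [MonoidHom.mem_ker]
      exact Subsingleton.elim _ _
    · exact leviHom_ker_le_pCore

theorem pCore_map_cent_tz (n : ℕ) :
    (Cfsg.pCore 2 ↥(Subgroup.centralizer
      ({tz n} : Set (Matrix.SpecialLinearGroup (Fin (n + 2)) (ZMod 2))))).map
      (Subgroup.centralizer
        ({tz n} : Set (Matrix.SpecialLinearGroup (Fin (n + 2)) (ZMod 2)))).subtype =
      transvQ n := by
  rw [pCore_cent_tz' n]
  rfl

theorem isExtraspecial_transvQ (hn : 1 ≤ n) : Cfsg.IsExtraspecial 2 ↥(transvQ n) :=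
  isExtraspecial_of_les_sub les_transvQ isPGroup_transvQ le_rfl tz_mem
    (fun d _ h => transvQ_cent d h) (transvQ_nonab hn)

theorem exists_mul_of_mem_cent (x : Matrix.SpecialLinearGroup (Fin (n + 2)) (ZMod 2))
    (hx : x ∈ Subgroup.centralizer
      ({tz n} : Set (Matrix.SpecialLinearGroup (Fin (n + 2)) (ZMod 2)))) :
    ∃ q ∈ transvQ n, ∃ k ∈ (leviSec n).range, x = q * k := by
  have h1 : x * (leviSec n (leviHom n ⟨x, hx⟩))⁻¹ ∈ transvQ n := by
    refine Subgroup.mem_map.mpr
      ⟨⟨x, hx⟩ * ⟨leviSec n (leviHom n ⟨x, hx⟩), leviSec_mem _⟩⁻¹, ?_, rfl⟩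
    rw [MonoidHom.mem_ker, map_mul, map_inv, leviHom_leviSec, mul_inv_cancel]
  refine ⟨_, h1, leviSec n (leviHom n ⟨x, hx⟩), ⟨_, rfl⟩, ?_⟩
  group

end

end Cfsg.Agent.Helper90
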