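import Mathlib
import Cfsg.Agent.Helper90.Holomorph
import Cfsg.Agent.Helper90.TransvMore
import Cfsg.Agent.Helper93.LargeExtra

/-!
Helper90: the centralizer of an involution of `U` in the holomorph `U ⋊ GL(U)`, `U` elementary
abelian of order `2^(n+1)`: transport from the centralizer of a transvection in `SL(n + 2, 2)`.
-/

set_option autoImplicit false

namespace Cfsg.Agent.Helper90

open Matrix

theorem hol_main {G : Type*} [Group G] {U M : Subgroup G} {n : ℕ}
    {b : (Fin (n + 1) → ZMod 2) → G} (h : HolCoord U M n b) (hn : 1 ≤ n)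
    (hU : Cfsg.IsElementaryAbelian 2 U) (hUcard : Nat.card ↥U = 2 ^ (n + 1))
    (Z : Subgroup G)
    (hZ : ∀ g, g ∈ Subgroup.centralizer (Z : Set G) ↔
      g * b (Pi.single 0 1) = b (Pi.single 0 1) * g)
    (Q : Subgroup G)
    (hQ : Q = (Cfsg.pCore 2 ↥(Subgroup.centralizer (Z : Set G))).map
      (Subgroup.centralizer (Z : Set G)).subtype) :
    Cfsg.IsExtraspecial 2 ↥Q ∧ Nat.card ↥Q = 2 ^ (2 * n + 1) ∧
    (∃ E : Subgroup G, E ≤ Q ∧ Cfsg.IsElementaryAbelian 2 E ∧ Nat.card ↥E = 2 ^ (n + 1)) ∧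
    Cfsg.IsLargeExtraspecial Q ∧
    ∃ K : Subgroup G, K ≤ Subgroup.centralizer (Z : Set G) ∧ Q ⊓ K = ⊥ ∧
      Q ⊔ K = Subgroup.centralizer (Z : Set G) ∧
      Nonempty (↥K ≃* Matrix.GeneralLinearGroup (Fin n) (ZMod 2)) := by
  classical
  have hCi : ∀ g, g ∈ Subgroup.centralizer (Z : Set G) ↔ h.iota g ∈ Subgroup.centralizer
      ({tz n} : Set (Matrix.SpecialLinearGroup (Fin (n + 2)) (ZMod 2))) :=
    fun g => (hZ g).trans (h.iota_mem_cent_iff g).symm
  -- the isomorphism of centralizers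
  let f : ↥(Subgroup.centralizer (Z : Set G)) →* ↥(Subgroup.centralizer
      ({tz n} : Set (Matrix.SpecialLinearGroup (Fin (n + 2)) (ZMod 2)))) :=
    (h.iota.comp (Subgroup.centralizer (Z : Set G)).subtype).codRestrict _
      (fun c => (hCi c.1).mp c.2)
  have hf : ∀ c, ((f c : ↥(Subgroup.centralizer
      ({tz n} : Set (Matrix.SpecialLinearGroup (Fin (n + 2)) (ZMod 2))))) :
        Matrix.SpecialLinearGroup (Fin (n + 2)) (ZMod 2)) = h.iota c.1 := fun _ => rfl
  have hfbij : Function.Bijective f := by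
    constructor
    · intro c d hcd
      have h1 := congrArg Subtype.val hcd
      rw [hf, hf] at h1
      exact Subtype.ext (h.iota_injective h1)
    · intro c
      obtain ⟨g, hg⟩ := h.exists_iota_eq c.1 c.2
      refine ⟨⟨g, (hCi g).mpr (hg ▸ c.2)⟩, Subtype.ext ?_⟩
      rw [hf]
      exact hg
  let e : ↥(Subgroup.centralizer (Z : Set G)) ≃* ↥(Subgroup.centralizer
      ({tz n} : Set (Matrix.SpecialLinearGroup (Fin (n + 2)) (ZMod 2)))) :=
    MulEquiv.ofBijective f hfbij
  have he : ∀ c, ((e c : ↥(Subgroup.centralizer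
      ({tz n} : Set (Matrix.SpecialLinearGroup (Fin (n + 2)) (ZMod 2))))) :
        Matrix.SpecialLinearGroup (Fin (n + 2)) (ZMod 2)) = h.iota c.1 := fun _ => rfl
  have hpc : (Cfsg.pCore 2 ↥(Subgroup.centralizer (Z : Set G))).map e.toMonoidHom =
      (leviHom n).ker := by
    rw [Cfsg.Agent.Helper93.pCore_map_equiv 2 e, pCore_cent_tz' n]
  -- membership in Q
  have mem_Q : ∀ x, x ∈ Q ↔ h.iota x ∈ transvQ n := by
    intro x
    rw [hQ]
    constructor
    · rintro ⟨y, hy, rfl⟩
      have h1 : e y ∈ (leviHom n).ker := by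
        rw [← hpc]
        exact ⟨y, hy, rfl⟩
      exact ⟨e y, h1, rfl⟩
    · rintro ⟨y', hy', hyx⟩
      rw [← hpc] at hy'
      obtain ⟨y, hy, rfl⟩ := hy'
      have h1 : h.iota y.1 = h.iota x := hyx
      have h2 := h.iota_injective h1
      exact ⟨y, hy, h2⟩
  have hQC : Q ≤ Subgroup.centralizer (Z : Set G) := by
    rw [hQ]
    exact Cfsg.Agent.Helper93.O2in_le _
  -- Q ≃* transvQ
  let fQ : ↥Q →* ↥(transvQ n) :=
    (h.iota.comp Q.subtype).codRestrict _ (fun q => (mem_Q q.1).mp q.2)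
  have hfQ : ∀ q, ((fQ q : ↥(transvQ n)) :
      Matrix.SpecialLinearGroup (Fin (n + 2)) (ZMod 2)) = h.iota q.1 := fun _ => rfl
  have hfQbij : Function.Bijective fQ := by
    constructor
    · intro c d hcd
      have h1 := congrArg Subtype.val hcd
      rw [hfQ, hfQ] at h1
      exact Subtype.ext (h.iota_injective h1)
    · intro c
      obtain ⟨g, hg⟩ := h.exists_iota_eq c.1 (transvQ_le c.2)
      refine ⟨⟨g, (mem_Q g).mpr (hg ▸ c.2)⟩, Subtype.ext ?_⟩
      rw [hfQ]
      exact hg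
  let eQ : ↥Q ≃* ↥(transvQ n) := MulEquiv.ofBijective fQ hfQbij
  have hES : Cfsg.IsExtraspecial 2 ↥Q := isExtraspecial_of_equiv eQ.symm (isExtraspecial_transvQ hn)
  have hcard : Nat.card ↥Q = 2 ^ (2 * n + 1) := by
    rw [Nat.card_congr eQ.toEquiv, card_transvQ]
  -- U ≤ Q
  have hUQ : U ≤ Q := by
    intro u hu
    obtain ⟨σ, rfl⟩ := h.surj u hu
    rw [mem_Q, mem_transvQ, h.iota_coe, h.sg_b, h.Xm_b]
    refine ⟨blk_tcond _ _ (fun j => ?_), levi_blk_one _⟩
    rw [Matrix.one_apply]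
    simp only [eq_comm]
  have hzQ : b (Pi.single 0 1) ∈ Q := hUQ (h.mem _)
  have hzcent : ∀ q ∈ Q, q * b (Pi.single 0 1) = b (Pi.single 0 1) * q :=
    fun q hq => (hZ q).mp (hQC hq)
  have hcent : ∀ x : G, (∀ q ∈ Q, q * x = x * q) → x = 1 ∨ x = b (Pi.single 0 1) := by
    intro x hx
    have h1 : ∀ y ∈ transvQ n, y * h.iota x = h.iota x * y := by
      intro y hy
      obtain ⟨q, hq⟩ := h.exists_iota_eq y (transvQ_le hy)
      have hqQ : q ∈ Q := (mem_Q q).mpr (hq ▸ hy)
      rw [← hq, ← map_mul, ← map_mul, hx q hqQ]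
    rcases transvQ_cent _ h1 with h2 | h2
    · left
      apply h.iota_injective
      rw [h2, map_one]
    · right
      apply h.iota_injective
      rw [h2, h.iota_b_single]
  have hcenter : ∀ x : G, x ∈ (Subgroup.center ↥Q).map Q.subtype ↔
      (x = 1 ∨ x = b (Pi.single 0 1)) := by
    intro x
    constructor
    · rintro ⟨c, hc, rfl⟩
      apply hcent
      intro q hq
      have := Subgroup.mem_center_iff.mp hc ⟨q, hq⟩
      exact congrArg Subtype.val this
    · rintro (rfl | rfl)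
      · exact Subgroup.one_mem _
      · refine ⟨⟨_, hzQ⟩, Subgroup.mem_center_iff.mpr (fun q => Subtype.ext ?_), rfl⟩
        exact hzcent q.1 q.2
  have hL2 : Subgroup.centralizer (Q : Set G) = (Subgroup.center ↥Q).map Q.subtype := by
    ext x
    rw [hcenter, Subgroup.mem_centralizer_iff]
    constructor
    · intro hx
      exact hcent x hx
    · rintro (rfl | rfl) q hq
      · rw [one_mul, mul_one]
      · exact hzcent q hq
  have hL3 : Subgroup.centralizer (((Subgroup.center ↥Q).map Q.subtype : Subgroup G) : Set G) ≤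
      Subgroup.normalizer (Q : Set G) := by
    intro x hx
    have h1 : x ∈ Subgroup.centralizer (Z : Set G) := by
      rw [hZ]
      exact (Subgroup.mem_centralizer_iff.mp hx _ ((hcenter _).mpr (Or.inr rfl))).symm
    rw [Subgroup.mem_normalizer_iff]
    intro q
    rw [hQ]
    constructor
    · intro hq
      exact Cfsg.Agent.Helper93.O2in_conj_mem _ h1 hq
    · intro hq
      have := Cfsg.Agent.Helper93.O2in_conj_mem _ (Subgroup.inv_mem _ h1) hq
      have e1 : x⁻¹ * (x * q * x⁻¹) * x⁻¹⁻¹ = q := by group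
      rwa [e1] at this
  have hL4 : ∀ K : Subgroup G, Odd (Nat.card K) → Q ≤ Subgroup.normalizer (K : Set G) →
      K = ⊥ := by
    intro K hodd hQK
    have hUK : ∀ u ∈ U, u ∈ K → u = 1 := by
      intro u hu huK
      have h2 : u ^ 2 = 1 := hU.2 u hu
      have h3 : u ^ Nat.card K = 1 := by
        have := pow_card_eq_one' (G := ↥K) (x := ⟨u, huK⟩)
        exact congrArg Subtype.val this
      obtain ⟨k, hk⟩ := hodd
      rw [hk, pow_succ, pow_mul, h2, one_pow, one_mul] at h3
      exact h3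
    have hcomm : ∀ k ∈ K, ∀ u ∈ U, k * u = u * k := by
      intro k hk u hu
      have h1 : k * u * k⁻¹ * u⁻¹ ∈ U :=
        U.mul_mem (h.normal.conj_mem u hu k) (U.inv_mem hu)
      have h2 : k * u * k⁻¹ * u⁻¹ ∈ K := by
        have h3 : u * k⁻¹ * u⁻¹ ∈ K :=
          (Subgroup.mem_normalizer_iff.mp (hQK (hUQ hu)) k⁻¹).mp (K.inv_mem hk)
        have := K.mul_mem hk h3
        have e1 : k * (u * k⁻¹ * u⁻¹) = k * u * k⁻¹ * u⁻¹ := by group
        rwa [e1] at this
      have h4 := hUK _ h1 h2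
      calc k * u = (k * u * k⁻¹ * u⁻¹) * (u * k) := by group
        _ = u * k := by rw [h4, one_mul]
    rw [Subgroup.eq_bot_iff_forall]
    intro k hk
    obtain ⟨m, hm, σ, hkm⟩ := h.compl_sup k
    have hm1 : m = 1 := by
      apply h.faith m hm
      intro u hu
      obtain ⟨ρ, rfl⟩ := h.surj u hu
      have h1 := hcomm k hk (b ρ) (h.mem ρ)
      rw [hkm] at h1
      have h2 : m * b ρ * b σ = b ρ * m * b σ := by
        calc m * b ρ * b σ = m * (b ρ * b σ) := mul_assoc _ _ _
          _ = m * (b σ * b ρ) := by rw [h.b_comm ρ σ]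
          _ = m * b σ * b ρ := (mul_assoc _ _ _).symm
          _ = b ρ * (m * b σ) := h1
          _ = b ρ * m * b σ := (mul_assoc _ _ _).symm
      have h3 : m * b ρ = b ρ * m := mul_right_cancel h2
      rw [h3]
      group
    rw [hm1, one_mul] at hkm
    exact hUK k (hkm ▸ h.mem σ) hk
  -- the complement
  have hKC : (leviSec n).range.comap h.iota ≤ Subgroup.centralizer (Z : Set G) := by
    intro g hg
    exact (hCi g).mpr (leviSec_range_le (Subgroup.mem_comap.mp hg))
  have hinf : Q ⊓ (leviSec n).range.comap h.iota = ⊥ := by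
    rw [Subgroup.eq_bot_iff_forall]
    rintro g ⟨hgQ, hgK⟩
    have h1 : h.iota g ∈ transvQ n ⊓ (leviSec n).range :=
      ⟨(mem_Q g).mp hgQ, Subgroup.mem_comap.mp hgK⟩
    rw [transvQ_inf_range, Subgroup.mem_bot] at h1
    apply h.iota_injective
    rw [h1, map_one]
  have hsup : Q ⊔ (leviSec n).range.comap h.iota = Subgroup.centralizer (Z : Set G) := by
    apply le_antisymm (sup_le hQC hKC)
    intro g hg
    obtain ⟨q, hq, k, hk, hgqk⟩ := exists_mul_of_mem_cent _ ((hCi g).mp hg)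
    obtain ⟨q', hq'⟩ := h.exists_iota_eq q (transvQ_le hq)
    obtain ⟨k', hk'⟩ := h.exists_iota_eq k (leviSec_range_le hk)
    have h1 : g = q' * k' := by
      apply h.iota_injective
      rw [map_mul, hq', hk', hgqk]
    rw [h1]
    exact Subgroup.mul_mem_sup ((mem_Q q').mpr (hq' ▸ hq))
      (Subgroup.mem_comap.mpr (hk' ▸ hk))
  let fK : ↥((leviSec n).range.comap h.iota) →* ↥(leviSec n).range :=
    (h.iota.comp ((leviSec n).range.comap h.iota).subtype).codRestrict _
      (fun k => Subgroup.mem_comap.mp k.2)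
  have hfK : ∀ k, ((fK k : ↥(leviSec n).range) :
      Matrix.SpecialLinearGroup (Fin (n + 2)) (ZMod 2)) = h.iota k.1 := fun _ => rfl
  have hfKbij : Function.Bijective fK := by
    constructor
    · intro c d hcd
      have h1 := congrArg Subtype.val hcd
      rw [hfK, hfK] at h1
      exact Subtype.ext (h.iota_injective h1)
    · intro c
      obtain ⟨g, hg⟩ := h.exists_iota_eq c.1 (leviSec_range_le c.2)
      refine ⟨⟨g, Subgroup.mem_comap.mpr (hg ▸ c.2)⟩, Subtype.ext ?_⟩
      rw [hfK]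
      exact hg
  refine ⟨hES, hcard, ⟨U, hUQ, hU, hUcard⟩, ⟨hES, hL2, hL3, hL4⟩,
    (leviSec n).range.comap h.iota, hKC, hinf, hsup,
    ⟨((MulEquiv.ofBijective fK hfKbij).trans
      (MonoidHom.ofInjective leviSec_injective).symm).trans (slEquivGL n)⟩⟩

end Cfsg.Agent.Helper90
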