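import Mathlib
import Cfsg.Agent.Helper90.HolMain

/-!
Helper90: coordinates (`HolCoord`) for an abstract split extension of an elementary abelian
2-group `U` of order `2^(n+1)` by a complement inducing the full automorphism group of `U`,
with a prescribed involution of `U` as first basis vector.
-/

set_option autoImplicit false

namespace Cfsg.Agent.Helper90

open Matrix

theorem exists_coord_of_elementary {A : Type*} [CommGroup A] [Finite A] (n : ℕ)
    (hA2 : ∀ a : A, a ^ 2 = 1) (hcard : Nat.card A = 2 ^ n) :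
    ∃ β : (Fin n → ZMod 2) → A, Function.Bijective β ∧ ∀ ρ ρ', β (ρ + ρ') = β ρ * β ρ' := by
  have hpV : ∀ x : Additive A, 2 • x = 0 := by
    intro x
    show Additive.ofMul ((Additive.toMul x) ^ 2) = 0
    rw [hA2]
    rfl
  obtain ⟨inst⟩ : Nonempty (Module (ZMod 2) (Additive A)) := ⟨AddCommGroup.zmodModule hpV⟩
  have hfin : Finite (Additive A) := ‹Finite A›
  have hrank : Module.finrank (ZMod 2) (Additive A) = n := by
    have h1 := Module.natCard_eq_pow_finrank (K := ZMod 2) (V := Additive A)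
    rw [Nat.card_zmod] at h1
    have h2 : Nat.card (Additive A) = 2 ^ n := hcard
    rw [h2] at h1
    exact (Nat.pow_right_injective (le_refl 2) h1).symm
  let bas : Module.Basis (Fin n) (ZMod 2) (Additive A) := Module.finBasisOfFinrankEq _ _ hrank
  refine ⟨fun ρ => Additive.toMul (bas.equivFun.symm ρ), ?_, ?_⟩
  · constructor
    · intro ρ ρ' h
      exact bas.equivFun.symm.injective (Additive.toMul.injective h)
    · intro a
      exact ⟨bas.equivFun (Additive.ofMul a), by simp⟩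
  · intro ρ ρ'
    show Additive.toMul (bas.equivFun.symm (ρ + ρ')) = _
    rw [map_add]
    rfl

theorem sq_one_add_vecMulVec {m : ℕ} (u w : Fin m → ZMod 2) (hwu : w ⬝ᵥ u = 0) :
    (1 + Matrix.vecMulVec u w) * (1 + Matrix.vecMulVec u w) =
      (1 : Matrix (Fin m) (Fin m) (ZMod 2)) := by
  rw [add_mul, mul_add, mul_add, one_mul, mul_one, one_mul, Matrix.vecMulVec_mul_vecMulVec, hwu,
    zero_smul, Matrix.vecMulVec_zero, add_zero, add_assoc]
  have h1 : Matrix.vecMulVec u w + Matrix.vecMulVec u w =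
      (0 : Matrix (Fin m) (Fin m) (ZMod 2)) := by
    ext i j
    exact zmod2_add_self _
  rw [h1, add_zero]

/-- An invertible matrix with prescribed nonzero first row. -/
theorem exists_mat_row {m : ℕ} (v : Fin (m + 1) → ZMod 2) (hv : v ≠ 0) :
    ∃ A A' : Matrix (Fin (m + 1)) (Fin (m + 1)) (ZMod 2), A * A' = 1 ∧ A' * A = 1 ∧
      Matrix.vecMul (Pi.single 0 1) A = v := by
  classical
  have hee : (Pi.single 0 1 : Fin (m + 1) → ZMod 2) ⬝ᵥ (Pi.single 0 1 : Fin (m + 1) → ZMod 2)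
      = 1 := by
    rw [single_dotProduct, one_mul, Pi.single_eq_same]
  by_cases h0 : v 0 = 1
  · -- first coordinate is 1
    have hw : (v + Pi.single 0 1) ⬝ᵥ (Pi.single 0 1 : Fin (m + 1) → ZMod 2) = 0 := by
      rw [dotProduct_single, mul_one, Pi.add_apply, h0, Pi.single_eq_same]
      exact zmod2_add_self 1
    refine ⟨1 + Matrix.vecMulVec (Pi.single 0 1) (v + Pi.single 0 1),
      1 + Matrix.vecMulVec (Pi.single 0 1) (v + Pi.single 0 1),
      sq_one_add_vecMulVec _ _ hw, sq_one_add_vecMulVec _ _ hw, ?_⟩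
    rw [Matrix.vecMul_add, Matrix.vecMul_one, Matrix.vecMul_vecMulVec, hee, one_smul]
    funext j
    rw [Pi.add_apply, Pi.add_apply, add_comm (v j), ← add_assoc, zmod2_add_self, zero_add]
  · -- first coordinate is 0
    have h00 : v 0 = 0 := by
      rcases zmod2_cases (v 0) with h | h
      · exact h
      · exact absurd h h0
    obtain ⟨k, hk⟩ : ∃ k, v k ≠ 0 := by
      by_contra hcon
      push Not at hcon
      exact hv (funext hcon)
    have hk1 : v k = 1 := zmod2_eq_one_of_ne_zero _ hk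
    have hk0 : k ≠ 0 := by
      intro hh
      rw [hh] at hk
      exact hk h00
    have hw : v ⬝ᵥ (Pi.single 0 1 : Fin (m + 1) → ZMod 2) = 0 := by
      rw [dotProduct_single, mul_one, h00]
    have hw2 : (Pi.single 0 1 : Fin (m + 1) → ZMod 2) ⬝ᵥ
        (Pi.single k 1 : Fin (m + 1) → ZMod 2) = 0 := by
      rw [single_dotProduct, one_mul]
      exact Pi.single_eq_of_ne hk0.symm 1
    have hA1 := sq_one_add_vecMulVec (Pi.single 0 1 : Fin (m + 1) → ZMod 2) v hw
    have hB := sq_one_add_vecMulVec (Pi.single k 1 : Fin (m + 1) → ZMod 2) (Pi.single 0 1) hw2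
    refine ⟨(1 + Matrix.vecMulVec (Pi.single 0 1) v) *
        (1 + Matrix.vecMulVec (Pi.single k 1) (Pi.single 0 1)),
      (1 + Matrix.vecMulVec (Pi.single k 1) (Pi.single 0 1)) *
        (1 + Matrix.vecMulVec (Pi.single 0 1) v), ?_, ?_, ?_⟩
    · rw [mul_assoc, ← mul_assoc (1 + Matrix.vecMulVec (Pi.single k 1) (Pi.single 0 1)), hB,
        one_mul, hA1]
    · rw [mul_assoc, ← mul_assoc (1 + Matrix.vecMulVec (Pi.single 0 1) v), hA1, one_mul, hB]
    · have h1 : Matrix.vecMul (Pi.single 0 1 : Fin (m + 1) → ZMod 2)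
          (1 + Matrix.vecMulVec (Pi.single 0 1) v) = v + Pi.single 0 1 := by
        rw [Matrix.vecMul_add, Matrix.vecMul_one, Matrix.vecMul_vecMulVec, hee, one_smul]
        exact add_comm _ _
      have h2 : (v + Pi.single 0 1) ⬝ᵥ (Pi.single k 1 : Fin (m + 1) → ZMod 2) = 1 := by
        rw [dotProduct_single, mul_one, Pi.add_apply, hk1, Pi.single_eq_of_ne hk0 1, add_zero]
      rw [← Matrix.vecMul_vecMul, h1, Matrix.vecMul_add, Matrix.vecMul_one,
        Matrix.vecMul_vecMulVec, h2, one_smul]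
      funext j
      rw [Pi.add_apply, Pi.add_apply, add_assoc, zmod2_add_self, add_zero]

theorem exists_holCoord {G : Type*} [Group G] [Finite G] (n : ℕ) (U M : Subgroup G) [hUn : U.Normal]
    (hU : Cfsg.IsElementaryAbelian 2 U) (hUcard : Nat.card ↥U = 2 ^ (n + 1))
    (hUM : U ⊓ M = ⊥) (hUM' : U ⊔ M = ⊤)
    (hfaith : ∀ m ∈ M, (∀ u ∈ U, m * u * m⁻¹ = u) → m = 1)
    (hfull : ∀ φ : ↥U ≃* ↥U, ∃ m ∈ M, ∀ u : ↥U, ((φ u : ↥U) : G) = m * u * m⁻¹)
    (Z : Subgroup G) (hZU : Z ≤ U) (hZ : Nat.card ↥Z = 2) :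
    ∃ b : (Fin (n + 1) → ZMod 2) → G, HolCoord U M n b ∧
      ∀ g, g ∈ Subgroup.centralizer (Z : Set G) ↔
        g * b (Pi.single 0 1) = b (Pi.single 0 1) * g := by
  classical
  have hUc := hU.1
  let inst : CommGroup ↥U := { (inferInstance : Group ↥U) with
    mul_comm := fun a b => mul_comm' a b }
  have hU2 : ∀ a : ↥U, a ^ 2 = 1 := fun a => Subtype.ext (by
    rw [Subgroup.coe_pow]; exact hU.2 _ a.2)
  obtain ⟨β, hβbij, hβadd⟩ := @exists_coord_of_elementary ↥U inst inferInstance (n + 1) hU2 hUcard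
  -- the involution
  obtain ⟨y, hy1, hyu⟩ := (Nat.card_eq_two_iff' (1 : ↥Z)).mp hZ
  have hZall : ∀ x ∈ Z, x = 1 ∨ x = (y : G) := by
    intro x hx
    by_cases hx1 : x = 1
    · exact Or.inl hx1
    · right
      have h1 : (⟨x, hx⟩ : ↥Z) ≠ 1 := fun hh => hx1 (congrArg Subtype.val hh)
      exact congrArg Subtype.val (hyu _ h1)
  have hyne : (y : G) ≠ 1 := fun hh => hy1 (Subtype.ext hh)
  obtain ⟨v, hv⟩ := hβbij.2 ⟨(y : G), hZU y.2⟩
  have hβ0 : β 0 = 1 := by
    have h1 : β 0 * β 0 = β 0 * 1 := by rw [← hβadd, add_zero, mul_one]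
    exact mul_left_cancel h1
  have hv0 : v ≠ 0 := by
    intro hh
    rw [hh, hβ0] at hv
    exact hyne (congrArg Subtype.val hv).symm
  obtain ⟨A, A', hAA', hA'A, hArow⟩ := exists_mat_row v hv0
  have hcancel : ∀ ρ : Fin (n + 1) → ZMod 2, Matrix.vecMul (Matrix.vecMul ρ A') A = ρ := by
    intro ρ
    rw [Matrix.vecMul_vecMul, hA'A, Matrix.vecMul_one]
  have hcancel' : ∀ ρ : Fin (n + 1) → ZMod 2, Matrix.vecMul (Matrix.vecMul ρ A) A' = ρ := by
    intro ρ
    rw [Matrix.vecMul_vecMul, hAA', Matrix.vecMul_one]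
  have hbz : ((β (Matrix.vecMul (Pi.single 0 1) A) : ↥U) : G) = (y : G) := by
    rw [hArow, hv]
  have hmem : ∀ ρ, ((β (Matrix.vecMul ρ A) : ↥U) : G) ∈ U := fun ρ => (β _).2
  have hsurj : ∀ u ∈ U, ∃ ρ, ((β (Matrix.vecMul ρ A) : ↥U) : G) = u := by
    intro u hu
    obtain ⟨ρ', hρ'⟩ := hβbij.2 ⟨u, hu⟩
    refine ⟨Matrix.vecMul ρ' A', ?_⟩
    rw [hcancel, hρ']
  have hinj : Function.Injective (fun ρ => ((β (Matrix.vecMul ρ A) : ↥U) : G)) := by
    intro ρ ρ' hh
    have h1 : Matrix.vecMul ρ A = Matrix.vecMul ρ' A := hβbij.1 (Subtype.ext hh)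
    have h2 : Matrix.vecMul (Matrix.vecMul ρ A) A' = Matrix.vecMul (Matrix.vecMul ρ' A) A' := by
      rw [h1]
    rwa [hcancel', hcancel'] at h2
  have hadd : ∀ ρ ρ', ((β (Matrix.vecMul (ρ + ρ') A) : ↥U) : G) =
      ((β (Matrix.vecMul ρ A) : ↥U) : G) * ((β (Matrix.vecMul ρ' A) : ↥U) : G) := by
    intro ρ ρ'
    rw [Matrix.add_vecMul, hβadd]
    rfl
  refine ⟨fun ρ => ((β (Matrix.vecMul ρ A) : ↥U) : G), ?_, ?_⟩
  · refine ⟨hmem, hsurj, hinj, hadd, hUn, hUM, ?_, hfaith, ?_⟩
    · intro g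
      have hg : g ∈ M ⊔ U := by
        rw [sup_comm, hUM']
        exact Subgroup.mem_top g
      obtain ⟨m, hm, u, hu, hmu⟩ := Subgroup.mem_sup_of_normal_right.mp hg
      obtain ⟨ρ, hρ⟩ := hsurj u hu
      exact ⟨m, hm, ρ, by rw [hρ, hmu]⟩
    · intro Y Y' hYY' hY'Y
      -- the automorphism of U with matrix Y'
      let bU : (Fin (n + 1) → ZMod 2) → ↥U := fun ρ => β (Matrix.vecMul ρ A)
      have hbUbij : Function.Bijective bU := by
        constructor
        · intro ρ ρ' hh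
          exact hinj (congrArg Subtype.val hh)
        · intro u
          obtain ⟨ρ, hρ⟩ := hsurj u.1 u.2
          exact ⟨ρ, Subtype.ext hρ⟩
      have hbUadd : ∀ ρ ρ', bU (ρ + ρ') = bU ρ * bU ρ' := fun ρ ρ' => Subtype.ext (hadd ρ ρ')
      let eb : (Fin (n + 1) → ZMod 2) ≃ ↥U := Equiv.ofBijective bU hbUbij
      have heb : ∀ ρ, eb ρ = bU ρ := fun _ => rfl
      have hebsymm : ∀ ρ, eb.symm (bU ρ) = ρ := fun ρ => by
        rw [← heb, Equiv.symm_apply_apply]
      have hebmul : ∀ u u' : ↥U, eb.symm (u * u') = eb.symm u + eb.symm u' := by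
        intro u u'
        apply eb.injective
        rw [Equiv.apply_symm_apply, heb, hbUadd, ← heb, ← heb, Equiv.apply_symm_apply,
          Equiv.apply_symm_apply]
      let φ : ↥U ≃* ↥U :=
        { toFun := fun u => bU (Matrix.vecMul (eb.symm u) Y')
          invFun := fun u => bU (Matrix.vecMul (eb.symm u) Y)
          left_inv := fun u => by
            show bU (Matrix.vecMul (eb.symm (bU (Matrix.vecMul (eb.symm u) Y'))) Y) = u
            rw [hebsymm, Matrix.vecMul_vecMul, hY'Y, Matrix.vecMul_one, ← heb,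
              Equiv.apply_symm_apply]
          right_inv := fun u => by
            show bU (Matrix.vecMul (eb.symm (bU (Matrix.vecMul (eb.symm u) Y))) Y') = u
            rw [hebsymm, Matrix.vecMul_vecMul, hYY', Matrix.vecMul_one, ← heb,
              Equiv.apply_symm_apply]
          map_mul' := fun u u' => by
            show bU (Matrix.vecMul (eb.symm (u * u')) Y') =
              bU (Matrix.vecMul (eb.symm u) Y') * bU (Matrix.vecMul (eb.symm u') Y')
            rw [hebmul, Matrix.add_vecMul, hbUadd] }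
      have hφ : ∀ ρ, φ (bU ρ) = bU (Matrix.vecMul ρ Y') := fun ρ => by
        show bU (Matrix.vecMul (eb.symm (bU ρ)) Y') = _
        rw [hebsymm]
      obtain ⟨m, hm, hmφ⟩ := hfull φ
      refine ⟨m, hm, fun ρ => ?_⟩
      have h1 := hmφ (bU (Matrix.vecMul ρ Y))
      rw [hφ, Matrix.vecMul_vecMul, hYY', Matrix.vecMul_one] at h1
      show m⁻¹ * ((bU ρ : ↥U) : G) * m = ((bU (Matrix.vecMul ρ Y) : ↥U) : G)
      rw [h1]
      group
  · intro g
    show g ∈ Subgroup.centralizer (Z : Set G) ↔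
      g * ((β (Matrix.vecMul (Pi.single 0 1) A) : ↥U) : G) =
        ((β (Matrix.vecMul (Pi.single 0 1) A) : ↥U) : G) * g
    rw [hbz, Subgroup.mem_centralizer_iff]
    constructor
    · intro hg
      exact (hg _ y.2).symm
    · intro hg x hx
      rcases hZall x hx with rfl | rfl
      · rw [one_mul, mul_one]
      · exact hg.symm

end Cfsg.Agent.Helper90
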