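import Mathlib
import Cfsg.Prelude.Def_GeometricClasses
import Cfsg.Agent.Helper90.IMDefs
import Cfsg.Agent.Helper90.BGChain
import Cfsg.Agent.Helper46.BGLIRR
import Cfsg.Agent.Helper69.BGLSING
import Cfsg.Agent.Helper69.SngB2
import Cfsg.Agent.Helper99.Invol
import Cfsg.Agent.Helper20.IMMB
import Cfsg.Agent.Helper3.IMLINES
import Cfsg.Agent.Helper31.IMLOW
import Cfsg.Agent.Helper41.IMGLORD
import Cfsg.Agent.Helper41.IMMONO1
import Cfsg.Agent.Helper41.IMN1
import Cfsg.Agent.Helper41.IMN2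
import Cfsg.Agent.Helper41.IMN3
import Cfsg.Agent.Helper41.IMPHIIRR
import Cfsg.Agent.Helper41.IMSSC
import Cfsg.Agent.Helper41.IMSUB3
import Cfsg.Agent.Helper46.IME2B
import Cfsg.Agent.Helper74.IMCARD
import Cfsg.Agent.Helper83.IMFREE
import Cfsg.Agent.Helper83.IMPEEL
import Cfsg.Agent.Helper83.IMUP

/-!
# S5958: elements of odd prime order `r ≠ p` and decompositions - assembly
-/

set_option autoImplicit false

namespace Cfsg.Agent.Helper90.IM

open Module Polynomial

theorem mod_mono_aux (a c t j : ℕ) (hc : 0 < c) (hmod : (a * t) % c = t * (a % c))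
    (hj : j + 1 ≤ t) : (a * j) % c ≤ (a * (j + 1)) % c := by
  have hlt : t * (a % c) < c := hmod ▸ Nat.mod_lt _ hc
  have h1 : (a % c) * (j + 1) ≤ t * (a % c) := by
    rw [Nat.mul_comm t]; exact Nat.mul_le_mul_left _ hj
  have h2 : (a % c) * j ≤ (a % c) * (j + 1) := Nat.mul_le_mul_left _ (Nat.le_succ j)
  have e1 : (a * j) % c = (a % c) * j := by
    rw [← Nat.mod_mul_mod, Nat.mod_eq_of_lt (by omega)]
  have e2 : (a * (j + 1)) % c = (a % c) * (j + 1) := by
    rw [← Nat.mod_mul_mod, Nat.mod_eq_of_lt (by omega)]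
  rw [e1, e2]; exact h2

section exist

variable {F : Type*} [Field F] [Fintype F] {V : Type*} [AddCommGroup V] [Module F V]
  [FiniteDimensional F V]

/-- Sufficiency: under the numerical condition every `T` with `T ^ r` a nonzero scalar
permutes the summands of some decomposition. -/
theorem im_exists (p : ℕ) [Fact p.Prime] [CharP F p] (r : ℕ) [Fact r.Prime] (hrp : r ≠ p)
    (T : V →ₗ[F] V) (z : F) (hz : z ≠ 0) (hT : T ^ r = z • (1 : Module.End F V))
    (a t : ℕ) (ha : 1 ≤ a) (hdim : finrank F V = a * t)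
    (hcond : (a = 1 ∧ 1 < orderOf ((Fintype.card F : ℕ) : ZMod r) ∧
        orderOf ((Fintype.card F : ℕ) : ZMod r) = r - 1 ∧
        a * t ≤ ((a * t) % orderOf ((Fintype.card F : ℕ) : ZMod r)) * r) ∨
      (orderOf ((Fintype.card F : ℕ) : ZMod r) ≤ a ∧
        (a * t) % orderOf ((Fintype.card F : ℕ) : ZMod r) =
          t * (a % orderOf ((Fintype.card F : ℕ) : ZMod r)))) :
    ∃ (D : Fin t → Submodule F V) (σ : Equiv.Perm (Fin t)), IsDec T a D σ := by
  classical
  have hr : r.Prime := Fact.out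
  have hp : p.Prime := Fact.out
  have hq2 : 2 ≤ Fintype.card F := Fintype.one_lt_card
  have hrF : (r : F) ≠ 0 := by
    intro h
    rw [CharP.cast_eq_zero_iff F p r] at h
    exact hrp ((Nat.prime_dvd_prime_iff_eq hp hr).mp h).symm
  have hqr : ¬ r ∣ Fintype.card F := by
    intro h
    obtain ⟨k, -, hk⟩ := FiniteField.card F p
    rw [hk] at h
    exact hrp ((Nat.prime_dvd_prime_iff_eq hr hp).mp (hr.dvd_of_dvd_pow h))
  have hi0 : 0 < orderOf ((Fintype.card F : ℕ) : ZMod r) := by
    rw [orderOf_pos_iff, isOfFinOrder_iff_isUnit, ZMod.isUnit_iff_coprime]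
    exact ((Nat.Prime.coprime_iff_not_dvd hr).mpr hqr).symm
  have hone : orderOf ((Fintype.card F : ℕ) : ZMod r) = 1 ↔ r ∣ Fintype.card F - 1 := by
    rw [orderOf_eq_one_iff]
    constructor
    · intro hi1
      have h1 : ((Fintype.card F : ℕ) : ZMod r) = ((1 : ℕ) : ZMod r) := by rw [hi1, Nat.cast_one]
      rw [ZMod.natCast_eq_natCast_iff] at h1
      exact (Nat.modEq_iff_dvd' (by omega)).mp h1.symm
    · intro h
      have h1 : ((Fintype.card F : ℕ) : ZMod r) = ((1 : ℕ) : ZMod r) := by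
        rw [ZMod.natCast_eq_natCast_iff]
        exact ((Nat.modEq_iff_dvd' (by omega)).mpr h).symm
      rw [h1, Nat.cast_one]
  have hcardU : Nat.card Fˣ = Fintype.card F - 1 := by
    rw [Nat.card_units, Nat.card_eq_fintype_card]
  have haev : aeval T (X ^ r - C z : F[X]) = 0 := by
    rw [map_sub, map_pow, aeval_X, aeval_C, hT, Algebra.algebraMap_eq_smul_one]
    exact sub_self _
  have hinj_of : ∀ (S : V →ₗ[F] V) (w : F), w ≠ 0 → S ^ r = w • (1 : Module.End F V) →
      Function.Injective S := by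
    intro S w hw hS
    rw [← LinearMap.ker_eq_bot, eq_bot_iff]
    intro v hv
    rw [LinearMap.mem_ker] at hv
    have h1 : (S ^ r) v = w • v := by rw [hS]; rfl
    obtain ⟨k, hk⟩ : ∃ k, r = k + 1 := ⟨r - 1, by have := hr.two_le; omega⟩
    rw [hk, pow_succ, Module.End.mul_apply, hv, map_zero] at h1
    have := (smul_eq_zero.mp h1.symm).resolve_left hw
    rw [this]; exact Submodule.zero_mem _
  have hinj : Function.Injective T := hinj_of T z hz hT
  by_cases h1 : orderOf ((Fintype.card F : ℕ) : ZMod r) = 1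
  · -- `r ∣ q - 1`
    have hr1 := hone.mp h1
    by_cases hpow : ∃ b : F, b ^ r = z
    · obtain ⟨b, hb⟩ := hpow
      obtain ⟨ω, hω⟩ := exists_prime_orderOf_dvd_card' (G := Fˣ) r (by rw [hcardU]; exact hr1)
      have hζ : IsPrimitiveRoot (ω : F) r := by
        rw [IsPrimitiveRoot.coe_units_iff, ← hω]
        exact IsPrimitiveRoot.orderOf ω
      have hsplit := X_pow_sub_C_splits_of_isPrimitiveRoot hζ hb
      have hne : (X ^ r - C z : F[X]) ≠ 0 := X_pow_sub_C_ne_zero hr.pos z
      have hdeg : ∀ g : F[X], Irreducible g → g ∣ (X ^ r - C z : F[X]) → g.natDegree = 1 :=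
        fun g hg hdvd => (hsplit.of_dvd hne hdvd).natDegree_eq_one_of_irreducible hg
      obtain ⟨D, hD⟩ := Cfsg.Agent.Helper83.peel T hinj a
        (fun U W hUW hU hW => Cfsg.Agent.Helper41.ss_compl T r hrF z hz hT U W hUW hU hW)
        (fun j W hW hfin => by
          obtain ⟨U', -, hU'W, hU', hfr⟩ := BG.chain_exists T ⊥ W bot_le (by simp) hW _ hne
            (fun v _ => by rw [haev]; simp) 1 hdeg (a * j)
            (by rw [finrank_bot, hfin]; nlinarith)
          exact ⟨U', hU'W, hU', by rw [hfr, finrank_bot]; ring⟩) t hdim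
      exact ⟨D, 1, hD⟩
    · have hpow' : ∀ b : F, b ^ r ≠ z := fun b hb => hpow ⟨b, hb⟩
      have hirr : Irreducible (X ^ r - C z : F[X]) := X_pow_sub_C_irreducible_of_prime hr hpow'
      have hnd : (X ^ r - C z : F[X]).natDegree = r := natDegree_X_pow_sub_C
      have hrn : r ∣ a * t := by
        have := BG.dvd_finrank_of_irreducible T _ hirr haev ⊤ (by simp)
        rw [hnd, finrank_top, hdim] at this
        exact this
      by_cases hra : r ∣ a
      · have hdeg : ∀ g : F[X], Irreducible g → g ∣ (X ^ r - C z : F[X]) → g.natDegree = r :=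
          fun g hg hdvd => by
            rw [← hnd]; exact BG.natDegree_eq_of_assoc (hg.associated_of_dvd hirr hdvd)
        obtain ⟨a', rfl⟩ := hra
        obtain ⟨D, hD⟩ := Cfsg.Agent.Helper83.peel T hinj (r * a')
          (fun U W hUW hU hW => Cfsg.Agent.Helper41.ss_compl T r hrF z hz hT U W hUW hU hW)
          (fun j W hW hfin => by
            obtain ⟨U', -, hU'W, hU', hfr⟩ := BG.chain_exists T ⊥ W bot_le (by simp) hW _
              hirr.ne_zero (fun v _ => by rw [haev]; simp) r hdeg (a' * j)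
              (by rw [finrank_bot, hfin]; nlinarith)
            exact ⟨U', hU'W, hU', by rw [hfr, finrank_bot]; ring⟩) t hdim
        exact ⟨D, 1, hD⟩
      · have hrt : r ∣ t := (hr.dvd_mul.mp hrn).resolve_left hra
        obtain ⟨u, rfl⟩ := hrt
        obtain ⟨s, b, hb⟩ := Cfsg.Agent.Helper20.cyc_basis T _ hirr haev r hnd hr.pos
        have hs : s = a * u := by
          have h2 := Module.finrank_eq_card_basis b
          rw [hdim, Fintype.card_prod, Fintype.card_fin, Fintype.card_fin] at h2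
          have h3 : r * (a * u) = r * s := by rw [Nat.mul_comm r s, ← h2]; ring
          exact (Nat.eq_of_mul_eq_mul_left hr.pos h3).symm
        exact Cfsg.Agent.Helper46.dec_of_cyc_basis T r hr.pos z hz hT b hb a u hs
  · -- `r ∤ q - 1`: `z` is an `r`-th power and we may assume `T ^ r = 1`
    have hc2 : 2 ≤ orderOf ((Fintype.card F : ℕ) : ZMod r) := by omega
    have hnr1 : ¬ r ∣ Fintype.card F - 1 := fun h => h1 (hone.mpr h)
    have hcop : (Nat.card Fˣ).Coprime r := by
      rw [hcardU]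
      exact ((Nat.Prime.coprime_iff_not_dvd hr).mpr hnr1).symm
    obtain ⟨b, hb⟩ : ∃ b : F, b ^ r = z := by
      refine ⟨(((powCoprime hcop).symm (Units.mk0 z hz) : Fˣ) : F), ?_⟩
      have h1 := (powCoprime hcop).apply_symm_apply (Units.mk0 z hz)
      rw [powCoprime_apply] at h1
      have h2 := congrArg (fun u : Fˣ => (u : F)) h1
      simpa using h2
    have hb0 : b ≠ 0 := by
      rintro rfl
      rw [zero_pow hr.ne_zero] at hb
      exact hz hb.symm
    have hyr : (b⁻¹ • T) ^ r = 1 := by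
      rw [_root_.smul_pow, hT, inv_pow, hb, smul_smul, inv_mul_cancel₀ hz, one_smul]
    have hd : ∀ g : F[X], Irreducible g → g ∣ ∑ j ∈ Finset.range r, (X : F[X]) ^ j →
        g.natDegree = orderOf ((Fintype.card F : ℕ) : ZMod r) :=
      fun g hg hdvd => Cfsg.Agent.Helper46.bgl_irr_factor_degree r hrF g hg hdvd
    have hmap : ∀ W : Submodule F V, W.map (b⁻¹ • T) = W.map T := by
      intro W
      apply le_antisymm
      · rintro _ ⟨v, hv, rfl⟩
        rw [LinearMap.smul_apply]
        exact Submodule.smul_mem _ _ (Submodule.mem_map_of_mem hv)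
      · rintro _ ⟨v, hv, rfl⟩
        refine ⟨b • v, W.smul_mem b hv, ?_⟩
        rw [LinearMap.smul_apply, map_smul, smul_smul, inv_mul_cancel₀ hb0, one_smul]
    suffices hsuff : ∃ (D : Fin t → Submodule F V) (σ : Equiv.Perm (Fin t)),
        IsDec (b⁻¹ • T) a D σ by
      obtain ⟨D, σ, h1, h2, h3, h4⟩ := hsuff
      exact ⟨D, σ, h1, h2, h3, fun j => by rw [← hmap, h4 j]⟩
    rcases hcond with ⟨ha1, -, hcr, hle⟩ | ⟨hca, hmod⟩
    · subst ha1
      have hirrφ := Cfsg.Agent.Helper41.phi_irreducible (F := F) r hrF hcr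
      have hdv := BG.cyc_dvd (b⁻¹ • T) r _ hrF hyr hd ⊤ (by simp)
      rw [top_inf_eq, finrank_top, hdim] at hdv
      have hkle : finrank F (LinearMap.ker (b⁻¹ • T - 1)) ≤ 1 * t := by
        rw [← hdim]; exact Submodule.finrank_le _
      have hfixge : (1 * t) % orderOf ((Fintype.card F : ℕ) : ZMod r)
          ≤ finrank F (LinearMap.ker (b⁻¹ • T - 1)) := by
        obtain ⟨k, hk⟩ := hdv
        have h5 : 1 * t = finrank F (LinearMap.ker (b⁻¹ • T - 1))
            + orderOf ((Fintype.card F : ℕ) : ZMod r) * k := by omega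
        rw [h5, Nat.add_mul_mod_self_left]
        exact Nat.mod_le _ _
      obtain ⟨bb, π, hbb⟩ := Cfsg.Agent.Helper3.lines_basis (b⁻¹ • T) r hr hrF hyr hirrφ t
        (by rw [hdim, one_mul]) (by
          calc t = 1 * t := (one_mul t).symm
            _ ≤ ((1 * t) % orderOf ((Fintype.card F : ℕ) : ZMod r)) * r := hle
            _ ≤ finrank F (LinearMap.ker (b⁻¹ • T - 1)) * r := Nat.mul_le_mul_right _ hfixge
            _ = r * finrank F (LinearMap.ker (b⁻¹ • T - 1)) := Nat.mul_comm _ _)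
      exact ⟨_, π, Cfsg.Agent.Helper41.dec_of_perm_basis (b⁻¹ • T) bb π hbb⟩
    · have hinj' : Function.Injective (b⁻¹ • T) :=
        hinj_of (b⁻¹ • T) 1 one_ne_zero (by rw [hyr, one_smul])
      obtain ⟨D, hD⟩ := Cfsg.Agent.Helper83.peel (b⁻¹ • T) hinj' a
        (fun U W hUW hU hW => Cfsg.Agent.Helper41.ss_compl (b⁻¹ • T) r hrF 1 one_ne_zero
          (by rw [hyr, one_smul]) U W hUW hU hW)
        (fun j W hW hfin => by
          have hj : j + 1 ≤ t := by
            have h5 : finrank F W ≤ finrank F V := Submodule.finrank_le W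
            rw [hfin, hdim] at h5
            exact Nat.le_of_mul_le_mul_left h5 (by omega)
          refine Cfsg.Agent.Helper41.sub_cyc (b⁻¹ • T) r _ hrF hyr hi0 hd W hW (a * j)
            (by rw [hfin]; exact Nat.mul_le_mul_left _ (Nat.le_succ j)) ?_
          rw [hfin]
          exact mod_mono_aux a _ t j hi0 hmod hj) t hdim
      exact ⟨D, 1, hD⟩

end exist

section nec

variable {F : Type*} [Field F] [Fintype F]

/-- Necessity. -/
theorem im_nec (p : ℕ) [Fact p.Prime] [CharP F p] (r : ℕ) [Fact r.Prime] (hr2 : r ≠ 2)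
    (hrp : r ≠ p) (n a t : ℕ) (hat : n = a * t) (ha : 1 ≤ a) (ht : 2 ≤ t)
    (hΩ : r ∣ Nat.card {D : Fin t → Submodule F (Fin n → F) // Cfsg.Geo.IsMDecomposition a D} /
      Nat.factorial t)
    (h : ∀ x : Matrix.SpecialLinearGroup (Fin n) F,
      ((x ^ r : Matrix.SpecialLinearGroup (Fin n) F) : Matrix (Fin n) (Fin n) F) = 1 →
      (∀ z : F, (x : Matrix (Fin n) (Fin n) F) ≠ z • (1 : Matrix (Fin n) (Fin n) F)) →
      ∃ (D : Fin t → Submodule F (Fin n → F)) (σ : Equiv.Perm (Fin t)),
        IsDec (Matrix.toLin' (x : Matrix (Fin n) (Fin n) F)) a D σ) :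
    (a = 1 ∧ 1 < orderOf ((Fintype.card F : ℕ) : ZMod r) ∧
        orderOf ((Fintype.card F : ℕ) : ZMod r) = r - 1 ∧
        n ≤ (n % orderOf ((Fintype.card F : ℕ) : ZMod r)) * r) ∨
      (orderOf ((Fintype.card F : ℕ) : ZMod r) ≤ a ∧
        n % orderOf ((Fintype.card F : ℕ) : ZMod r) =
          t * (a % orderOf ((Fintype.card F : ℕ) : ZMod r))) := by
  classical
  have hr : r.Prime := Fact.out
  have hp : p.Prime := Fact.out
  have hq2 : 2 ≤ Fintype.card F := Fintype.one_lt_card
  have hrF : (r : F) ≠ 0 := by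
    intro h
    rw [CharP.cast_eq_zero_iff F p r] at h
    exact hrp ((Nat.prime_dvd_prime_iff_eq hp hr).mp h).symm
  have hqr : ¬ r ∣ Fintype.card F := by
    intro h
    obtain ⟨k, -, hk⟩ := FiniteField.card F p
    rw [hk] at h
    exact hrp ((Nat.prime_dvd_prime_iff_eq hr hp).mp (hr.dvd_of_dvd_pow h))
  have hunit : IsUnit ((Fintype.card F : ℕ) : ZMod r) := by
    rw [ZMod.isUnit_iff_coprime]
    exact ((Nat.Prime.coprime_iff_not_dvd hr).mpr hqr).symm
  have hi0 : 0 < orderOf ((Fintype.card F : ℕ) : ZMod r) := by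
    rw [orderOf_pos_iff, isOfFinOrder_iff_isUnit]
    exact hunit
  have hpowlin : ∀ (A : Matrix (Fin n) (Fin n) F) (k : ℕ),
      (Matrix.toLin' A) ^ k = Matrix.toLin' (A ^ k) := by
    intro A k
    induction k with
    | zero => rw [pow_zero, pow_zero, Matrix.toLin'_one]; rfl
    | succ k ih => rw [pow_succ, pow_succ, ih, Matrix.toLin'_mul]; rfl
  have hTr : ∀ x : Matrix.SpecialLinearGroup (Fin n) F,
      ((x ^ r : Matrix.SpecialLinearGroup (Fin n) F) : Matrix (Fin n) (Fin n) F) = 1 →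
      (Matrix.toLin' (x : Matrix (Fin n) (Fin n) F)) ^ r = 1 := by
    intro x hx
    rw [hpowlin, ← Matrix.SpecialLinearGroup.coe_pow, hx, Matrix.toLin'_one]; rfl
  have hd : ∀ g : F[X], Irreducible g → g ∣ ∑ j ∈ Finset.range r, (X : F[X]) ^ j →
      g.natDegree = orderOf ((Fintype.card F : ℕ) : ZMod r) :=
    fun g hg hdvd => Cfsg.Agent.Helper46.bgl_irr_factor_degree r hrF g hg hdvd
  by_cases h1 : orderOf ((Fintype.card F : ℕ) : ZMod r) = 1
  · right
    refine ⟨by omega, ?_⟩
    rw [h1, Nat.mod_one, Nat.mod_one, Nat.mul_zero]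
  have hc2 : 2 ≤ orderOf ((Fintype.card F : ℕ) : ZMod r) := by omega
  by_cases hca : orderOf ((Fintype.card F : ℕ) : ZMod r) ≤ a
  · right
    refine ⟨hca, ?_⟩
    have hin : orderOf ((Fintype.card F : ℕ) : ZMod r) ≤ n := by
      rw [hat]
      exact hca.trans (Nat.le_mul_of_pos_right a (by omega))
    obtain ⟨x, hx1, hxns, hker⟩ := Cfsg.Agent.Helper69.bgl_exists_fpf p n r hrp hc2 hin
    obtain ⟨D, σ, hD⟩ := h x hx1 hxns
    have hσ : σ = 1 := by
      by_contra hne
      obtain ⟨j, hj⟩ : ∃ j, σ j ≠ j := by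
        by_contra hall
        push Not at hall
        exact hne (Equiv.ext hall)
      have h5 := Cfsg.Agent.Helper41.fix_ge_of_moved _ r hr (hTr x hx1) D σ hD j hj
      rw [hker] at h5
      have := Nat.mod_lt n hi0
      omega
    subst hσ
    have h2 := Cfsg.Agent.Helper41.fix_ge_of_invariant _ r _ hrF (hTr x hx1) hi0 hd D hD
    rw [hker] at h2
    have h3 : n % orderOf ((Fintype.card F : ℕ) : ZMod r)
        = (t * (a % orderOf ((Fintype.card F : ℕ) : ZMod r)))
          % orderOf ((Fintype.card F : ℕ) : ZMod r) := by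
      rw [hat, Nat.mul_comm a t, Nat.mul_mod_mod]
    have h4 := Nat.mod_lt n hi0
    rw [h3, Nat.mod_eq_of_lt (by omega)]
  · left
    push Not at hca
    -- `c ≤ n` from the divisibility hypothesis
    have hne : Nonempty {D : Fin t → Submodule F (Fin n → F) //
        Cfsg.Geo.IsMDecomposition a D} := by
      obtain ⟨D, h1, h2, h3, -⟩ := Cfsg.Agent.Helper99.exists_decomposition
        (LinearMap.id : (Fin n → F) →ₗ[F] (Fin n → F)) 1 one_ne_zero (fun u => by simp) a t ha
        (by rw [Module.finrank_fin_fun, hat])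
      exact ⟨⟨D, ⟨ht, ha, h1, h2, h3⟩⟩⟩
    have hN := Cfsg.Agent.Helper74.mdec_card_dvd (F := F) (n := n) (t := t) (a := a) hne
    have hfact := Cfsg.Agent.Helper83.mdec_factorial_dvd (F := F) (n := n) (t := t) (a := a)
    have hrN : r ∣ Nat.card (GL (Fin n) F) := by
      obtain ⟨m, hm⟩ := hfact
      rw [hm, Nat.mul_div_cancel_left _ (Nat.factorial_pos t)] at hΩ
      rw [hm] at hN
      exact (hΩ.trans (Dvd.intro_left _ rfl)).trans hN
    have hin : orderOf ((Fintype.card F : ℕ) : ZMod r) ≤ n := Cfsg.Agent.Helper41.order_le_of_gl r hrF hrN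
    have hrdvd : r ∣ Fintype.card F ^ orderOf ((Fintype.card F : ℕ) : ZMod r) - 1 := by
      have h5 := pow_orderOf_eq_one ((Fintype.card F : ℕ) : ZMod r)
      have h6 : ((Fintype.card F ^ orderOf ((Fintype.card F : ℕ) : ZMod r) : ℕ) : ZMod r)
          = ((1 : ℕ) : ZMod r) := by
        rw [Nat.cast_pow, h5, Nat.cast_one]
      rw [ZMod.natCast_eq_natCast_iff] at h6
      exact (Nat.modEq_iff_dvd' (Nat.one_le_pow _ _ (by omega))).mp h6.symm
    have hcr : orderOf ((Fintype.card F : ℕ) : ZMod r) ∣ r - 1 := by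
      apply orderOf_dvd_of_pow_eq_one
      exact ZMod.pow_card_sub_one_eq_one (fun h0 => by
        rw [h0] at hunit; exact not_isUnit_zero hunit)
    have hcle : orderOf ((Fintype.card F : ℕ) : ZMod r) ≤ r - 1 :=
      Nat.le_of_dvd (by have := hr.two_le; omega) hcr
    have hsmall : ∀ (x : Matrix.SpecialLinearGroup (Fin n) F),
        ((x ^ r : Matrix.SpecialLinearGroup (Fin n) F) : Matrix (Fin n) (Fin n) F) = 1 →
        ∀ (D : Fin t → Submodule F (Fin n → F)) (σ : Equiv.Perm (Fin t)),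
        IsDec (Matrix.toLin' (x : Matrix (Fin n) (Fin n) F)) a D σ → ∀ j, σ j = j →
        D j ≤ LinearMap.ker (Matrix.toLin' (x : Matrix (Fin n) (Fin n) F) - 1) := by
      intro x hx D σ hD j hj
      refine Cfsg.Agent.Helper41.le_fix_of_small _ r _ hrF (hTr x hx) hd (D j) ?_ ?_
      · rw [hD.2.2.2 j, hj]
      · rw [hD.1 j]; exact hca
    obtain ⟨x, hx1, hxns, hker⟩ := Cfsg.Agent.Helper69.bgl_exists_fpf_gen p n r hc2
      (orderOf ((Fintype.card F : ℕ) : ZMod r)) (n - orderOf ((Fintype.card F : ℕ) : ZMod r))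
      (by omega) hi0 hrdvd
    obtain ⟨D, σ, hD⟩ := h x hx1 hxns
    have hσ : ∃ j, σ j ≠ j := by
      by_contra hall
      push Not at hall
      have htop : (⊤ : Submodule F (Fin n → F))
          ≤ LinearMap.ker (Matrix.toLin' (x : Matrix (Fin n) (Fin n) F) - 1) := by
        rw [← hD.2.2.1]
        exact iSup_le (fun j => hsmall x hx1 D σ hD j (hall j))
      apply hxns 1
      rw [one_smul]
      have h5 : Matrix.toLin' (x : Matrix (Fin n) (Fin n) F) = 1 := by
        refine LinearMap.ext fun v => ?_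
        have h7 := htop (Submodule.mem_top (x := v))
        rw [LinearMap.mem_ker, LinearMap.sub_apply, sub_eq_zero] at h7
        exact h7
      have h6 : Matrix.toLin' (x : Matrix (Fin n) (Fin n) F) = Matrix.toLin' (1 : Matrix (Fin n) (Fin n) F) := by
        rw [h5, Matrix.toLin'_one]; rfl
      exact Matrix.toLin'.injective h6
    obtain ⟨j, hj⟩ := hσ
    have hup := Cfsg.Agent.Helper83.fix_le_of_moved _ r hr (hTr x hx1) D σ hD j hj
    rw [hker, ← hat] at hup
    have hr3 : 2 ≤ r := hr.two_le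
    have ha1 : a = 1 := by
      by_contra hne1
      have h2a : 2 ≤ a := by omega
      have : 2 * (r - 1) ≤ a * (r - 1) := Nat.mul_le_mul_right _ h2a
      omega
    subst ha1
    have hcr' : orderOf ((Fintype.card F : ℕ) : ZMod r) = r - 1 := by omega
    refine ⟨rfl, by omega, hcr', ?_⟩
    obtain ⟨x2, hx21, hx2ns, hker2⟩ := Cfsg.Agent.Helper69.bgl_exists_fpf p n r hrp hc2 hin
    obtain ⟨D2, σ2, hD2⟩ := h x2 hx21 hx2ns
    have hlow := Cfsg.Agent.Helper31.lines_le _ r hr hrF (hTr x2 hx21) D2 σ2 hD2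
      (hsmall x2 hx21 D2 σ2 hD2)
    rw [hker2] at hlow
    rw [hat, one_mul] at hlow ⊢
    rw [Nat.mul_comm]; exact hlow

end nec

end Cfsg.Agent.Helper90.IM
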