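import Mathlib
import Cfsg.Prelude.Def_GeometricClasses

/-!
# Minus type of a symplectic-type 2-group inside a symplectic group

An elementary abelian 2-subgroup `A` of a group `N ≤ Sp(f)` (`f` a non-degenerate alternating form on `F^κ`,
`|κ| = 2^k`, characteristic not 2) acting absolutely irreducibly with scalar commutators has fewer than
`2^(k+1)` elements.  Proof: non-scalar elements of `N` have trace zero; the character sums
`E_χ = ∑ χ(a) a` over `A` have trace `2n` (or `n`) for enough characters `χ`; their columns are simultaneous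
eigenvectors, linearly independent and pairwise orthogonal for `f`; `n` of them would make `f` vanish.
-/

set_option autoImplicit false
set_option linter.style.haveILetI false

namespace Cfsg.Agent.Helper90

open Cfsg Cfsg.Geo Matrix

namespace MinusT

variable {κ : Type} [Fintype κ] [DecidableEq κ] {F : Type*} [Field F]

/-- A matrix conjugate to a scalar multiple `c ≠ 1` of itself has trace zero. -/
theorem trace_eq_zero_of_comm_scalar (a b : GL κ F) (c : F) (hc : c ≠ 1)
    (h : ((a * b * a⁻¹ * b⁻¹ : GL κ F) : Matrix κ κ F) = c • (1 : Matrix κ κ F)) :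
    Matrix.trace (a : Matrix κ κ F) = 0 := by
  have h2 : a = (a * b * a⁻¹ * b⁻¹) * (b * a * b⁻¹) := by group
  have h1 : (a : Matrix κ κ F) =
      c • ((b : Matrix κ κ F) * (a : Matrix κ κ F) * ((b⁻¹ : GL κ F) : Matrix κ κ F)) := by
    calc (a : Matrix κ κ F)
        = ((a * b * a⁻¹ * b⁻¹ : GL κ F) : Matrix κ κ F) * ((b * a * b⁻¹ : GL κ F) : Matrix κ κ F) := by
          rw [← Units.val_mul, ← h2]
      _ = c • ((b : Matrix κ κ F) * (a : Matrix κ κ F) * ((b⁻¹ : GL κ F) : Matrix κ κ F)) := by
          rw [h, Matrix.smul_mul, Matrix.one_mul, Units.val_mul, Units.val_mul]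
  have h4 : Matrix.trace (a : Matrix κ κ F) = c * Matrix.trace (a : Matrix κ κ F) := by
    conv_lhs => rw [h1]
    rw [Matrix.trace_smul, Matrix.trace_units_conj, smul_eq_mul]
  have h5 : (1 - c) * Matrix.trace (a : Matrix κ κ F) = 0 := by linear_combination h4
  rcases mul_eq_zero.mp h5 with h6 | h6
  · exact absurd (by linear_combination -h6) hc
  · exact h6

section Char

variable {G : Type*} [Group G] [Fintype G]

/-- The character sum of a matrix representation. -/
noncomputable def Esum (ρ : G →* Matrix κ κ F) (χ : G →* Fˣ) : Matrix κ κ F :=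
  ∑ g : G, ((χ g : Fˣ) : F) • ρ g

omit [Fintype G] in
theorem chi_sq (hG : ∀ x : G, x * x = 1) (χ : G →* Fˣ) (g : G) :
    ((χ g : Fˣ) : F) * ((χ g : Fˣ) : F) = 1 := by
  rw [← Units.val_mul, ← map_mul, hG, map_one, Units.val_one]

theorem rho_mul_Esum (hG : ∀ x : G, x * x = 1) (ρ : G →* Matrix κ κ F) (χ : G →* Fˣ) (b : G) :
    ρ b * Esum ρ χ = ((χ b : Fˣ) : F) • Esum ρ χ := by
  unfold Esum
  rw [Finset.mul_sum, Finset.smul_sum]
  rw [← Equiv.sum_comp (Equiv.mulLeft b) (fun g => ((χ b : Fˣ) : F) • ((χ g : Fˣ) : F) • ρ g)]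
  refine Finset.sum_congr rfl fun g _ => ?_
  simp only [Equiv.coe_mulLeft]
  rw [Matrix.mul_smul, ← map_mul, smul_smul, ← Units.val_mul, ← map_mul, ← mul_assoc, hG, one_mul]

theorem trace_Esum (ρ : G →* Matrix κ κ F) (χ : G →* Fˣ) :
    Matrix.trace (Esum ρ χ) = ∑ g : G, ((χ g : Fˣ) : F) * Matrix.trace (ρ g) := by
  unfold Esum
  rw [Matrix.trace_sum]
  refine Finset.sum_congr rfl fun g _ => ?_
  rw [Matrix.trace_smul, smul_eq_mul]

theorem sum_chi_mul_eq_zero (hG : ∀ x : G, x * x = 1) (χ ψ : G →* Fˣ) (h : χ ≠ ψ) :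
    ∑ g : G, ((χ g : Fˣ) : F) * ((ψ g : Fˣ) : F) = 0 := by
  obtain ⟨b, hb⟩ : ∃ b, χ b ≠ ψ b := by
    by_contra hcon
    push Not at hcon
    exact h (MonoidHom.ext hcon)
  have h1 : ∑ g : G, ((χ g : Fˣ) : F) * ((ψ g : Fˣ) : F) =
      (((χ b : Fˣ) : F) * ((ψ b : Fˣ) : F)) * ∑ g : G, ((χ g : Fˣ) : F) * ((ψ g : Fˣ) : F) := by
    rw [Finset.mul_sum]
    rw [← Equiv.sum_comp (Equiv.mulLeft b) (fun g => ((χ g : Fˣ) : F) * ((ψ g : Fˣ) : F))]
    refine Finset.sum_congr rfl fun g _ => ?_
    simp only [Equiv.coe_mulLeft, map_mul, Units.val_mul]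
    ring
  have h2 : ((χ b : Fˣ) : F) * ((ψ b : Fˣ) : F) ≠ 1 := by
    intro h3
    apply hb
    have h4 := chi_sq hG ψ b
    have h6 : ((ψ b : Fˣ) : F) ≠ 0 := Units.ne_zero _
    exact Units.ext (mul_right_cancel₀ h6 (by rw [h3, h4]))
  have h7 : (1 - ((χ b : Fˣ) : F) * ((ψ b : Fˣ) : F)) *
      ∑ g : G, ((χ g : Fˣ) : F) * ((ψ g : Fˣ) : F) = 0 := by linear_combination h1
  rcases mul_eq_zero.mp h7 with h8 | h8
  · exact absurd (by linear_combination -h8) h2
  · exact h8

theorem sum_chi_self (hG : ∀ x : G, x * x = 1) (χ : G →* Fˣ) :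
    ∑ g : G, ((χ g : Fˣ) : F) * ((χ g : Fˣ) : F) = (Fintype.card G : F) := by
  simp only [chi_sq hG, Finset.sum_const, Finset.card_univ, nsmul_eq_mul, mul_one]

theorem Esum_mulVec_eigen (ρ : G →* Matrix κ κ F) (χ ψ : G →* Fˣ) (v : κ → F)
    (hv : ∀ b : G, ρ b *ᵥ v = ((ψ b : Fˣ) : F) • v) :
    Esum ρ χ *ᵥ v = (∑ g : G, ((χ g : Fˣ) : F) * ((ψ g : Fˣ) : F)) • v := by
  unfold Esum
  rw [Matrix.sum_mulVec, Finset.sum_smul]
  refine Finset.sum_congr rfl fun g _ => ?_
  rw [Matrix.smul_mulVec, hv, smul_smul]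

theorem exists_eigen (hG : ∀ x : G, x * x = 1) (ρ : G →* Matrix κ κ F) (χ : G →* Fˣ)
    (hE : Esum ρ χ ≠ 0) :
    ∃ v : κ → F, v ≠ 0 ∧ ∀ b : G, ρ b *ᵥ v = ((χ b : Fˣ) : F) • v := by
  obtain ⟨j, hj⟩ : ∃ j, Esum ρ χ *ᵥ (Pi.single j 1) ≠ 0 := by
    by_contra hcon
    push Not at hcon
    apply hE
    ext i j
    have := congrFun (hcon j) i
    simpa using this
  refine ⟨_, hj, fun b => ?_⟩
  rw [Matrix.mulVec_mulVec, rho_mul_Esum hG, Matrix.smul_mulVec]

theorem linIndep_eigen (hG : ∀ x : G, x * x = 1) (hcard : (Fintype.card G : F) ≠ 0)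
    (ρ : G →* Matrix κ κ F) (T : Finset (G →* Fˣ)) (v : (G →* Fˣ) → κ → F)
    (hv0 : ∀ χ ∈ T, v χ ≠ 0)
    (hv : ∀ χ ∈ T, ∀ b : G, ρ b *ᵥ v χ = ((χ b : Fˣ) : F) • v χ) :
    LinearIndependent F (fun χ : T => v χ) := by
  classical
  rw [linearIndependent_iff']
  intro s c hsum μ hμ
  have key : ∀ χ : T, Esum ρ (μ : G →* Fˣ) *ᵥ (c χ • v χ) =
      if χ = μ then (c μ * (Fintype.card G : F)) • v μ else 0 := by
    intro χ
    rw [Matrix.mulVec_smul, Esum_mulVec_eigen ρ _ _ _ (hv χ χ.2)]
    split_ifs with h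
    · subst h
      rw [sum_chi_self hG, smul_smul]
    · rw [sum_chi_mul_eq_zero hG _ _ (fun h' => h (Subtype.ext h'.symm)), zero_smul, smul_zero]
  have h1 := congrArg (fun w => Esum ρ (μ : G →* Fˣ) *ᵥ w) hsum
  simp only [Matrix.mulVec_zero, Matrix.mulVec_sum] at h1
  rw [Finset.sum_congr rfl (fun χ _ => key χ), Finset.sum_ite_eq' s μ, if_pos hμ] at h1
  rcases smul_eq_zero.mp h1 with h3 | h3
  · rcases mul_eq_zero.mp h3 with h4 | h4
    · exact h4
    · exact absurd h4 hcard
  · exact absurd h3 (hv0 μ μ.2)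

/-- Eigen-characters with non-zero character sums: fewer than the dimension. -/
theorem card_lt_of_eigen [Nonempty κ] (hG : ∀ x : G, x * x = 1) (hcard : (Fintype.card G : F) ≠ 0)
    {f : (κ → F) → (κ → F) → F} (hf : IsSymplecticForm f) (h2 : (2 : F) ≠ 0)
    (ρ : G →* Matrix κ κ F) (hiso : ∀ g u v, f (ρ g *ᵥ u) (ρ g *ᵥ v) = f u v)
    (T : Finset (G →* Fˣ)) (hT : ∀ χ ∈ T, Esum ρ χ ≠ 0) : T.card < Fintype.card κ := by
  classical
  choose! v hv0 hv using fun χ (h : χ ∈ T) => exists_eigen hG ρ χ (hT χ h)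
  have hli := linIndep_eigen hG hcard ρ T v hv0 hv
  have hle := hli.fintype_card_le_finrank
  rw [Fintype.card_coe, Module.finrank_fintype_fun_eq_card] at hle
  rcases lt_or_eq_of_le hle with h | h
  · exact h
  · exfalso
    have hspan := hli.span_eq_top_of_card_eq_finrank'
      (by rw [Fintype.card_coe, h, Module.finrank_fintype_fun_eq_card])
    obtain ⟨μ, hμ⟩ : T.Nonempty := by
      rw [← Finset.card_pos, h]
      exact Fintype.card_pos
    have horth : ∀ χ ∈ T, f (v μ) (v χ) = 0 := by
      intro χ hχ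
      by_cases hχμ : χ = μ
      · rw [hχμ]
        exact hf.alternating _
      · obtain ⟨b, hb⟩ : ∃ b, μ b ≠ χ b := by
          by_contra hcon
          push Not at hcon
          exact hχμ (MonoidHom.ext hcon).symm
        have h3 := hiso b (v μ) (v χ)
        rw [hv μ hμ b, hv χ hχ b, hf.bilinear.smul_left, hf.bilinear.smul_right] at h3
        have h4 : ((μ b : Fˣ) : F) * ((χ b : Fˣ) : F) = -1 := by
          have hm := chi_sq hG μ b
          have hc := chi_sq hG χ b
          have hne : ((μ b : Fˣ) : F) ≠ ((χ b : Fˣ) : F) := fun h => hb (Units.ext h)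
          have h5 : (((μ b : Fˣ) : F) - ((χ b : Fˣ) : F)) *
              (((μ b : Fˣ) : F) + ((χ b : Fˣ) : F)) = 0 := by
            linear_combination hm - hc
          rcases mul_eq_zero.mp h5 with h6 | h6
          · exact absurd (sub_eq_zero.mp h6) hne
          · linear_combination ((χ b : Fˣ) : F) * h6 - hc
        have h7 : (2 : F) * f (v μ) (v χ) = 0 := by
          linear_combination -h3 + f (v μ) (v χ) * h4
        rcases mul_eq_zero.mp h7 with h8 | h8
        · exact absurd h8 h2
        · exact h8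
    have hall : ∀ w : κ → F, f (v μ) w = 0 := by
      intro w
      have hw : w ∈ Submodule.span F (Set.range (fun χ : T => v χ)) := by
        rw [hspan]
        trivial
      induction hw using Submodule.span_induction with
      | mem x hx =>
        obtain ⟨χ, rfl⟩ := hx
        exact horth χ χ.2
      | zero =>
        have := hf.bilinear.smul_right 0 (v μ) 0
        simpa using this
      | add x y _ _ hx hy => rw [hf.bilinear.add_right, hx, hy, add_zero]
      | smul a x _ hx => rw [hf.bilinear.smul_right, hx, mul_zero]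
    obtain ⟨x, hx⟩ := (hf.nondegenerate (v μ) (hv0 μ hμ)).2
    exact hx (hall x)

end Char

section Main

variable {G : Type*} [Group G] [Fintype G]

omit [Fintype κ] [DecidableEq κ] in
/-- Characters of an elementary abelian 2-group with values in a field of characteristic not 2. -/
theorem hom_facts (hG : ∀ x : G, x * x = 1) (h2 : (2 : F) ≠ 0) :
    Nat.card (G →* Fˣ) = Nat.card G ∧ ∀ z : G, z ≠ 1 → ∃ φ : G →* Fˣ, φ z ≠ 1 := by
  have hinv : ∀ x : G, x⁻¹ = x := fun x => inv_eq_of_mul_eq_one_left (hG x)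
  letI : CommGroup G := { ‹Group G› with
    mul_comm := fun a b => by
      calc a * b = (a * b)⁻¹ := (hinv _).symm
        _ = b⁻¹ * a⁻¹ := mul_inv_rev a b
        _ = b * a := by rw [hinv, hinv] }
  have hexp : Monoid.exponent G ∣ 2 :=
    Monoid.exponent_dvd_of_forall_pow_eq_one (fun g => by rw [pow_two, hG])
  haveI : HasEnoughRootsOfUnity F (Monoid.exponent G) := by
    rcases (Nat.dvd_prime Nat.prime_two).mp hexp with h | h
    · rw [h]
      infer_instance
    · rw [h]
      refine ⟨⟨-1, ?_⟩, inferInstance⟩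
      exact IsPrimitiveRoot.mk_of_lt _ (by norm_num) (by norm_num) (fun l hl0 hl2 => by
        have : l = 1 := by omega
        subst this
        rw [pow_one]
        intro h3
        apply h2
        linear_combination -h3)
  exact ⟨CommGroup.card_monoidHom_of_hasEnoughRootsOfUnity G F,
    fun z hz => CommGroup.exists_apply_ne_one_of_hasEnoughRootsOfUnity G F hz⟩

/-- An elementary abelian 2-group of isometries of a symplectic form whose elements other than `±1` have
trace zero has fewer than `2 n` elements. -/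
theorem card_lt_two_mul [Nonempty κ] (hG : ∀ x : G, x * x = 1)
    {f : (κ → F) → (κ → F) → F} (hf : IsSymplecticForm f) (h2 : (2 : F) ≠ 0)
    (hn : ((Fintype.card κ : ℕ) : F) ≠ 0)
    (ρ : G →* Matrix κ κ F) (hinj : Function.Injective ρ)
    (hiso : ∀ g u v, f (ρ g *ᵥ u) (ρ g *ᵥ v) = f u v)
    (htr : ∀ g, ρ g = 1 ∨ ρ g = -1 ∨ Matrix.trace (ρ g) = 0) :
    Fintype.card G < 2 * Fintype.card κ := by
  classical
  obtain ⟨hcardhom, hsep⟩ := hom_facts (F := F) hG h2
  have hpg : IsPGroup 2 G := fun g => ⟨1, by rw [pow_one, pow_two, hG]⟩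
  haveI : Fact (Nat.Prime 2) := ⟨Nat.prime_two⟩
  obtain ⟨r, hr⟩ := (IsPGroup.iff_card).mp hpg
  have hcard : (Fintype.card G : F) ≠ 0 := by
    rw [← Nat.card_eq_fintype_card, hr]
    push_cast
    exact pow_ne_zero _ h2
  haveI : Finite (G →* Fˣ) := Nat.finite_of_card_ne_zero (by
    rw [hcardhom, Nat.card_eq_fintype_card]
    exact Fintype.card_ne_zero)
  haveI : Fintype (G →* Fˣ) := Fintype.ofFinite _
  have hcardhom' : Fintype.card (G →* Fˣ) = Fintype.card G := by
    rw [← Nat.card_eq_fintype_card, ← Nat.card_eq_fintype_card, hcardhom]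
  have hone : ρ 1 = 1 := map_one ρ
  have htrone : Matrix.trace (1 : Matrix κ κ F) = (Fintype.card κ : F) := Matrix.trace_one
  by_cases hz : ∃ z, ρ z = -1
  · obtain ⟨z, hz⟩ := hz
    have hneg : (-1 : Matrix κ κ F) ≠ 1 := by
      intro h
      obtain ⟨i⟩ := ‹Nonempty κ›
      have := congrFun (congrFun h i) i
      simp only [Matrix.neg_apply, Matrix.one_apply_eq] at this
      apply h2
      linear_combination -this
    have hz1 : z ≠ 1 := by
      intro h
      rw [h, hone] at hz
      exact hneg hz.symm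
    have htrE : ∀ χ : G →* Fˣ,
        Matrix.trace (Esum ρ χ) = (Fintype.card κ : F) * (1 - ((χ z : Fˣ) : F)) := by
      intro χ
      rw [trace_Esum, Fintype.sum_eq_add 1 z (Ne.symm hz1)]
      · rw [map_one, Units.val_one, hone, htrone, hz, Matrix.trace_neg, htrone]
        ring
      · intro g hg
        rcases htr g with h | h | h
        · exact absurd (hinj (h.trans hone.symm)) hg.1
        · exact absurd (hinj (h.trans hz.symm)) hg.2
        · rw [h, mul_zero]
    obtain ⟨χ₀, hχ₀⟩ := hsep z hz1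
    have hval : ∀ χ : G →* Fˣ, ((χ z : Fˣ) : F) = 1 ∨ ((χ z : Fˣ) : F) = -1 :=
      fun χ => mul_self_eq_one_iff.mp (chi_sq hG χ z)
    have hχ₀' : ((χ₀ z : Fˣ) : F) = -1 := by
      rcases hval χ₀ with h | h
      · exact absurd (Units.ext (by rw [h, Units.val_one])) hχ₀
      · exact h
    let T : Finset (G →* Fˣ) := Finset.univ.filter (fun χ => ((χ z : Fˣ) : F) = -1)
    have hT : ∀ χ ∈ T, Esum ρ χ ≠ 0 := by
      intro χ hχ hE
      have h1 := htrE χ
      rw [hE, Matrix.trace_zero, (Finset.mem_filter.mp hχ).2] at h1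
      have : (Fintype.card κ : F) * 2 = 0 := by linear_combination -h1
      rcases mul_eq_zero.mp this with h | h
      · exact hn h
      · exact h2 h
    have hlt := card_lt_of_eigen hG hcard hf h2 ρ hiso T hT
    have hcount : Fintype.card (G →* Fˣ) ≤ 2 * T.card := by
      have h1 := Finset.card_filter_add_card_filter_not
        (s := (Finset.univ : Finset (G →* Fˣ))) (fun χ => ((χ z : Fˣ) : F) = -1)
      have h3 : (Finset.univ.filter (fun χ : G →* Fˣ => ¬ ((χ z : Fˣ) : F) = -1)).card ≤ T.card := by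
        apply Finset.card_le_card_of_injOn (fun χ => χ₀ * χ)
        · intro χ hχ
          have hχ1 : ((χ z : Fˣ) : F) = 1 := by
            rcases hval χ with h | h
            · exact h
            · exact absurd h (Finset.mem_filter.mp hχ).2
          simp only [T, Finset.coe_filter, Finset.mem_univ, true_and, Set.mem_ofPred_eq,
            MonoidHom.mul_apply, Units.val_mul]
          rw [hχ₀', hχ1, mul_one]
        · intro a _ b _ hab
          exact mul_left_cancel hab
      rw [Finset.card_univ] at h1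
      have h4 : (Finset.univ.filter (fun χ : G →* Fˣ => ((χ z : Fˣ) : F) = -1)).card = T.card := rfl
      omega
    rw [← hcardhom']
    omega
  · have htrE : ∀ χ : G →* Fˣ, Matrix.trace (Esum ρ χ) = (Fintype.card κ : F) := by
      intro χ
      rw [trace_Esum, Fintype.sum_eq_single 1]
      · rw [map_one, Units.val_one, hone, htrone, one_mul]
      · intro g hg
        rcases htr g with h | h | h
        · exact absurd (hinj (h.trans hone.symm)) hg
        · exact absurd ⟨g, h⟩ hz
        · rw [h, mul_zero]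
    have hT : ∀ χ ∈ (Finset.univ : Finset (G →* Fˣ)), Esum ρ χ ≠ 0 := by
      intro χ _ hE
      have h1 := htrE χ
      rw [hE, Matrix.trace_zero] at h1
      exact hn h1.symm
    have hlt := card_lt_of_eigen hG hcard hf h2 ρ hiso Finset.univ hT
    rw [Finset.card_univ, hcardhom'] at hlt
    omega

end Main

end MinusT

/-- A 2-subgroup of a symplectic group in characteristic not 2 acting absolutely irreducibly on a space of dimension
`2^k` with scalar commutators is of minus type: it has no elementary abelian subgroup of order `2^(k+1)`. -/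
theorem minus_type_of_symplectic {κ : Type} [Fintype κ] [DecidableEq κ] {F : Type*} [Field F]
    [Fintype F] {f : (κ → F) → (κ → F) → F} (hf : IsSymplecticForm f)
    (N : Subgroup (GL κ F))
    (hiso : ∀ x ∈ N, ∀ u v : κ → F,
      f ((x : Matrix κ κ F) *ᵥ u) ((x : Matrix κ κ F) *ᵥ v) = f u v)
    (habs : ActsAbsolutelyIrreducibly (matrixSet N))
    (hcl : ∀ a ∈ N, ∀ b ∈ N, a * b * a⁻¹ * b⁻¹ ∈ scalars κ F)
    (h2 : (2 : F) ≠ 0) (k : ℕ) (hk : Fintype.card κ = 2 ^ k) :
    IsOfMinusType k N := by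
  intro A _ hA
  classical
  haveI : Nonempty κ := by
    rw [← Fintype.card_pos_iff, hk]
    positivity
  haveI : Fintype A := Fintype.ofFinite A
  let ρ : A →* Matrix κ κ F := (Units.coeHom (Matrix κ κ F)).comp (N.subtype.comp A.subtype)
  have hρ : ∀ x : A, ρ x = (((x : N) : GL κ F) : Matrix κ κ F) := fun x => rfl
  have hinj : Function.Injective ρ := by
    intro x y hxy
    exact Subtype.ext (Subtype.ext (Units.ext hxy))
  have hGA : ∀ x : A, x * x = 1 := fun x => Subtype.ext (hA x x.2)
  have hn : ((Fintype.card κ : ℕ) : F) ≠ 0 := by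
    rw [hk]
    push_cast
    exact pow_ne_zero _ h2
  have htr : ∀ x : A, ρ x = 1 ∨ ρ x = -1 ∨ Matrix.trace (ρ x) = 0 := by
    intro x
    obtain ⟨g, hg⟩ : ∃ g : GL κ F, g = ((x : N) : GL κ F) := ⟨_, rfl⟩
    have hgN : g ∈ N := by
      rw [hg]
      exact (x : N).2
    have hgg : g * g = 1 := by
      have := congrArg (fun y : A => ((y : N) : GL κ F)) (hGA x)
      simp only [Subgroup.coe_mul, Subgroup.coe_one] at this
      rw [hg]
      exact this
    have hρg : ρ x = (g : Matrix κ κ F) := by rw [hρ, hg]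
    by_cases hsc : ∀ s ∈ matrixSet N, (g : Matrix κ κ F) * s = s * (g : Matrix κ κ F)
    · obtain ⟨c, hc⟩ := habs.2 _ hsc
      have hcc : c * c = 1 := by
        have h1 := congrArg (fun y : GL κ F => (y : Matrix κ κ F)) hgg
        simp only [Units.val_mul, Units.val_one] at h1
        rw [hc, Matrix.smul_mul, Matrix.mul_smul, Matrix.one_mul, smul_smul] at h1
        obtain ⟨i⟩ := ‹Nonempty κ›
        have := congrFun (congrFun h1 i) i
        simpa using this
      rcases mul_self_eq_one_iff.mp hcc with h | h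
      · left
        rw [hρg, hc, h, one_smul]
      · right
        left
        rw [hρg, hc, h, neg_one_smul]
    · right
      right
      push Not at hsc
      obtain ⟨s, hs, hne⟩ := hsc
      obtain ⟨b, hb, rfl⟩ := hs
      obtain ⟨c, hc⟩ := (mem_scalars_iff _).mp (hcl g hgN b hb)
      rw [hρg]
      apply MinusT.trace_eq_zero_of_comm_scalar g b (c : F) _ hc
      intro hc1
      apply hne
      have h1 : g * b * g⁻¹ * b⁻¹ = 1 := Units.ext (by rw [hc, hc1, one_smul, Units.val_one])
      have h2' : g * b = b * g := by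
        calc g * b = (g * b * g⁻¹ * b⁻¹) * (b * g) := by group
          _ = b * g := by rw [h1, one_mul]
      have := congrArg (fun y : GL κ F => (y : Matrix κ κ F)) h2'
      simpa using this
  have hmain := MinusT.card_lt_two_mul hGA hf h2 hn ρ hinj
    (fun x u v => hiso _ (x : N).2 u v) htr
  rw [Nat.card_eq_fintype_card]
  calc Fintype.card A < 2 * Fintype.card κ := hmain
    _ = 2 ^ (k + 1) := by rw [hk, pow_succ]; ring

end Cfsg.Agent.Helper90
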