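import Mathlib
import Cfsg.Agent.Helper90.MonsterInd

/-!
Helper90: groups of Monster type. The link between the identification `e : C/Q ≃* Co1` and the
induced lattice automorphisms (`IndAct`), faithfulness of `C/Q` on `Q/Z(Q)`, and twisting the
module identification by a lattice automorphism.
-/

set_option autoImplicit false

namespace Cfsg.Agent.Helper90

open Cfsg Cfsg.Agent.Helper92

theorem mk_negAut : (QuotientGroup.mk negAut : Cfsg.Spor.Co1) = 1 :=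
  (QuotientGroup.eq_one_iff _).mpr negAut_mem_center

section
variable {G : Type*} [Group G] {z : G} (Q : Subgroup (Subgroup.centralizer ({z} : Set G)))
  [Q.Normal]

/-- If `γ` and `h` have the same image in the first Conway group then `h` induces `γ`. -/
theorem ind_of_mk_eq (e : (Subgroup.centralizer ({z} : Set G)) ⧸ Q ≃* Cfsg.Spor.Co1)
    (ψ : leechLattice → Q ⧸ Subgroup.center Q) (hψ : Cfsg.IsLeechModTwoIso Q e ψ) (h : G)
    (hC : h ∈ Subgroup.centralizer ({z} : Set G)) (γ : Co0)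
    (hγ : (QuotientGroup.mk γ : Cfsg.Spor.Co1) = e (QuotientGroup.mk ⟨h, hC⟩)) :
    IndAct (RepOf Q ψ) h γ := by
  rintro v x ⟨hx, hq, hv⟩
  have h5 := hψ.2.2.2 ⟨h, hC⟩ γ hγ v ⟨⟨x, hx⟩, hq⟩ hv
  exact ⟨((⟨h, hC⟩ : Subgroup.centralizer ({z} : Set G)) * ⟨x, hx⟩ *
      (⟨h, hC⟩ : Subgroup.centralizer ({z} : Set G))⁻¹ : Subgroup.centralizer ({z} : Set G)).2,
    (inferInstance : Q.Normal).conj_mem _ hq ⟨h, hC⟩, h5⟩

/-- Twisting the module identification by a lattice automorphism. -/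
theorem twist_iso (e : (Subgroup.centralizer ({z} : Set G)) ⧸ Q ≃* Cfsg.Spor.Co1)
    (ψ : leechLattice → Q ⧸ Subgroup.center Q) (hψ : Cfsg.IsLeechModTwoIso Q e ψ) (γ0 : Co0) :
    Cfsg.IsLeechModTwoIso Q (e.trans (MulAut.conj (QuotientGroup.mk γ0 : Cfsg.Spor.Co1)))
      (fun v => ψ (γ0⁻¹ • v)) := by
  obtain ⟨h1, h2, h3, h4⟩ := hψ
  refine ⟨?_, ?_, ?_, ?_⟩
  · intro v w
    show ψ (γ0⁻¹ • (v + w)) = ψ (γ0⁻¹ • v) * ψ (γ0⁻¹ • w)
    rw [co0_add, h1]
  · intro y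
    obtain ⟨v, hv⟩ := h2 y
    refine ⟨γ0 • v, ?_⟩
    show ψ (γ0⁻¹ • γ0 • v) = y
    rw [inv_smul_smul]
    exact hv
  · intro v
    show ψ (γ0⁻¹ • v) = 1 ↔ _
    rw [h3]
    constructor
    · rintro ⟨w, hw⟩
      refine ⟨γ0 • w, ?_⟩
      rw [← co0_add, ← hw, smul_inv_smul]
    · rintro ⟨w, hw⟩
      refine ⟨γ0⁻¹ • w, ?_⟩
      rw [hw, co0_add]
  · intro h γ hγ v q hv
    have hγ' : (QuotientGroup.mk (γ0⁻¹ * γ * γ0) : Cfsg.Spor.Co1) = e (QuotientGroup.mk h) := by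
      have e1 : (e.trans (MulAut.conj (QuotientGroup.mk γ0 : Cfsg.Spor.Co1)))
          (QuotientGroup.mk h) = (QuotientGroup.mk γ0 : Cfsg.Spor.Co1) * e (QuotientGroup.mk h) *
            (QuotientGroup.mk γ0 : Cfsg.Spor.Co1)⁻¹ := rfl
      rw [e1] at hγ
      rw [QuotientGroup.mk_mul, QuotientGroup.mk_mul, QuotientGroup.mk_inv, hγ]
      group
    have h5 := h4 h (γ0⁻¹ * γ * γ0) hγ' (γ0⁻¹ • v) q hv
    show ψ (γ0⁻¹ • γ • v) = _
    rw [← h5]
    congr 1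
    rw [mul_smul, mul_smul, smul_inv_smul]

end

section
variable {G : Type*} [Group G] [Finite G] {z : G}
  (Q : Subgroup (Subgroup.centralizer ({z} : Set G))) [Q.Normal]

/-- If `h` induces `γ` then `γ` and `h` have the same image in the first Conway group. -/
theorem mk_eq_of_ind (hS : Cfsg.IsExtraspecialCentralizerSetting z Q 12)
    (e : (Subgroup.centralizer ({z} : Set G)) ⧸ Q ≃* Cfsg.Spor.Co1)
    (ψ : leechLattice → Q ⧸ Subgroup.center Q) (hψ : Cfsg.IsLeechModTwoIso Q e ψ) (h : G)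
    (hC : h ∈ Subgroup.centralizer ({z} : Set G)) (γ : Co0) (H : IndAct (RepOf Q ψ) h γ) :
    (QuotientGroup.mk γ : Cfsg.Spor.Co1) = e (QuotientGroup.mk ⟨h, hC⟩) := by
  have M := msetting_of_iso z Q hS e ψ hψ
  obtain ⟨γ', hγ'⟩ := QuotientGroup.mk_surjective (e (QuotientGroup.mk ⟨h, hC⟩))
  have H' := ind_of_mk_eq Q e ψ hψ h hC γ' hγ'
  rcases IndAct.unique M H H' with h1 | h1
  · rw [← hγ', h1]
  · rw [← hγ', h1, QuotientGroup.mk_mul, mk_negAut, mul_one]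

/-- An element of `C` acting trivially on `Q/Z(Q)` lies in `Q`. -/
theorem faithful_of_iso (hS : Cfsg.IsExtraspecialCentralizerSetting z Q 12)
    (e : (Subgroup.centralizer ({z} : Set G)) ⧸ Q ≃* Cfsg.Spor.Co1)
    (ψ : leechLattice → Q ⧸ Subgroup.center Q) (hψ : Cfsg.IsLeechModTwoIso Q e ψ) (h : G)
    (hz : h * z = z * h) (H : IndAct (RepOf Q ψ) h 1) :
    h ∈ Q.map (Subgroup.centralizer ({z} : Set G)).subtype := by
  have hC : h ∈ Subgroup.centralizer ({z} : Set G) := by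
    rw [Subgroup.mem_centralizer_iff]
    intro y hy
    rw [Set.mem_singleton_iff.1 hy]
    exact hz.symm
  have h1 := mk_eq_of_ind Q hS e ψ hψ h hC 1 H
  rw [QuotientGroup.mk_one] at h1
  have h2 : (QuotientGroup.mk ⟨h, hC⟩ : (Subgroup.centralizer ({z} : Set G)) ⧸ Q) = 1 := by
    apply e.injective
    rw [← h1, map_one]
  have h3 : (⟨h, hC⟩ : Subgroup.centralizer ({z} : Set G)) ∈ Q :=
    (QuotientGroup.eq_one_iff _).mp h2
  exact ⟨⟨h, hC⟩, h3, rfl⟩

end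

end Cfsg.Agent.Helper90
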