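import Mathlib
import Cfsg.Agent.Helper90.MonsterE
import Cfsg.Agent.Helper90.MonsterFaith

/-!
Helper90: groups of Monster type. For `s = g z g⁻¹` representing the frame vector `(8, 0^23)`:
the image `E` of `C_{Q^g}(z)` in `C/Q` is elementary abelian of order `2^11`, normal in the image
`X` of `C_C(s)`, with a complement isomorphic to `M24`.
-/

set_option autoImplicit false

namespace Cfsg.Agent.Helper90

open Cfsg Cfsg.Agent.Helper92

/-- The coordinate permutations as a homomorphism into the automorphism group of the lattice. -/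
def permHom : ↥M24 →* Co0 where
  toFun σ := permAut σ.1 σ.2
  map_one' := permAut_one _
  map_mul' σ τ := by
    apply co0_ext
    intro v
    apply Subtype.ext
    rfl

theorem permHom_apply (σ : ↥M24) : permHom σ = permAut σ.1 σ.2 := rfl

theorem permPart_permHom (σ : ↥M24) : PermPart (permHom σ) σ.1 := permPart_permAut σ.1 σ.2

theorem permHom_eq_one_of_mem_center {σ : ↥M24} (h : permHom σ ∈ Subgroup.center Co0) :
    σ = 1 := by
  have h4 : PermPart (permHom σ) 1 := by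
    rcases center_eq h with h5 | h5
    · rw [h5]; exact permPart_one
    · rw [h5]; exact permPart_negAut
  exact Subtype.ext ((permPart_permHom σ).unique h4)

/-- The order of the image of a subgroup under a homomorphism. -/
theorem card_ker_inf_mul_card_map {A B : Type*} [Group A] [Group B] (f : A →* B)
    (K : Subgroup A) : Nat.card ↥(f.ker ⊓ K) * Nat.card ↥(K.map f) = Nat.card ↥K := by
  have h1 := Subgroup.relIndex_mul_relIndex (⊥ : Subgroup A) (f.ker ⊓ K) K bot_le inf_le_right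
  rw [Subgroup.relIndex_bot_left, Subgroup.relIndex_bot_left, Subgroup.inf_relIndex_right,
    Subgroup.relIndex_ker] at h1
  exact h1

/-- Adjusting an element by an element of `Q` so that it centralizes `s`. -/
theorem exists_adjust {G : Type*} [Group G] {z : G} {QG : Subgroup G}
    {Rep : leechLattice → G → Prop} (M : MSetting z QG Rep) {s : G} (hs : Rep U4 s) {h : G}
    (h2 : Rep U4 (h * s * h⁻¹)) : ∃ q ∈ QG, (q * h) * s = s * (q * h) := by
  rcases M.uniq _ _ _ hs h2 with h3 | h3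
  · refine ⟨1, QG.one_mem, ?_⟩
    rw [one_mul]
    calc h * s = (h * s * h⁻¹) * h := by group
      _ = s * h := by rw [h3]
  · have hsQ := M.mem _ _ hs
    have hs1z := M.not_central_of_orb hs (Orb.refl U4) (by rw [sqNorm_U4]; norm_num)
      (by rw [sqNorm_U4])
    obtain ⟨q, hq, hqs⟩ := M.les.exists_conj hsQ hs1z.1 hs1z.2
    have hqz : q * z = z * q := M.les.central q hq
    have hqz' : q⁻¹ * z = z * q⁻¹ := M.les.central q⁻¹ (QG.inv_mem hq)
    have hzs : z * s = s * z := (M.les.central s hsQ).symm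
    refine ⟨q⁻¹, QG.inv_mem hq, ?_⟩
    have e1 : h * s = s * z * h := by
      calc h * s = (h * s * h⁻¹) * h := by group
        _ = s * z * h := by rw [h3]
    have e0 : q⁻¹ * s * q = s * z := by
      calc q⁻¹ * s * q = q⁻¹ * (z * (z * s)) * q := by rw [← mul_assoc z z s, M.zsq, one_mul]
        _ = q⁻¹ * (z * (q * s * q⁻¹)) * q := by rw [hqs]
        _ = q⁻¹ * (z * q) * s := by group
        _ = q⁻¹ * (q * z) * s := by rw [hqz]
        _ = z * s := by group
        _ = s * z := hzs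
    calc q⁻¹ * h * s = q⁻¹ * (h * s) := by group
      _ = q⁻¹ * (s * z * h) := by rw [e1]
      _ = (q⁻¹ * s * q) * (q⁻¹ * z) * h := by group
      _ = s * z * (z * q⁻¹) * h := by rw [e0, hqz']
      _ = s * (z * z) * (q⁻¹ * h) := by group
      _ = s * (q⁻¹ * h) := by rw [M.zsq, mul_one]

/-- **The complement theorem in normalized position.** -/
theorem monster_complement_core {G : Type*} [Group G] [Finite G] (z : G)
    (Q : Subgroup (Subgroup.centralizer ({z} : Set G))) [Q.Normal]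
    (hS : Cfsg.IsExtraspecialCentralizerSetting z Q 12)
    (e : (Subgroup.centralizer ({z} : Set G)) ⧸ Q ≃* Cfsg.Spor.Co1)
    (ψ : Cfsg.leechLattice → Q ⧸ Subgroup.center Q) (hψ : Cfsg.IsLeechModTwoIso Q e ψ)
    (g : G) (hrep : RepOf Q ψ U4 (g * z * g⁻¹))
    (X E : Subgroup ((Subgroup.centralizer ({z} : Set G)) ⧸ Q))
    (hX : X = ((Subgroup.centralizer ({z} : Set G) ⊓
      Subgroup.centralizer ({g * z * g⁻¹} : Set G)).subgroupOf
        (Subgroup.centralizer ({z} : Set G))).map (QuotientGroup.mk' Q))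
    (hE : E = (((Q.map (Subgroup.centralizer ({z} : Set G)).subtype).map
      (MulAut.conj g).toMonoidHom ⊓ Subgroup.centralizer ({z} : Set G)).subgroupOf
        (Subgroup.centralizer ({z} : Set G))).map (QuotientGroup.mk' Q)) :
    E ≤ X ∧ (∀ x ∈ X, ∀ y ∈ E, x * y * x⁻¹ ∈ E) ∧ Cfsg.IsElementaryAbelian 2 E ∧
      Nat.card E = 2 ^ 11 ∧
      ∃ K : Subgroup ((Subgroup.centralizer ({z} : Set G)) ⧸ Q),
        K ≤ X ∧ E ⊓ K = ⊥ ∧ E ⊔ K = X ∧ Nonempty (K ≃* Cfsg.M24) := by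
  classical
  have M := msetting_of_iso z Q hS e ψ hψ
  have hfaith := faithful_of_iso Q hS e ψ hψ
  obtain ⟨F1, F2, F3, F4⟩ := card_inf_of_rep_U4 M hfaith g hrep
  have hsQ0 := M.mem _ _ hrep
  have hs1z := M.not_central_of_orb hrep (Orb.refl U4) (by rw [sqNorm_U4]; norm_num)
    (by rw [sqNorm_U4])
  have hc8 : 8 < Nat.card ↥(Q.map (Subgroup.centralizer ({z} : Set G)).subtype) := by
    rw [M.card]; norm_num
  have hpair := pair_of_les M.les hc8 g hsQ0 hs1z.2
  have hmemQG : ∀ x : G, x ∈ Q.map (Subgroup.centralizer ({z} : Set G)).subtype ↔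
      ∃ hx : x ∈ Subgroup.centralizer ({z} : Set G),
        (⟨x, hx⟩ : Subgroup.centralizer ({z} : Set G)) ∈ Q := mem_map_subtype_iff Q
  obtain ⟨s, hsdef⟩ : ∃ s : G, s = g * z * g⁻¹ := ⟨_, rfl⟩
  obtain ⟨QG, hQGdef⟩ : ∃ QG : Subgroup G,
    QG = Q.map (Subgroup.centralizer ({z} : Set G)).subtype := ⟨_, rfl⟩
  rw [← hsdef] at hrep hX hpair hsQ0 hs1z
  rw [← hQGdef] at M hfaith F1 F2 F3 F4 hE hpair hmemQG hsQ0
  obtain ⟨Q1, hQ1def⟩ : ∃ Q1 : Subgroup G, Q1 = QG.map (MulAut.conj g).toMonoidHom := ⟨_, rfl⟩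
  rw [← hQ1def] at F1 F2 F3 F4 hE hpair
  have hQ1 : LES Q1 s := hpair.hQ1
  have hmemC : ∀ x : G, x ∈ Subgroup.centralizer ({z} : Set G) ↔ x * z = z * x := by
    intro x
    rw [Subgroup.mem_centralizer_iff]
    constructor
    · intro h; exact (h z rfl).symm
    · intro h y hy; rw [Set.mem_singleton_iff.mp hy]; exact h.symm
  have hQGC : ∀ x ∈ QG, x ∈ Subgroup.centralizer ({z} : Set G) :=
    fun x hx => (hmemC x).mpr (M.les.central x hx)
  have hQmem : ∀ c : Subgroup.centralizer ({z} : Set G), (c : G) ∈ QG → c ∈ Q := by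
    intro c hc
    obtain ⟨hx, hq⟩ := (hmemQG _).mp hc
    exact hq
  have hπ1 : ∀ c : Subgroup.centralizer ({z} : Set G), (c : G) ∈ QG →
      QuotientGroup.mk' Q c = 1 := fun c hc => (QuotientGroup.eq_one_iff _).mpr (hQmem c hc)
  have hmE : ∀ y, y ∈ E ↔ ∃ (x : G) (hx : x ∈ Subgroup.centralizer ({z} : Set G)),
      x ∈ Q1 ∧ QuotientGroup.mk' Q ⟨x, hx⟩ = y := by
    intro y
    rw [hE]
    constructor
    · rintro ⟨c, hc, rfl⟩
      exact ⟨c.1, c.2, (Subgroup.mem_subgroupOf.mp hc).1, rfl⟩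
    · rintro ⟨x, hx, hx1, rfl⟩
      exact ⟨⟨x, hx⟩, Subgroup.mem_subgroupOf.mpr ⟨hx1, hx⟩, rfl⟩
  have hmX : ∀ y, y ∈ X ↔ ∃ (h : G) (hh : h ∈ Subgroup.centralizer ({z} : Set G)),
      h * s = s * h ∧ QuotientGroup.mk' Q ⟨h, hh⟩ = y := by
    intro y
    rw [hX]
    constructor
    · rintro ⟨c, hc, rfl⟩
      have h1 := (Subgroup.mem_subgroupOf.mp hc).2
      exact ⟨c.1, c.2, (Subgroup.mem_centralizer_iff.mp h1 s rfl).symm, rfl⟩
    · rintro ⟨h, hh, hs, rfl⟩
      refine ⟨⟨h, hh⟩, Subgroup.mem_subgroupOf.mpr ⟨hh, ?_⟩, rfl⟩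
      show h ∈ Subgroup.centralizer ({s} : Set G)
      rw [Subgroup.mem_centralizer_iff]
      intro y hy
      rw [Set.mem_singleton_iff.mp hy]
      exact hs.symm
  have hEX : E ≤ X := by
    intro y hy
    obtain ⟨x, hx, hx1, rfl⟩ := (hmE y).mp hy
    exact (hmX _).mpr ⟨x, hx, hQ1.central x hx1, rfl⟩
  -- the homomorphism from `M24`
  obtain ⟨φ, hφdef⟩ : ∃ φ : ↥M24 →* (Subgroup.centralizer ({z} : Set G)) ⧸ Q,
      φ = (e.symm.toMonoidHom.comp (QuotientGroup.mk' (Subgroup.center Co0))).comp permHom :=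
    ⟨_, rfl⟩
  have hφ_apply : ∀ σ : ↥M24, e (φ σ) = (QuotientGroup.mk (permHom σ) : Cfsg.Spor.Co1) := by
    intro σ
    rw [hφdef]
    show e (e.symm (QuotientGroup.mk (permHom σ))) = _
    rw [MulEquiv.apply_symm_apply]
  have hφinj : Function.Injective φ := by
    rw [injective_iff_map_eq_one]
    intro σ hσ
    have h1 : (QuotientGroup.mk (permHom σ) : Cfsg.Spor.Co1) = 1 := by
      rw [← hφ_apply, hσ, map_one]
    exact permHom_eq_one_of_mem_center ((QuotientGroup.eq_one_iff _).mp h1)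
  have hKX : φ.range ≤ X := by
    rintro y ⟨σ, rfl⟩
    obtain ⟨c, hc⟩ := QuotientGroup.mk'_surjective Q (φ σ)
    have hind : IndAct (RepOf Q ψ) c.1 (permHom σ) := by
      apply ind_of_mk_eq Q e ψ hψ c.1 c.2
      rw [← hφ_apply, ← hc]
      rfl
    have h2 : RepOf Q ψ U4 (c.1 * s * c.1⁻¹) := by
      apply M.rep_cong (hind _ _ hrep)
      have e1 : permHom σ • U4 = P (σ.1 none) (σ.1 none) := permAut_P_diag σ.1 σ.2 none
      rw [e1]
      exact cong_P_diag _
    obtain ⟨q, hq, hqs⟩ := exists_adjust M hrep h2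
    refine (hmX _).mpr ⟨q * c.1, Subgroup.mul_mem _ (hQGC q hq) c.2, hqs, ?_⟩
    have e2 : QuotientGroup.mk' Q ⟨q * c.1, Subgroup.mul_mem _ (hQGC q hq) c.2⟩ =
        QuotientGroup.mk' Q ⟨q, hQGC q hq⟩ * QuotientGroup.mk' Q c := by
      rw [← map_mul]
      rfl
    rw [e2, hπ1 ⟨q, hQGC q hq⟩ hq, one_mul, hc]
  refine ⟨hEX, ?_, ?_, ?_, φ.range, hKX, ?_, ?_, ⟨(MonoidHom.ofInjective hφinj).symm⟩⟩
  · -- `X` normalizes `E`
    intro a ha y hy
    obtain ⟨h, hh, hhs, rfl⟩ := (hmX a).mp ha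
    obtain ⟨x, hx, hx1, rfl⟩ := (hmE y).mp hy
    refine (hmE _).mpr ⟨h * x * h⁻¹, Subgroup.mul_mem _ (Subgroup.mul_mem _ hh hx)
      (Subgroup.inv_mem _ hh), hQ1.norm h hhs x hx1, ?_⟩
    rw [← map_inv, ← map_mul, ← map_mul]
    rfl
  · -- elementary abelian
    refine ⟨⟨⟨fun a b => ?_⟩⟩, ?_⟩
    · apply Subtype.ext
      show (a : (Subgroup.centralizer ({z} : Set G)) ⧸ Q) * b = b * a
      obtain ⟨x1, hx1, hx1Q, h1⟩ := (hmE _).mp a.2
      obtain ⟨x2, hx2, hx2Q, h2⟩ := (hmE _).mp b.2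
      rw [← h1, ← h2, ← map_mul, ← map_mul]
      show ((⟨x1, hx1⟩ * ⟨x2, hx2⟩ : Subgroup.centralizer ({z} : Set G)) :
        (Subgroup.centralizer ({z} : Set G)) ⧸ Q) =
        ((⟨x2, hx2⟩ * ⟨x1, hx1⟩ : Subgroup.centralizer ({z} : Set G)) :
        (Subgroup.centralizer ({z} : Set G)) ⧸ Q)
      rw [QuotientGroup.eq]
      apply hQmem
      show (x1 * x2)⁻¹ * (x2 * x1) ∈ QG
      have e1 : (x1 * x2)⁻¹ * (x2 * x1) = x2⁻¹ * x1⁻¹ * x2⁻¹⁻¹ * x1⁻¹⁻¹ := by group
      rw [e1]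
      rcases hQ1.comm x2⁻¹ (Q1.inv_mem hx2Q) x1⁻¹ (Q1.inv_mem hx1Q) with h3 | h3
      · rw [h3]; exact QG.one_mem
      · rw [h3]; exact hsQ0
    · intro a ha
      obtain ⟨x, hx, hx1, rfl⟩ := (hmE _).mp ha
      rw [pow_two, ← map_mul]
      apply hπ1
      show x * x ∈ QG
      rcases hQ1.sq_mem hx1 with h3 | h3
      · rw [h3]; exact QG.one_mem
      · rw [h3]; exact hsQ0
  · -- the order of `E`
    rw [hE]
    have h1 := card_ker_inf_mul_card_map (QuotientGroup.mk' Q)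
      ((Q1 ⊓ Subgroup.centralizer ({z} : Set G)).subgroupOf (Subgroup.centralizer ({z} : Set G)))
    rw [QuotientGroup.ker_mk'] at h1
    have h2 : Nat.card ↥((Q1 ⊓ Subgroup.centralizer ({z} : Set G)).subgroupOf
        (Subgroup.centralizer ({z} : Set G))) = 2 ^ 24 := by
      rw [← F2]
      exact Nat.card_congr (Subgroup.subgroupOfEquivOfLe inf_le_right).toEquiv
    have h3 : Nat.card ↥(Q ⊓ (Q1 ⊓ Subgroup.centralizer ({z} : Set G)).subgroupOf
        (Subgroup.centralizer ({z} : Set G))) = 2 ^ 13 := by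
      rw [← F1, ← Subgroup.card_map_of_injective
        (Subgroup.subtype_injective (Subgroup.centralizer ({z} : Set G)))]
      congr 2
      ext x
      constructor
      · rintro ⟨c, hc, rfl⟩
        have hc' := Subgroup.mem_inf.mp hc
        exact Subgroup.mem_inf.mpr ⟨(hmemQG _).mpr ⟨c.2, hc'.1⟩,
          (Subgroup.mem_subgroupOf.mp hc'.2).1⟩
      · intro hx
        have hx' := Subgroup.mem_inf.mp hx
        obtain ⟨hxC, hxQ⟩ := (hmemQG x).mp hx'.1
        exact ⟨⟨x, hxC⟩, Subgroup.mem_inf.mpr ⟨hxQ,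
          Subgroup.mem_subgroupOf.mpr ⟨hx'.2, hxC⟩⟩, rfl⟩
    rw [h2, h3] at h1
    have h4 : (2 : ℕ) ^ 13 * 2 ^ 11 = 2 ^ 24 := by norm_num
    rw [← h4] at h1
    exact Nat.eq_of_mul_eq_mul_left (by norm_num) h1
  · -- trivial intersection
    rw [eq_bot_iff]
    rintro y ⟨hyE, σ, rfl⟩
    obtain ⟨x, hx, hx1, hxy⟩ := (hmE _).mp hyE
    obtain ⟨c, hc, hind⟩ := F3 x hx1 ((hmemC x).mp hx)
    have h1 := mk_eq_of_ind Q hS e ψ hψ x hx _ hind
    have h2 : (QuotientGroup.mk (signAut c hc) : Cfsg.Spor.Co1) =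
        QuotientGroup.mk (permHom σ) := by
      rw [h1, ← hφ_apply, ← hxy]
      rfl
    have h3 := QuotientGroup.eq.mp h2
    have h4 : PermPart (permHom σ) 1 := by
      rcases center_eq h3 with h5 | h5
      · have e1 : permHom σ = signAut c hc := by
          calc permHom σ = signAut c hc * ((signAut c hc)⁻¹ * permHom σ) := by group
            _ = signAut c hc := by rw [h5, mul_one]
        rw [e1]
        exact permPart_signAut c hc
      · have e1 : permHom σ = signAut c hc * negAut := by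
          calc permHom σ = signAut c hc * ((signAut c hc)⁻¹ * permHom σ) := by group
            _ = signAut c hc * negAut := by rw [h5]
        rw [e1]
        have h6 := (permPart_signAut c hc).mul permPart_negAut
        rwa [mul_one] at h6
    have h6 : σ = 1 := Subtype.ext ((permPart_permHom σ).unique h4)
    rw [h6, map_one]
    exact Subgroup.mem_bot.mpr rfl
  · -- the join
    apply le_antisymm (sup_le hEX hKX)
    intro y hy
    obtain ⟨h, hh, hhs, rfl⟩ := (hmX y).mp hy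
    obtain ⟨γ, hγ⟩ := QuotientGroup.mk_surjective (e (QuotientGroup.mk' Q ⟨h, hh⟩))
    have hind := ind_of_mk_eq Q e ψ hψ h hh γ hγ
    have h1 := hind _ _ hrep
    have e1 : h * s * h⁻¹ = s := by rw [hhs]; group
    rw [e1] at h1
    obtain ⟨c, hc, σ, hσ, rfl⟩ := monomial_of_cong_U4 (cong_of_rep M h1 hrep)
    obtain ⟨x, hx1, hxz, hindx⟩ := F4 c hc
    have hxC : x ∈ Subgroup.centralizer ({z} : Set G) := (hmemC x).mpr hxz
    have h2 := mk_eq_of_ind Q hS e ψ hψ x hxC _ hindx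
    have h3 : QuotientGroup.mk' Q ⟨h, hh⟩ =
        QuotientGroup.mk' Q ⟨x, hxC⟩ * φ ⟨σ, hσ⟩ := by
      apply e.injective
      rw [map_mul, hφ_apply, ← hγ, QuotientGroup.mk_mul]
      congr 1
    rw [h3]
    exact Subgroup.mul_mem_sup ((hmE _).mpr ⟨x, hxC, hx1, rfl⟩) ⟨⟨σ, hσ⟩, rfl⟩

end Cfsg.Agent.Helper90
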