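import Mathlib
import Cfsg.Agent.Helper90.FStarES
import Cfsg.Agent.Helper90.LESQuot
import Cfsg.Agent.S5434

/-!
Helper90: tools for sections `M / A` with `A` of odd order (large extraspecial subgroups).
-/

set_option autoImplicit false

namespace Cfsg.Agent.Helper90

/-- Both members of a pair of 2-groups of order more than 8 are large extraspecial. -/
theorem Pair.large {G : Type*} [Group G] [Finite G] {Q Q1 : Subgroup G} {a b : G}
    (h : Pair Q Q1 a b) (hQ2 : IsPGroup 2 ↥Q) (hQ12 : IsPGroup 2 ↥Q1)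
    (hc8 : 8 < Nat.card ↥Q) (hc81 : 8 < Nat.card ↥Q1) :
    Cfsg.IsLargeExtraspecial Q ∧ Cfsg.IsLargeExtraspecial Q1 := by
  constructor
  · obtain ⟨p₁, hp₁, p₂, hp₂, -, -, hne⟩ :=
      h.hQ.exists_noncomm hc8 h.bQ h.hQ1.sq h.hQ1.ne_one (fun hh => h.ne hh.symm)
    exact large_of_les Q a h.hQ hQ2 ⟨p₁, hp₁, p₂, hp₂, hne⟩ b h.bQ h.hQ1.ne_one
      (fun hh => h.ne hh.symm) h.hQ1.sq Q1 hQ12 h.aQ1 (fun x hx => h.hQ1.central x hx)
      (fun c hc x hx => h.hQ1.norm c hc x hx)
  · obtain ⟨p₁, hp₁, p₂, hp₂, -, -, hne⟩ :=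
      h.hQ1.exists_noncomm hc81 h.aQ1 h.hQ.sq h.hQ.ne_one h.ne
    exact large_of_les Q1 b h.hQ1 hQ12 ⟨p₁, hp₁, p₂, hp₂, hne⟩ a h.aQ1 h.hQ.ne_one
      h.ne h.hQ.sq Q hQ2 h.bQ (fun x hx => h.hQ.central x hx)
      (fun c hc x hx => h.hQ.norm c hc x hx)

/-- A non-central element of `Q` centralized by the odd-order group `A` is not central in
`C_Q(A)`. -/
theorem exists_noncomm_cent {G : Type*} [Group G] [Finite G] (Q : Subgroup G)
    (hQ : Cfsg.IsLargeExtraspecial Q) (z : G) (hLES : LES Q z) (A : Subgroup G)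
    (hA : A ≤ Subgroup.normalizer (Q : Set G)) (hAodd : Odd (Nat.card ↥A)) {x : G}
    (hxQ : x ∈ Q) (hxA : x ∈ Subgroup.centralizer (A : Set G)) (hx1 : x ≠ 1) (hxz : x ≠ z) :
    ∃ q ∈ Q ⊓ Subgroup.centralizer (A : Set G), q * x ≠ x * q := by
  by_contra hcon
  push Not at hcon
  have hcen : ∀ q ∈ Q, q * x = x * q := by
    by_cases hA1 : A = ⊥
    · intro q hq
      apply hcon
      have hqc : q ∈ Subgroup.centralizer (A : Set G) := by
        rw [Subgroup.mem_centralizer_iff]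
        intro a ha
        have ha' : a ∈ A := ha
        rw [hA1] at ha'
        have ha1 : a = 1 := Subgroup.mem_bot.mp ha'
        rw [ha1, one_mul, mul_one]
      exact Subgroup.mem_inf.mpr ⟨hq, hqc⟩
    · obtain ⟨h1, h2, -, -⟩ := Cfsg.Agent.S5434.result Q hQ A hA hAodd hA1
      have hle : (Q ⊓ Subgroup.centralizer (A : Set G)) ⊔ ⁅Q, A⁆ ≤
          Subgroup.centralizer ({x} : Set G) := by
        apply sup_le
        · intro q hq
          rw [Subgroup.mem_centralizer_iff]
          intro y hy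
          rw [Set.mem_singleton_iff.mp hy]
          exact (hcon q hq).symm
        · intro y hy
          rw [Subgroup.mem_centralizer_iff]
          intro y' hy'
          rw [Set.mem_singleton_iff.mp hy']
          exact h2 x ⟨hxQ, hxA⟩ y hy
      rw [h1] at hle
      intro q hq
      exact (Subgroup.mem_centralizer_iff.mp (hle hq) x rfl).symm
  rcases hLES.cent x hcen with h | h
  · exact hx1 h
  · exact hxz h

/-- A finite group with a central involution `z` and order not divisible by 4 has a normal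
subgroup `K` of odd order with `D = K ∪ zK`. -/
theorem exists_odd_normal_of_central_involution (D : Type*) [Group D] [Finite D] (z : D)
    (hz1 : z ≠ 1) (hzz : z * z = 1) (hzc : ∀ d : D, d * z = z * d) (h4 : ¬ 4 ∣ Nat.card D) :
    ∃ K : Subgroup D, K.Normal ∧ Odd (Nat.card ↥K) ∧ ∀ d : D, d ∈ K ∨ z⁻¹ * d ∈ K := by
  have hp : Fact (Nat.Prime 2) := ⟨Nat.prime_two⟩
  have hoz : orderOf z = 2 := orderOf_eq_prime (by rw [pow_two]; exact hzz) hz1
  have hcz : Nat.card ↥(Subgroup.zpowers z) = 2 := by rw [Nat.card_zpowers, hoz]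
  have hP : IsPGroup 2 ↥(Subgroup.zpowers z) := IsPGroup.of_card (n := 1) (by rw [hcz, pow_one])
  obtain ⟨S, hS⟩ := hP.exists_le_sylow
  have hScard : Nat.card ↥(S : Subgroup D) = 2 := by
    obtain ⟨k, hk⟩ := IsPGroup.iff_card.mp S.isPGroup'
    have hdvd : Nat.card ↥(S : Subgroup D) ∣ Nat.card D := Subgroup.card_subgroup_dvd_card _
    have hk1 : k ≤ 1 := by
      by_contra hk2
      push Not at hk2
      apply h4
      refine dvd_trans ?_ hdvd
      rw [hk]
      exact pow_dvd_pow 2 hk2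
    have h2 : 2 ≤ Nat.card ↥(S : Subgroup D) :=
      calc 2 = Nat.card ↥(Subgroup.zpowers z) := hcz.symm
        _ ≤ Nat.card ↥(S : Subgroup D) := Subgroup.card_le_of_le hS
    have hk0 : k ≠ 0 := by
      intro hk0
      rw [hk, hk0, pow_zero] at h2
      omega
    have hk1' : k = 1 := by omega
    rw [hk, hk1', pow_one]
  have hSeq : Subgroup.zpowers z = (S : Subgroup D) :=
    Subgroup.eq_of_le_of_card_ge hS (by rw [hScard, hcz])
  have hSz : ∀ s ∈ (S : Subgroup D), s = 1 ∨ s = z := by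
    intro s hs
    rw [← hSeq] at hs
    obtain ⟨k, rfl⟩ := Subgroup.mem_zpowers_iff.mp hs
    rw [← zpow_mod_orderOf, hoz]
    rcases Int.emod_two_eq_zero_or_one k with h | h
    · left
      have h' : k % ((2 : ℕ) : ℤ) = 0 := h
      rw [h', zpow_zero]
    · right
      have h' : k % ((2 : ℕ) : ℤ) = 1 := h
      rw [h', zpow_one]
  have hNC : Subgroup.normalizer ((S : Subgroup D) : Set D) ≤
      Subgroup.centralizer ((S : Subgroup D) : Set D) := by
    intro n _
    rw [Subgroup.mem_centralizer_iff]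
    intro s hs
    rcases hSz s hs with h | h
    · rw [h, one_mul, mul_one]
    · rw [h]; exact (hzc n).symm
  have hcomp := MonoidHom.ker_transferSylow_isComplement' S hNC
  refine ⟨(MonoidHom.transferSylow S hNC).ker, MonoidHom.normal_ker _, ?_, ?_⟩
  · have h1 := hcomp.card_mul_card
    rw [hScard] at h1
    by_contra hodd
    rw [Nat.not_odd_iff_even] at hodd
    obtain ⟨r, hr⟩ := hodd
    apply h4
    rw [← h1, hr]
    exact ⟨r, by ring⟩
  · intro d
    obtain ⟨⟨⟨k, hk⟩, ⟨s, hs⟩⟩, hks⟩ := hcomp.2 d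
    have hks' : k * s = d := hks
    rcases hSz s hs with h | h
    · left
      rw [← hks', h, mul_one]
      exact hk
    · right
      rw [← hks', h]
      have e : z⁻¹ * (k * z) = k := by
        rw [hzc k]; group
      rw [e]
      exact hk

/-- If `u` is an involution centralized by the odd-order group `A` and `c` commutes with `u`
modulo `A`, then `c` commutes with `u`. -/
theorem commute_of_mod_odd {G : Type*} [Group G] (A : Subgroup G) [Finite A]
    (hAodd : Odd (Nat.card ↥A)) {u c : G} (huu : u * u = 1) (hu : ∀ a ∈ A, a * u = u * a)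
    (h : (u * c)⁻¹ * (c * u) ∈ A) : c * u = u * c := by
  obtain ⟨a, ha⟩ : ∃ a, a = (u * c)⁻¹ * (c * u) := ⟨_, rfl⟩
  rw [← ha] at h
  have huinv : u⁻¹ = u := inv_eq_of_mul_eq_one_left huu
  have hau : a * u = u * a := hu a h
  have e1 : a * u = c⁻¹ * u * c := by
    rw [ha, mul_inv_rev, huinv]
    calc c⁻¹ * u * (c * u) * u = c⁻¹ * u * c * (u * u) := by group
      _ = c⁻¹ * u * c := by rw [huu, mul_one]
  have e2 : a * a = 1 := by
    have h1 : (a * u) * (a * u) = 1 := by
      rw [e1]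
      calc c⁻¹ * u * c * (c⁻¹ * u * c) = c⁻¹ * (u * u) * c := by group
        _ = 1 := by rw [huu]; group
    calc a * a = a * a * (u * u) := by rw [huu, mul_one]
      _ = a * (a * u) * u := by group
      _ = a * (u * a) * u := by rw [hau]
      _ = (a * u) * (a * u) := by group
      _ = 1 := h1
  have ha1 : a = 1 := by
    obtain ⟨k, hk⟩ := hAodd
    have h1 : (⟨a, h⟩ : ↥A) ^ (2 * k + 1) = 1 := by
      rw [← hk]; exact pow_card_eq_one'
    have h2 : a ^ (2 * k + 1) = 1 := congrArg Subtype.val h1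
    rw [pow_succ, pow_mul, pow_two, e2, one_pow, one_mul] at h2
    exact h2
  calc c * u = (u * c) * ((u * c)⁻¹ * (c * u)) := by group
    _ = u * c := by rw [← ha, ha1, mul_one]

/-- Elements of `C_G(A) A` are products. -/
theorem exists_mul_of_mem_centralizer_sup {G : Type*} [Group G] (A : Subgroup G) {x : G}
    (hx : x ∈ Subgroup.centralizer (A : Set G) ⊔ A) :
    ∃ d ∈ Subgroup.centralizer (A : Set G), ∃ a ∈ A, x = d * a := by
  rw [Subgroup.sup_eq_closure] at hx
  induction hx using Subgroup.closure_induction with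
  | mem x hx =>
    rcases hx with h | h
    · exact ⟨x, h, 1, A.one_mem, (mul_one x).symm⟩
    · exact ⟨1, Subgroup.one_mem _, x, h, (one_mul x).symm⟩
  | one => exact ⟨1, Subgroup.one_mem _, 1, A.one_mem, (mul_one 1).symm⟩
  | mul x y _ _ hx hy =>
    obtain ⟨d₁, hd₁, a₁, ha₁, rfl⟩ := hx
    obtain ⟨d₂, hd₂, a₂, ha₂, rfl⟩ := hy
    refine ⟨d₁ * d₂, Subgroup.mul_mem _ hd₁ hd₂, a₁ * a₂, A.mul_mem ha₁ ha₂, ?_⟩
    have h1 : a₁ * d₂ = d₂ * a₁ := Subgroup.mem_centralizer_iff.mp hd₂ a₁ ha₁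
    calc d₁ * a₁ * (d₂ * a₂) = d₁ * (a₁ * d₂) * a₂ := by group
      _ = d₁ * (d₂ * a₁) * a₂ := by rw [h1]
      _ = d₁ * d₂ * (a₁ * a₂) := by group
  | inv x _ hx =>
    obtain ⟨d, hd, a, ha, rfl⟩ := hx
    refine ⟨d⁻¹, Subgroup.inv_mem _ hd, a⁻¹, A.inv_mem ha, ?_⟩
    have h1 : a * d = d * a := Subgroup.mem_centralizer_iff.mp hd a ha
    calc (d * a)⁻¹ = (a * d)⁻¹ := by rw [h1]
      _ = d⁻¹ * a⁻¹ := by group

end Cfsg.Agent.Helper90
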