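import Mathlib
import Cfsg.Prelude.Def_GeometricClasses
import Cfsg.Prelude.Def_Classical
import Cfsg.Agent.Helper35.S88Defs
import Cfsg.Agent.Helper35.TSSTDP
import Cfsg.Agent.Helper90.TSR2Main
import Cfsg.Agent.Helper10.S88R2NSC
import Cfsg.Agent.Helper20.S88R2I8
import Cfsg.Agent.Helper20.S88R2SKSUBTYPE
import Cfsg.Agent.Helper38.S88R2EIGEX
import Cfsg.Agent.Helper39.S88R2INVO
import Cfsg.Agent.Helper80.S88R2EIGHYP
import Cfsg.Agent.Helper80.S88R2SKND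
import Cfsg.Agent.Helper90.S88R2EIGOMEGA

set_option autoImplicit false
set_option linter.unusedVariables false

/-!
# The two r = 2 stages R2G + R2B of CALL S88 (row S5988), assembled by helper90 from the pieces of
sub-CALL S88R2 (helpers 10, 20, 38, 39, 80, 90) and of sub-CALL TSR2.
-/

namespace Cfsg.Agent.Helper90.S88

open Module Cfsg Cfsg.Geo Cfsg.Agent.Helper35.S88
open scoped MatrixGroups

section stages

variable {F : Type*} [Field F] [Fintype F]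

theorem r2e_odd_card {p : ℕ} [Fact p.Prime] [CharP F p] (hp2 : p ≠ 2) :
    Odd (Fintype.card F) := by
  obtain ⟨n, hp, hc⟩ := FiniteField.card F p
  rw [hc]
  exact (hp.odd_of_ne_two hp2).pow

theorem r2e_sq_of_pow (s : F) (hs0 : s ≠ 0) (d : ℕ) (hd : Odd d) (h : IsSquare (s ^ d)) :
    IsSquare s := by
  obtain ⟨e, he⟩ := hd
  obtain ⟨c, hc⟩ := h
  have hpe : s ^ e ≠ 0 := pow_ne_zero _ hs0
  refine ⟨c / s ^ e, ?_⟩
  rw [he, pow_succ, pow_mul'] at hc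
  field_simp
  linear_combination hc

/-- R2G -/
theorem s88_two_good {p : ℕ} [Fact p.Prime] [CharP F p] {q : ℕ} (hq : Fintype.card F = q)
    (d m : ℕ) (hd : 4 ≤ d) (hm : 2 ≤ m) (hme : Even m) (hmd : m < d) (hp2 : p ≠ 2)
    (hcond : (Even d ∧ q % 4 = 3 ∧ m % 4 = 2) ∨ (Odd d ∧ q % 8 ≠ 1)) :
    AllEll (Cfsg.quadFormPlus d F) 2 m := by
  classical
  obtain ⟨hQ, hplus⟩ := Cfsg.Agent.Helper35.TS5973.ts_std_plus (F := F) d
  have hoddq : Odd (Fintype.card F) := r2e_odd_card hp2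
  have h2 : (2 : F) ≠ 0 := Cfsg.Agent.Helper70.TSR2.r2_two_ne hoddq
  have hcard : Fintype.card (Fin d ⊕ Fin d) = 2 * d := by
    rw [Fintype.card_sum, Fintype.card_fin]
    omega
  have hne : Nonempty (Fin d ⊕ Fin d) := Fintype.card_pos_iff.mp (by omega)
  intro x hx hz hns
  obtain ⟨z, hz⟩ := hz
  obtain ⟨g, hgΩ, rfl⟩ := (Cfsg.Agent.Helper90.TS5973.r2a_mem_omegaGL _ x).mp hx
  have hM := Cfsg.Agent.Helper90.TS5973.r2a_iso (Cfsg.quadFormPlus d F) g
  rw [Cfsg.Agent.Helper90.TS5973.r2a_sq] at hz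
  rcases Cfsg.Agent.Helper70.TSR2.r2_z _ hQ hne _ hM z hz with rfl | rfl
  · rw [one_smul] at hz
    exact Cfsg.Agent.Helper39.S88R2.r2e_invo _ hQ h2 d m hcard hm hme hmd _ hM hz
  · rw [Cfsg.Agent.Helper90.TS5973.r2a_neg_one] at hz
    by_cases hm1 : IsSquare (-1 : F)
    · exfalso
      have hq4 : q % 4 ≠ 3 := by
        have h := (FiniteField.isSquare_neg_one_iff (F := F)).mp hm1
        rwa [hq] at h
      obtain ⟨s, hs⟩ := hm1
      have hsq := (Cfsg.Agent.Helper90.S88R2.r2e_eig_omega _ hQ h2 d (by omega) hcard g hz s hs.symm).mp hgΩ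
      rcases hcond with ⟨-, h3, -⟩ | ⟨hdo, h8⟩
      · exact hq4 h3
      · have hs0 : s ≠ 0 := by
          rintro rfl
          rw [mul_zero] at hs
          exact one_ne_zero (neg_eq_zero.mp hs)
        have hss : IsSquare s := r2e_sq_of_pow s hs0 d hdo hsq
        rw [Cfsg.Agent.Helper20.S88R2.r2e_isq_i h2 s hs.symm, hq] at hss
        exact h8 hss
    · have hq4 : q % 4 = 3 := by
        have h := (FiniteField.isSquare_neg_one_iff (F := F)).not.mp hm1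
        rw [hq] at h
        omega
      have htype := Cfsg.Agent.Helper20.TSR2.r2_skew_type _ hQ h2 d (by omega) hcard _ hM hz hm1
      have hde : Even d := htype.mp hplus
      have hm4 : m % 4 = 2 := by
        rcases hcond with ⟨-, -, h⟩ | ⟨hdo, -⟩
        · exact h
        · exact absurd hde (Nat.not_even_iff_odd.mpr hdo)
      obtain ⟨W, hWinv, hWnd, hWdim⟩ :=
        Cfsg.Agent.Helper80.S88R2.r2e_skew_nd _ hQ h2 d hcard _ hM hz hm1 (m / 2) (by omega)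
      have hty := Cfsg.Agent.Helper20.S88R2.r2e_skew_sub_type _ hQ h2 _ hM hz hm1 W hWinv hWnd (m / 2) hWdim
      refine ⟨W, ⟨?_, hWnd, ?_⟩, hWinv⟩
      · rw [hWdim]
        omega
      · rw [hty, Nat.not_even_iff_odd]
        exact ⟨m / 4, by omega⟩

/-- R2B -/
theorem s88_two_bad {p : ℕ} [Fact p.Prime] [CharP F p] {q : ℕ} (hq : Fintype.card F = q)
    (d m : ℕ) (hd : 4 ≤ d) (hm : 2 ≤ m) (hme : Even m) (hmd : m < d) (hp2 : p ≠ 2)
    (hrΩ : 2 ∣ Nat.card {W : Submodule F (Fin d ⊕ Fin d → F) // Module.finrank F ↥W = m ∧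
      Cfsg.Geo.IsNondegenerateOn (QuadraticMap.polar (Cfsg.quadFormPlus d F)) W ∧
      ¬ Cfsg.Geo.IsPlusTypeOn (Cfsg.quadFormPlus d F) W})
    (hall : AllEll (Cfsg.quadFormPlus d F) 2 m) :
    (Even d ∧ q % 4 = 3 ∧ m % 4 = 2) ∨ (Odd d ∧ q % 8 ≠ 1) := by
  classical
  obtain ⟨hQ, hplus⟩ := Cfsg.Agent.Helper35.TS5973.ts_std_plus (F := F) d
  have hoddq : Odd (Fintype.card F) := r2e_odd_card hp2
  have h2 : (2 : F) ≠ 0 := Cfsg.Agent.Helper70.TSR2.r2_two_ne hoddq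
  have hcard : Fintype.card (Fin d ⊕ Fin d) = 2 * d := by
    rw [Fintype.card_sum, Fintype.card_fin]
    omega
  have hne : Nonempty (Fin d ⊕ Fin d) := Fintype.card_pos_iff.mp (by omega)
  by_contra hcond
  have key : ∀ g : ↥(Cfsg.isometryGroup F (Cfsg.quadFormPlus d F)),
      g ∈ Cfsg.Omega F (Cfsg.quadFormPlus d F) →
      ((g : GL (Fin d ⊕ Fin d) F) : Matrix (Fin d ⊕ Fin d) (Fin d ⊕ Fin d) F) *
        ((g : GL (Fin d ⊕ Fin d) F) : Matrix (Fin d ⊕ Fin d) (Fin d ⊕ Fin d) F) = -1 →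
      InvEll (Cfsg.quadFormPlus d F)
        ((g : GL (Fin d ⊕ Fin d) F) : Matrix (Fin d ⊕ Fin d) (Fin d ⊕ Fin d) F) m := by
    intro g hgΩ hg2
    apply hall (g : GL (Fin d ⊕ Fin d) F)
      ((Cfsg.Agent.Helper90.TS5973.r2a_mem_omegaGL _ _).mpr ⟨g, hgΩ, rfl⟩)
    · exact ⟨-1, by rw [Cfsg.Agent.Helper90.TS5973.r2a_sq, hg2,
        Cfsg.Agent.Helper90.TS5973.r2a_neg_one]⟩
    · exact Cfsg.Agent.Helper10.S88R2.r2e_nonscalar _ hQ h2 hne _ (Cfsg.Agent.Helper90.TS5973.r2a_iso _ g) hg2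
  by_cases hm1 : IsSquare (-1 : F)
  · obtain ⟨s, hs⟩ := hm1
    obtain ⟨g, hg2⟩ := Cfsg.Agent.Helper38.S88R2.r2e_eig_ex (F := F) d s hs.symm
    have hgΩ : g ∈ Cfsg.Omega F (Cfsg.quadFormPlus d F) := by
      rw [Cfsg.Agent.Helper90.S88R2.r2e_eig_omega _ hQ h2 d (by omega) hcard g hg2 s hs.symm]
      rcases Nat.even_or_odd d with ⟨e, he⟩ | hdo
      · exact ⟨s ^ e, by rw [he, pow_add]⟩
      · have h8 : q % 8 = 1 := by
          by_contra h
          exact hcond (Or.inr ⟨hdo, h⟩)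
        have hss : IsSquare s := (Cfsg.Agent.Helper20.S88R2.r2e_isq_i h2 s hs.symm).mpr (by rw [hq]; exact h8)
        exact hss.pow d
    obtain ⟨W, ⟨-, hWnd, hWnp⟩, hWinv⟩ := key g hgΩ hg2
    exact hWnp (Cfsg.Agent.Helper80.S88R2.r2e_eig_hyp _ hQ h2 _ (Cfsg.Agent.Helper90.TS5973.r2a_iso _ g) hg2 s hs.symm W
      hWinv hWnd)
  · have hq4 : q % 4 = 3 := by
      have h := (FiniteField.isSquare_neg_one_iff (F := F)).not.mp hm1
      rw [hq] at h
      omega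
    have hde : Even d := by
      by_contra h
      exact hcond (Or.inr ⟨Nat.not_even_iff_odd.mp h, by omega⟩)
    have hm4 : m % 4 = 0 := by
      by_contra h
      have h' : m % 4 = 2 := by
        obtain ⟨k, hk⟩ := hme
        omega
      exact hcond (Or.inl ⟨hde, hq4, h'⟩)
    obtain ⟨g, hg2⟩ := Cfsg.Agent.Helper60.TSR2.r2_skew_ex _ hQ h2 d (by omega) hcard hm1
      ⟨fun _ => hde, fun _ => hplus⟩
    have hgΩ : g ∈ Cfsg.Omega F (Cfsg.quadFormPlus d F) := by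
      rw [Cfsg.Agent.Helper59.TSR2.r2_skew_omega _ hQ h2 d (by omega) hcard g hg2 hm1]
      obtain ⟨e, he⟩ := hde
      exact ⟨2 ^ e, by rw [he, pow_add]⟩
    obtain ⟨W, ⟨hWdim, hWnd, hWnp⟩, hWinv⟩ := key g hgΩ hg2
    have hty := Cfsg.Agent.Helper20.S88R2.r2e_skew_sub_type _ hQ h2 _ (Cfsg.Agent.Helper90.TS5973.r2a_iso _ g) hg2 hm1 W
      hWinv hWnd (m / 2) (by rw [hWdim]; omega)
    exact hWnp (hty.mpr ⟨m / 4, by omega⟩)

end stages

end Cfsg.Agent.Helper90.S88
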