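import Mathlib
import Cfsg.Prelude.Def_GeometricClasses
import Cfsg.Agent.Helper90.SFRDefs
import Cfsg.Agent.Helper90.BGChain
import Cfsg.Agent.Helper41.IMN3
import Cfsg.Agent.Helper46.BGLIRR
import Cfsg.Agent.Helper69.BGLSING
import Cfsg.Agent.Helper97.SFBasic
import Cfsg.Agent.Helper34.SFRFROB
import Cfsg.Agent.Helper10.SFRRK

/-!
# S5965: piece NC2A
-/

set_option autoImplicit false

namespace Cfsg.Agent.Helper90.SFR

open Module Polynomial

variable {F : Type*} [Field F] [Fintype F]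

/-- PIECE NC2A -/
theorem fix_le_of_conj (F₀ : Subfield F) (q₀ : ℕ) (hF₀ : Nat.card ↥F₀ = q₀) (r : ℕ) [Fact r.Prime]
    (hrF : (r : F) ≠ 0) (hc2 : 2 ≤ orderOf ((Fintype.card F : ℕ) : ZMod r)) (n : ℕ)
    (x : Matrix.SpecialLinearGroup (Fin n) F)
    (hx : ((x ^ r : Matrix.SpecialLinearGroup (Fin n) F) : Matrix (Fin n) (Fin n) F) = 1)
    (hx1 : (x : Matrix (Fin n) (Fin n) F) ≠ 1) (h : IsConj F₀ x) :
    finrank F (LinearMap.ker (Matrix.toLin' (x : Matrix (Fin n) (Fin n) F) - 1))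
      + orderOf ((q₀ : ℕ) : ZMod r) ≤ n := by
  classical
  have hr : r.Prime := Fact.out
  let _ : Fintype ↥F₀ := Fintype.ofFinite _
  have hc0 : Fintype.card ↥F₀ = q₀ := by rw [← Nat.card_eq_fintype_card, hF₀]
  have hrF₀ : (r : ↥F₀) ≠ 0 := by
    intro h0
    apply hrF
    have h1 := congrArg F₀.subtype h0
    simpa using h1
  obtain ⟨P, hP⟩ := h
  rw [subH, Subgroup.mem_comap, Cfsg.Agent.Helper97.SF.mem_subfieldSubgroup_one] at hP
  obtain ⟨c, hc0', hG⟩ := hP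
  simp only [Matrix.SpecialLinearGroup.coe_GL_coe_matrix] at hG
  obtain ⟨Y, hY⟩ : ∃ Y : Matrix (Fin n) (Fin n) F,
      Y = ((P⁻¹ * x * P : Matrix.SpecialLinearGroup (Fin n) F) : Matrix (Fin n) (Fin n) F) :=
    ⟨_, rfl⟩
  rw [← hY] at hG
  have hxr : x ^ r = 1 := by
    apply Subtype.ext
    rw [hx]; rfl
  have hYr : Y ^ r = 1 := by
    have h1 : (P⁻¹ * x * P) ^ r = 1 := by
      have h2 := conj_pow (a := P⁻¹) (b := x) (i := r)
      rw [inv_inv] at h2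
      rw [h2, hxr, mul_one, inv_mul_cancel]
    rw [hY, ← Matrix.SpecialLinearGroup.coe_pow, h1]
    rfl
  have hYx : Y = ((P⁻¹ : Matrix.SpecialLinearGroup (Fin n) F) : Matrix (Fin n) (Fin n) F)
      * (x : Matrix (Fin n) (Fin n) F) * (P : Matrix (Fin n) (Fin n) F) := by
    rw [hY, Matrix.SpecialLinearGroup.coe_mul, Matrix.SpecialLinearGroup.coe_mul]
  have hPP : ((P⁻¹ : Matrix.SpecialLinearGroup (Fin n) F) : Matrix (Fin n) (Fin n) F)
      * (P : Matrix (Fin n) (Fin n) F) = 1 := by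
    rw [← Matrix.SpecialLinearGroup.coe_mul, inv_mul_cancel]; rfl
  have hY1 : Y ≠ 1 := by
    intro hY1
    apply hx1
    have h1 : P⁻¹ * x * P = 1 := by
      apply Subtype.ext
      rw [← hY, hY1]; rfl
    have h2 : x = 1 := by
      have h3 : x = P * (P⁻¹ * x * P) * P⁻¹ := by group
      rw [h3, h1]; group
    rw [h2]; rfl
  have hn : 0 < n := by
    rcases Nat.eq_zero_or_pos n with h0 | h0
    · subst h0
      exact absurd (Subsingleton.elim _ _) hx1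
    · exact h0
  -- `c ∈ F₀`
  obtain ⟨σ, hσ, hσfix⟩ := Cfsg.Agent.Helper34.frob_hom F₀ q₀ hF₀
  have hGr : (c • Y) ^ r = (c ^ r) • (1 : Matrix (Fin n) (Fin n) F) := by
    rw [_root_.smul_pow, hYr]
  have hcr : c ^ r ∈ F₀ := by
    have h1 : (c • Y) ^ r ∈ Cfsg.Agent.Helper97.SF.ratMat F₀ n := pow_mem hG r
    have h2 := h1 ⟨0, hn⟩ ⟨0, hn⟩
    rw [hGr, Matrix.smul_apply, Matrix.one_apply_eq, smul_eq_mul, mul_one] at h2
    exact h2
  have hcF₀ : c ∈ F₀ := by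
    rw [← hσfix]
    have h1 : (σ c / c) ^ r = 1 := by
      rw [div_pow, ← map_pow, (hσfix (c ^ r)).mpr hcr, div_self (pow_ne_zero r hc0')]
    have h2 := Cfsg.Agent.Helper69.bgl_root_unity_trivial r hc2 _ h1
    exact (div_eq_one_iff_eq hc0').mp h2
  have hYrat : Y ∈ Cfsg.Agent.Helper97.SF.ratMat F₀ n := by
    have h1 := Cfsg.Agent.Helper97.SF.smul_mem_ratMat hG (inv_mem hcF₀)
    rwa [smul_smul, inv_mul_cancel₀ hc0', one_smul] at h1
  obtain ⟨Y₀, hY₀⟩ : ∃ Y₀ : Matrix (Fin n) (Fin n) ↥F₀, Y₀ = fun i j => ⟨Y i j, hYrat i j⟩ :=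
    ⟨_, rfl⟩
  have hYmap : Y = Y₀.map F₀.subtype := by
    ext i j
    rw [hY₀]; rfl
  have hinj : Function.Injective (fun M : Matrix (Fin n) (Fin n) ↥F₀ => M.map F₀.subtype) :=
    Matrix.map_injective F₀.subtype_injective
  have hmapring : ∀ M : Matrix (Fin n) (Fin n) ↥F₀,
      M.map F₀.subtype = (F₀.subtype.mapMatrix : Matrix (Fin n) (Fin n) ↥F₀ →+* _) M :=
    fun M => rfl
  have hY₀r : Y₀ ^ r = 1 := by
    apply hinj
    change (Y₀ ^ r).map F₀.subtype = (1 : Matrix (Fin n) (Fin n) ↥F₀).map F₀.subtype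
    rw [hmapring, hmapring, map_pow, map_one, ← hmapring, ← hYmap, hYr]
  have hY₀1 : Y₀ ≠ 1 := by
    intro h1
    apply hY1
    rw [hYmap, h1, hmapring, map_one]
  -- linear algebra over `F₀`
  obtain ⟨T₀, hT₀⟩ : ∃ T₀ : (Fin n → ↥F₀) →ₗ[↥F₀] (Fin n → ↥F₀), T₀ = Matrix.toLin' Y₀ := ⟨_, rfl⟩
  have hpowlin : ∀ (A : Matrix (Fin n) (Fin n) ↥F₀) (k : ℕ),
      (Matrix.toLin' A) ^ k = Matrix.toLin' (A ^ k) := by
    intro A k
    induction k with
    | zero => rw [pow_zero, pow_zero, Matrix.toLin'_one]; rfl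
    | succ k ih => rw [pow_succ, pow_succ, ih, Matrix.toLin'_mul]; rfl
  have hT₀r : T₀ ^ r = 1 := by
    rw [hT₀, hpowlin, hY₀r, Matrix.toLin'_one]; rfl
  have hT₀sub : T₀ - 1 = Matrix.toLin' (Y₀ - 1) := by
    rw [hT₀, map_sub, Matrix.toLin'_one]; rfl
  have hT₀1 : T₀ - 1 ≠ 0 := by
    rw [hT₀sub]
    intro h0
    apply hY₀1
    have h1 : Y₀ - 1 = 0 := by
      apply Matrix.toLin'.injective
      rw [h0, map_zero]
    exact sub_eq_zero.mp h1
  have hd : ∀ g : Polynomial ↥F₀, Irreducible g → g ∣ ∑ j ∈ Finset.range r, (X : Polynomial ↥F₀) ^ j →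
      g.natDegree = orderOf ((q₀ : ℕ) : ZMod r) := by
    intro g hg hdvd
    have h2 := Cfsg.Agent.Helper46.bgl_irr_factor_degree (F := ↥F₀) r hrF₀ g hg hdvd
    rwa [hc0] at h2
  have hWinv : (LinearMap.range (T₀ - 1)).map T₀ ≤ LinearMap.range (T₀ - 1) := by
    rintro _ ⟨_, ⟨u, rfl⟩, rfl⟩
    refine ⟨T₀ u, ?_⟩
    simp only [LinearMap.sub_apply, Module.End.one_apply, map_sub]
  have hrank : orderOf ((q₀ : ℕ) : ZMod r) ≤ finrank ↥F₀ (LinearMap.range (T₀ - 1)) := by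
    by_contra hlt
    push Not at hlt
    have h1 := Cfsg.Agent.Helper41.le_fix_of_small T₀ r _ hrF₀ hT₀r hd _ hWinv hlt
    have h2 := Cfsg.Agent.Helper90.BG.ker_inf_range T₀ r hrF₀ hT₀r
    have h3 : LinearMap.range (T₀ - 1) = ⊥ := by
      rw [eq_bot_iff, ← h2]
      exact le_inf h1 le_rfl
    exact hT₀1 (LinearMap.range_eq_bot.mp h3)
  have hrk₀ : finrank ↥F₀ (LinearMap.range (T₀ - 1)) = (Y₀ - 1).rank := by
    rw [hT₀sub, Matrix.rank, Matrix.toLin'_apply']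
  have hrk1 : (Y₀ - 1).rank ≤ (Y - 1).rank := by
    have h1 := Cfsg.Agent.Helper10.rank_map_ge F₀.subtype (Y₀ - 1)
    have h2 : (Y₀ - 1).map F₀.subtype = Y - 1 := by
      rw [hmapring, map_sub, map_one, ← hmapring, ← hYmap]
    rwa [h2] at h1
  have hrk2 : (Y - 1).rank = ((x : Matrix (Fin n) (Fin n) F) - 1).rank := by
    have h1 : Y - 1 = ((P⁻¹ : Matrix.SpecialLinearGroup (Fin n) F) : Matrix (Fin n) (Fin n) F)
        * ((x : Matrix (Fin n) (Fin n) F) - 1) * (P : Matrix (Fin n) (Fin n) F) := by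
      rw [Matrix.mul_sub, Matrix.sub_mul, Matrix.mul_one, hPP, ← hYx]
    rw [h1, Matrix.rank_mul_eq_left_of_isUnit_det _ _ (by rw [P.det_coe]; exact isUnit_one),
      Matrix.rank_mul_eq_right_of_isUnit_det _ _ (by rw [(P⁻¹).det_coe]; exact isUnit_one)]
  have hrk3 : ((x : Matrix (Fin n) (Fin n) F) - 1).rank
      + finrank F (LinearMap.ker (Matrix.toLin' (x : Matrix (Fin n) (Fin n) F) - 1)) = n := by
    have h1 := LinearMap.finrank_range_add_finrank_ker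
      (Matrix.toLin' ((x : Matrix (Fin n) (Fin n) F) - 1))
    rw [Module.finrank_fin_fun] at h1
    have h2 : Matrix.toLin' ((x : Matrix (Fin n) (Fin n) F) - 1)
        = Matrix.toLin' (x : Matrix (Fin n) (Fin n) F) - 1 := by
      rw [map_sub, Matrix.toLin'_one]; rfl
    rw [h2] at h1
    rw [Matrix.rank, ← Matrix.toLin'_apply', h2]
    exact h1
  omega

end Cfsg.Agent.Helper90.SFR
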