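import Mathlib
import Cfsg.Prelude.Def_GeometricClasses
import Cfsg.Agent.Helper90.SFRDefs
import Cfsg.Agent.Helper69.SngB2
import Cfsg.Agent.Helper90.SFRNc

/-!
# S5965: piece BAD2A
-/

set_option autoImplicit false

namespace Cfsg.Agent.Helper90.SFR

open Module Polynomial

variable {F : Type*} [Field F] [Fintype F]

/-- PIECE BAD2A -/
theorem bad_nonsplit (p : ℕ) [Fact p.Prime] [CharP F p] (F₀ : Subfield F) (q₀ k : ℕ)
    (hF₀ : Nat.card ↥F₀ = q₀) (hqk : Fintype.card F = q₀ ^ k) (hk2 : 2 ≤ k) (r : ℕ)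
    [Fact r.Prime] (hrp : r ≠ p) (hkc : k ∣ orderOf ((q₀ : ℕ) : ZMod r))
    (hc2 : 2 ≤ orderOf ((Fintype.card F : ℕ) : ZMod r)) (n : ℕ)
    (hcn : orderOf ((Fintype.card F : ℕ) : ZMod r) ≤ n) : IsBad F₀ n r := by
  classical
  have hr : r.Prime := Fact.out
  have hp : p.Prime := Fact.out
  have hrF : (r : F) ≠ 0 := by
    intro h
    rw [CharP.cast_eq_zero_iff F p r] at h
    exact hrp ((Nat.prime_dvd_prime_iff_eq hp hr).mp h).symm
  obtain ⟨c, hc⟩ : ∃ c, c = orderOf ((Fintype.card F : ℕ) : ZMod r) := ⟨_, rfl⟩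
  rw [← hc] at hc2 hcn
  have hrdvd : r ∣ Fintype.card F ^ c - 1 := by
    have h1 : ((Fintype.card F : ℕ) : ZMod r) ^ c = 1 := by
      rw [hc]; exact pow_orderOf_eq_one _
    have hpos : 1 ≤ Fintype.card F ^ c := Nat.one_le_pow _ _ Fintype.card_pos
    rw [← ZMod.natCast_eq_zero_iff, Nat.cast_sub hpos, Nat.cast_pow, h1, Nat.cast_one, sub_self]
  have hc2' : 2 ≤ orderOf ((Fintype.card F : ℕ) : ZMod r) := by rw [← hc]; exact hc2
  obtain ⟨x, hx1, hxns, hker⟩ := Cfsg.Agent.Helper69.bgl_exists_fpf_gen p n r hc2' c (n - c)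
    (by omega) (by omega) hrdvd
  refine ⟨x, ⟨1, by rw [hx1, one_smul]⟩, hxns, ?_⟩
  intro hconj
  have hx1' : (x : Matrix (Fin n) (Fin n) F) ≠ 1 := by
    have h1 := hxns 1
    rwa [one_smul] at h1
  have h := fix_le_of_conj F₀ q₀ hF₀ r hrF hc2' n x hx1 hx1' hconj
  rw [hker] at h
  have hcc : orderOf ((q₀ : ℕ) : ZMod r) = k * c := by
    have h1 : ((Fintype.card F : ℕ) : ZMod r) = ((q₀ : ℕ) : ZMod r) ^ k := by
      rw [hqk, Nat.cast_pow]
    rw [hc, h1, orderOf_pow' _ (by omega), Nat.gcd_eq_right hkc]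
    exact (Nat.mul_div_cancel' hkc).symm
  rw [hcc] at h
  have h2 : 2 * c ≤ k * c := Nat.mul_le_mul_right c hk2
  omega

end Cfsg.Agent.Helper90.SFR
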