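import Mathlib
import Cfsg.Prelude.Def_GeometricClasses
import Cfsg.Agent.Helper90.SFRDefs
import Cfsg.Agent.Helper46.BGLIRR

/-!
# S5965: piece IRRSTAB
-/

set_option autoImplicit false

namespace Cfsg.Agent.Helper90.SFR

open Module Polynomial

variable {F : Type*} [Field F] [Fintype F]

/-- PIECE IRRSTAB: for `q = q₀ ^ r` the `F₀`-irreducible factors of `X ^ r - 1` stay
irreducible over `F`. -/
theorem irr_stable (F₀ : Subfield F) (q₀ : ℕ) (hF₀ : Nat.card ↥F₀ = q₀) (r : ℕ) [Fact r.Prime]
    (hrF : (r : F) ≠ 0) (hqk : Fintype.card F = q₀ ^ r) (h : Polynomial ↥F₀) (hh : Irreducible h)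
    (hdvd : h ∣ X ^ r - 1) : Irreducible (h.map F₀.subtype) := by
  classical
  have hr : r.Prime := Fact.out
  let _ : Fintype ↥F₀ := Fintype.ofFinite _
  have hc0 : Fintype.card ↥F₀ = q₀ := by rw [← Nat.card_eq_fintype_card, hF₀]
  have hrF₀ : (r : ↥F₀) ≠ 0 := by
    intro h0
    apply hrF
    have h1 := congrArg F₀.subtype h0
    simpa using h1
  have hfac : (X : Polynomial ↥F₀) ^ r - 1 = (∑ j ∈ Finset.range r, X ^ j) * (X - 1) :=
    (geom_sum_mul X r).symm
  rw [hfac] at hdvd
  have hdegpos : 0 < h.natDegree := Polynomial.natDegree_pos_iff_degree_pos.mpr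
    (Polynomial.degree_pos_of_irreducible hh)
  have hne : h.map F₀.subtype ≠ 0 := Polynomial.map_ne_zero hh.ne_zero
  rcases hh.prime.dvd_or_dvd hdvd with h1 | h1
  · have hdeg : h.natDegree = orderOf ((q₀ : ℕ) : ZMod r) := by
      have h2 := Cfsg.Agent.Helper46.bgl_irr_factor_degree (F := ↥F₀) r hrF₀ h hh h1
      rwa [hc0] at h2
    have hnu : ¬ IsUnit (h.map F₀.subtype) := by
      intro hu
      have h2 := Polynomial.natDegree_eq_zero_of_isUnit hu
      rw [Polynomial.natDegree_map] at h2
      omega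
    obtain ⟨g, hg, hgd⟩ := WfDvdMonoid.exists_irreducible_factor hnu hne
    have hgΦ : g ∣ ∑ j ∈ Finset.range r, (X : F[X]) ^ j := by
      have h2 := Polynomial.map_dvd F₀.subtype h1
      rw [Polynomial.map_sum] at h2
      simp only [Polynomial.map_pow, Polynomial.map_X] at h2
      exact hgd.trans h2
    have hgdeg : g.natDegree = orderOf ((q₀ : ℕ) : ZMod r) := by
      have h2 := Cfsg.Agent.Helper46.bgl_irr_factor_degree (F := F) r hrF g hg hgΦ
      rw [hqk, Nat.cast_pow, ZMod.pow_card] at h2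
      exact h2
    obtain ⟨u, hu⟩ := hgd
    have hu0 : u ≠ 0 := by
      rintro rfl
      rw [mul_zero] at hu
      exact hne hu
    have hudeg : u.natDegree = 0 := by
      have h2 := congrArg natDegree hu
      rw [natDegree_mul hg.ne_zero hu0, natDegree_map, hdeg, hgdeg] at h2
      omega
    have huu : IsUnit u := by
      rw [Polynomial.isUnit_iff]
      refine ⟨u.coeff 0, ?_, (Polynomial.eq_C_of_natDegree_eq_zero hudeg).symm⟩
      rw [isUnit_iff_ne_zero]
      intro h0
      apply hu0
      rw [Polynomial.eq_C_of_natDegree_eq_zero hudeg, h0, map_zero]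
    rw [hu]
    exact (irreducible_mul_isUnit huu).mpr hg
  · have hdeg : h.natDegree = 1 := by
      have h3 : (X - 1 : Polynomial ↥F₀) = X - C 1 := by rw [map_one]
      rw [h3] at h1
      have h2 := Polynomial.natDegree_le_of_dvd h1 (Polynomial.X_sub_C_ne_zero (1 : ↥F₀))
      rw [Polynomial.natDegree_X_sub_C] at h2
      omega
    apply Polynomial.irreducible_of_degree_eq_one
    rw [Polynomial.degree_map, Polynomial.degree_eq_natDegree hh.ne_zero, hdeg]
    rfl

end Cfsg.Agent.Helper90.SFR
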