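import Mathlib
import Cfsg.Prelude.Def_GeometricClasses
import Cfsg.Agent.Helper90.SFRDefs
import Cfsg.Agent.Helper37.Sf1

/-!
# S5965: piece TR (rational basis + centraliser determinants ⇒ conjugate into `H`)
-/

set_option autoImplicit false

namespace Cfsg.Agent.Helper90.SFR

open Module Polynomial

variable {F : Type*} [Field F] [Fintype F]

/-- PIECE TR -/
theorem conj_of_rat (F₀ : Subfield F) (n : ℕ) (x : Matrix.SpecialLinearGroup (Fin n) F) (c : F)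
    (hc : c ≠ 0) (hrat : IsRat F₀ (c • Matrix.toLin' (x : Matrix (Fin n) (Fin n) F)))
    (hcent : ∀ δ : F, δ ≠ 0 → ∃ C : (Fin n → F) →ₗ[F] (Fin n → F),
      C ∘ₗ Matrix.toLin' (x : Matrix (Fin n) (Fin n) F)
        = Matrix.toLin' (x : Matrix (Fin n) (Fin n) F) ∘ₗ C ∧ LinearMap.det C = δ) :
    IsConj F₀ x := by
  classical
  obtain ⟨ι, hι, b, hb⟩ := hrat
  have hcard : Fintype.card ι = n := by
    rw [← Module.finrank_eq_card_basis b, Module.finrank_fin_fun]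
  obtain ⟨e⟩ : Nonempty (ι ≃ Fin n) := ⟨Fintype.equivFinOfCardEq hcard⟩
  obtain ⟨b', hb'⟩ : ∃ b' : Basis (Fin n) F (Fin n → F), b' = b.reindex e := ⟨_, rfl⟩
  obtain ⟨S, hS⟩ : ∃ S : Basis (Fin n) F (Fin n → F), S = Pi.basisFun F (Fin n) := ⟨_, rfl⟩
  obtain ⟨f, hf⟩ : ∃ f : (Fin n → F) →ₗ[F] (Fin n → F),
      f = Matrix.toLin' (x : Matrix (Fin n) (Fin n) F) := ⟨_, rfl⟩
  rw [← hf] at hb hcent
  obtain ⟨B, hB⟩ : ∃ B : Matrix (Fin n) (Fin n) F, B = LinearMap.toMatrix b' b' f := ⟨_, rfl⟩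
  have hfS : LinearMap.toMatrix S S f = (x : Matrix (Fin n) (Fin n) F) := by
    rw [hS, hf, LinearMap.toMatrix_eq_toMatrix', LinearMap.toMatrix'_toLin']
  have hQQ : b'.toMatrix S * S.toMatrix b' = 1 := Basis.toMatrix_mul_toMatrix_flip b' S
  have hQQ' : S.toMatrix b' * b'.toMatrix S = 1 := Basis.toMatrix_mul_toMatrix_flip S b'
  have hBQ : b'.toMatrix S * (x : Matrix (Fin n) (Fin n) F) * S.toMatrix b' = B := by
    rw [hB, ← hfS]
    exact basis_toMatrix_mul_linearMap_toMatrix_mul_basis_toMatrix b' S b' S f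
  obtain ⟨P, hP⟩ : ∃ P : GL (Fin n) F, (P : Matrix (Fin n) (Fin n) F) = b'.toMatrix S :=
    ⟨⟨b'.toMatrix S, S.toMatrix b', hQQ, hQQ'⟩, rfl⟩
  have hPx : (P : Matrix (Fin n) (Fin n) F) * (x : Matrix (Fin n) (Fin n) F)
      = B * (P : Matrix (Fin n) (Fin n) F) := by
    rw [hP, ← hBQ, Matrix.mul_assoc, hQQ', Matrix.mul_one]
  have hBrat : c • B ∈ Cfsg.Agent.Helper97.SF.ratMat F₀ n := by
    intro i j
    have h1 := hb (e.symm j) (e.symm i)
    rw [Matrix.smul_apply, hB, LinearMap.toMatrix_apply, hb', Basis.reindex_apply,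
      Basis.repr_reindex_apply]
    rw [LinearMap.smul_apply, map_smul, Finsupp.smul_apply] at h1
    exact h1
  have hcentB : ∀ δ : F, δ ≠ 0 → ∃ C : Matrix (Fin n) (Fin n) F, C * B = B * C ∧ C.det = δ := by
    intro δ hδ
    obtain ⟨C, hCf, hCdet⟩ := hcent δ hδ
    refine ⟨LinearMap.toMatrix b' b' C, ?_, ?_⟩
    · rw [hB, ← LinearMap.toMatrix_comp b' b' b', ← LinearMap.toMatrix_comp b' b' b', hCf]
    · rw [LinearMap.det_toMatrix, hCdet]
  exact Cfsg.Agent.Helper37.sf_transfer F₀ x B P hPx c hc hBrat hcentB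

end Cfsg.Agent.Helper90.SFR
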