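import Mathlib
import Cfsg.Prelude.Def_GeometricClasses
import Cfsg.Agent.Helper90.SFRDefs
import Cfsg.Agent.Helper90.SFRIrr
import Cfsg.Agent.Helper90.SFRTr
import Cfsg.Agent.Helper60.SFRDETB
import Cfsg.Agent.Helper10.SFRARITHB
import Cfsg.Agent.Helper84.SFRRATK
import Cfsg.Agent.Helper47.SFRCENT

/-!
# S5965: piece GOODK (the case `r = k`)
-/

set_option autoImplicit false

namespace Cfsg.Agent.Helper90.SFR

open Module Polynomial

variable {F : Type*} [Field F] [Fintype F]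

/-- PIECE GOODK -/
theorem good_of_eq (F₀ : Subfield F) (q₀ : ℕ) (hF₀ : Nat.card ↥F₀ = q₀) (r : ℕ) [Fact r.Prime]
    (hr2 : r ≠ 2) (hrF : (r : F) ≠ 0) (hqk : Fintype.card F = q₀ ^ r) (n : ℕ) (hn : 2 ≤ n)
    (hgapk : r ∣ q₀ - 1 → padicValNat r n ≤ padicValNat r (Fintype.card F - 1))
    (x : Matrix.SpecialLinearGroup (Fin n) F) (z : F)
    (hx : ((x ^ r : Matrix.SpecialLinearGroup (Fin n) F) : Matrix (Fin n) (Fin n) F)
      = z • (1 : Matrix (Fin n) (Fin n) F)) : IsConj F₀ x := by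
  classical
  have hr : r.Prime := Fact.out
  have hq2 : 2 ≤ Fintype.card F := Fintype.one_lt_card
  have hx' : (x : Matrix (Fin n) (Fin n) F) ^ r = z • (1 : Matrix (Fin n) (Fin n) F) := by
    rw [← hx, Matrix.SpecialLinearGroup.coe_pow]
  have hz0 : z ≠ 0 := by
    rintro rfl
    have : Nonempty (Fin n) := ⟨⟨0, by omega⟩⟩
    have h1 := congrArg Matrix.det hx'
    rw [Matrix.det_pow, x.det_coe, one_pow, zero_smul, Matrix.det_zero] at h1
    exact one_ne_zero h1
  have hq₀pos : 1 ≤ q₀ := by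
    rcases Nat.eq_zero_or_pos q₀ with h0 | h0
    · rw [h0, zero_pow hr.ne_zero] at hqk
      omega
    · exact h0
  -- step 1: `z` is an `r`-th power
  obtain ⟨μ, hμ⟩ : ∃ μ : F, μ ^ r = z := by
    by_contra hno
    push Not at hno
    obtain ⟨s, hns, hdet⟩ := Cfsg.Agent.Helper60.det_of_irr r hr2 n (x : Matrix (Fin n) (Fin n) F) z hno hx'
    have hs : 0 < s := by
      rcases Nat.eq_zero_or_pos s with h | h
      · subst h; omega
      · exact h
    have hzs : z ^ s = 1 := by rw [← hdet]; exact x.det_coe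
    have hlt := Cfsg.Agent.Helper10.val_lt_of_not_pow r z hno s hs hzs
    rw [← hns] at hlt
    have hq1 : r ∣ Fintype.card F - 1 := by
      by_contra hnd
      have hcop : (Nat.card Fˣ).Coprime r := by
        rw [Nat.card_units, Nat.card_eq_fintype_card]
        exact ((Nat.Prime.coprime_iff_not_dvd hr).mpr hnd).symm
      obtain ⟨u, hu⟩ := (powCoprime hcop).surjective (Units.mk0 z hz0)
      apply hno (u : F)
      have h1 := congrArg (fun w : Fˣ => (w : F)) hu
      simpa using h1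
    have hcast1 : ∀ m : ℕ, 1 ≤ m → (r ∣ m - 1 ↔ ((m : ℕ) : ZMod r) = 1) := by
      intro m hm
      rw [← (ZMod.natCast_eq_zero_iff (m - 1) r), Nat.cast_sub hm, Nat.cast_one, sub_eq_zero]
    have hq01 : r ∣ q₀ - 1 := by
      rw [hcast1 q₀ hq₀pos]
      have h1 := (hcast1 (Fintype.card F) (by omega)).mp hq1
      rw [hqk, Nat.cast_pow, ZMod.pow_card] at h1
      exact h1
    have h3 := hgapk hq01
    omega
  have hμ0 : μ ≠ 0 := by
    rintro rfl
    rw [zero_pow hr.ne_zero] at hμ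
    exact hz0 hμ.symm
  have hpowlin : ∀ (A : Matrix (Fin n) (Fin n) F) (k : ℕ),
      (Matrix.toLin' A) ^ k = Matrix.toLin' (A ^ k) := by
    intro A k
    induction k with
    | zero => rw [pow_zero, pow_zero, Matrix.toLin'_one]; rfl
    | succ k ih => rw [pow_succ, pow_succ, ih, Matrix.toLin'_mul]; rfl
  have hTz : (Matrix.toLin' (x : Matrix (Fin n) (Fin n) F)) ^ r
      = z • (1 : Module.End F (Fin n → F)) := by
    rw [hpowlin, hx', map_smul, Matrix.toLin'_one]; rfl
  have hT1 : (μ⁻¹ • Matrix.toLin' (x : Matrix (Fin n) (Fin n) F)) ^ r = 1 := by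
    rw [_root_.smul_pow, hTz, smul_smul, inv_pow, hμ, inv_mul_cancel₀ hz0, one_smul]
  have hrat : IsRat F₀ (μ⁻¹ • Matrix.toLin' (x : Matrix (Fin n) (Fin n) F)) :=
    Cfsg.Agent.Helper84.rat_stable F₀ _ r hr.pos hrF hT1
      (fun h hh hdvd => irr_stable F₀ q₀ hF₀ r hrF hqk h hh hdvd)
  have hfin : 0 < finrank F (Fin n → F) := by
    rw [Module.finrank_fin_fun]; omega
  exact conj_of_rat F₀ n x μ⁻¹ (inv_ne_zero hμ0) hrat
    (fun δ hδ => Cfsg.Agent.Helper47.cent_det hfin _ r hr.pos hrF z hz0 hTz δ hδ)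

end Cfsg.Agent.Helper90.SFR
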