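import Mathlib
import Cfsg.Prelude.Def_GeometricClasses
import Cfsg.Agent.Helper90.SFRDefs
import Cfsg.Agent.Helper41.IMGLORD
import Cfsg.Agent.Helper90.SFRGoodK
import Cfsg.Agent.Helper90.SFRBad2a
import Cfsg.Agent.Helper90.SFRTr
import Cfsg.Agent.Helper46.SFRGOODEXCore
import Cfsg.Agent.Helper60.SFRDETB
import Cfsg.Agent.Helper99.SFRDIAG
import Cfsg.Agent.Helper44.SFRRATEX
import Cfsg.Agent.Helper60.SFRIDX1
import Cfsg.Agent.Helper29.SFRIDX2
import Cfsg.Agent.Helper80.SFRBADE1
import Cfsg.Agent.Helper80.SFRBADE4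
import Cfsg.Agent.Helper60.SFRBADB
import Cfsg.Agent.Helper75.SFRBADE2Core
import Cfsg.Agent.Helper51.SFRNECDIAG

/-!
# S5965: elements of odd prime order `r ≠ p` and subfield subgroups - assembly
-/

set_option autoImplicit false

namespace Cfsg.Agent.Helper90.SFR

open Module Polynomial

theorem sfr_main {F : Type*} [Field F] [Fintype F] (p : ℕ) [Fact p.Prime] [CharP F p]
    (n : ℕ) (hn : 2 ≤ n) (F₀ : Subfield F) (k q₀ : ℕ) (hk : k.Prime) (hF₀ : Nat.card ↥F₀ = q₀)
    (hqk : Fintype.card F = q₀ ^ k) (r : ℕ) [Fact r.Prime] (hr2 : r ≠ 2) (hrp : r ≠ p)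
    (hgap : ¬ (n = 6 ∧ r = 3))
    (hgapk : r = k → r ∣ q₀ - 1 → padicValNat r n ≤ padicValNat r (Fintype.card F - 1))
    (hΩ : r ∣ (subH F₀ n).index) :
    (∀ x : Matrix.SpecialLinearGroup (Fin n) F,
      (∃ z : F, ((x ^ r : Matrix.SpecialLinearGroup (Fin n) F) : Matrix (Fin n) (Fin n) F)
        = z • (1 : Matrix (Fin n) (Fin n) F)) →
      (∀ z : F, (x : Matrix (Fin n) (Fin n) F) ≠ z • (1 : Matrix (Fin n) (Fin n) F)) →
      IsConj F₀ x) ↔
    (r = k ∨ (k = 2 ∧ r = n ∧ (n = 3 ∨ n = 5) ∧ padicValNat r (q₀ + 1) = 1)) := by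
  classical
  have hr : r.Prime := Fact.out
  have hp : p.Prime := Fact.out
  have hq2 : 2 ≤ Fintype.card F := Fintype.one_lt_card
  have hrF : (r : F) ≠ 0 := by
    intro h
    rw [CharP.cast_eq_zero_iff F p r] at h
    exact hrp ((Nat.prime_dvd_prime_iff_eq hp hr).mp h).symm
  have hqr : ¬ r ∣ Fintype.card F := by
    intro h
    obtain ⟨m, -, hm⟩ := FiniteField.card F p
    rw [hm] at h
    exact hrp ((Nat.prime_dvd_prime_iff_eq hr hp).mp (hr.dvd_of_dvd_pow h))
  have hq₀pos : 1 ≤ q₀ := by
    rcases Nat.eq_zero_or_pos q₀ with h0 | h0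
    · rw [h0, zero_pow hk.ne_zero] at hqk
      omega
    · exact h0
  have hr3 : 3 ≤ r := by
    have := hr.two_le
    omega
  constructor
  swap
  · rintro (hrk | ⟨hk2, hrn, h35, hv⟩)
    · subst hrk
      intro x ⟨z, hz⟩ _
      exact good_of_eq F₀ q₀ hF₀ r hr2 hrF hqk n hn (hgapk rfl) x z hz
    · subst hk2
      subst hrn
      intro x ⟨z, hz⟩ _
      have hr1 : r ∣ q₀ + 1 := dvd_of_one_le_padicValNat (by rw [hv])
      have hrq : r ∣ Fintype.card F - 1 := by
        have hfac : Fintype.card F - 1 = (q₀ - 1) * (q₀ + 1) := by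
          rw [hqk]
          obtain ⟨a, rfl⟩ : ∃ a, q₀ = a + 1 := ⟨q₀ - 1, by omega⟩
          have : (a + 1) ^ 2 = a * (a + 1 + 1) + 1 := by ring
          rw [this]
          simp
        rw [hfac]
        exact Dvd.dvd.mul_left hr1 _
      exact Cfsg.Agent.Helper46.sfrx_good_of_exc_core F₀ q₀ hF₀ r h35 hrF hqk hv x z hz
        (fun y w hw hy => Cfsg.Agent.Helper60.det_of_irr r hr2 r y w hw hy)
        (fun T hT ζ hζ hζ1 =>
          Cfsg.Agent.Helper99.diag_basis T r hrF hT ζ hζ hζ1 r (Module.finrank_fin_fun F))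
        (fun T hT hsym => Cfsg.Agent.Helper44.rat_sym F₀ q₀ hF₀ r hr2 hrF hrq hr1 T hT hsym)
        (fun c hc hrat hcent => conj_of_rat F₀ r x c hc hrat hcent)
  · intro hL
    by_cases hrk : r = k
    · exact Or.inl hrk
    right
    have key : IsBad F₀ n r → False := fun ⟨x, hx, hns, hnc⟩ => hnc (hL x hx hns)
    by_cases hkc : k ∣ orderOf ((q₀ : ℕ) : ZMod r)
    swap
    · exact absurd hΩ
        (Cfsg.Agent.Helper60.index_case_one p F₀ q₀ k hk hF₀ hqk r hr2 hrp hrk hkc n (by omega))
    have hunit : IsUnit ((Fintype.card F : ℕ) : ZMod r) := by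
      rw [ZMod.isUnit_iff_coprime]
      exact ((Nat.Prime.coprime_iff_not_dvd hr).mpr hqr).symm
    have hi0 : 0 < orderOf ((Fintype.card F : ℕ) : ZMod r) := by
      rw [orderOf_pos_iff, isOfFinOrder_iff_isUnit]
      exact hunit
    have hone : orderOf ((Fintype.card F : ℕ) : ZMod r) = 1 ↔ r ∣ Fintype.card F - 1 := by
      rw [orderOf_eq_one_iff]
      constructor
      · intro hi1
        have h1 : ((Fintype.card F : ℕ) : ZMod r) = ((1 : ℕ) : ZMod r) := by
          rw [hi1, Nat.cast_one]
        rw [ZMod.natCast_eq_natCast_iff] at h1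
        exact (Nat.modEq_iff_dvd' (by omega)).mp h1.symm
      · intro h
        have h1 : ((Fintype.card F : ℕ) : ZMod r) = ((1 : ℕ) : ZMod r) := by
          rw [ZMod.natCast_eq_natCast_iff]
          exact ((Nat.modEq_iff_dvd' (by omega)).mpr h).symm
        rw [h1, Nat.cast_one]
    by_cases hq1 : r ∣ Fintype.card F - 1
    · -- the split case: `r ∣ q - 1`, `ord_r(q₀) = k`
      have hpow : ((q₀ : ℕ) : ZMod r) ^ k = 1 := by
        have h1 := hone.mpr hq1
        rw [orderOf_eq_one_iff, hqk, Nat.cast_pow] at h1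
        exact h1
      have hc₀ : orderOf ((q₀ : ℕ) : ZMod r) = k :=
        Nat.dvd_antisymm (orderOf_dvd_of_pow_eq_one hpow) hkc
      have hcast1 : ∀ m : ℕ, 1 ≤ m → (r ∣ m - 1 ↔ ((m : ℕ) : ZMod r) = 1) := by
        intro m hm
        rw [← (ZMod.natCast_eq_zero_iff (m - 1) r), Nat.cast_sub hm, Nat.cast_one, sub_eq_zero]
      have hr0 : ¬ r ∣ q₀ - 1 := by
        intro h
        rw [(hcast1 q₀ hq₀pos).mp h, orderOf_one] at hc₀
        exact hk.ne_one hc₀.symm
      have hplus : r ∣ q₀ + 1 ↔ ((q₀ : ℕ) : ZMod r) = -1 := by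
        rw [← (ZMod.natCast_eq_zero_iff (q₀ + 1) r), Nat.cast_add, Nat.cast_one,
          add_eq_zero_iff_eq_neg]
      rcases lt_trichotomy (padicValNat r n) (padicValNat r (Fintype.card F - 1)) with
        hlt | heq | hgt
      · by_cases hn3 : 3 ≤ n
        · exact (key (Cfsg.Agent.Helper80.bad_homology F₀ q₀ hF₀ r hq1 hr0 n hn3 hlt)).elim
        · have hn2 : n = 2 := by omega
          subst hn2
          by_cases hk2 : k = 2
          · subst hk2
            have hr1 : r ∣ q₀ + 1 := by
              rw [hplus]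
              have h1 : (((q₀ : ℕ) : ZMod r) - 1) * (((q₀ : ℕ) : ZMod r) + 1) = 0 := by
                have : (((q₀ : ℕ) : ZMod r) - 1) * (((q₀ : ℕ) : ZMod r) + 1)
                    = ((q₀ : ℕ) : ZMod r) ^ 2 - 1 := by ring
                rw [this, hpow, sub_self]
              rcases mul_eq_zero.mp h1 with h | h
              · exact absurd ((hcast1 q₀ hq₀pos).mpr (sub_eq_zero.mp h)) hr0
              · exact add_eq_zero_iff_eq_neg.mp h
            exact absurd hΩ (Cfsg.Agent.Helper29.index_case_two p F₀ q₀ hF₀ hqk r hr2 hrp hr1)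
          · have hr1 : ¬ r ∣ q₀ + 1 := by
              intro h
              rw [hplus] at h
              have h2 : ((q₀ : ℕ) : ZMod r) ^ 2 = 1 := by rw [h]; ring
              have h3 : orderOf ((q₀ : ℕ) : ZMod r) ∣ 2 := orderOf_dvd_of_pow_eq_one h2
              rw [hc₀] at h3
              exact hk2 ((Nat.prime_dvd_prime_iff_eq hk Nat.prime_two).mp h3)
            exact (key (Cfsg.Agent.Helper75.bad_two_core F₀ q₀ hF₀ r hr2 hq1 hr0 hr1
              (fun x d hx h => Cfsg.Agent.Helper51.conj_diag_nec F₀ q₀ hF₀ 2 x d hx h))).elim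
      · by_cases hn6 : 6 ≤ n
        · exact (key (Cfsg.Agent.Helper80.bad_three F₀ q₀ hF₀ r hr2 hq1 hr0 n hn6 hgap)).elim
        · have he : 1 ≤ padicValNat r (Fintype.card F - 1) :=
            one_le_padicValNat_of_dvd (by omega) hq1
          have hrn : r ∣ n := dvd_of_one_le_padicValNat (by omega)
          have hrn' : r = n := by
            obtain ⟨m, hm⟩ := hrn
            rcases m with _ | _ | m
            · omega
            · omega
            · have : 6 ≤ r * (m + 1 + 1) := by nlinarith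
              omega
          subst hrn'
          have h35 : r = 3 ∨ r = 5 := by
            have h4 : r ≠ 4 := by
              rintro rfl
              exact absurd hr (by decide)
            omega
          have hkr : k ∣ r - 1 := by
            rw [← hc₀]
            apply ZMod.orderOf_dvd_card_sub_one
            intro h0
            rw [h0, zero_pow hk.ne_zero] at hpow
            exact zero_ne_one hpow
          have hk2 : k = 2 := by
            rcases h35 with h | h
            · rw [h] at hkr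
              exact (Nat.prime_dvd_prime_iff_eq hk Nat.prime_two).mp hkr
            · rw [h] at hkr
              have : k ∣ 2 ^ 2 := hkr
              exact (Nat.prime_dvd_prime_iff_eq hk Nat.prime_two).mp (hk.dvd_of_dvd_pow this)
          refine ⟨hk2, rfl, h35, ?_⟩
          subst hk2
          have hfac : Fintype.card F - 1 = (q₀ - 1) * (q₀ + 1) := by
            rw [hqk]
            obtain ⟨a, rfl⟩ : ∃ a, q₀ = a + 1 := ⟨q₀ - 1, by omega⟩
            have : (a + 1) ^ 2 = a * (a + 1 + 1) + 1 := by ring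
            rw [this]
            simp
          have hq₀2 : q₀ - 1 ≠ 0 := by
            intro h0
            exact hr0 (by rw [h0]; exact dvd_zero r)
          have hv1 : padicValNat r (Fintype.card F - 1)
              = padicValNat r (q₀ - 1) + padicValNat r (q₀ + 1) := by
            rw [hfac]
            exact padicValNat.mul hq₀2 (by omega)
          have hv0 : padicValNat r (q₀ - 1) = 0 := padicValNat.eq_zero_of_not_dvd hr0
          have hvr : padicValNat r r = 1 := padicValNat_self
          omega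
      · exact (key (Cfsg.Agent.Helper60.bad_irr F₀ q₀ hF₀ r hr2 hq1 hr0 n hn hgt)).elim
    · -- the non-split case: `ord_r(q) ≥ 2`
      have hc2 : 2 ≤ orderOf ((Fintype.card F : ℕ) : ZMod r) := by
        have h1 := hone.not.mpr hq1
        omega
      have hrGL : r ∣ Nat.card (GL (Fin n) F) := by
        have h1 : (subH F₀ n).index ∣ Nat.card (Matrix.SpecialLinearGroup (Fin n) F) :=
          Subgroup.index_dvd_card _
        have h2 : Nat.card (Matrix.SpecialLinearGroup (Fin n) F) ∣ Nat.card (GL (Fin n) F) :=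
          Subgroup.card_dvd_of_injective Matrix.SpecialLinearGroup.toGL
            Matrix.SpecialLinearGroup.toGL_injective
        exact (hΩ.trans h1).trans h2
      have hcn := Cfsg.Agent.Helper41.order_le_of_gl r hrF hrGL
      exact (key (bad_nonsplit p F₀ q₀ k hF₀ hqk hk.two_le r hrp hkc hc2 n hcn)).elim

end Cfsg.Agent.Helper90.SFR
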