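import Mathlib
import Cfsg.Agent.S0093
import Cfsg.Agent.S0126

/-!
Helper90: a refined form of Thompson's critical subgroup (the construction of `S0093`, keeping
the maximal characteristic abelian subgroup `A` and the elementwise properties of the critical
subgroup `H`).
-/

set_option autoImplicit false

namespace Cfsg.Agent.Helper90

open Cfsg.Agent.S0126 in
/-- A maximal characteristic abelian subgroup `A` of a finite `p`-group `P` and the attached
critical subgroup `H`: `H` centralizes `A`, `[H, P] ≤ A`, `H^p ≤ A` and `C_P(H) ≤ A`. -/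
theorem exists_crit_pair {P : Type*} [Group P] [Finite P] {p : ℕ} [Fact p.Prime]
    (hP : IsPGroup p P) :
    ∃ A H : Subgroup P, A.Characteristic ∧ IsMulCommutative A ∧
      (∀ B : Subgroup P, B.Characteristic → IsMulCommutative B → A ≤ B → B = A) ∧
      H ≤ Subgroup.centralizer (A : Set P) ∧
      (∀ x ∈ H, ∀ g : P, x * g * x⁻¹ * g⁻¹ ∈ A) ∧ (∀ x ∈ H, x ^ p ∈ A) ∧
      Subgroup.centralizer (H : Set P) ≤ A := by
  have hpp : p.Prime := Fact.out
  obtain ⟨A, hAch, hAc, hAmax⟩ := Cfsg.Agent.S0093.exists_max_char_abelian (P := P)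
  have hAn : A.Normal := Subgroup.normal_of_characteristic A
  have hAcent : A ≤ Subgroup.centralizer (A : Set P) :=
    Subgroup.le_centralizer_iff_isMulCommutative.mpr hAc
  have hmk1 : ∀ x : P, (QuotientGroup.mk' A x = 1) ↔ x ∈ A := fun x => by
    rw [QuotientGroup.mk'_apply, QuotientGroup.eq_one_iff]
  have hcenterA : ∀ x : P, QuotientGroup.mk' A x ∈ Subgroup.center (P ⧸ A) ↔
      ∀ g : P, x * g * x⁻¹ * g⁻¹ ∈ A := by
    intro x
    constructor
    · intro hx g
      have h1 := Subgroup.mem_center_iff.mp hx (QuotientGroup.mk' A g)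
      rw [← hmk1, map_mul, map_mul, map_mul, map_inv, map_inv, ← h1]; group
    · intro hx
      rw [Subgroup.mem_center_iff]
      intro q
      obtain ⟨g, rfl⟩ := QuotientGroup.mk'_surjective A q
      have h1 := hx g
      rw [← hmk1] at h1
      simp only [map_mul, map_inv] at h1
      calc QuotientGroup.mk' A g * QuotientGroup.mk' A x
          = (QuotientGroup.mk' A x * QuotientGroup.mk' A g * (QuotientGroup.mk' A x)⁻¹ *
              (QuotientGroup.mk' A g)⁻¹)⁻¹ * (QuotientGroup.mk' A x * QuotientGroup.mk' A g) := by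
            group
        _ = QuotientGroup.mk' A x * QuotientGroup.mk' A g := by rw [h1, inv_one, one_mul]
  have hpowA : ∀ x : P, (QuotientGroup.mk' A x) ^ p = 1 ↔ x ^ p ∈ A := by
    intro x
    rw [← map_pow, hmk1]
  let H : Subgroup P :=
    { carrier := {x | x ∈ Subgroup.centralizer (A : Set P) ∧
        QuotientGroup.mk' A x ∈ Subgroup.center (P ⧸ A) ∧ (QuotientGroup.mk' A x) ^ p = 1}
      mul_mem' := by
        rintro x y ⟨hx1, hx2, hx3⟩ ⟨hy1, hy2, hy3⟩
        refine ⟨Subgroup.mul_mem _ hx1 hy1, by rw [map_mul]; exact Subgroup.mul_mem _ hx2 hy2, ?_⟩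
        rw [map_mul, (show Commute (QuotientGroup.mk' A x) (QuotientGroup.mk' A y) from
          Subgroup.mem_center_iff.mp hy2 _).mul_pow, hx3, hy3, one_mul]
      one_mem' := ⟨Subgroup.one_mem _, by rw [map_one]; exact Subgroup.one_mem _,
        by rw [map_one, one_pow]⟩
      inv_mem' := by
        rintro x ⟨hx1, hx2, hx3⟩
        exact ⟨Subgroup.inv_mem _ hx1, by rw [map_inv]; exact Subgroup.inv_mem _ hx2,
          by rw [map_inv, inv_pow, hx3, inv_one]⟩ }
  have hHmem : ∀ x : P, x ∈ H ↔ x ∈ Subgroup.centralizer (A : Set P) ∧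
      QuotientGroup.mk' A x ∈ Subgroup.center (P ⧸ A) ∧ (QuotientGroup.mk' A x) ^ p = 1 :=
    fun x => Iff.rfl
  have hAH : A ≤ H := by
    intro a ha
    rw [hHmem]
    have h1 : QuotientGroup.mk' A a = 1 := (hmk1 a).mpr ha
    exact ⟨hAcent ha, by rw [h1]; exact Subgroup.one_mem _, by rw [h1, one_pow]⟩
  have hHC : H ≤ Subgroup.centralizer (A : Set P) := fun x hx => ((hHmem x).mp hx).1
  have hAcH : A ≤ Subgroup.centralizer (H : Set P) := Subgroup.le_centralizer_iff.mp hHC
  have hHcommA : ∀ x ∈ H, ∀ g : P, x * g * x⁻¹ * g⁻¹ ∈ A :=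
    fun x hx => (hcenterA x).mp ((hHmem x).mp hx).2.1
  have hHpowA : ∀ x ∈ H, x ^ p ∈ A := fun x hx => (hpowA x).mp ((hHmem x).mp hx).2.2
  have hAchar' := Subgroup.characteristic_iff_le_comap.mp hAch
  have hHch : H.Characteristic := by
    rw [Subgroup.characteristic_iff_le_comap]
    intro ϕ x hx
    rw [Subgroup.mem_comap, hHmem]
    refine ⟨?_, ?_, ?_⟩
    · rw [Subgroup.mem_centralizer_iff]
      intro a ha
      have ha' : ϕ.symm a ∈ A := hAchar' ϕ.symm ha
      have h1 := Subgroup.mem_centralizer_iff.mp (hHC hx) _ ha'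
      have h2 := congrArg ϕ h1
      rw [map_mul, map_mul, MulEquiv.apply_symm_apply] at h2
      exact h2
    · rw [hcenterA]
      intro g
      have h1 := hHcommA x hx (ϕ.symm g)
      have h2 : ϕ (x * ϕ.symm g * x⁻¹ * (ϕ.symm g)⁻¹) ∈ A := hAchar' ϕ h1
      rw [map_mul, map_mul, map_mul, map_inv, map_inv, MulEquiv.apply_symm_apply] at h2
      exact h2
    · rw [hpowA]
      have h1 : ϕ (x ^ p) ∈ A := hAchar' ϕ (hHpowA x hx)
      rw [map_pow] at h1
      exact h1
  refine ⟨A, H, hAch, hAc, hAmax, hHC, hHcommA, hHpowA, ?_⟩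
  have hZch : (H ⊓ Subgroup.centralizer (H : Set P)).Characteristic := inferInstance
  have hZc : IsMulCommutative ↥(H ⊓ Subgroup.centralizer (H : Set P)) := by
    refine ⟨⟨fun a b => ?_⟩⟩
    apply Subtype.ext
    have ha := (Subgroup.mem_inf.mp a.2).2
    have hb := (Subgroup.mem_inf.mp b.2).1
    exact (Subgroup.mem_centralizer_iff.mp ha b.1 hb).symm
  have hZA : H ⊓ Subgroup.centralizer (H : Set P) = A :=
    hAmax _ hZch hZc (le_inf hAH hAcH)
  have hQn : (Subgroup.centralizer (H : Set P)).Normal := Subgroup.normal_of_characteristic _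
  intro x hxQ
  by_contra hxA
  have hne : (Subgroup.centralizer (H : Set P)).map (QuotientGroup.mk' A) ≠ ⊥ := by
    intro hb
    have : QuotientGroup.mk' A x ∈ (Subgroup.centralizer (H : Set P)).map (QuotientGroup.mk' A) :=
      Subgroup.mem_map_of_mem _ hxQ
    rw [hb, Subgroup.mem_bot, hmk1] at this
    exact hxA this
  have hnb : ((Subgroup.centralizer (H : Set P)).map (QuotientGroup.mk' A)).Normal :=
    hQn.map _ (QuotientGroup.mk'_surjective A)
  obtain ⟨w', hw'Q, hw'c, hw'o⟩ := exists_central_order_p (hP.to_quotient A) _ hne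
  obtain ⟨w, hwQ, rfl⟩ := hw'Q
  have hwH : w ∈ H := by
    rw [hHmem]
    refine ⟨Subgroup.centralizer_le (show (A : Set P) ⊆ H from hAH) hwQ, hw'c, ?_⟩
    rw [← hw'o]; exact pow_orderOf_eq_one _
  have hwA : w ∈ A := by
    rw [← hZA]; exact ⟨hwH, hwQ⟩
  rw [(hmk1 w).mpr hwA, orderOf_one] at hw'o
  exact hpp.one_lt.ne hw'o

end Cfsg.Agent.Helper90
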