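import Mathlib
import Cfsg.Agent.Helper90.Conj
import Cfsg.Agent.Helper90.FourGroup

/-!
Helper90: fusion of the central involution `z` of a 2-group `Q = F*(C_G(z))` of symplectic type and
exponent 4 (elementwise data `SES Q z`): if a conjugate `b` of `z` lies in `Q ∖ {z}` then `z` lies
in the attached conjugate `Q1` of `Q`, and `⟨Q, Q1⟩` induces `S₃` on `⟨z, b⟩`.
-/

set_option autoImplicit false

namespace Cfsg.Agent.Helper90

/-- Elementwise data of a subgroup `Q` of `G` "of symplectic type and exponent 4" with central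
involution `z`: all squares of `Q` lie in `{1, z}`, `z` is the only central involution of `Q`,
`C_G(Q) ≤ Q`, and the centralizer of `z` in `G` normalizes `Q`. -/
structure SES {G : Type*} [Group G] (Q : Subgroup G) (z : G) : Prop where
  mem : z ∈ Q
  ne_one : z ≠ 1
  sq : z * z = 1
  central : ∀ q ∈ Q, q * z = z * q
  sqs : ∀ x ∈ Q, x * x = 1 ∨ x * x = z
  cent : ∀ x : G, (∀ q ∈ Q, q * x = x * q) → x ∈ Q
  cent_inv : ∀ x ∈ Q, (∀ q ∈ Q, q * x = x * q) → x * x = 1 → x = 1 ∨ x = z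
  norm : ∀ c : G, c * z = z * c → ∀ q ∈ Q, c * q * c⁻¹ ∈ Q

namespace SES

variable {G : Type*} [Group G] {Q Q1 : Subgroup G} {z b : G}

theorem inv_eq (h : SES Q z) : z⁻¹ = z := inv_eq_of_mul_eq_one_left h.sq

/-- Squares of elements of `Q` are central in `Q`. -/
theorem sq_central (h : SES Q z) {x : G} (hx : x ∈ Q) {q : G} (hq : q ∈ Q) :
    q * (x * x) = (x * x) * q := by
  rcases h.sqs x hx with h1 | h1
  · rw [h1, mul_one, one_mul]
  · rw [h1]; exact h.central q hq

/-- Commutators of `Q` lie in `{1, z}`. -/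
theorem comm (h : SES Q z) (x : G) (hx : x ∈ Q) (y : G) (hy : y ∈ Q) :
    x * y * x⁻¹ * y⁻¹ = 1 ∨ x * y * x⁻¹ * y⁻¹ = z := by
  have hzinv := h.inv_eq
  have key : x * y * x⁻¹ * y⁻¹ = (x * y * (x * y)) * (x * x)⁻¹ * (y * y)⁻¹ := by
    have h1 : y * (x * x)⁻¹ = (x * x)⁻¹ * y := by
      have := h.sq_central hx hy
      calc y * (x * x)⁻¹ = (x * x)⁻¹ * ((x * x) * y) * (x * x)⁻¹ := by group
        _ = (x * x)⁻¹ * (y * (x * x)) * (x * x)⁻¹ := by rw [this]
        _ = (x * x)⁻¹ * y := by group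
    calc x * y * x⁻¹ * y⁻¹ = x * y * x * ((x * x)⁻¹ * y) * (y * y)⁻¹ := by group
      _ = x * y * x * (y * (x * x)⁻¹) * (y * y)⁻¹ := by rw [h1]
      _ = (x * y * (x * y)) * (x * x)⁻¹ * (y * y)⁻¹ := by group
  rw [key]
  rcases h.sqs x hx with h1 | h1 <;> rcases h.sqs y hy with h2 | h2 <;>
    rcases h.sqs (x * y) (Q.mul_mem hx hy) with h3 | h3 <;>
    simp [h1, h2, h3, hzinv, h.sq, h.ne_one]

/-- Commutators in `Q`: two elements commute or their commutator is `z`. -/
theorem comm_of_ne (h : SES Q z) {x y : G} (hx : x ∈ Q) (hy : y ∈ Q) (hne : x * y ≠ y * x) :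
    x * y * x⁻¹ * y⁻¹ = z := by
  rcases h.comm x hx y hy with h1 | h1
  · exfalso
    apply hne
    have : x * y * x⁻¹ * y⁻¹ * (y * x) = y * x := by rw [h1, one_mul]
    rw [← this]; group
  · exact h1

/-- A non-central involution `b` of `Q` is conjugate in `Q` to `z * b`. -/
theorem exists_conj (h : SES Q z) {b : G} (hb : b ∈ Q) (hb1 : b ≠ 1) (hbz : b ≠ z)
    (hbb : b * b = 1) : ∃ q ∈ Q, q * b * q⁻¹ = z * b := by
  obtain ⟨q, hq, hqb⟩ : ∃ q ∈ Q, q * b ≠ b * q := by
    by_contra hcon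
    rcases h.cent_inv b hb (fun q hq => by
      by_contra hne
      exact hcon ⟨q, hq, hne⟩) hbb with h1 | h1
    · exact hb1 h1
    · exact hbz h1
  refine ⟨q, hq, ?_⟩
  have := h.comm_of_ne hq hb hqb
  have e : q * b * q⁻¹ = q * b * q⁻¹ * b⁻¹ * b := by group
  rw [e, this]

/-- The data is invariant under conjugation. -/
theorem conj (h : SES Q z) (g : G) : SES (Q.map (MulAut.conj g).toMonoidHom) (g * z * g⁻¹) := by
  have hm : ∀ x : G, x ∈ Q.map (MulAut.conj g).toMonoidHom ↔ g⁻¹ * x * g ∈ Q :=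
    fun x => mem_map_conj_iff Q g x
  have hback : ∀ x : G, (∀ q ∈ Q.map (MulAut.conj g).toMonoidHom, q * x = x * q) →
      ∀ q ∈ Q, q * (g⁻¹ * x * g) = (g⁻¹ * x * g) * q := by
    intro x hx q hq
    have hq' : g * q * g⁻¹ ∈ Q.map (MulAut.conj g).toMonoidHom := by
      rw [hm]
      have : g⁻¹ * (g * q * g⁻¹) * g = q := by group
      rw [this]; exact hq
    have h2 := hx _ hq'
    have e1 : q * (g⁻¹ * x * g) = g⁻¹ * ((g * q * g⁻¹) * x) * g := by group
    rw [e1, h2]; group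
  refine ⟨?_, ?_, ?_, ?_, ?_, ?_, ?_, ?_⟩
  · rw [hm]
    have : g⁻¹ * (g * z * g⁻¹) * g = z := by group
    rw [this]; exact h.mem
  · intro hh
    apply h.ne_one
    have : z = g⁻¹ * (g * z * g⁻¹) * g := by group
    rw [this, hh]; group
  · have : g * z * g⁻¹ * (g * z * g⁻¹) = g * (z * z) * g⁻¹ := by group
    rw [this, h.sq]; group
  · intro q hq
    have h1 := h.central _ ((hm q).mp hq)
    have e1 : q * (g * z * g⁻¹) = g * ((g⁻¹ * q * g) * z) * g⁻¹ := by group
    rw [e1, h1]; group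
  · intro x hx
    have h1 := h.sqs _ ((hm x).mp hx)
    have e1 : g⁻¹ * x * g * (g⁻¹ * x * g) = g⁻¹ * (x * x) * g := by group
    rw [e1] at h1
    rcases h1 with h1 | h1
    · left
      have : x * x = g * (g⁻¹ * (x * x) * g) * g⁻¹ := by group
      rw [this, h1]; group
    · right
      have : x * x = g * (g⁻¹ * (x * x) * g) * g⁻¹ := by group
      rw [this, h1]
  · intro x hx
    rw [hm]
    exact h.cent _ (hback x hx)
  · intro x hxQ hx hxx
    have h1 : (g⁻¹ * x * g) * (g⁻¹ * x * g) = 1 := by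
      have e1 : g⁻¹ * x * g * (g⁻¹ * x * g) = g⁻¹ * (x * x) * g := by group
      rw [e1, hxx]; group
    rcases h.cent_inv _ ((hm x).mp hxQ) (hback x hx) h1 with h2 | h2
    · left
      have : x = g * (g⁻¹ * x * g) * g⁻¹ := by group
      rw [this, h2]; group
    · right
      have : x = g * (g⁻¹ * x * g) * g⁻¹ := by group
      rw [this, h2]
  · intro c hc q hq
    rw [hm] at hq ⊢
    have h1 : (g⁻¹ * c * g) * z = z * (g⁻¹ * c * g) := by
      have e1 : (g⁻¹ * c * g) * z = g⁻¹ * (c * (g * z * g⁻¹)) * g := by group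
      rw [e1, hc]; group
    have h2 := h.norm _ h1 _ hq
    have e2 : g⁻¹ * c * g * (g⁻¹ * q * g) * (g⁻¹ * c * g)⁻¹ = g⁻¹ * (c * q * c⁻¹) * g := by group
    rwa [e2] at h2

end SES

end Cfsg.Agent.Helper90
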