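import Mathlib
import Cfsg.Agent.Helper90.SympFusion
import Cfsg.Agent.Helper90.FourGroup

/-!
Helper90: the main fusion step for `SES` data: `z ∈ Q1`, and the `S₃`-action on `⟨z, b⟩`.
-/

set_option autoImplicit false

namespace Cfsg.Agent.Helper90

namespace SES

variable {G : Type*} [Group G] {Q Q1 : Subgroup G} {z b : G}

/-- Main step: if `b ∈ Q` is a conjugate of `z` other than `z`, with attached conjugate `Q1` of
`Q` (`hlink` says that `Q1` is the conjugate of `Q` attached to `b`), then `z ∈ Q1`. -/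
theorem center_mem_conj (hQ : SES Q z) (hQ1 : SES Q1 b) (hbQ : b ∈ Q) (hbz : b ≠ z)
    (hlink : ∀ n : G, n * z * n⁻¹ = b → ∀ q ∈ Q, n * q * n⁻¹ ∈ Q1) : z ∈ Q1 := by
  by_contra hz
  have hzb : z * b = b * z := (hQ.central b hbQ).symm
  have hb1 : b ≠ 1 := hQ1.ne_one
  have hbb : b * b = 1 := hQ1.sq
  have hbinv : b⁻¹ = b := hQ1.inv_eq
  have hzinv : z⁻¹ = z := hQ.inv_eq
  obtain ⟨q₀, hq₀, hq₀b⟩ := hQ.exists_conj hbQ hb1 hbz hbb
  have hq₀b' : q₀⁻¹ * (z * b) * q₀ = b := by rw [← hq₀b]; group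
  -- every element of `Q` lies in `C_Q(b)` or in `q₀ C_Q(b)`
  have hcoset : ∀ q ∈ Q, q * b = b * q ∨ (q₀⁻¹ * q) * b = b * (q₀⁻¹ * q) := by
    intro q hq
    by_cases h : q * b = b * q
    · left; exact h
    · right
      have h1 := hQ.comm_of_ne hq hbQ h
      have h2 : q * b * q⁻¹ = z * b := by
        calc q * b * q⁻¹ = q * b * q⁻¹ * b⁻¹ * b := by group
          _ = z * b := by rw [h1]
      calc (q₀⁻¹ * q) * b = q₀⁻¹ * (q * b * q⁻¹) * q₀ * (q₀⁻¹ * q) := by group
        _ = b * (q₀⁻¹ * q) := by rw [h2, hq₀b']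
  -- centrality criterion
  have hcrit : ∀ x : G, (∀ p ∈ Q, p * b = b * p → p * x = x * p) → q₀ * x = x * q₀ →
      ∀ q ∈ Q, q * x = x * q := by
    intro x hx hx0 q hq
    rcases hcoset q hq with h | h
    · exact hx q hq h
    · have h1 := hx (q₀⁻¹ * q) (Q.mul_mem (Q.inv_mem hq₀) hq) h
      calc q * x = q₀ * ((q₀⁻¹ * q) * x) := by group
        _ = q₀ * (x * (q₀⁻¹ * q)) := by rw [h1]
        _ = (q₀ * x) * (q₀⁻¹ * q) := by group
        _ = x * q₀ * (q₀⁻¹ * q) := by rw [hx0]
        _ = x * q := by group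
  -- involutions of `Q` centralizing `C_Q(b)` lie in `{1, z, b, z b}`
  have hdc : ∀ x ∈ Q, (∀ p ∈ Q, p * b = b * p → p * x = x * p) → x * x = 1 →
      x = 1 ∨ x = z ∨ x = b ∨ x = z * b := by
    intro x hxQ hx hxx
    by_cases h0 : q₀ * x = x * q₀
    · rcases hQ.cent_inv x hxQ (hcrit x hx h0) hxx with h | h
      · exact Or.inl h
      · exact Or.inr (Or.inl h)
    · have h1 := hQ.comm_of_ne hq₀ hxQ h0
      have hbx : b * x = x * b := hx b hbQ rfl
      have e1 : q₀ * x * q₀⁻¹ = z * x := by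
        calc q₀ * x * q₀⁻¹ = q₀ * x * q₀⁻¹ * x⁻¹ * x := by group
          _ = z * x := by rw [h1]
      have e2 : q₀ * (x * b) * q₀⁻¹ = x * b := by
        calc q₀ * (x * b) * q₀⁻¹ = (q₀ * x * q₀⁻¹) * (q₀ * b * q₀⁻¹) := by group
          _ = z * x * (z * b) := by rw [e1, hq₀b]
          _ = z * (x * z) * b := by group
          _ = z * (z * x) * b := by rw [hQ.central x hxQ]
          _ = (z * z) * x * b := by group
          _ = x * b := by rw [hQ.sq, one_mul]
      have h2 : q₀ * (x * b) = (x * b) * q₀ := by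
        calc q₀ * (x * b) = q₀ * (x * b) * q₀⁻¹ * q₀ := by group
          _ = x * b * q₀ := by rw [e2]
      have h3 : ∀ p ∈ Q, p * b = b * p → p * (x * b) = (x * b) * p := by
        intro p hp hpb
        rw [← mul_assoc, hx p hp hpb, mul_assoc, hpb, mul_assoc]
      have h4 : (x * b) * (x * b) = 1 := by
        calc x * b * (x * b) = x * (b * x) * b := by group
          _ = x * (x * b) * b := by rw [hbx]
          _ = (x * x) * (b * b) := by group
          _ = 1 := by rw [hxx, hbb, mul_one]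
      rcases hQ.cent_inv (x * b) (Q.mul_mem hxQ hbQ) (hcrit _ h3 h2) h4 with h | h
      · right; right; left
        have : x = x * b * b⁻¹ := by group
        rw [this, h, one_mul, hbinv]
      · right; right; right
        have : x = x * b * b⁻¹ := by group
        rw [this, h, hbinv]
  -- Step 1: `Q ∩ Q1 ⊆ {1, b}`
  have hint : ∀ x ∈ Q, x ∈ Q1 → x = 1 ∨ x = b := by
    intro x hx hx1
    have h1a : ∀ p ∈ Q, p * b = b * p → p * x = x * p := by
      intro p hp hpb
      by_contra hne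
      have h1 := hQ.comm_of_ne hp hx hne
      have h2 : p * x * p⁻¹ * x⁻¹ ∈ Q1 := Q1.mul_mem (hQ1.norm p hpb x hx1) (Q1.inv_mem hx1)
      rw [h1] at h2
      exact hz h2
    have h1b : x * x = 1 := by
      rcases hQ.sqs x hx with h | h
      · exact h
      · exfalso
        rcases hQ1.sqs x hx1 with h' | h'
        · exact hQ.ne_one (h.symm.trans h')
        · exact hbz (h'.symm.trans h)
    rcases hdc x hx h1a h1b with h | h | h | h
    · exact Or.inl h
    · exfalso; rw [h] at hx1; exact hz hx1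
    · exact Or.inr h
    · exfalso
      apply hz
      have : z = x * b⁻¹ := by rw [h]; group
      rw [this]
      exact Q1.mul_mem hx1 (Q1.inv_mem hQ1.mem)
  by_cases hA : ∃ y ∈ Q1, z * y * z⁻¹ * y⁻¹ = b
  · -- Case A
    obtain ⟨y, hy, hyb⟩ := hA
    have hyz : y * z * y⁻¹ = z * b := by
      have h1 : (z * y * z⁻¹ * y⁻¹)⁻¹ = b⁻¹ := by rw [hyb]
      have h2 : (z * y * z⁻¹ * y⁻¹)⁻¹ = y * z * y⁻¹ * z⁻¹ := by group
      rw [h2, hbinv] at h1
      have h3 : y * z * y⁻¹ = y * z * y⁻¹ * z⁻¹ * z := by group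
      rw [h3, h1, hzb]
    have hyb' : y * b * y⁻¹ = b := by
      have := hQ1.central y hy
      rw [this]; group
    have hqz : q₀ * z * q₀⁻¹ = z := by
      have := hQ.central q₀ hq₀
      rw [this]; group
    have hn1 : (y * q₀) * z * (y * q₀)⁻¹ = z * b := by
      have : (y * q₀) * z * (y * q₀)⁻¹ = y * (q₀ * z * q₀⁻¹) * y⁻¹ := by group
      rw [this, hqz, hyz]
    have hn2 : (y * q₀) * b * (y * q₀)⁻¹ = z := by
      have : (y * q₀) * b * (y * q₀)⁻¹ = y * (q₀ * b * q₀⁻¹) * y⁻¹ := by group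
      rw [this, hq₀b]
      have : y * (z * b) * y⁻¹ = (y * z * y⁻¹) * (y * b * y⁻¹) := by group
      rw [this, hyz, hyb', mul_assoc, hQ1.sq, mul_one]
    have hn3 : ((y * q₀) * (y * q₀)) * z * ((y * q₀) * (y * q₀))⁻¹ = b := by
      have : ((y * q₀) * (y * q₀)) * z * ((y * q₀) * (y * q₀))⁻¹
          = (y * q₀) * ((y * q₀) * z * (y * q₀)⁻¹) * (y * q₀)⁻¹ := by group
      rw [this, hn1]
      have : (y * q₀) * (z * b) * (y * q₀)⁻¹
          = ((y * q₀) * z * (y * q₀)⁻¹) * ((y * q₀) * b * (y * q₀)⁻¹) := by group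
      rw [this, hn1, hn2, hzb, mul_assoc, hQ.sq, mul_one]
    have hn4 : ((y * q₀) * (y * q₀)) * b * ((y * q₀) * (y * q₀))⁻¹ = z * b := by
      have : ((y * q₀) * (y * q₀)) * b * ((y * q₀) * (y * q₀))⁻¹
          = (y * q₀) * ((y * q₀) * b * (y * q₀)⁻¹) * (y * q₀)⁻¹ := by group
      rw [this, hn2, hn1]
    have h5 := hlink _ hn3 b hbQ
    rw [hn4] at h5
    apply hz
    have : z = z * b * b⁻¹ := by group
    rw [this]
    exact Q1.mul_mem h5 (Q1.inv_mem hQ1.mem)
  · -- Case B
    have hB : ∀ y ∈ Q1, z * y * z⁻¹ * y⁻¹ ≠ b := fun y hy hh => hA ⟨y, hy, hh⟩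
    -- commutators `[z, y]`, `y ∈ Q1`, are involutions of `Q1` centralized by `z`
    have h3a : ∀ y ∈ Q1, ∀ w : G, w = z * y * z⁻¹ * y⁻¹ → w ∈ Q1 ∧ w * z = z * w ∧ w * w = 1 := by
      intro y hy w hw
      have hwQ1 : w ∈ Q1 := by
        rw [hw]; exact Q1.mul_mem (hQ1.norm z hzb y hy) (Q1.inv_mem hy)
      have hzw : z * w * z⁻¹ = w⁻¹ := by
        rw [hw, hzinv]
        have e : (z * y * z * y⁻¹)⁻¹ = y * z⁻¹ * y⁻¹ * z⁻¹ := by group
        rw [e, hzinv]
        calc z * (z * y * z * y⁻¹) * z = (z * z) * y * z * y⁻¹ * z := by group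
          _ = y * z * y⁻¹ * z := by rw [hQ.sq, one_mul]
      have hww : w * w = 1 := by
        rcases hQ1.sqs w hwQ1 with h | h
        · exact h
        · exfalso
          apply hB w hwQ1
          rw [hzw]
          calc w⁻¹ * w⁻¹ = (w * w)⁻¹ := by group
            _ = b := by rw [h, hbinv]
      refine ⟨hwQ1, ?_, hww⟩
      have hwinv : w⁻¹ = w := inv_eq_of_mul_eq_one_left hww
      rw [hwinv] at hzw
      calc w * z = z * w * z⁻¹ * z := by rw [hzw]
        _ = z * w := by group
    -- `[C_Q(b), C_{Q1}(z)] ⊆ {1, b}`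
    have hYD : ∀ u ∈ Q1, u * z = z * u → ∀ p ∈ Q, p * b = b * p →
        p * u * p⁻¹ * u⁻¹ = 1 ∨ p * u * p⁻¹ * u⁻¹ = b := by
      intro u hu huz p hp hpb
      apply hint
      · have : p * u * p⁻¹ * u⁻¹ = p * (u * p⁻¹ * u⁻¹) := by group
        rw [this]
        exact Q.mul_mem hp (hQ.norm u huz _ (Q.inv_mem hp))
      · exact Q1.mul_mem (hQ1.norm p hpb u hu) (Q1.inv_mem hu)
    -- claim: `z` centralizes `Q1`
    have hcenQ1 : ∀ y ∈ Q1, z * y * z⁻¹ * y⁻¹ = 1 := by
      by_cases hc : ∃ c ∈ Q, c * b = b * c ∧ c * c = z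
      · obtain ⟨c, hcQ, hcb, hcc⟩ := hc
        have hcz : c * z = z * c := hQ.central c hcQ
        intro y hy
        obtain ⟨v, hvdef⟩ : ∃ v, v = c * y * c⁻¹ * y⁻¹ := ⟨_, rfl⟩
        have hvQ1 : v ∈ Q1 := by
          rw [hvdef]; exact Q1.mul_mem (hQ1.norm c hcb y hy) (Q1.inv_mem hy)
        obtain ⟨w, hwdef⟩ : ∃ w, w = z * y * z⁻¹ * y⁻¹ := ⟨_, rfl⟩
        obtain ⟨hwQ1, hwz, hww⟩ := h3a y hy w hwdef
        have e1 : z * v * z⁻¹ = (c * w * c⁻¹) * v * w⁻¹ := by
          have hzy : z * y * z⁻¹ = w * y := by rw [hwdef]; group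
          have hzc' : z * c⁻¹ * z⁻¹ = c⁻¹ := by
            calc z * c⁻¹ * z⁻¹ = c⁻¹ * (c * z) * c⁻¹ * z⁻¹ := by group
              _ = c⁻¹ * (z * c) * c⁻¹ * z⁻¹ := by rw [hcz]
              _ = c⁻¹ := by group
          calc z * v * z⁻¹ = (z * c) * y * c⁻¹ * y⁻¹ * z⁻¹ := by rw [hvdef]; group
            _ = c * z * y * c⁻¹ * y⁻¹ * z⁻¹ := by rw [← hcz]
            _ = c * (z * y * z⁻¹) * (z * c⁻¹ * z⁻¹) * (z * y * z⁻¹)⁻¹ := by group
            _ = c * (w * y) * c⁻¹ * (w * y)⁻¹ := by rw [hzy, hzc']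
            _ = (c * w * c⁻¹) * v * w⁻¹ := by rw [hvdef]; group
        have e2 := hYD w hwQ1 hwz c hcQ hcb
        have e3 := hQ1.comm w hwQ1 v hvQ1
        have e4 : z * v * z⁻¹ * v⁻¹ = (c * w * c⁻¹ * w⁻¹) * (w * v * w⁻¹ * v⁻¹) := by
          rw [e1]; group
        have e5 : z * v * z⁻¹ * v⁻¹ = 1 := by
          have h := hB v hvQ1
          rcases e2 with h2 | h2 <;> rcases e3 with h3 | h3
          · rw [e4, h2, h3, one_mul]
          · exfalso; apply h; rw [e4, h2, h3, one_mul]
          · exfalso; apply h; rw [e4, h2, h3, mul_one]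
          · rw [e4, h2, h3, hbb]
        have hvz : v * z = z * v := by
          calc v * z = (z * v * z⁻¹ * v⁻¹)⁻¹ * z * v := by group
            _ = z * v := by rw [e5]; group
        have e6 := hYD v hvQ1 hvz c hcQ hcb
        have e7 : z * y * z⁻¹ * y⁻¹ = (c * v * c⁻¹ * v⁻¹) * (v * v) := by
          rw [← hcc, hvdef]; group
        have e8 := hQ1.sqs v hvQ1
        have h := hB y hy
        rcases e6 with h6 | h6 <;> rcases e8 with h8 | h8
        · rw [e7, h6, h8, one_mul]
        · exfalso; apply h; rw [e7, h6, h8, one_mul]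
        · exfalso; apply h; rw [e7, h6, h8, mul_one]
        · rw [e7, h6, h8, hbb]
      · -- small case: `C_Q(b) = {1, z, b, z b}`
        push Not at hc
        have hsq1 : ∀ c ∈ Q, c * b = b * c → c * c = 1 := by
          intro c hcQ hcb
          rcases hQ.sqs c hcQ with h | h
          · exact h
          · exact absurd h (hc c hcQ hcb)
        have hD : ∀ p ∈ Q, p * b = b * p → p = 1 ∨ p = z ∨ p = b ∨ p = z * b := by
          intro p hp hpb
          apply hdc p hp _ (hsq1 p hp hpb)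
          intro p' hp' hp'b
          have h1 := hsq1 p hp hpb
          have h2 := hsq1 p' hp' hp'b
          have h3 := hsq1 (p' * p) (Q.mul_mem hp' hp)
            (by rw [mul_assoc, hpb, ← mul_assoc, hp'b, mul_assoc])
          have hpinv : p⁻¹ = p := inv_eq_of_mul_eq_one_left h1
          have hp'inv : p'⁻¹ = p' := inv_eq_of_mul_eq_one_left h2
          have h4 : (p' * p)⁻¹ = p' * p := inv_eq_of_mul_eq_one_left h3
          calc p' * p = (p' * p)⁻¹ := h4.symm
            _ = p⁻¹ * p'⁻¹ := by group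
            _ = p * p' := by rw [hpinv, hp'inv]
        have hnb : (q₀ * b) * (q₀ * b) ≠ q₀ * q₀ := by
          intro hsq
          have e : (q₀ * b) * (q₀ * b) = (q₀ * b * q₀⁻¹) * (q₀ * q₀) * b := by group
          rw [e, hq₀b] at hsq
          rcases hQ.sqs q₀ hq₀ with h' | h'
          · rw [h', mul_one, mul_assoc, hbb, mul_one] at hsq
            exact hQ.ne_one hsq
          · rw [h'] at hsq
            have e' : z * b * z * b = (z * b) * (z * b) := by group
            rw [e', hzb] at hsq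
            have e'' : b * z * (b * z) = b * (z * b) * z := by group
            rw [e'', hzb] at hsq
            have e''' : b * (b * z) * z = (b * b) * (z * z) := by group
            rw [e''', hbb, hQ.sq, mul_one] at hsq
            exact hQ.ne_one hsq.symm
        -- any element of `Q1` centralizing `z` lies in `Q`
        have hwQ : ∀ w ∈ Q1, w * z = z * w → w ∈ Q := by
          intro w hw hwz
          have hwb : w * b = b * w := hQ1.central w hw
          have h1 : w * q₀ * w⁻¹ ∈ Q := hQ.norm w hwz q₀ hq₀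
          obtain ⟨d, hddef⟩ : ∃ d, d = q₀⁻¹ * (w * q₀ * w⁻¹) := ⟨_, rfl⟩
          have hdQ : d ∈ Q := by rw [hddef]; exact Q.mul_mem (Q.inv_mem hq₀) h1
          have hdb : d * b = b * d := by
            have hwb' : w⁻¹ * b * w = b := by
              calc w⁻¹ * b * w = w⁻¹ * (b * w) := by group
                _ = w⁻¹ * (w * b) := by rw [hwb]
                _ = b := by group
            have e1 : (w * q₀ * w⁻¹) * b * (w * q₀ * w⁻¹)⁻¹ = z * b := by
              calc (w * q₀ * w⁻¹) * b * (w * q₀ * w⁻¹)⁻¹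
                  = w * (q₀ * (w⁻¹ * b * w) * q₀⁻¹) * w⁻¹ := by group
                _ = w * (z * b) * w⁻¹ := by rw [hwb', hq₀b]
                _ = (w * z) * b * w⁻¹ := by group
                _ = z * (w * b) * w⁻¹ := by rw [hwz]; group
                _ = z * b := by rw [hwb]; group
            calc d * b = q₀⁻¹ * ((w * q₀ * w⁻¹) * b * (w * q₀ * w⁻¹)⁻¹) * q₀ * d := by
                  rw [hddef]; group
              _ = b * d := by rw [e1, hq₀b']
          have hwq : w * q₀ * w⁻¹ = q₀ * d := by rw [hddef]; group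
          have hsq : (q₀ * d) * (q₀ * d) = q₀ * q₀ := by
            rw [← hwq]
            calc w * q₀ * w⁻¹ * (w * q₀ * w⁻¹) = w * (q₀ * q₀) * w⁻¹ := by group
              _ = q₀ * q₀ := by
                rcases hQ.sqs q₀ hq₀ with h | h
                · rw [h]; group
                · rw [h, hwz]; group
          have hwD : ∀ p ∈ Q, p * b = b * p → p * w = w * p := by
            intro p hp hpb
            rcases hD p hp hpb with h | h | h | h
            · rw [h]; group
            · rw [h]; exact hwz.symm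
            · rw [h]; exact hwb.symm
            · rw [h]
              calc z * b * w = z * (b * w) := by group
                _ = z * (w * b) := by rw [hwb]
                _ = (z * w) * b := by group
                _ = w * (z * b) := by rw [← hwz]; group
          rcases hD d hdQ hdb with h | h | h | h
          · have hw0 : q₀ * w = w * q₀ := by
              rw [h, mul_one] at hwq
              calc q₀ * w = w * q₀ * w⁻¹ * w := by rw [hwq]
                _ = w * q₀ := by group
            exact hQ.cent w (hcrit w hwD hw0)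
          · have hbw : ∀ q ∈ Q, q * (b * w) = (b * w) * q := by
              apply hcrit
              · intro p hp hpb
                rw [← mul_assoc, hpb, mul_assoc, hwD p hp hpb, mul_assoc]
              · have e1 : b * q₀ * b⁻¹ = q₀ * z := by
                  have e0 : b * q₀ * b⁻¹ = (q₀ * b * q₀⁻¹ * b⁻¹)⁻¹ * q₀ := by group
                  have e0' : q₀ * b * q₀⁻¹ * b⁻¹ = z := by rw [hq₀b]; group
                  rw [e0, e0', hzinv]; exact (hQ.central q₀ hq₀).symm
                have e1' : b * z * b⁻¹ = z := by rw [← hzb]; group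
                have e2 : (b * w) * q₀ * (b * w)⁻¹ = q₀ := by
                  calc (b * w) * q₀ * (b * w)⁻¹ = b * (w * q₀ * w⁻¹) * b⁻¹ := by group
                    _ = b * (q₀ * z) * b⁻¹ := by rw [hwq, h]
                    _ = (b * q₀ * b⁻¹) * (b * z * b⁻¹) := by group
                    _ = q₀ * z * z := by rw [e1, e1']
                    _ = q₀ := by rw [mul_assoc, hQ.sq, mul_one]
                calc q₀ * (b * w) = (b * w) * q₀ * (b * w)⁻¹ * (b * w) := by rw [e2]
                  _ = (b * w) * q₀ := by group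
            have h6 := hQ.cent (b * w) hbw
            have e : w = b⁻¹ * (b * w) := by group
            rw [e]; exact Q.mul_mem (Q.inv_mem hbQ) h6
          · exfalso
            rw [h] at hsq
            exact hnb hsq
          · exfalso
            rw [h] at hsq
            apply hnb
            rw [← hsq]
            have hc1 : q₀ * z = z * q₀ := hQ.central q₀ hq₀
            have hc2 : (q₀ * b) * z = z * (q₀ * b) := hQ.central _ (Q.mul_mem hq₀ hbQ)
            calc q₀ * b * (q₀ * b) = (z * z) * (q₀ * b * (q₀ * b)) := by rw [hQ.sq, one_mul]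
              _ = z * (z * (q₀ * b)) * (q₀ * b) := by group
              _ = z * ((q₀ * b) * z) * (q₀ * b) := by rw [hc2]
              _ = (z * q₀) * b * (z * q₀) * b := by group
              _ = (q₀ * z) * b * (q₀ * z) * b := by rw [hc1]
              _ = q₀ * (z * b) * (q₀ * (z * b)) := by group
        intro y hy
        obtain ⟨hwQ1, hwz, hww⟩ := h3a y hy _ rfl
        have hwQ' := hwQ _ hwQ1 hwz
        rcases hint _ hwQ' hwQ1 with h | h
        · exact h
        · exact absurd h (hB y hy)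
    have hcen : ∀ q ∈ Q1, q * z = z * q := by
      intro q hq
      have h1 := hcenQ1 q hq
      calc q * z = (z * q * z⁻¹ * q⁻¹)⁻¹ * z * q := by group
        _ = z * q := by rw [h1]; group
    exact hz (hQ1.cent z hcen)

/-- With `b ∈ Q` and `z ∈ Q1`: `⟨Q, Q1⟩` induces the full symmetric group on the three involutions
of `⟨z, b⟩`. -/
theorem s3_action (hQ : SES Q z) (hQ1 : SES Q1 b) (hbQ : b ∈ Q) (hbz : b ≠ z) (hzQ1 : z ∈ Q1) :
    ∀ u ∈ Subgroup.closure ({z, b} : Set G), ∀ v ∈ Subgroup.closure ({z, b} : Set G),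
      u ≠ 1 → v ≠ 1 → u ≠ v → ∃ x ∈ Q ⊔ Q1, x * z * x⁻¹ = u ∧ x * b * x⁻¹ = v := by
  have hzb : z * b = b * z := (hQ.central b hbQ).symm
  have hbb := hQ1.sq
  have hzz := hQ.sq
  have hcl : Subgroup.closure ({z, b} : Set G) ≤ fourGroup z b hzz hbb hzb := by
    rw [Subgroup.closure_le]
    intro x hx
    rcases hx with rfl | hx
    · exact Or.inr (Or.inl rfl)
    · rw [Set.mem_singleton_iff] at hx; exact Or.inr (Or.inr (Or.inl hx))
  obtain ⟨q, hq, Aq_b⟩ := hQ.exists_conj hbQ hQ1.ne_one hbz hbb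
  obtain ⟨q1, hq1, A1_z⟩ := hQ1.exists_conj hzQ1 hQ.ne_one (Ne.symm hbz) hzz
  rw [← hzb] at A1_z
  have Aq_z : q * z * q⁻¹ = z := by
    have := hQ.central q hq
    rw [this]; group
  have A1_b : q1 * b * q1⁻¹ = b := by
    have := hQ1.central q1 hq1
    rw [this]; group
  have hqS : q ∈ Q ⊔ Q1 := Subgroup.mem_sup_left hq
  have hq1S : q1 ∈ Q ⊔ Q1 := Subgroup.mem_sup_right hq1
  have hzbz : z * b * z = b := by rw [hzb, mul_assoc, hzz, mul_one]
  have hzbb : z * b * b = z := by rw [mul_assoc, hbb, mul_one]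
  have B1_z : (q1 * q) * z * (q1 * q)⁻¹ = z * b := by
    calc (q1 * q) * z * (q1 * q)⁻¹ = q1 * (q * z * q⁻¹) * q1⁻¹ := by group
      _ = z * b := by rw [Aq_z, A1_z]
  have B1_b : (q1 * q) * b * (q1 * q)⁻¹ = z := by
    calc (q1 * q) * b * (q1 * q)⁻¹ = q1 * (q * b * q⁻¹) * q1⁻¹ := by group
      _ = (q1 * z * q1⁻¹) * (q1 * b * q1⁻¹) := by rw [Aq_b]; group
      _ = z := by rw [A1_z, A1_b, hzbb]
  have B2_z : (q * q1) * z * (q * q1)⁻¹ = b := by
    calc (q * q1) * z * (q * q1)⁻¹ = q * (q1 * z * q1⁻¹) * q⁻¹ := by group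
      _ = (q * z * q⁻¹) * (q * b * q⁻¹) := by rw [A1_z]; group
      _ = b := by rw [Aq_z, Aq_b, ← mul_assoc, hzz, one_mul]
  have B2_b : (q * q1) * b * (q * q1)⁻¹ = z * b := by
    calc (q * q1) * b * (q * q1)⁻¹ = q * (q1 * b * q1⁻¹) * q⁻¹ := by group
      _ = z * b := by rw [A1_b, Aq_b]
  have B3_z : (q * q1 * q) * z * (q * q1 * q)⁻¹ = b := by
    calc (q * q1 * q) * z * (q * q1 * q)⁻¹ = (q * q1) * (q * z * q⁻¹) * (q * q1)⁻¹ := by group
      _ = b := by rw [Aq_z, B2_z]
  have B3_b : (q * q1 * q) * b * (q * q1 * q)⁻¹ = z := by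
    calc (q * q1 * q) * b * (q * q1 * q)⁻¹ = (q * q1) * (q * b * q⁻¹) * (q * q1)⁻¹ := by group
      _ = ((q * q1) * z * (q * q1)⁻¹) * ((q * q1) * b * (q * q1)⁻¹) := by rw [Aq_b]; group
      _ = z := by rw [B2_z, B2_b, ← mul_assoc, ← hzb, hzbb]
  intro u hu v hv hu1 hv1 huv
  have hu' := hcl hu
  have hv' := hcl hv
  rw [mem_fourGroup] at hu' hv'
  rcases hu' with h | h | h | h
  · exact absurd h hu1
  · rcases hv' with h' | h' | h' | h'
    · exact absurd h' hv1
    · exact absurd (h.trans h'.symm) huv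
    · exact ⟨1, Subgroup.one_mem _, by rw [h]; group, by rw [h']; group⟩
    · exact ⟨q, hqS, by rw [h, Aq_z], by rw [h', Aq_b]⟩
  · rcases hv' with h' | h' | h' | h'
    · exact absurd h' hv1
    · exact ⟨q * q1 * q, Subgroup.mul_mem _ (Subgroup.mul_mem _ hqS hq1S) hqS,
        by rw [h, B3_z], by rw [h', B3_b]⟩
    · exact absurd (h.trans h'.symm) huv
    · exact ⟨q * q1, Subgroup.mul_mem _ hqS hq1S, by rw [h, B2_z], by rw [h', B2_b]⟩
  · rcases hv' with h' | h' | h' | h'
    · exact absurd h' hv1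
    · exact ⟨q1 * q, Subgroup.mul_mem _ hq1S hqS, by rw [h, B1_z], by rw [h', B1_b]⟩
    · exact ⟨q1, hq1S, by rw [h, A1_z], by rw [h', A1_b]⟩
    · exact absurd (h.trans h'.symm) huv

end SES

end Cfsg.Agent.Helper90
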