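import Mathlib
import Cfsg.Agent.Helper90.SympCrit

/-!
Helper90: 2-groups of symplectic type and exponent dividing 4: all squares lie in `{1, z}`,
`z` the central involution.
-/

set_option autoImplicit false

namespace Cfsg.Agent.Helper90

/-- In a finite 2-group of exponent dividing 4 in which every characteristic abelian subgroup is
cyclic, every square is `1` or the central involution `z`, and `z` is the only involution of the
centre. -/
theorem sq_of_symplectic {T : Type*} [Group T] [Finite T] (hT : IsPGroup 2 T)
    (hchar : ∀ A : Subgroup T, A.Characteristic → IsMulCommutative A → IsCyclic A)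
    (h4 : ∀ x : T, x ^ 4 = 1) (z : T) (hz1 : z ≠ 1) (hzz : z * z = 1)
    (hzc : z ∈ Subgroup.center T) :
    (∀ x : T, x * x = 1 ∨ x * x = z) ∧
      (∀ c ∈ Subgroup.center T, c * c = 1 → c = 1 ∨ c = z) := by
  have : Fact (Nat.Prime 2) := ⟨Nat.prime_two⟩
  obtain ⟨A, M, hAch, hAc, hAmax, hMA, hMcomm, hMpow, hCM⟩ := exists_crit_pair hT
  have hAn : A.Normal := Subgroup.normal_of_characteristic A
  -- the centre lies in `A`
  have hZA : Subgroup.center T ≤ A := by
    have hch : (A ⊔ Subgroup.center T).Characteristic := inferInstance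
    have hcomm : IsMulCommutative ↥(A ⊔ Subgroup.center T) := by
      rw [← Subgroup.le_centralizer_iff_isMulCommutative]
      apply sup_le
      · rw [Subgroup.le_centralizer_iff]
        apply sup_le
        · exact Subgroup.le_centralizer_iff_isMulCommutative.mpr hAc
        · exact Subgroup.center_le_centralizer _
      · exact Subgroup.center_le_centralizer _
    have := hAmax _ hch hcomm le_sup_left
    rw [← this]
    exact le_sup_right
  have hzA : z ∈ A := hZA hzc
  have hcyc : IsCyclic ↥A := hchar A hAch hAc
  obtain ⟨c0, hc0⟩ := hcyc.exists_generator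
  obtain ⟨c, hc⟩ : ∃ c : T, c = (c0 : T) := ⟨_, rfl⟩
  have hcA : c ∈ A := hc ▸ c0.2
  have hc4 : c ^ 4 = 1 := h4 c
  have hgen : ∀ a ∈ A, ∃ k : ℕ, k < 4 ∧ a = c ^ k := by
    intro a ha
    obtain ⟨k, hk⟩ := Subgroup.mem_zpowers_iff.mp (hc0 ⟨a, ha⟩)
    have hk' : c ^ k = a := by
      have := congrArg Subtype.val hk
      rw [Subgroup.coe_zpow] at this
      rw [hc]; exact this
    have h1 : k = 4 * (k / 4) + k % 4 := (Int.mul_ediv_add_emod k 4).symm
    have h2 : 0 ≤ k % 4 := Int.emod_nonneg k (by norm_num)
    have h3 : k % 4 < 4 := Int.emod_lt_of_pos k (by norm_num)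
    refine ⟨(k % 4).toNat, by omega, ?_⟩
    rw [← hk', ← zpow_natCast, Int.toNat_of_nonneg h2]
    conv_lhs => rw [h1]
    rw [zpow_add, zpow_mul]
    have : c ^ (4 : ℤ) = 1 := by
      have := hc4
      rw [← zpow_natCast] at this
      exact_mod_cast this
    rw [this, one_zpow, one_mul]
  have hc2 : c ^ 2 * c ^ 2 = 1 := by rw [← pow_add]; exact hc4
  -- (K1): the involutions of `A`
  have K1 : ∀ a ∈ A, a * a = 1 → a = 1 ∨ a = z := by
    intro a ha haa
    obtain ⟨s, hs4, hzs⟩ := hgen z hzA
    obtain ⟨r, hr4, har⟩ := hgen a ha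
    have hcz : c * c = 1 ∨ z = c * c := by
      interval_cases s
      · exact absurd (by simpa using hzs) hz1
      · left
        rw [pow_one] at hzs
        rw [← hzs]; exact hzz
      · right
        rw [hzs, pow_two]
      · left
        have h1 : z * z = c ^ 2 := by
          rw [hzs, ← pow_add]
          calc c ^ (3 + 3) = c ^ 4 * c ^ 2 := by rw [← pow_add]
            _ = c ^ 2 := by rw [hc4, one_mul]
        rw [hzz] at h1
        rw [← pow_two]; exact h1.symm
    rcases hcz with hcc | hcc
    · have hzc' : z = c := by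
        interval_cases s
        · exact absurd (by simpa using hzs) hz1
        · simpa using hzs
        · exfalso
          apply hz1
          rw [hzs, pow_two]; exact hcc
        · rw [hzs]
          calc c ^ 3 = c * c * c := by rw [pow_succ, pow_two]
            _ = c := by rw [hcc, one_mul]
      interval_cases r
      · left; simpa using har
      · right; rw [hzc']; simpa using har
      · left; rw [har, pow_two]; exact hcc
      · right
        rw [hzc', har]
        calc c ^ 3 = c * c * c := by rw [pow_succ, pow_two]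
          _ = c := by rw [hcc, one_mul]
    · have hcc1 : c * c ≠ 1 := fun h => hz1 (hcc.trans h)
      interval_cases r
      · left; simpa using har
      · exfalso
        apply hcc1
        rw [pow_one] at har
        rw [← har]; exact haa
      · right
        rw [har, hcc, pow_two]
      · exfalso
        apply hcc1
        have h1 : a * a = c ^ 2 := by
          rw [har, ← pow_add]
          calc c ^ (3 + 3) = c ^ 4 * c ^ 2 := by rw [← pow_add]
            _ = c ^ 2 := by rw [hc4, one_mul]
        rw [haa] at h1
        rw [← pow_two]; exact h1.symm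
  -- (K2): every element acts on `A` as the identity or as inversion
  have K2 : ∀ x : T, (∀ a ∈ A, x * a * x⁻¹ = a) ∨ (∀ a ∈ A, x * a * x⁻¹ = a⁻¹) := by
    intro x
    obtain ⟨j, hj4, hxj⟩ := hgen (x * c * x⁻¹) (hAn.conj_mem c hcA x)
    have hone : c = 1 → ∀ a ∈ A, x * a * x⁻¹ = a := by
      intro h1 a ha
      obtain ⟨r, -, har⟩ := hgen a ha
      rw [har, h1, one_pow]; group
    interval_cases j
    · left
      apply hone
      rw [pow_zero] at hxj
      have : c = x⁻¹ * (x * c * x⁻¹) * x := by group
      rw [this, hxj]; group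
    · left
      intro a ha
      obtain ⟨r, -, har⟩ := hgen a ha
      rw [pow_one] at hxj
      rw [har, ← conj_pow, hxj]
    · left
      apply hone
      have h1 : x * c ^ 2 * x⁻¹ = 1 := by
        rw [← conj_pow, hxj, pow_two]; exact hc2
      have h2 : c ^ 2 = 1 := by
        have : c ^ 2 = x⁻¹ * (x * c ^ 2 * x⁻¹) * x := by group
        rw [this, h1]; group
      rw [h2] at hxj
      have : c = x⁻¹ * (x * c * x⁻¹) * x := by group
      rw [this, hxj]; group
    · right
      intro a ha
      obtain ⟨r, -, har⟩ := hgen a ha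
      rw [har, ← conj_pow, hxj, ← pow_mul, mul_comm, pow_mul]
      have h1 : (c ^ r) ^ 4 = 1 := h4 _
      have h2 : (c ^ r) ^ 3 * (c ^ r) = 1 := by rw [← pow_succ]; exact h1
      exact eq_inv_of_mul_eq_one_left h2
  -- squares lie in `A`
  have hsqA : ∀ x : T, x * x ∈ A := by
    intro x
    apply hCM
    rw [Subgroup.mem_centralizer_iff]
    intro m hm
    have ha : x * m * x⁻¹ * m⁻¹ ∈ A := by
      have h1 := A.inv_mem (hMcomm m hm x)
      have : (m * x * m⁻¹ * x⁻¹)⁻¹ = x * m * x⁻¹ * m⁻¹ := by group
      rwa [this] at h1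
    obtain ⟨a, haA, hadef⟩ : ∃ a ∈ A, a = x * m * x⁻¹ * m⁻¹ := ⟨_, ha, rfl⟩
    have hma : m * a = a * m := Subgroup.mem_centralizer_iff.mp (hMA hm) a haA |>.symm
    have hxm : x * m * x⁻¹ = a * m := by rw [hadef]; group
    have hm2 : m ^ 2 ∈ A := hMpow m hm
    have key : x * a * x⁻¹ * a = 1 := by
      rcases K2 x with h | h
      · have h1 : x * m ^ 2 * x⁻¹ = m ^ 2 := h _ hm2
        have h2 : x * m ^ 2 * x⁻¹ = a * a * m ^ 2 := by
          rw [← conj_pow, hxm, pow_two, pow_two]
          calc a * m * (a * m) = a * (m * a) * m := by group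
            _ = a * (a * m) * m := by rw [hma]
            _ = a * a * (m * m) := by group
        rw [h1] at h2
        have h3 : a * a = 1 := by
          have : a * a = a * a * m ^ 2 * (m ^ 2)⁻¹ := by group
          rw [this, ← h2]; group
        rw [h a haA]; exact h3
      · rw [h a haA]; group
    have h5 : (x * x) * m * (x * x)⁻¹ = m := by
      calc (x * x) * m * (x * x)⁻¹ = x * (x * m * x⁻¹) * x⁻¹ := by group
        _ = x * (a * m) * x⁻¹ := by rw [hxm]
        _ = (x * a * x⁻¹) * (x * m * x⁻¹) := by group
        _ = (x * a * x⁻¹ * a) * m := by rw [hxm]; group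
        _ = m := by rw [key, one_mul]
    calc m * (x * x) = (x * x) * m * (x * x)⁻¹ * (x * x) := by rw [h5]
      _ = (x * x) * m := by group
  refine ⟨?_, ?_⟩
  · intro x
    apply K1 _ (hsqA x)
    have := h4 x
    calc x * x * (x * x) = x ^ 4 := by
          rw [show (4 : ℕ) = 2 + 2 from rfl, pow_add, pow_two]
      _ = 1 := this
  · intro c' hc' hcc
    exact K1 c' (hZA hc') hcc

end Cfsg.Agent.Helper90
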