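import Mathlib
import Cfsg.Prelude.Def_ClassificationK
import Cfsg.Agent.Helper90.SympType
import Cfsg.Agent.Helper90.SympMain
import Cfsg.Agent.Helper22.Bender
import Cfsg.Agent.Helper29.Fitting

/-!
Helper90: the setting `F*(C_G(z)) = Q` of symplectic type and exponent dividing 4.
-/

set_option autoImplicit false

namespace Cfsg.Agent.Helper90

/-- In the setting `F*(C_G(z)) = Q` of symplectic type and exponent dividing 4, the elementwise
data `SES Q z` holds. -/
theorem ses_of_fstar {G : Type*} [Group G] [Finite G] (z : G) (hz : orderOf z = 2)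
    (Q : Subgroup G)
    (hF : (Cfsg.generalizedFittingSubgroup ↥(Subgroup.centralizer ({z} : Set G))).map
      (Subgroup.centralizer ({z} : Set G)).subtype = Q)
    (hS : Cfsg.IsOfSymplecticType
      ↥(Cfsg.generalizedFittingSubgroup ↥(Subgroup.centralizer ({z} : Set G))))
    (h4 : ∀ q ∈ Q, q ^ 4 = 1) : SES Q z := by
  classical
  have hz1 : z ≠ 1 := by
    intro h
    rw [h, orderOf_one] at hz
    norm_num at hz
  have hzz : z * z = 1 := by
    have := pow_orderOf_eq_one z
    rw [hz, pow_two] at this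
    exact this
  have hmemC : ∀ x : G, x ∈ Subgroup.centralizer ({z} : Set G) ↔ x * z = z * x := by
    intro x
    rw [Subgroup.mem_centralizer_iff]
    constructor
    · intro h; exact (h z rfl).symm
    · intro h y hy; rw [Set.mem_singleton_iff.mp hy]; exact h.symm
  have hzC : z ∈ Subgroup.centralizer ({z} : Set G) := (hmemC z).mpr rfl
  have hQC : Q ≤ Subgroup.centralizer ({z} : Set G) := by
    rw [← hF]; exact Subgroup.map_subtype_le _
  have hmemQ : ∀ x : G, x ∈ Q ↔ ∃ hx : x ∈ Subgroup.centralizer ({z} : Set G),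
      (⟨x, hx⟩ : ↥(Subgroup.centralizer ({z} : Set G))) ∈
        Cfsg.generalizedFittingSubgroup ↥(Subgroup.centralizer ({z} : Set G)) := by
    intro x
    rw [← hF]
    constructor
    · rintro ⟨y, hy, rfl⟩; exact ⟨y.2, hy⟩
    · rintro ⟨hx, h⟩; exact ⟨⟨x, hx⟩, h, rfl⟩
  have hzF : (⟨z, hzC⟩ : ↥(Subgroup.centralizer ({z} : Set G))) ∈
      Cfsg.generalizedFittingSubgroup ↥(Subgroup.centralizer ({z} : Set G)) := by
    apply Cfsg.Agent.Helper29.fittingSubgroup_le_generalizedFittingSubgroup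
    apply Cfsg.Agent.Helper29.mem_fittingSubgroup_of_mem_center
    rw [Subgroup.mem_center_iff]
    intro c
    apply Subtype.ext
    exact (hmemC c).mp c.2
  have hzQ : z ∈ Q := (hmemQ z).mpr ⟨hzC, hzF⟩
  have hvalQ : ∀ y : ↥(Cfsg.generalizedFittingSubgroup ↥(Subgroup.centralizer ({z} : Set G))),
      ((y : ↥(Subgroup.centralizer ({z} : Set G))) : G) ∈ Q :=
    fun y => (hmemQ _).mpr ⟨y.1.2, y.2⟩
  have hT := sq_of_symplectic hS.1 hS.2
    (by
      intro x
      apply Subtype.ext
      apply Subtype.ext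
      have := h4 _ (hvalQ x)
      simpa using this)
    (⟨⟨z, hzC⟩, hzF⟩ : ↥(Cfsg.generalizedFittingSubgroup ↥(Subgroup.centralizer ({z} : Set G))))
    (by
      intro h
      apply hz1
      have := congrArg (fun t : ↥(Cfsg.generalizedFittingSubgroup
        ↥(Subgroup.centralizer ({z} : Set G))) =>
          ((t : ↥(Subgroup.centralizer ({z} : Set G))) : G)) h
      simpa using this)
    (by
      apply Subtype.ext
      apply Subtype.ext
      simpa using hzz)
    (by
      rw [Subgroup.mem_center_iff]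
      intro y
      apply Subtype.ext
      apply Subtype.ext
      exact (hmemC _).mp y.1.2)
  refine ⟨hzQ, hz1, hzz, fun q hq => (hmemC q).mp (hQC hq), ?_, ?_, ?_, ?_⟩
  · intro x hx
    obtain ⟨hxC, hxF⟩ := (hmemQ x).mp hx
    rcases hT.1 ⟨⟨x, hxC⟩, hxF⟩ with h | h
    · left
      have := congrArg (fun t : ↥(Cfsg.generalizedFittingSubgroup
        ↥(Subgroup.centralizer ({z} : Set G))) =>
          ((t : ↥(Subgroup.centralizer ({z} : Set G))) : G)) h
      simpa using this
    · right
      have := congrArg (fun t : ↥(Cfsg.generalizedFittingSubgroup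
        ↥(Subgroup.centralizer ({z} : Set G))) =>
          ((t : ↥(Subgroup.centralizer ({z} : Set G))) : G)) h
      simpa using this
  · intro x hx
    have hxC : x ∈ Subgroup.centralizer ({z} : Set G) := (hmemC x).mpr (hx z hzQ).symm
    have hxF : (⟨x, hxC⟩ : ↥(Subgroup.centralizer ({z} : Set G))) ∈
        Cfsg.generalizedFittingSubgroup ↥(Subgroup.centralizer ({z} : Set G)) := by
      apply Cfsg.Agent.Helper22.centralizer_generalizedFittingSubgroup_le
      rw [Subgroup.mem_centralizer_iff]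
      intro f hf
      apply Subtype.ext
      exact hx f.1 ((hmemQ f.1).mpr ⟨f.2, hf⟩)
    exact (hmemQ x).mpr ⟨hxC, hxF⟩
  · intro x hxQ hx hxx
    obtain ⟨hxC, hxF⟩ := (hmemQ x).mp hxQ
    have hc : (⟨⟨x, hxC⟩, hxF⟩ : ↥(Cfsg.generalizedFittingSubgroup
        ↥(Subgroup.centralizer ({z} : Set G)))) ∈ Subgroup.center _ := by
      rw [Subgroup.mem_center_iff]
      intro y
      apply Subtype.ext
      apply Subtype.ext
      exact hx _ (hvalQ y)
    rcases hT.2 _ hc (by
      apply Subtype.ext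
      apply Subtype.ext
      simpa using hxx) with h | h
    · left
      have := congrArg (fun t : ↥(Cfsg.generalizedFittingSubgroup
        ↥(Subgroup.centralizer ({z} : Set G))) =>
          ((t : ↥(Subgroup.centralizer ({z} : Set G))) : G)) h
      simpa using this
    · right
      have := congrArg (fun t : ↥(Cfsg.generalizedFittingSubgroup
        ↥(Subgroup.centralizer ({z} : Set G))) =>
          ((t : ↥(Subgroup.centralizer ({z} : Set G))) : G)) h
      simpa using this
  · intro c hc v hv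
    have hcC : c ∈ Subgroup.centralizer ({z} : Set G) := (hmemC c).mpr hc
    have hFn := Cfsg.Agent.Helper29.generalizedFittingSubgroup_normal
      ↥(Subgroup.centralizer ({z} : Set G))
    obtain ⟨hvC, hvF⟩ := (hmemQ v).mp hv
    exact (hmemQ _).mpr ⟨(Subgroup.centralizer ({z} : Set G)).mul_mem
      ((Subgroup.centralizer ({z} : Set G)).mul_mem hcC hvC)
      ((Subgroup.centralizer ({z} : Set G)).inv_mem hcC), hFn.conj_mem _ hvF ⟨c, hcC⟩⟩

/-- The attached conjugate: if `n` conjugates `z` to `g z g⁻¹` then `n` conjugates `Q` into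
`g Q g⁻¹`. -/
theorem SES.link {G : Type*} [Group G] {Q : Subgroup G} {z : G} (h : SES Q z) (g : G) :
    ∀ n : G, n * z * n⁻¹ = g * z * g⁻¹ → ∀ q ∈ Q,
      n * q * n⁻¹ ∈ Q.map (MulAut.conj g).toMonoidHom := by
  intro n hn q hq
  rw [mem_map_conj_iff]
  have h1 : (g⁻¹ * n) * z = z * (g⁻¹ * n) := by
    have e : (g⁻¹ * n) * z = g⁻¹ * (n * z * n⁻¹) * n := by group
    rw [e, hn]; group
  have h2 := h.norm _ h1 q hq
  have e2 : g⁻¹ * n * q * (g⁻¹ * n)⁻¹ = g⁻¹ * (n * q * n⁻¹) * g := by group
  rwa [e2] at h2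

/-- If `Q = F*(C_G(z))` is a 2-group of symplectic type and exponent dividing 4 and a conjugate
`g z g⁻¹ ≠ z` of `z` lies in `Q`, then `z ∈ g Q g⁻¹` and `⟨Q, g Q g⁻¹⟩` induces the symmetric group
of degree 3 on the involutions of `⟨z, g z g⁻¹⟩`. -/
theorem symp_fusion {G : Type*} [Group G] [Finite G] (z : G) (hz : orderOf z = 2)
    (Q : Subgroup G)
    (hF : (Cfsg.generalizedFittingSubgroup ↥(Subgroup.centralizer ({z} : Set G))).map
      (Subgroup.centralizer ({z} : Set G)).subtype = Q)
    (hS : Cfsg.IsOfSymplecticType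
      ↥(Cfsg.generalizedFittingSubgroup ↥(Subgroup.centralizer ({z} : Set G))))
    (h4 : ∀ q ∈ Q, q ^ 4 = 1) (g : G) (hne : g * z * g⁻¹ ≠ z) (hin : g * z * g⁻¹ ∈ Q) :
    z ∈ Q.map (MulAut.conj g).toMonoidHom ∧
      ∀ u ∈ Subgroup.closure ({z, g * z * g⁻¹} : Set G),
        ∀ v ∈ Subgroup.closure ({z, g * z * g⁻¹} : Set G), u ≠ 1 → v ≠ 1 → u ≠ v →
          ∃ x ∈ Q ⊔ Q.map (MulAut.conj g).toMonoidHom,
            x * z * x⁻¹ = u ∧ x * (g * z * g⁻¹) * x⁻¹ = v := by
  have hSES := ses_of_fstar z hz Q hF hS h4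
  have hSES1 := hSES.conj g
  have hzQ1 := hSES.center_mem_conj hSES1 hin hne (hSES.link g)
  exact ⟨hzQ1, hSES.s3_action hSES1 hin hne hzQ1⟩

end Cfsg.Agent.Helper90
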