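import Mathlib
import Cfsg.Agent.Helper55.TransferInv

/-!
Helper90: the transfer of an element `y` with `y * y = z`, where `H = C_G(z)` and all squares and
commutators of `H` lie in `{1, z}`.  The value `transfer ϕ y * (ϕ y)⁻¹` does not depend on `y`.
-/

set_option autoImplicit false

namespace Cfsg.Agent.Helper90

open MulAction Subgroup
open Cfsg.Agent.Helper55

/-- Products of a function constant on the classes of two setoids, taken over representatives of the
classes, agree when the two setoids agree on the support of the function. -/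
theorem prod_quotient_out_eq {X A : Type*} [CommMonoid A] (s₁ s₂ : Setoid X)
    [Fintype (Quotient s₁)] [Fintype (Quotient s₂)] (d : X → A)
    (h₁ : ∀ a b, s₁ a b → d a = d b) (h₂ : ∀ a b, s₂ a b → d a = d b)
    (h : ∀ a b, d a ≠ 1 → (s₁ a b ↔ s₂ a b)) :
    ∏ O : Quotient s₁, d O.out = ∏ O : Quotient s₂, d O.out := by
  classical
  refine Finset.prod_bij_ne_one (fun O _ _ => Quotient.mk s₂ O.out)
    (fun _ _ _ => Finset.mem_univ _) ?_ ?_ ?_
  · intro O₁ _ hO₁ O₂ _ hO₂ he
    have h3 : s₂ O₁.out O₂.out := Quotient.exact he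
    have h4 : s₁ O₁.out O₂.out := (h _ _ hO₁).mpr h3
    have h5 := Quotient.sound (s := s₁) h4
    rwa [Quotient.out_eq, Quotient.out_eq] at h5
  · intro O' _ hO'
    have h5 : s₁ (Quotient.mk s₁ O'.out).out O'.out := Quotient.mk_out (s := s₁) O'.out
    have h6 : d (Quotient.mk s₁ O'.out).out = d O'.out := h₁ _ _ h5
    refine ⟨Quotient.mk s₁ O'.out, Finset.mem_univ _, by rwa [h6], ?_⟩
    have h7 : s₂ (Quotient.mk s₁ O'.out).out O'.out := (h _ _ (by rwa [h6])).mp h5
    have h8 := Quotient.sound (s := s₂) h7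
    rwa [Quotient.out_eq] at h8
  · intro O _ _
    exact (h₂ _ _ (Quotient.mk_out (s := s₂) O.out)).symm

section TransferSq

variable {G : Type*} [Group G] {H : Subgroup G} {A : Type*} [CommGroup A] (ϕ : H →* A)

/-- `extOne` of a conjugate may be computed with any representative of the coset. -/
theorem extOne_out_conj (c g : G) :
    extOne ϕ (((g : G ⧸ H).out)⁻¹ * c * (g : G ⧸ H).out) = extOne ϕ (g⁻¹ * c * g) := by
  obtain ⟨h, hh⟩ := QuotientGroup.mk_out_eq_mul H g
  rw [hh]
  by_cases hm : g⁻¹ * c * g ∈ H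
  · have h1 : (g * h)⁻¹ * c * (g * h) = (h : G)⁻¹ * (g⁻¹ * c * g) * h := by group
    rw [h1, extOne_conj ϕ hm h.2]
  · rw [extOne_of_not_mem ϕ hm, extOne_of_not_mem]
    intro hm'
    apply hm
    have h1 : g⁻¹ * c * g = h * ((g * h)⁻¹ * c * (g * h)) * (h : G)⁻¹ := by group
    rw [h1]
    exact mul_mem (mul_mem h.2 hm') (inv_mem h.2)

open Classical in
/-- The weight of a coset: the value of `ϕ` on the conjugate of `z` attached to the coset, when the
coset is fixed by `z` and is not the trivial coset. -/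
noncomputable def cW (z : G) (q : G ⧸ H) : A :=
  if q = ((1 : G) : G ⧸ H) then 1 else extOne ϕ (q.out⁻¹ * z * q.out)

/-- The hypotheses: `H = C_G(z)`, `z` an involution, squares and commutators of `H` in `{1, z}`. -/
structure SqData (H : Subgroup G) (z : G) : Prop where
  cen : ∀ g : G, g ∈ H ↔ g * z = z * g
  ne_one : z ≠ 1
  sq_one : z * z = 1
  sq : ∀ r ∈ H, r * r = 1 ∨ r * r = z
  comm : ∀ r ∈ H, ∀ s ∈ H, r * s * r⁻¹ * s⁻¹ = 1 ∨ r * s * r⁻¹ * s⁻¹ = z

variable {z : G}

theorem mk_smul_eq_one_iff {h : G} (hh : h ∈ H) (g : G) :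
    (h • (g : G ⧸ H)) = ((1 : G) : G ⧸ H) ↔ (g : G ⧸ H) = ((1 : G) : G ⧸ H) := by
  rw [MulAction.Quotient.smul_mk, QuotientGroup.eq, QuotientGroup.eq, smul_eq_mul]
  constructor
  · intro hm
    have h1 : g⁻¹ * 1 = ((h * g)⁻¹ * 1) * h := by group
    rw [h1]
    exact H.mul_mem hm hh
  · intro hm
    have h1 : (h * g)⁻¹ * 1 = (g⁻¹ * 1) * h⁻¹ := by group
    rw [h1]
    exact H.mul_mem hm (H.inv_mem hh)

theorem SqData.cW_smul (hD : SqData H z) {h : G} (hh : h ∈ H) (q : G ⧸ H) :
    cW ϕ z (h • q) = cW ϕ z q := by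
  induction q using QuotientGroup.induction_on with
  | H g =>
    unfold cW
    by_cases h1 : (g : G ⧸ H) = ((1 : G) : G ⧸ H)
    · rw [if_pos h1, if_pos ((mk_smul_eq_one_iff hh g).mpr h1)]
    · rw [if_neg h1, if_neg (fun h2 => h1 ((mk_smul_eq_one_iff hh g).mp h2))]
      rw [MulAction.Quotient.smul_mk, extOne_out_conj, extOne_out_conj, smul_eq_mul]
      congr 1
      have h3 := (hD.cen h).mp hh
      calc (h * g)⁻¹ * z * (h * g) = g⁻¹ * (h⁻¹ * (z * h)) * g := by group
        _ = g⁻¹ * (h⁻¹ * (h * z)) * g := by rw [h3]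
        _ = g⁻¹ * z * g := by group

theorem SqData.smul_ne (hD : SqData H z) {y : G} (_hy : y ∈ H) (hyy : y * y = z) {q : G ⧸ H}
    (hq : q ≠ ((1 : G) : G ⧸ H)) : y • q ≠ q := by
  intro he
  rw [smul_eq_self_iff_out_conj_mem] at he
  have h1 := hD.sq _ he
  have h2 : (q.out⁻¹ * y * q.out) * (q.out⁻¹ * y * q.out) = q.out⁻¹ * z * q.out := by
    rw [← hyy]; group
  rw [h2] at h1
  rcases h1 with h1 | h1
  · apply hD.ne_one
    have h3 : z = q.out * (q.out⁻¹ * z * q.out) * q.out⁻¹ := by group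
    rw [h3, h1]; group
  · apply hq
    have h3 : q.out ∈ H := (hD.cen _).mpr (by
      calc q.out * z = q.out * (q.out⁻¹ * z * q.out) := by rw [h1]
        _ = z * q.out := by group)
    rw [← QuotientGroup.out_eq' q]
    exact QuotientGroup.eq.mpr (by rw [mul_one]; exact H.inv_mem h3)

theorem SqData.smul_eq_smul (hD : SqData H z) {y y' : G} (hy : y ∈ H) (hyy : y * y = z)
    (hy' : y' ∈ H) (hyy' : y' * y' = z) {q : G ⧸ H} (hq : q ≠ ((1 : G) : G ⧸ H))
    (hzq : z • q = q) : y • q = y' • q := by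
  obtain ⟨x, hx⟩ : ∃ x : G, x = q.out := ⟨_, rfl⟩
  have hxH : x⁻¹ * z * x ∈ H := by
    rw [hx]; exact (smul_eq_self_iff_out_conj_mem z q).mp hzq
  obtain ⟨z', hz'def⟩ : ∃ z' : G, z' = x * z * x⁻¹ := ⟨_, rfl⟩
  have hz' : z' ∈ H := (hD.cen _).mpr (by
    have h1 := (hD.cen _).mp hxH
    rw [hz'def]
    calc x * z * x⁻¹ * z = x * (z * (x⁻¹ * z * x)) * x⁻¹ := by group
      _ = x * ((x⁻¹ * z * x) * z) * x⁻¹ := by rw [h1]
      _ = z * (x * z * x⁻¹) := by group)
  have key : ∀ w ∈ H, w * w = z → w * z' = z * z' * w := by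
    intro w hw hww
    rcases hD.comm w hw z' hz' with h | h
    · exfalso
      apply hD.smul_ne hw hww hq
      rw [smul_eq_self_iff_out_conj_mem, ← hx]
      have h' : w * z' = z' * w := by
        calc w * z' = (w * z' * w⁻¹ * z'⁻¹) * z' * w := by group
          _ = z' * w := by rw [h, one_mul]
      rw [hz'def] at h'
      refine (hD.cen _).mpr ?_
      calc x⁻¹ * w * x * z = x⁻¹ * (w * (x * z * x⁻¹)) * x := by group
        _ = x⁻¹ * ((x * z * x⁻¹) * w) * x := by rw [h']
        _ = z * (x⁻¹ * w * x) := by group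
    · calc w * z' = (w * z' * w⁻¹ * z'⁻¹) * z' * w := by group
        _ = z * z' * w := by rw [h]
  have e1 := key y hy hyy
  have e2 := key y' hy' hyy'
  have h3 : y⁻¹ * y' * z' = z' * (y⁻¹ * y') := by
    calc y⁻¹ * y' * z' = y⁻¹ * (y' * z') := by group
      _ = y⁻¹ * (z * z' * y') := by rw [e2]
      _ = y⁻¹ * (z * z' * y) * y⁻¹ * y' := by group
      _ = y⁻¹ * (y * z') * y⁻¹ * y' := by rw [e1]
      _ = z' * (y⁻¹ * y') := by group
  rw [hz'def] at h3
  rw [← QuotientGroup.out_eq' q, MulAction.Quotient.smul_mk, MulAction.Quotient.smul_mk,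
    QuotientGroup.eq, smul_eq_mul, smul_eq_mul, ← hx]
  refine (hD.cen _).mpr ?_
  calc (y * x)⁻¹ * (y' * x) * z = x⁻¹ * (y⁻¹ * y' * (x * z * x⁻¹)) * x := by group
    _ = x⁻¹ * ((x * z * x⁻¹) * (y⁻¹ * y')) * x := by rw [h3]
    _ = z * ((y * x)⁻¹ * (y' * x)) := by group

theorem SqData.zpowers_smul (_hD : SqData H z) {y : G} (hyy : y * y = z) {q : G ⧸ H}
    (hzq : z • q = q) {g : G} (hg : g ∈ zpowers y) : g • q = q ∨ g • q = y • q := by
  obtain ⟨k, rfl⟩ := mem_zpowers_iff.mp hg
  have hinv : y⁻¹ • q = y • q := by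
    conv_lhs => rw [← hzq, ← hyy, mul_smul, inv_smul_smul]
  induction k using Int.induction_on with
  | zero => left; rw [zpow_zero, one_smul]
  | succ i ih =>
    rw [add_comm, zpow_add, zpow_one, mul_smul]
    rcases ih (zpow_mem_zpowers y _) with h | h
    · right; rw [h]
    · left; rw [h, ← mul_smul, hyy, hzq]
  | pred i ih =>
    rw [sub_eq_add_neg, add_comm, zpow_add, zpow_neg_one, mul_smul]
    rcases ih (zpow_mem_zpowers y _) with h | h
    · right; rw [h, hinv]
    · left; rw [h, inv_smul_smul]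

theorem cW_ne_one {q : G ⧸ H} (h : cW ϕ z q ≠ 1) :
    q ≠ ((1 : G) : G ⧸ H) ∧ z • q = q := by
  unfold cW at h
  by_cases h1 : q = ((1 : G) : G ⧸ H)
  · rw [if_pos h1] at h; exact absurd rfl h
  · rw [if_neg h1] at h
    refine ⟨h1, ?_⟩
    rw [smul_eq_self_iff_out_conj_mem]
    by_contra h2
    exact h (extOne_of_not_mem ϕ h2)

theorem SqData.orbitRel_of (hD : SqData H z) {y y' : G} (hy : y ∈ H) (hyy : y * y = z)
    (hy' : y' ∈ H) (hyy' : y' * y' = z) {a b : G ⧸ H} (ha : cW ϕ z a ≠ 1)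
    (hab : orbitRel (zpowers y) (G ⧸ H) a b) : orbitRel (zpowers y') (G ⧸ H) a b := by
  obtain ⟨ha1, haz⟩ := cW_ne_one ϕ ha
  rw [orbitRel_apply, mem_orbit_iff] at hab ⊢
  obtain ⟨g, hg⟩ := hab
  have hb : b = (g : G)⁻¹ • a := by
    rw [← hg]; exact (inv_smul_smul (g : G) b).symm
  rcases hD.zpowers_smul hyy haz (inv_mem g.2) with h | h
  · refine ⟨1, ?_⟩
    rw [one_smul, hb, h]
  · refine ⟨⟨y'⁻¹, inv_mem (mem_zpowers y')⟩, ?_⟩
    rw [hb, h, hD.smul_eq_smul hy hyy hy' hyy' ha1 haz]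
    exact inv_smul_smul y' a

theorem SqData.cW_orbitRel (hD : SqData H z) {y : G} (hy : y ∈ H) {a b : G ⧸ H}
    (hab : orbitRel (zpowers y) (G ⧸ H) a b) : cW ϕ z a = cW ϕ z b := by
  rw [orbitRel_apply, mem_orbit_iff] at hab
  obtain ⟨g, hg⟩ := hab
  rw [← hg]
  exact hD.cW_smul ϕ ((zpowers_le.mpr hy) g.2) b

theorem one_out_mem : (((1 : G) : G ⧸ H).out) ∈ H := by
  obtain ⟨h, hh⟩ := QuotientGroup.mk_out_eq_mul H 1
  rw [hh, one_mul]
  exact h.2

theorem SqData.transfer_eq [H.FiniteIndex] (hD : SqData H z) {y : G} (hy : y ∈ H)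
    (hyy : y * y = z) [Fintype (Quotient (orbitRel (zpowers y) (G ⧸ H)))] :
    MonoidHom.transfer ϕ y =
      ϕ ⟨y, hy⟩ * ∏ O : Quotient (orbitRel (zpowers y) (G ⧸ H)), cW ϕ z O.out := by
  classical
  rw [MonoidHom.transfer_eq_prod_quotient_orbitRel_zpowers_quot ϕ y]
  obtain ⟨O₀, hO₀⟩ : ∃ O₀ : Quotient (orbitRel (zpowers y) (G ⧸ H)),
      O₀ = Quotient.mk _ ((1 : G) : G ⧸ H) := ⟨_, rfl⟩
  have hfix : y • ((1 : G) : G ⧸ H) = ((1 : G) : G ⧸ H) := by
    rw [MulAction.Quotient.smul_mk, QuotientGroup.eq, smul_eq_mul, mul_one, mul_one]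
    exact H.inv_mem hy
  have y4 : y ^ 4 = 1 := by
    have h4 : y ^ 4 = (y * y) * (y * y) := by
      rw [show (4 : ℕ) = 2 + 2 from rfl, pow_add, pow_two]
    rw [h4, hyy, hD.sq_one]
  have hterm : ∀ O : Quotient (orbitRel (zpowers y) (G ⧸ H)),
      ϕ ⟨O.out.out⁻¹ * y ^ Function.minimalPeriod (y • ·) O.out * O.out.out,
        QuotientGroup.out_conj_pow_minimalPeriod_mem H y O.out⟩ =
      (if O = O₀ then ϕ ⟨y, hy⟩ else 1) * cW ϕ z O.out := by
    intro O
    rw [← extOne_of_mem ϕ]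
    by_cases hO : O = O₀
    · have hout : O.out = ((1 : G) : G ⧸ H) := by
        have h1 : orbitRel (zpowers y) (G ⧸ H) O.out ((1 : G) : G ⧸ H) := by
          rw [hO, hO₀]; exact Quotient.mk_out _
        rw [orbitRel_apply, mem_orbit_iff] at h1
        obtain ⟨g, hg⟩ := h1
        rw [← hg]
        have h2 : (g : G) ∈ H := (zpowers_le.mpr hy) g.2
        exact (mk_smul_eq_one_iff h2 1).mpr rfl
      have hper : Function.minimalPeriod (y • ·) O.out = 1 := by
        rw [Function.minimalPeriod_eq_one_iff_isFixedPt]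
        show y • O.out = O.out
        rw [hout, hfix]
      rw [if_pos hO, cW, if_pos hout, mul_one, hper, pow_one, ← extOne_of_mem ϕ hy]
      have hoH : O.out.out ∈ H := by rw [hout]; exact one_out_mem
      exact extOne_conj ϕ hy hoH
    · rw [if_neg hO, one_mul]
      have hout : O.out ≠ ((1 : G) : G ⧸ H) := fun h => hO (by rw [← Quotient.out_eq O, h, hO₀])
      rw [cW, if_neg hout]
      by_cases hz : z • O.out = O.out
      · have hper : Function.minimalPeriod (y • ·) O.out = 2 := by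
          have hp : Function.IsPeriodicPt (y • ·) 2 O.out := by
            show y • y • O.out = O.out
            rw [← mul_smul, hyy, hz]
          rcases (Nat.dvd_prime Nat.prime_two).mp hp.minimalPeriod_dvd with h | h
          · exfalso
            rw [Function.minimalPeriod_eq_one_iff_isFixedPt] at h
            exact hD.smul_ne hy hyy hout h
          · exact h
        rw [hper, pow_two, hyy]
      · have hper : Function.minimalPeriod (y • ·) O.out = 4 := by
          have hp : Function.IsPeriodicPt (y • ·) 4 O.out := by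
            show y • y • y • y • O.out = O.out
            rw [← mul_smul, ← mul_smul, ← mul_smul]
            have h4 : y * y * y * y = 1 := by
              rw [hyy, mul_assoc, hyy, hD.sq_one]
            rw [h4, one_smul]
          have hd := hp.minimalPeriod_dvd
          have hpp := Function.isPeriodicPt_minimalPeriod (y • ·) O.out
          generalize Function.minimalPeriod (y • ·) O.out = n at hd hpp ⊢
          have hle : n ≤ 4 := Nat.le_of_dvd (by norm_num) hd
          have hpos : 0 < n := Nat.pos_of_dvd_of_pos hd (by norm_num)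
          interval_cases n
          · exfalso
            apply hz
            have h1 : y • O.out = O.out := hpp
            rw [← hyy, mul_smul, h1, h1]
          · exfalso
            apply hz
            have h1 : y • y • O.out = O.out := hpp
            rw [← hyy, mul_smul, h1]
          · exfalso; revert hd; decide
          · rfl
        rw [hper, y4, mul_one, inv_mul_cancel, extOne_one, extOne_of_not_mem]
        exact fun h => hz ((smul_eq_self_iff_out_conj_mem z _).mpr h)
  rw [Finset.prod_congr rfl (fun O _ => hterm O), Finset.prod_mul_distrib,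
    Finset.prod_ite_eq', if_pos (Finset.mem_univ _)]

/-- For `y`, `y'` in `H` with square `z`, the quotients `transfer ϕ y / ϕ y` agree. -/
theorem SqData.transfer_mul_inv_eq [H.FiniteIndex] (hD : SqData H z) {y y' : G} (hy : y ∈ H)
    (hyy : y * y = z) (hy' : y' ∈ H) (hyy' : y' * y' = z) :
    MonoidHom.transfer ϕ y * (ϕ ⟨y, hy⟩)⁻¹ = MonoidHom.transfer ϕ y' * (ϕ ⟨y', hy'⟩)⁻¹ := by
  classical
  have : Finite (G ⧸ H) := Subgroup.finite_quotient_of_finiteIndex
  let _ : Fintype (Quotient (orbitRel (zpowers y) (G ⧸ H))) := Fintype.ofFinite _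
  let _ : Fintype (Quotient (orbitRel (zpowers y') (G ⧸ H))) := Fintype.ofFinite _
  rw [hD.transfer_eq ϕ hy hyy, hD.transfer_eq ϕ hy' hyy', mul_comm (ϕ _), mul_inv_cancel_right,
    mul_comm (ϕ _), mul_inv_cancel_right]
  refine prod_quotient_out_eq _ _ _ (fun a b hab => hD.cW_orbitRel ϕ hy hab)
    (fun a b hab => hD.cW_orbitRel ϕ hy' hab) (fun a b ha => ⟨?_, ?_⟩)
  · exact hD.orbitRel_of ϕ hy hyy hy' hyy' ha
  · exact hD.orbitRel_of ϕ hy' hyy' hy hyy ha

end TransferSq

end Cfsg.Agent.Helper90
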