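import Mathlib
import Cfsg.Prelude.Def_GeometricClasses
import Cfsg.Agent.Helper90.UFRDefs
import Cfsg.Agent.Helper90.UFRBase
import Cfsg.Agent.Helper46.BGLIRR
import Cfsg.Agent.Helper69.BGLSING
import Cfsg.Agent.Helper83.UFRADJ
import Cfsg.Agent.Helper83.UFRFIELD
import Cfsg.Agent.Helper83.UFRKER3
import Cfsg.Agent.Helper83.UFRKERIRR

/-!
# S5982: piece NCU2A
-/

set_option autoImplicit false

namespace Cfsg.Agent.Helper90.UFR

open Module Polynomial

variable {F : Type*} [Field F]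

theorem ufr_rank_add_ker (n : ℕ) (M : Matrix (Fin n) (Fin n) F) :
    (M - 1).rank + finrank F (LinearMap.ker (Matrix.toLin' M - 1)) = n := by
  have h1 := LinearMap.finrank_range_add_finrank_ker (Matrix.toLin' (M - 1))
  rw [Module.finrank_fin_fun] at h1
  have h2 : Matrix.toLin' (M - 1) = Matrix.toLin' M - 1 := by
    rw [map_sub, Matrix.toLin'_one]; rfl
  rw [h2] at h1
  rw [Matrix.rank, ← Matrix.toLin'_apply', h2]
  exact h1

variable [Fintype F]

/-- PIECE NCU2A -/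
theorem fix_le_of_conj_u (q₀ : ℕ) (hq : Fintype.card F = q₀ ^ 2) (n : ℕ)
    (f : (Fin n → F) → (Fin n → F) → F) (hf : Cfsg.Geo.IsUnitaryFormPow q₀ f)
    (r : ℕ) [Fact r.Prime] (hrF : (r : F) ≠ 0)
    (hc2 : 2 ≤ orderOf ((Fintype.card F : ℕ) : ZMod r)) (x : GL (Fin n) F)
    (hx : ((x ^ r : GL (Fin n) F) : Matrix (Fin n) (Fin n) F) = 1)
    (hx1 : (x : Matrix (Fin n) (Fin n) F) ≠ 1) (h : IsConjU f x) :
    finrank F (LinearMap.ker (Matrix.toLin' (x : Matrix (Fin n) (Fin n) F) - 1))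
      + orderOf (-(q₀ : ZMod r)) ≤ n := by
  classical
  have hr : r.Prime := Fact.out
  obtain ⟨σ, J, hσ, hσ2, hJ, hJt, hmem⟩ := ufr_setup q₀ hq n f hf
  obtain ⟨g, -, hgx⟩ := h
  obtain ⟨c, hc0, hYJ⟩ := (hmem _).mp hgx
  obtain ⟨Y, hY⟩ : ∃ Y : Matrix (Fin n) (Fin n) F,
      Y = ((g⁻¹ * x * g : GL (Fin n) F) : Matrix (Fin n) (Fin n) F) := ⟨_, rfl⟩
  rw [← hY] at hYJ
  have hxr : x ^ r = 1 := Units.ext (by rw [hx]; rfl)
  have hYr : Y ^ r = 1 := by
    have h1 : (g⁻¹ * x * g) ^ r = 1 := by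
      have h2 := conj_pow (a := g⁻¹) (b := x) (i := r)
      rw [inv_inv] at h2
      rw [h2, hxr, mul_one, inv_mul_cancel]
    rw [hY, ← Units.val_pow_eq_pow_val, h1]
    rfl
  have hYx : Y = ((g⁻¹ : GL (Fin n) F) : Matrix (Fin n) (Fin n) F)
      * (x : Matrix (Fin n) (Fin n) F) * (g : Matrix (Fin n) (Fin n) F) := by
    rw [hY, Units.val_mul, Units.val_mul]
  have hgg : ((g⁻¹ : GL (Fin n) F) : Matrix (Fin n) (Fin n) F) * (g : Matrix (Fin n) (Fin n) F)
      = 1 := by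
    rw [← Units.val_mul, inv_mul_cancel, Units.val_one]
  have hn : 0 < n := by
    rcases Nat.eq_zero_or_pos n with h0 | h0
    · subst h0
      exact absurd (Subsingleton.elim _ _) hx1
    · exact h0
  have : Nonempty (Fin n) := ⟨⟨0, hn⟩⟩
  have hYm1 : Y - 1 = ((g⁻¹ : GL (Fin n) F) : Matrix (Fin n) (Fin n) F)
      * ((x : Matrix (Fin n) (Fin n) F) - 1) * (g : Matrix (Fin n) (Fin n) F) := by
    rw [Matrix.mul_sub, Matrix.sub_mul, Matrix.mul_one, hgg, ← hYx]
  have hrk2 : (Y - 1).rank = ((x : Matrix (Fin n) (Fin n) F) - 1).rank := by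
    rw [hYm1, Matrix.rank_mul_eq_left_of_isUnit_det _ _ (Matrix.isUnits_det_units g),
      Matrix.rank_mul_eq_right_of_isUnit_det _ _ (Matrix.isUnits_det_units g⁻¹)]
  have hY1 : Y ≠ 1 := by
    intro h1
    have h2 : ((x : Matrix (Fin n) (Fin n) F) - 1).rank = 0 := by
      rw [← hrk2, h1, sub_self, Matrix.rank_zero]
    have h3 := ufr_rank_add_ker n (x : Matrix (Fin n) (Fin n) F)
    have h4 := ufr_rank_add_ker n (1 : Matrix (Fin n) (Fin n) F)
    apply hx1
    have h5 : Matrix.toLin' ((x : Matrix (Fin n) (Fin n) F) - 1) = 0 := by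
      apply LinearMap.range_eq_bot.mp
      apply Submodule.finrank_eq_zero.mp
      rw [← h2, Matrix.rank, Matrix.toLin'_apply']
    have h6 : (x : Matrix (Fin n) (Fin n) F) - 1 = 0 := by
      apply Matrix.toLin'.injective
      rw [h5, map_zero]
    exact sub_eq_zero.mp h6
  -- the similarity factor is one
  have hmapmul : ∀ L M : Matrix (Fin n) (Fin n) F, (L * M).map σ = L.map σ * M.map σ :=
    fun L M => Matrix.map_mul (f := (σ : F →+* F))
  have hmapone : (1 : Matrix (Fin n) (Fin n) F).map σ = 1 :=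
    Matrix.map_one _ (map_zero σ) (map_one σ)
  have hpowJ : ∀ k : ℕ, (Y ^ k).transpose * J * (Y ^ k).map σ = c ^ k • J := by
    intro k
    induction k with
    | zero =>
      rw [pow_zero, pow_zero, Matrix.transpose_one, hmapone, Matrix.one_mul, Matrix.mul_one,
        one_smul]
    | succ k ih =>
      rw [pow_succ, Matrix.transpose_mul, hmapmul]
      calc Y.transpose * (Y ^ k).transpose * J * ((Y ^ k).map σ * Y.map σ)
          = Y.transpose * ((Y ^ k).transpose * J * (Y ^ k).map σ) * Y.map σ := by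
            simp only [Matrix.mul_assoc]
        _ = Y.transpose * (c ^ k • J) * Y.map σ := by rw [ih]
        _ = c ^ k • (Y.transpose * J * Y.map σ) := by rw [Matrix.mul_smul, Matrix.smul_mul]
        _ = c ^ (k + 1) • J := by rw [hYJ, smul_smul, pow_succ]
  have hJ0 : J ≠ 0 := by
    rintro rfl
    rw [Matrix.det_zero] at hJ
    exact hJ rfl
  have hcr : c ^ r = 1 := by
    have h1 := hpowJ r
    rw [hYr, Matrix.transpose_one, hmapone, Matrix.one_mul, Matrix.mul_one] at h1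
    by_contra hne
    apply hJ0
    have h2 : (1 - c ^ r) • J = 0 := by rw [sub_smul, one_smul, ← h1, sub_self]
    exact (smul_eq_zero.mp h2).resolve_left (sub_ne_zero.mpr (Ne.symm hne))
  have hc1 : c = 1 := Cfsg.Agent.Helper69.bgl_root_unity_trivial r hc2 c hcr
  rw [hc1, one_smul] at hYJ
  have hdetY : Y.det ≠ 0 := by
    have h1 : Y * Y ^ (r - 1) = 1 := by
      rw [← pow_succ', Nat.sub_add_cancel hr.one_le, hYr]
    have h3 := congrArg Matrix.det h1
    rw [Matrix.det_mul, Matrix.det_one] at h3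
    exact left_ne_zero_of_mul_eq_one h3
  -- linear algebra
  obtain ⟨T, hT⟩ : ∃ T : (Fin n → F) →ₗ[F] (Fin n → F), T = Matrix.toLinAlgEquiv' Y := ⟨_, rfl⟩
  have hTlin : Matrix.toLin' Y = T := by rw [hT]; rfl
  have hminT : minpoly F T = minpoly F Y := by rw [hT]; exact minpoly.algEquiv_eq _ _
  obtain ⟨Φ, hΦ⟩ : ∃ Φ : F[X], Φ = ∑ j ∈ Finset.range r, (X : F[X]) ^ j := ⟨_, rfl⟩
  have hXr : (X : F[X]) ^ r - 1 = (X - 1) * Φ := by rw [hΦ]; exact (mul_geom_sum X r).symm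
  have hYpoly : aeval Y ((X : F[X]) ^ r - 1) = 0 := by simp [hYr]
  have hμdvd : minpoly F Y ∣ (X - 1) * Φ := by rw [← hXr]; exact minpoly.dvd F Y hYpoly
  have hcop : IsCoprime ((X : F[X]) - 1) Φ := by
    have h1 : (X : F[X]) - 1 = X - C 1 := by simp
    rw [h1, Irreducible.coprime_iff_not_dvd (Polynomial.irreducible_X_sub_C 1),
      Polynomial.dvd_iff_isRoot, Polynomial.IsRoot.def, hΦ]
    simp [Polynomial.eval_finsetSum, hrF]
  have hYint : IsIntegral F Y := IsIntegral.of_finite F Y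
  have hex : ∃ π : F[X], Irreducible π ∧ π ∣ minpoly F Y ∧ π ∣ Φ := by
    by_contra hno
    push Not at hno
    have hcop2 : IsCoprime (minpoly F Y) Φ := by
      rw [← EuclideanDomain.gcd_isUnit_iff]
      by_contra hnu
      have hne0 : EuclideanDomain.gcd (minpoly F Y) Φ ≠ 0 := by
        intro h0
        rw [EuclideanDomain.gcd_eq_zero_iff] at h0
        exact (minpoly.ne_zero hYint) h0.1
      obtain ⟨π, hπ, hπd⟩ := WfDvdMonoid.exists_irreducible_factor hnu hne0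
      exact hno π hπ (hπd.trans (EuclideanDomain.gcd_dvd_left _ _))
        (hπd.trans (EuclideanDomain.gcd_dvd_right _ _))
    have h1 : minpoly F Y ∣ X - 1 := hcop2.dvd_of_dvd_mul_right hμdvd
    have h2 : aeval Y ((X : F[X]) - 1) = 0 := by
      obtain ⟨k, hk⟩ := h1
      rw [hk, map_mul, minpoly.aeval, zero_mul]
    apply hY1
    simpa [sub_eq_zero] using h2
  obtain ⟨π, hπ, hπμ, hπΦ⟩ := hex
  have hπdeg : π.natDegree = orderOf ((Fintype.card F : ℕ) : ZMod r) :=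
    Cfsg.Agent.Helper46.bgl_irr_factor_degree r hrF π hπ (hΦ ▸ hπΦ)
  obtain ⟨g', hg'0, hg'⟩ := Cfsg.Agent.Helper83.adj_root q₀ hq σ hσ n J Y hJ hdetY hYJ (minpoly F Y)
    (minpoly.aeval F Y)
  have hμg' : minpoly F Y ∣ g' := minpoly.dvd F Y hg'0
  have : Fact (Irreducible π) := ⟨hπ⟩
  have hfinK : Module.Finite F (AdjoinRoot π) := (AdjoinRoot.powerBasis hπ.ne_zero).finite
  obtain ⟨α, hα⟩ : ∃ α : AdjoinRoot π, α = AdjoinRoot.root π := ⟨_, rfl⟩
  have haev : ∀ P : F[X], π ∣ P → aeval α P = 0 := by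
    intro P hP
    rw [hα, AdjoinRoot.aeval_eq, AdjoinRoot.mk_eq_zero]
    exact hP
  have hαr : α ^ r = 1 := by
    have h1 := haev (X ^ r - 1) (by rw [hXr]; exact hπΦ.mul_left _)
    simpa [sub_eq_zero] using h1
  have hα0 : α ≠ 0 := by
    rintro rfl
    rw [zero_pow hr.ne_zero] at hαr
    exact zero_ne_one hαr
  have hα1 : α ≠ 1 := by
    intro h1
    have h2 : aeval α ((X : F[X]) - 1) = 0 := by simp [h1]
    rw [hα, AdjoinRoot.aeval_eq, AdjoinRoot.mk_eq_zero] at h2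
    exact hπ.not_isUnit (hcop.isUnit_of_dvd' h2 hπΦ)
  obtain ⟨β, hβ⟩ : ∃ β : AdjoinRoot π, β = (α ^ q₀)⁻¹ := ⟨_, rfl⟩
  have hβμ : aeval β (minpoly F Y) = 0 := by
    rw [hβ]
    exact hg' (AdjoinRoot π) α hα0 (haev g' (hπμ.trans hμg'))
  have hrq : ¬ r ∣ q₀ := by
    intro hdiv
    have h1 : ((Fintype.card F : ℕ) : ZMod r) = 0 := by
      rw [hq, Nat.cast_pow, (ZMod.natCast_eq_zero_iff q₀ r).mpr hdiv, zero_pow (by norm_num)]
    rw [h1] at hc2
    have h2 : orderOf (0 : ZMod r) = 0 := by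
      rw [orderOf_eq_zero_iff]
      intro hfin
      have h3 := hfin.isUnit
      exact not_isUnit_zero h3
    omega
  have hβ1 : β ≠ 1 := by
    intro h1
    rw [hβ, inv_eq_one] at h1
    have h3 : orderOf α ∣ r := orderOf_dvd_of_pow_eq_one hαr
    have h4 : orderOf α ∣ q₀ := orderOf_dvd_of_pow_eq_one h1
    have h5 : orderOf α = 1 := by
      rcases (Nat.dvd_prime hr).mp h3 with h | h
      · exact h
      · rw [h] at h4
        exact absurd h4 hrq
    exact hα1 (orderOf_eq_one_iff.mp h5)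
  have hβΦ : aeval β Φ = 0 := by
    have h1 : aeval β (((X : F[X]) - 1) * Φ) = 0 := by
      obtain ⟨k, hk⟩ := hμdvd
      rw [hk, map_mul, hβμ, zero_mul]
    rw [map_mul] at h1
    rcases mul_eq_zero.mp h1 with h | h
    · exfalso
      apply hβ1
      simpa [sub_eq_zero] using h
    · exact h
  have hβint : IsIntegral F β := IsIntegral.of_finite F β
  obtain ⟨π₂, hπ₂def⟩ : ∃ π₂ : F[X], π₂ = minpoly F β := ⟨_, rfl⟩
  have hπ₂ : Irreducible π₂ := by rw [hπ₂def]; exact minpoly.irreducible hβint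
  have hπ₂μ : π₂ ∣ minpoly F Y := by rw [hπ₂def]; exact minpoly.dvd F β hβμ
  have hπ₂Φ : π₂ ∣ Φ := by rw [hπ₂def]; exact minpoly.dvd F β hβΦ
  have hπ₂deg : π₂.natDegree = orderOf ((Fintype.card F : ℕ) : ZMod r) :=
    Cfsg.Agent.Helper46.bgl_irr_factor_degree r hrF π₂ hπ₂ (hΦ ▸ hπ₂Φ)
  have hπ₂β : aeval β π₂ = 0 := by rw [hπ₂def]; exact minpoly.aeval F β
  have hk1 := Cfsg.Agent.Helper83.irr_le_ker T π hπ (by rw [hminT]; exact hπμ)
  have hk2 := Cfsg.Agent.Helper83.irr_le_ker T π₂ hπ₂ (by rw [hminT]; exact hπ₂μ)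
  have hcop1 : IsCoprime ((X : F[X]) - 1) π := hcop.of_isCoprime_of_dvd_right hπΦ
  have hcop2 : IsCoprime ((X : F[X]) - 1) π₂ := hcop.of_isCoprime_of_dvd_right hπ₂Φ
  have hkerX : LinearMap.ker (aeval T ((X : F[X]) - 1)) = LinearMap.ker (T - 1) := by simp
  have hfr : finrank F (Fin n → F) = n := Module.finrank_fin_fun F
  have hgoal : finrank F (LinearMap.ker (Matrix.toLin' (x : Matrix (Fin n) (Fin n) F) - 1))
      = finrank F (LinearMap.ker (T - 1)) := by
    have h3 := ufr_rank_add_ker n (x : Matrix (Fin n) (Fin n) F)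
    have h4 := ufr_rank_add_ker n Y
    rw [hTlin] at h4
    omega
  rw [hgoal]
  by_cases hdv : π ∣ π₂
  · have hassoc := hπ.associated_of_dvd hπ₂ hdv
    have hπβ : aeval β π = 0 :=
      Polynomial.aeval_eq_zero_of_dvd_aeval_eq_zero hassoc.symm.dvd hπ₂β
    obtain ⟨ρ, hρ⟩ : ∃ ρ : AdjoinRoot π →ₐ[F] AdjoinRoot π, ρ α = (α ^ q₀)⁻¹ := by
      refine ⟨AdjoinRoot.liftAlgHom π (Algebra.ofId F (AdjoinRoot π)) β hπβ, ?_⟩
      rw [hα]
      exact (AdjoinRoot.liftAlgHom_root π (Algebra.ofId F (AdjoinRoot π)) β hπβ).trans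
        (by rw [hβ, hα])
    have hF := Cfsg.Agent.Helper83.ord_le_of_hom q₀ r α hαr hα1 ρ hρ
    have hfin : finrank F (AdjoinRoot π) = π.natDegree := by
      rw [(AdjoinRoot.powerBasis hπ.ne_zero).finrank, AdjoinRoot.powerBasis_dim]
    have h3 := Cfsg.Agent.Helper83.ker3_le T (X - 1) π 1 hcop1 isCoprime_one_right isCoprime_one_right
    rw [hkerX, hfr] at h3
    omega
  · have hcop3 : IsCoprime π π₂ := (Irreducible.coprime_iff_not_dvd hπ).mpr hdv
    have h3 := Cfsg.Agent.Helper83.ker3_le T (X - 1) π π₂ hcop1 hcop2 hcop3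
    rw [hkerX, hfr] at h3
    obtain ⟨m, hm⟩ : ∃ m, m = orderOf (-(q₀ : ZMod r)) := ⟨_, rfl⟩
    have hm2 : m ≤ 2 * orderOf ((Fintype.card F : ℕ) : ZMod r) := by
      have h1 : ((Fintype.card F : ℕ) : ZMod r) = (-(q₀ : ZMod r)) ^ 2 := by
        rw [hq, Nat.cast_pow, neg_sq]
      rw [h1, orderOf_pow' _ (by norm_num), ← hm]
      have hg2 : Nat.gcd m 2 ∣ 2 := Nat.gcd_dvd_right _ _
      have hg1 : Nat.gcd m 2 ∣ m := Nat.gcd_dvd_left _ _
      have hgle : Nat.gcd m 2 ≤ 2 := Nat.le_of_dvd (by norm_num) hg2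
      have hgpos : 0 < Nat.gcd m 2 := Nat.gcd_pos_of_pos_right _ (by norm_num)
      obtain ⟨t, ht⟩ := hg1
      have h5 : m / Nat.gcd m 2 = t := Nat.div_eq_of_eq_mul_right hgpos ht
      rw [h5]
      calc m = Nat.gcd m 2 * t := ht
        _ ≤ 2 * t := Nat.mul_le_mul_right t hgle
    rw [← hm]
    omega

end Cfsg.Agent.Helper90.UFR
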