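import Mathlib
import Cfsg.Prelude.Def_GeometricClasses
import Cfsg.Agent.Helper90.UFRDefs
import Cfsg.Agent.Helper69.SngB2
import Cfsg.Agent.Helper90.UFRNc

/-!
# S5982: piece BAD2AU
-/

set_option autoImplicit false

namespace Cfsg.Agent.Helper90.UFR

open Module Polynomial

variable {F : Type*} [Field F] [Fintype F]

/-- PIECE BAD2AU -/
theorem bad_nonsplit_u (p : ℕ) [Fact p.Prime] [CharP F p] (q₀ : ℕ)
    (hq : Fintype.card F = q₀ ^ 2) (r : ℕ) [Fact r.Prime] (hrp : r ≠ p)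
    (hm : Even (orderOf (-(q₀ : ZMod r))))
    (hc2 : 2 ≤ orderOf ((Fintype.card F : ℕ) : ZMod r)) (n : ℕ)
    (hcn : orderOf ((Fintype.card F : ℕ) : ZMod r) ≤ n)
    (f : (Fin n → F) → (Fin n → F) → F) (hf : Cfsg.Geo.IsUnitaryFormPow q₀ f) : IsBadU f r := by
  classical
  have hr : r.Prime := Fact.out
  have hp : p.Prime := Fact.out
  have hrF : (r : F) ≠ 0 := by
    intro h
    rw [CharP.cast_eq_zero_iff F p r] at h
    exact hrp ((Nat.prime_dvd_prime_iff_eq hp hr).mp h).symm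
  obtain ⟨c, hc⟩ : ∃ c, c = orderOf ((Fintype.card F : ℕ) : ZMod r) := ⟨_, rfl⟩
  have hc2' := hc2
  rw [← hc] at hc2 hcn
  have hrdvd : r ∣ Fintype.card F ^ c - 1 := by
    have h1 : ((Fintype.card F : ℕ) : ZMod r) ^ c = 1 := by
      rw [hc]; exact pow_orderOf_eq_one _
    have hpos : 1 ≤ Fintype.card F ^ c := Nat.one_le_pow _ _ Fintype.card_pos
    rw [← ZMod.natCast_eq_zero_iff, Nat.cast_sub hpos, Nat.cast_pow, h1, Nat.cast_one, sub_self]
  obtain ⟨x, hx1, hxns, hker⟩ := Cfsg.Agent.Helper69.bgl_exists_fpf_gen p n r hc2' c (n - c)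
    (by omega) (by omega) hrdvd
  have hcoe : ((Matrix.SpecialLinearGroup.toGL x : GL (Fin n) F) : Matrix (Fin n) (Fin n) F)
      = (x : Matrix (Fin n) (Fin n) F) := rfl
  have hpow : (((Matrix.SpecialLinearGroup.toGL x) ^ r : GL (Fin n) F) : Matrix (Fin n) (Fin n) F)
      = 1 := by
    rw [← map_pow]
    exact hx1
  refine ⟨Matrix.SpecialLinearGroup.toGL x, ?_, ⟨1, by rw [hpow, one_smul]⟩, ?_, ?_⟩
  · rw [Cfsg.Geo.specialLinear, MonoidHom.mem_ker]
    apply Units.ext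
    rw [Matrix.GeneralLinearGroup.val_det_apply, hcoe, x.det_coe, Units.val_one]
  · intro z
    rw [hcoe]
    exact hxns z
  intro hconj
  have hx1' : ((Matrix.SpecialLinearGroup.toGL x : GL (Fin n) F) : Matrix (Fin n) (Fin n) F) ≠ 1 := by
    have h1 := hxns 1
    rwa [one_smul] at h1
  have h := fix_le_of_conj_u q₀ hq n f hf r hrF hc2' (Matrix.SpecialLinearGroup.toGL x) hpow hx1'
    hconj
  rw [hcoe, hker] at h
  have hcc : orderOf (-(q₀ : ZMod r)) = 2 * c := by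
    have h1 : ((Fintype.card F : ℕ) : ZMod r) = (-(q₀ : ZMod r)) ^ 2 := by
      rw [hq, Nat.cast_pow, neg_sq]
    have h2 : (2 : ℕ) ∣ orderOf (-(q₀ : ZMod r)) := even_iff_two_dvd.mp hm
    rw [hc, h1, orderOf_pow' _ (by norm_num), Nat.gcd_eq_right h2]
    exact (Nat.mul_div_cancel' h2).symm
  rw [hcc] at h
  omega

end Cfsg.Agent.Helper90.UFR
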