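import Mathlib
import Cfsg.Prelude.Def_GeometricClasses
import Cfsg.Agent.Helper90.UFRDefs
import Cfsg.Agent.Helper90.UFRBase
import Cfsg.Agent.Helper39.UFRCENT2
import Cfsg.Agent.Helper75.UFRFORM2

/-!
# S5982: piece GOOD2E
-/

set_option autoImplicit false

namespace Cfsg.Agent.Helper90.UFR

open Module Polynomial

variable {F : Type*} [Field F] [Fintype F]

/-- PIECE GOOD2E -/
theorem good_two_even (h2 : (2 : F) = 0) (q₀ : ℕ) (hq : Fintype.card F = q₀ ^ 2) (n : ℕ)
    (f : (Fin n → F) → (Fin n → F) → F) (hf : Cfsg.Geo.IsUnitaryFormPow q₀ f)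
    (x : GL (Fin n) F) (z : F)
    (hxz : ((x ^ 2 : GL (Fin n) F) : Matrix (Fin n) (Fin n) F)
      = z • (1 : Matrix (Fin n) (Fin n) F))
    (hns : ∀ z : F, (x : Matrix (Fin n) (Fin n) F) ≠ z • (1 : Matrix (Fin n) (Fin n) F)) :
    IsConjU f x := by
  classical
  obtain ⟨σ, J, hσ, hσ2, hJ, hJt, hmem⟩ := ufr_setup q₀ hq n f hf
  have hch : ringChar F = 2 :=
    CharP.ringChar_of_prime_eq_zero Nat.prime_two (by exact_mod_cast h2)
  obtain ⟨w, hw⟩ := FiniteField.isSquare_of_char_two hch z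
  have hch2 : ∀ M : Matrix (Fin n) (Fin n) F, M + M = 0 := by
    intro M
    rw [← two_smul F M, h2, zero_smul]
  have hn : 0 < n := by
    rcases Nat.eq_zero_or_pos n with h0 | h0
    · subst h0
      exact absurd (Subsingleton.elim _ _) (hns 0)
    · exact h0
  have : Nonempty (Fin n) := ⟨⟨0, hn⟩⟩
  have hxx : (x : Matrix (Fin n) (Fin n) F) * (x : Matrix (Fin n) (Fin n) F)
      = z • (1 : Matrix (Fin n) (Fin n) F) := by
    rw [← hxz, pow_two, Units.val_mul]
  have hdetx : (x : Matrix (Fin n) (Fin n) F).det ≠ 0 := by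
    have h1 : (x : Matrix (Fin n) (Fin n) F) * ((x⁻¹ : GL (Fin n) F) : Matrix (Fin n) (Fin n) F)
        = 1 := by
      rw [← Units.val_mul, mul_inv_cancel, Units.val_one]
    have h3 := congrArg Matrix.det h1
    rw [Matrix.det_mul, Matrix.det_one] at h3
    exact left_ne_zero_of_mul_eq_one h3
  have hz0 : z ≠ 0 := by
    rintro rfl
    rw [zero_smul] at hxx
    have h1 := congrArg Matrix.det hxx
    rw [Matrix.det_mul, Matrix.det_zero] at h1
    exact hdetx (mul_self_eq_zero.mp h1)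
  have hw0 : w ≠ 0 := by
    rintro rfl
    rw [mul_zero] at hw
    exact hz0 hw
  obtain ⟨N, hNdef⟩ : ∃ N : Matrix (Fin n) (Fin n) F,
      N = w⁻¹ • (x : Matrix (Fin n) (Fin n) F) + 1 := ⟨_, rfl⟩
  have hN : N * N = 0 := by
    rw [hNdef, add_mul, mul_add, mul_add, Matrix.smul_mul, Matrix.mul_smul, hxx, smul_smul,
      smul_smul, Matrix.mul_one, Matrix.one_mul, Matrix.one_mul, hw]
    have h1 : w⁻¹ * w⁻¹ * (w * w) = 1 := by field_simp
    rw [h1, one_smul]
    have h3 : (1 : Matrix (Fin n) (Fin n) F) + w⁻¹ • (x : Matrix (Fin n) (Fin n) F)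
        + (w⁻¹ • (x : Matrix (Fin n) (Fin n) F) + 1)
        = (1 + 1) + (w⁻¹ • (x : Matrix (Fin n) (Fin n) F)
          + w⁻¹ • (x : Matrix (Fin n) (Fin n) F)) := by abel
    rw [h3, hch2, hch2, add_zero]
  have hxN : (x : Matrix (Fin n) (Fin n) F) = w • (1 + N) := by
    have h1 : (1 : Matrix (Fin n) (Fin n) F) + (w⁻¹ • (x : Matrix (Fin n) (Fin n) F) + 1)
        = w⁻¹ • (x : Matrix (Fin n) (Fin n) F) + (1 + 1) := by abel
    rw [hNdef, h1, hch2, add_zero, smul_smul, mul_inv_cancel₀ hw0, one_smul]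
  have hN0 : N ≠ 0 := by
    intro h0
    rw [h0, add_zero] at hxN
    exact hns w hxN
  obtain ⟨J', hJ', hJ't, hNJ⟩ := Cfsg.Agent.Helper75.form_two h2 σ hσ2 n N hN
  have hσw : σ w ≠ 0 := by
    intro h0
    apply hw0
    have := hσ2 w
    rw [h0, map_zero] at this
    exact this.symm
  have hxJ : (x : Matrix (Fin n) (Fin n) F).transpose * J' * (x : Matrix (Fin n) (Fin n) F).map σ
      = (w * σ w) • J' := by
    have h1 : (w • (1 + N)).map σ = σ w • (1 + N).map σ := by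
      ext i j
      simp [Matrix.map_apply, Matrix.smul_apply, mul_add]
    rw [hxN, Matrix.transpose_smul, h1, Matrix.smul_mul, Matrix.smul_mul, Matrix.mul_smul, hNJ,
      smul_smul]
  have hcent : ∀ δ : F, δ ≠ 0 → ∃ C : GL (Fin n) F, C * x = x * C ∧
      (C : Matrix (Fin n) (Fin n) F).det = δ := by
    intro δ hδ
    obtain ⟨C, hCN, hCdet⟩ := Cfsg.Agent.Helper39.cent_two h2 n N hN hN0 δ hδ
    refine ⟨C, ?_, hCdet⟩
    apply Units.ext
    rw [Units.val_mul, Units.val_mul, hxN, Matrix.mul_smul, Matrix.smul_mul, mul_add, add_mul,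
      Matrix.mul_one, Matrix.one_mul, hCN]
  exact conj_of_model q₀ hq n f hf σ hσ x J' hJ' hJ't (w * σ w) (mul_ne_zero hw0 hσw) hxJ hcent

end Cfsg.Agent.Helper90.UFR
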