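import Mathlib
import Cfsg.Prelude.Def_GeometricClasses
import Cfsg.Agent.Helper90.UFRDefs
import Cfsg.Agent.Helper5.UnitCard
import Cfsg.Agent.Helper39.UFRISOCARD
import Cfsg.Agent.Helper83.UFRIDXARITH

/-!
# S5982: piece IDXU
-/

set_option autoImplicit false

namespace Cfsg.Agent.Helper90.UFR

open Module Polynomial

variable {F : Type*} [Field F] [Fintype F]

/-- PIECE IDXU -/
theorem index_odd_u (p : ℕ) [Fact p.Prime] [CharP F p] (q₀ : ℕ) (hq : Fintype.card F = q₀ ^ 2)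
    (r : ℕ) [Fact r.Prime] (hr2 : r ≠ 2) (hrp : r ≠ p) (hm : Odd (orderOf (-(q₀ : ZMod r))))
    (n : ℕ) (hn : 1 ≤ n) (f : (Fin n → F) → (Fin n → F) → F)
    (hf : Cfsg.Geo.IsUnitaryFormPow q₀ f) :
    ¬ r ∣ (Cfsg.Geo.similarityGroup f).relIndex (Cfsg.Geo.specialLinear (Fin n) F) := by
  classical
  have hr : r.Prime := Fact.out
  have hp : p.Prime := Fact.out
  have hq2 : 2 ≤ Fintype.card F := Fintype.one_lt_card
  have hq₀ : 2 ≤ q₀ := by
    by_contra h
    have h1 : q₀ ≤ 1 := by omega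
    have h3 : q₀ ^ 2 ≤ 1 ^ 2 := Nat.pow_le_pow_left h1 2
    omega
  have hrq : ¬ r ∣ q₀ := by
    intro h
    have h1 : r ∣ Fintype.card F := by
      rw [hq]
      exact Dvd.dvd.pow h (by norm_num)
    obtain ⟨m, -, hm'⟩ := FiniteField.card F p
    rw [hm'] at h1
    exact hrp ((Nat.prime_dvd_prime_iff_eq hr hp).mp (hr.dvd_of_dvd_pow h1))
  have : Nonempty (Fin n) := ⟨⟨0, by omega⟩⟩
  have hSLGL : Nat.card ↥(Cfsg.Geo.specialLinear (Fin n) F) * (Fintype.card F - 1)
      = Nat.card (GL (Fin n) F) := by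
    have h2 : (Matrix.GeneralLinearGroup.det : GL (Fin n) F →* Fˣ).ker.index
        = Fintype.card F - 1 := by
      rw [Subgroup.index_ker, MonoidHom.range_eq_top.2 Matrix.GeneralLinearGroup.det_surjective]
      rw [Nat.card_congr Subgroup.topEquiv.toEquiv, Nat.card_units, Nat.card_eq_fintype_card]
    rw [Cfsg.Geo.specialLinear, ← h2, Subgroup.card_mul_index]
  have hRS : (Cfsg.Geo.similarityGroup f).relIndex (Cfsg.Geo.specialLinear (Fin n) F)
      * Nat.card ↥(Cfsg.Geo.similarityGroup f ⊓ Cfsg.Geo.specialLinear (Fin n) F)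
      = Nat.card ↥(Cfsg.Geo.specialLinear (Fin n) F) := by
    have h1 := Subgroup.card_mul_index
      ((Cfsg.Geo.similarityGroup f).subgroupOf (Cfsg.Geo.specialLinear (Fin n) F))
    have h3 : Nat.card ↥((Cfsg.Geo.similarityGroup f).subgroupOf
        (Cfsg.Geo.specialLinear (Fin n) F))
        = Nat.card ↥(Cfsg.Geo.similarityGroup f ⊓ Cfsg.Geo.specialLinear (Fin n) F) := by
      rw [← Subgroup.inf_subgroupOf_right]
      exact Nat.card_congr (Subgroup.subgroupOfEquivOfLe inf_le_right).toEquiv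
    rw [h3] at h1
    rw [Subgroup.relIndex, mul_comm]
    exact h1
  have hGL := Matrix.card_GL_field (𝔽 := F) (n := n)
  have hGU := Cfsg.Agent.Helper5.card_GU (F := F) hq n
  have hdvd := Cfsg.Agent.Helper39.card_GU_dvd q₀ hq n f hf
  rw [hGU] at hdvd
  refine Cfsg.Agent.Helper83.idx_arith q₀ hq₀ r hr2 hrq hm n hn _ _ ?_ hdvd
  rw [hRS, ← hq, hSLGL, hGL]

end Cfsg.Agent.Helper90.UFR
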