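import Mathlib
import Cfsg.Prelude.Def_GeometricClasses
import Cfsg.Agent.Helper90.UFRDefs
import Cfsg.Agent.Helper41.IMGLORD
import Cfsg.Agent.Helper90.UFRGood2e
import Cfsg.Agent.Helper90.UFRBad2a
import Cfsg.Agent.Helper90.UFRIdx
import Cfsg.Agent.Helper4.UFRGOOD2O
import Cfsg.Agent.Helper4.UFRBAD2U
import Cfsg.Agent.Helper4.UFRGOODEXU
import Cfsg.Agent.Helper59.UFRBADE1U
import Cfsg.Agent.Helper33.UFRBADE4U
import Cfsg.Agent.Helper46.UFRBADBU

/-!
# S5982: elements of prime order of `SL_n(q₀²)` and the unitary subgroups - assembly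
-/

set_option autoImplicit false

namespace Cfsg.Agent.Helper90.UFR

open Module Polynomial

theorem ufr_main {F : Type*} [Field F] [Fintype F] (p : ℕ) [Fact p.Prime] [CharP F p]
    (q₀ : ℕ) (hq : Fintype.card F = q₀ ^ 2) (n : ℕ) (hn : 3 ≤ n)
    (f : (Fin n → F) → (Fin n → F) → F) (hf : Cfsg.Geo.IsUnitaryFormPow q₀ f)
    (r : ℕ) [Fact r.Prime] (hr : r = 2 ∨ r ≠ p) (hgap : ¬ (n = 6 ∧ r = 3))
    (hΩ : r ∣ (Cfsg.Geo.similarityGroup f).relIndex (Cfsg.Geo.specialLinear (Fin n) F)) :
    (∀ x ∈ Cfsg.Geo.specialLinear (Fin n) F,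
      (∃ z : F, ((x ^ r : GL (Fin n) F) : Matrix (Fin n) (Fin n) F)
        = z • (1 : Matrix (Fin n) (Fin n) F)) →
      (∀ z : F, (x : Matrix (Fin n) (Fin n) F) ≠ z • (1 : Matrix (Fin n) (Fin n) F)) →
      IsConjU f x) ↔
    ((r = 2 ∧ (p = 2 ∨ padicValNat 2 n ≤ padicValNat 2 (Fintype.card F - 1))) ∨
      ((r = 3 ∨ r = 5) ∧ n = r ∧ padicValNat r (q₀ - 1) = 1)) := by
  classical
  have hrp' : r.Prime := Fact.out
  have hp : p.Prime := Fact.out
  have hq2 : 2 ≤ Fintype.card F := Fintype.one_lt_card
  have hq₀pos : 1 ≤ q₀ := by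
    rcases Nat.eq_zero_or_pos q₀ with h0 | h0
    · rw [h0] at hq
      norm_num at hq
    · exact h0
  have hfac : Fintype.card F - 1 = (q₀ - 1) * (q₀ + 1) := by
    rw [hq]
    obtain ⟨a, rfl⟩ : ∃ a, q₀ = a + 1 := ⟨q₀ - 1, by omega⟩
    have : (a + 1) ^ 2 = a * (a + 1 + 1) + 1 := by ring
    rw [this]
    simp
  have h2F : (2 : F) = 0 ↔ p = 2 := by
    constructor
    · intro h
      have h1 : ((2 : ℕ) : F) = 0 := by exact_mod_cast h
      rw [CharP.cast_eq_zero_iff F p 2] at h1
      exact (Nat.prime_dvd_prime_iff_eq hp Nat.prime_two).mp h1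
    · intro h
      have h1 : ((2 : ℕ) : F) = 0 := by
        rw [CharP.cast_eq_zero_iff F p 2, h]
      exact_mod_cast h1
  constructor
  swap
  · rintro (⟨hr2, hcase⟩ | ⟨h35, hnr, hv⟩)
    · subst hr2
      by_cases hp2 : p = 2
      · intro x _ ⟨z, hz⟩ hns
        exact good_two_even (h2F.mpr hp2) q₀ hq n f hf x z hz hns
      · have hv : padicValNat 2 n ≤ padicValNat 2 (Fintype.card F - 1) := by
          rcases hcase with h | h
          · exact absurd h hp2
          · exact h
        intro x hx ⟨z, hz⟩ _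
        exact Cfsg.Agent.Helper4.good_two_odd (fun h => hp2 (h2F.mp h)) q₀ hq n (by omega) hv f hf x hx z hz
    · subst hnr
      intro x hx ⟨z, hz⟩ _
      exact Cfsg.Agent.Helper4.good_of_exc_u q₀ hq n h35 hv f hf x hx z hz
  · intro hL
    have key : IsBadU f r → False := fun ⟨x, hx, hxz, hns, hnc⟩ => hnc (hL x hx hxz hns)
    by_cases hr2 : r = 2
    · left
      refine ⟨hr2, ?_⟩
      subst hr2
      by_cases hp2 : p = 2
      · exact Or.inl hp2
      right
      by_contra hv
      push Not at hv
      exact key (Cfsg.Agent.Helper4.bad_two_u (fun h => hp2 (h2F.mp h)) q₀ hq n hv f hf)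
    right
    have hrp : r ≠ p := by
      rcases hr with h | h
      · exact absurd h hr2
      · exact h
    have hrF : (r : F) ≠ 0 := by
      intro h
      rw [CharP.cast_eq_zero_iff F p r] at h
      exact hrp ((Nat.prime_dvd_prime_iff_eq hp hrp').mp h).symm
    have hcast1 : ∀ m : ℕ, 1 ≤ m → (r ∣ m - 1 ↔ ((m : ℕ) : ZMod r) = 1) := by
      intro m hm
      rw [← (ZMod.natCast_eq_zero_iff (m - 1) r), Nat.cast_sub hm, Nat.cast_one, sub_eq_zero]
    have hplus : r ∣ q₀ + 1 ↔ ((q₀ : ℕ) : ZMod r) = -1 := by
      rw [← (ZMod.natCast_eq_zero_iff (q₀ + 1) r), Nat.cast_add, Nat.cast_one,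
        add_eq_zero_iff_eq_neg]
    by_cases hq1 : r ∣ Fintype.card F - 1
    · -- the split case `r ∣ q - 1`
      by_cases hr0 : r ∣ q₀ - 1
      · have hq₀2 : q₀ - 1 ≠ 0 := by
          intro h0
          have h1 : q₀ = 1 := by omega
          rw [h1] at hq
          norm_num at hq
          omega
        have hr1 : ¬ r ∣ q₀ + 1 := by
          intro h
          have h3 : r ∣ (q₀ + 1) - (q₀ - 1) := Nat.dvd_sub h hr0
          have h4 : (q₀ + 1) - (q₀ - 1) = 2 := by omega
          rw [h4] at h3
          exact hr2 ((Nat.prime_dvd_prime_iff_eq hrp' Nat.prime_two).mp h3)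
        have hv1 : padicValNat r (Fintype.card F - 1) = padicValNat r (q₀ - 1) := by
          rw [hfac, padicValNat.mul hq₀2 (by omega), padicValNat.eq_zero_of_not_dvd hr1, add_zero]
        rcases lt_trichotomy (padicValNat r n) (padicValNat r (Fintype.card F - 1)) with
          hlt | heq | hgt
        · exact (key (Cfsg.Agent.Helper59.bad_homology_u q₀ hq r hr2 hr0 n hn hlt f hf)).elim
        · by_cases hn6 : 6 ≤ n
          · exact (key (Cfsg.Agent.Helper33.bad_three_u q₀ hq r hr2 hr0 n hn6 hgap f hf)).elim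
          · have he : 1 ≤ padicValNat r (Fintype.card F - 1) :=
              one_le_padicValNat_of_dvd (by omega) hq1
            have hrn : r ∣ n := dvd_of_one_le_padicValNat (by omega)
            have hrn' : n = r := by
              obtain ⟨m, hm⟩ := hrn
              have hr3 : 3 ≤ r := by
                have := hrp'.two_le
                omega
              rcases m with _ | _ | m
              · omega
              · omega
              · have : 6 ≤ r * (m + 1 + 1) := by nlinarith
                omega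
            subst hrn'
            have h35 : n = 3 ∨ n = 5 := by
              have h4 : n ≠ 4 := by
                rintro rfl
                exact absurd hrp' (by decide)
              omega
            refine ⟨h35, rfl, ?_⟩
            have hvr : padicValNat n n = 1 := padicValNat_self
            omega
        · exact (key (Cfsg.Agent.Helper46.bad_irr_u q₀ hq r hr2 hr0 n (by omega) hgt f hf)).elim
      · -- `r ∣ q₀ + 1`: the order of `-q₀` is one
        have hr1 : r ∣ q₀ + 1 := by
          rw [hfac] at hq1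
          rcases (Nat.Prime.dvd_mul hrp').mp hq1 with h | h
          · exact absurd h hr0
          · exact h
        have hm : Odd (orderOf (-((q₀ : ℕ) : ZMod r))) := by
          rw [hplus.mp hr1, neg_neg, orderOf_one]
          exact odd_one
        exact absurd hΩ (index_odd_u p q₀ hq r hr2 hrp hm n (by omega) f hf)
    · -- the non-split case
      by_cases hm : Even (orderOf (-((q₀ : ℕ) : ZMod r)))
      · have hqr : ¬ r ∣ Fintype.card F := by
          intro h
          obtain ⟨m, -, hm'⟩ := FiniteField.card F p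
          rw [hm'] at h
          exact hrp ((Nat.prime_dvd_prime_iff_eq hrp' hp).mp (hrp'.dvd_of_dvd_pow h))
        have hunit : IsUnit ((Fintype.card F : ℕ) : ZMod r) := by
          rw [ZMod.isUnit_iff_coprime]
          exact ((Nat.Prime.coprime_iff_not_dvd hrp').mpr hqr).symm
        have hi0 : 0 < orderOf ((Fintype.card F : ℕ) : ZMod r) := by
          rw [orderOf_pos_iff, isOfFinOrder_iff_isUnit]
          exact hunit
        have hc2 : 2 ≤ orderOf ((Fintype.card F : ℕ) : ZMod r) := by
          have h1 : orderOf ((Fintype.card F : ℕ) : ZMod r) ≠ 1 := by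
            intro h1
            rw [orderOf_eq_one_iff] at h1
            exact hq1 ((hcast1 _ (by omega)).mpr h1)
          omega
        have hrGL : r ∣ Nat.card (GL (Fin n) F) := by
          have h1 : (Cfsg.Geo.similarityGroup f).relIndex (Cfsg.Geo.specialLinear (Fin n) F)
              ∣ Nat.card ↥(Cfsg.Geo.specialLinear (Fin n) F) := by
            rw [Subgroup.relIndex]
            exact Subgroup.index_dvd_card _
          have h2 : Nat.card ↥(Cfsg.Geo.specialLinear (Fin n) F) ∣ Nat.card (GL (Fin n) F) :=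
            Subgroup.card_subgroup_dvd_card _
          exact (hΩ.trans h1).trans h2
        have hcn := Cfsg.Agent.Helper41.order_le_of_gl r hrF hrGL
        exact (key (bad_nonsplit_u p q₀ hq r hrp hm hc2 n hcn f hf)).elim
      · exact absurd hΩ
          (index_odd_u p q₀ hq r hr2 hrp (Nat.not_even_iff_odd.mp hm) n (by omega) f hf)

end Cfsg.Agent.Helper90.UFR
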