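import Mathlib
import Cfsg.Agent.Helper90.MinusType
import Cfsg.Agent.Helper96.SpX4

/-!
# Class-two groups with scalars `±1` are realisable over the prime field

For an absolutely irreducible group `E ≤ GL(κ, F)` (`F` finite of odd characteristic `p`) whose commutators are
scalar and whose scalar elements are `±1`, the non-scalar elements have trace zero, so the averaged matrices
`∑ x M σ(x⁻¹)` (σ the Frobenius) give a non-zero intertwiner between `E` and its Frobenius twist; Galois descent
(`Helper96.Sy.frob_descent`) then realises `E` over the prime field.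
-/

set_option autoImplicit false
set_option linter.style.haveILetI false
set_option linter.unusedSectionVars false

namespace Cfsg.Agent.Helper90

open Cfsg Cfsg.Geo Matrix

namespace UC

variable {κ : Type} [Fintype κ] [DecidableEq κ] {F : Type*} [Field F]

/-- An invertible matrix of the form `c • 1` is a scalar element of `GL`. -/
theorem mem_scalars_of_eq_smul (g : GL κ F) (c : F)
    (hc : (g : Matrix κ κ F) = c • (1 : Matrix κ κ F)) : g ∈ scalars κ F := by
  by_cases hc0 : c = 0
  · have h1 : (g : Matrix κ κ F) = 0 := by rw [hc, hc0, zero_smul]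
    have h2 : (1 : Matrix κ κ F) = 0 := by
      have h3 := g.mul_inv
      rw [h1, zero_mul] at h3
      exact h3.symm
    have h3 : g = 1 := Units.ext (by rw [h1, Units.val_one, h2])
    rw [h3]
    exact Subgroup.one_mem _
  · exact (mem_scalars_iff g).mpr ⟨Units.mk0 c hc0, hc⟩

/-- Non-scalar elements of an absolutely irreducible group with scalar commutators have trace zero. -/
theorem trace_zero_of_not_scalar (E : Subgroup (GL κ F))
    (habs : ActsAbsolutelyIrreducibly (matrixSet E))
    (hab : ∀ a ∈ E, ∀ b ∈ E, a * b * a⁻¹ * b⁻¹ ∈ scalars κ F) (x : GL κ F) (hx : x ∈ E)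
    (hxs : x ∉ scalars κ F) : Matrix.trace (x : Matrix κ κ F) = 0 := by
  have hsc : ¬ ∀ s ∈ matrixSet E, (x : Matrix κ κ F) * s = s * (x : Matrix κ κ F) := by
    intro h
    obtain ⟨c, hc⟩ := habs.2 _ h
    exact hxs (mem_scalars_of_eq_smul x c hc)
  push Not at hsc
  obtain ⟨s, hs, hne⟩ := hsc
  obtain ⟨b, hb, rfl⟩ := hs
  obtain ⟨c, hc⟩ := (mem_scalars_iff _).mp (hab x hx b hb)
  apply MinusT.trace_eq_zero_of_comm_scalar x b (c : F) _ hc
  intro hc1
  apply hne
  have h1 : x * b * x⁻¹ * b⁻¹ = 1 := Units.ext (by rw [hc, hc1, one_smul, Units.val_one])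
  have h2' : x * b = b * x := by
    calc x * b = (x * b * x⁻¹ * b⁻¹) * (b * x) := by group
      _ = b * x := by rw [h1, one_mul]
  have := congrArg (fun y : GL κ F => (y : Matrix κ κ F)) h2'
  simpa using this

theorem mul_single_mul_apply (x y : Matrix κ κ F) (i j a b : κ) :
    (x * Matrix.single i j (1 : F) * y) a b = x a i * y j b := by
  rw [Matrix.mul_apply, Finset.sum_eq_single j]
  · rw [Matrix.mul_apply, Finset.sum_eq_single i]
    · simp
    · intro k _ hk
      simp [Ne.symm hk]
    · simp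
  · intro l _ hl
    have : (x * Matrix.single i j (1 : F)) a l = 0 := by
      rw [Matrix.mul_apply]
      apply Finset.sum_eq_zero
      intro k _
      simp [Ne.symm hl]
    rw [this, zero_mul]
  · simp

/-- The averaged matrices `∑ x M σ(x⁻¹)` intertwine a group with its twist by the ring endomorphism `σ`; one of
them is non-zero when every element is `1`, `-1` or of trace zero. -/
theorem exists_intertwiner [Fintype F] [Nonempty κ] (σ : F →+* F) (E : Subgroup (GL κ F))
    (h2 : (2 : F) ≠ 0) (hn : ((Fintype.card κ : ℕ) : F) ≠ 0)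
    (htr : ∀ x ∈ E, (x : Matrix κ κ F) = 1 ∨ (x : Matrix κ κ F) = -1 ∨
      Matrix.trace (x : Matrix κ κ F) = 0) :
    ∃ C : Matrix κ κ F, C ≠ 0 ∧
      ∀ g ∈ E, (g : Matrix κ κ F) * C = C * (g : Matrix κ κ F).map σ := by
  classical
  haveI : Fintype E := Fintype.ofFinite E
  obtain ⟨Cm, hCmdef⟩ : ∃ Cm : Matrix κ κ F → Matrix κ κ F, ∀ M, Cm M =
      ∑ x : E, ((x : GL κ F) : Matrix κ κ F) * M *
        (((x : GL κ F)⁻¹ : GL κ F) : Matrix κ κ F).map σ := ⟨_, fun _ => rfl⟩
  have hmap1 : (1 : Matrix κ κ F).map σ = 1 := Matrix.map_one _ (map_zero σ) (map_one σ)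
  have hCm : ∀ M, ∀ g ∈ E, (g : Matrix κ κ F) * Cm M = Cm M * (g : Matrix κ κ F).map σ := by
    intro M g hg
    rw [hCmdef, Finset.mul_sum, Finset.sum_mul]
    rw [← Equiv.sum_comp (Equiv.mulLeft (⟨g, hg⟩ : E)) (fun x : E =>
      ((x : GL κ F) : Matrix κ κ F) * M * (((x : GL κ F)⁻¹ : GL κ F) : Matrix κ κ F).map σ *
        (g : Matrix κ κ F).map σ)]
    refine Finset.sum_congr rfl fun x _ => ?_
    have hgg : ((g⁻¹ : GL κ F) : Matrix κ κ F).map σ * (g : Matrix κ κ F).map σ = 1 := by
      rw [← Matrix.map_mul, Units.inv_mul, hmap1]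
    simp only [Equiv.coe_mulLeft, Subgroup.coe_mul, _root_.mul_inv_rev, Units.val_mul]
    rw [Matrix.map_mul]
    simp only [Matrix.mul_assoc]
    rw [hgg, Matrix.mul_one]
  by_cases hex : ∃ M, Cm M ≠ 0
  · obtain ⟨M, hM⟩ := hex
    exact ⟨Cm M, hM, hCm M⟩
  exfalso
  push Not at hex
  -- the trace sum
  have hT : ∑ x : E, Matrix.trace ((x : GL κ F) : Matrix κ κ F) *
      σ (Matrix.trace (((x : GL κ F)⁻¹ : GL κ F) : Matrix κ κ F)) = 0 := by
    have h1 : ∑ i : κ, ∑ j : κ, (Cm (Matrix.single i j (1 : F))) i j = 0 := by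
      simp only [hex, Matrix.zero_apply, Finset.sum_const_zero]
    have h3 : ∀ x : E, Matrix.trace ((x : GL κ F) : Matrix κ κ F) *
        σ (Matrix.trace (((x : GL κ F)⁻¹ : GL κ F) : Matrix κ κ F)) =
        ∑ i : κ, ∑ j : κ, ((x : GL κ F) : Matrix κ κ F) i i *
          σ ((((x : GL κ F)⁻¹ : GL κ F) : Matrix κ κ F) j j) := by
      intro x
      simp only [Matrix.trace, Matrix.diag_apply, map_sum, Finset.sum_mul_sum]
    rw [Finset.sum_congr rfl (fun x _ => h3 x), Finset.sum_comm, ← h1]
    refine Finset.sum_congr rfl fun i _ => ?_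
    rw [Finset.sum_comm]
    refine Finset.sum_congr rfl fun j _ => ?_
    rw [hCmdef, Matrix.sum_apply]
    refine Finset.sum_congr rfl fun x _ => ?_
    rw [mul_single_mul_apply, Matrix.map_apply]
  have htrone : Matrix.trace (1 : Matrix κ κ F) = (Fintype.card κ : F) := Matrix.trace_one
  have hneg : (-1 : Matrix κ κ F) ≠ 1 := by
    intro h
    obtain ⟨i⟩ := ‹Nonempty κ›
    have := congrFun (congrFun h i) i
    simp only [Matrix.neg_apply, Matrix.one_apply_eq] at this
    apply h2
    linear_combination -this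
  have hterm1 : ∀ x : E, ((x : GL κ F) : Matrix κ κ F) = 1 →
      Matrix.trace ((x : GL κ F) : Matrix κ κ F) *
        σ (Matrix.trace (((x : GL κ F)⁻¹ : GL κ F) : Matrix κ κ F)) =
        (Fintype.card κ : F) * (Fintype.card κ : F) := by
    intro x hx
    have hx1 : (x : GL κ F) = 1 := Units.ext (by rw [hx, Units.val_one])
    rw [hx1, inv_one, Units.val_one, htrone, map_natCast]
  have htermneg : ∀ x : E, ((x : GL κ F) : Matrix κ κ F) = -1 →
      Matrix.trace ((x : GL κ F) : Matrix κ κ F) *
        σ (Matrix.trace (((x : GL κ F)⁻¹ : GL κ F) : Matrix κ κ F)) =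
        (Fintype.card κ : F) * (Fintype.card κ : F) := by
    intro x hx
    have hxx : (x : GL κ F) * (x : GL κ F) = 1 := by
      apply Units.ext
      rw [Units.val_mul, hx, Units.val_one, neg_mul_neg, one_mul]
    have hxinv : ((x : GL κ F)⁻¹ : GL κ F) = (x : GL κ F) := inv_eq_of_mul_eq_one_left hxx
    rw [hxinv, hx, Matrix.trace_neg, htrone, map_neg, map_natCast]
    ring
  by_cases hz : ∃ z : E, ((z : GL κ F) : Matrix κ κ F) = -1
  · obtain ⟨z, hz⟩ := hz
    have hz1 : z ≠ 1 := by
      intro h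
      rw [h, Subgroup.coe_one, Units.val_one] at hz
      exact hneg hz.symm
    rw [Fintype.sum_eq_add 1 z (Ne.symm hz1)] at hT
    · rw [hterm1 1 (by rw [Subgroup.coe_one, Units.val_one]), htermneg z hz] at hT
      have h3 : (2 : F) * ((Fintype.card κ : F) * (Fintype.card κ : F)) = 0 := by
        linear_combination hT
      rcases mul_eq_zero.mp h3 with h | h
      · exact h2 h
      · exact hn (mul_self_eq_zero.mp h)
    · intro x hx
      rcases htr x x.2 with h | h | h
      · exact absurd (Subtype.ext (Units.ext (by rw [h, Subgroup.coe_one, Units.val_one]))) hx.1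
      · exact absurd (Subtype.ext (Units.ext (by rw [h, hz]))) hx.2
      · rw [h, zero_mul]
  · rw [Fintype.sum_eq_single 1] at hT
    · rw [hterm1 1 (by rw [Subgroup.coe_one, Units.val_one])] at hT
      exact hn (mul_self_eq_zero.mp hT)
    · intro x hx
      rcases htr x x.2 with h | h | h
      · exact absurd (Subtype.ext (Units.ext (by rw [h, Subgroup.coe_one, Units.val_one]))) hx
      · exact absurd ⟨x, h⟩ hz
      · rw [h, zero_mul]

/-- An absolutely irreducible group with scalar commutators whose scalar elements are `±1` is conjugate to a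
group of matrices with entries fixed by the Frobenius map (odd characteristic, dimension prime to it). -/
theorem realisable_frob [Fintype F] [Nonempty κ] (p e : ℕ) (hp : p.Prime)
    (hcard : Fintype.card F = p ^ e) (σ : F →+* F) (hσ : ∀ a, σ a = a ^ p)
    (E : Subgroup (GL κ F)) (habs : ActsAbsolutelyIrreducibly (matrixSet E))
    (hab : ∀ a ∈ E, ∀ b ∈ E, a * b * a⁻¹ * b⁻¹ ∈ scalars κ F)
    (hsc : ∀ x ∈ E, ∀ c : F, (x : Matrix κ κ F) = c • (1 : Matrix κ κ F) → c = 1 ∨ c = -1)
    (h2 : (2 : F) ≠ 0) (hn : ((Fintype.card κ : ℕ) : F) ≠ 0) :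
    ∃ B : GL κ F, ∀ g ∈ E, ∀ i j,
      σ (((B : Matrix κ κ F) * (g : Matrix κ κ F) * ((B⁻¹ : GL κ F) : Matrix κ κ F)) i j) =
        ((B : Matrix κ κ F) * (g : Matrix κ κ F) * ((B⁻¹ : GL κ F) : Matrix κ κ F)) i j := by
  have htr : ∀ x ∈ E, (x : Matrix κ κ F) = 1 ∨ (x : Matrix κ κ F) = -1 ∨
      Matrix.trace (x : Matrix κ κ F) = 0 := by
    intro x hx
    by_cases hxs : x ∈ scalars κ F
    · obtain ⟨c, hc⟩ := (mem_scalars_iff x).mp hxs
      rcases hsc x hx (c : F) hc with h | h
      · left
        rw [hc, h, one_smul]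
      · right
        left
        rw [hc, h, neg_one_smul]
    · right
      right
      exact trace_zero_of_not_scalar E habs hab x hx hxs
  obtain ⟨C, hC, hCg⟩ := exists_intertwiner σ E h2 hn htr
  exact Helper96.Sy.frob_descent p e hp hcard σ hσ E habs C hC hCg

/-- In a finite field with more than `m` elements (`m > 1`) some element is not fixed by the `m`-th power map. -/
theorem exists_pow_ne [Fintype F] (m : ℕ) (hm1 : 1 < m) (hm : m < Fintype.card F) :
    ∃ a : F, a ^ m ≠ a := by
  classical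
  obtain ⟨g, hg⟩ := IsCyclic.exists_generator (α := Fˣ)
  have hord : orderOf g = Fintype.card F - 1 := by
    rw [orderOf_eq_card_of_forall_mem_zpowers hg, Nat.card_eq_fintype_card, Fintype.card_units]
  refine ⟨(g : F), fun h => ?_⟩
  have h1 : g ^ m = g := Units.ext (by rw [Units.val_pow_eq_pow_val, h])
  have h2 : g ^ (m - 1) = 1 := by
    have h3 : g ^ (m - 1) * g = 1 * g := by
      rw [← pow_succ, Nat.sub_add_cancel hm1.le, h1, one_mul]
    exact mul_right_cancel h3
  have h4 := orderOf_dvd_of_pow_eq_one h2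
  rw [hord] at h4
  have h5 := Nat.le_of_dvd (by omega) h4
  omega


end UC

end Cfsg.Agent.Helper90
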