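import Mathlib
import Cfsg.Agent.Helper90.UnC6a
import Cfsg.Agent.Helper96.SympTwo
import Cfsg.Agent.Helper35.UnCore

/-!
# The class-two (r = 2) outcome inside the unitary group

A minimal normal non-scalar subgroup `N` of a group of isometries of the standard unitary form that is absolutely
irreducible with scalar commutators and scalar squares is realisable over a proper subfield, or `q = p ≡ 3 mod 4`
is prime and `N` is a symplectic-type 2-group of order `4 n²` with centre of order `4`.
-/

set_option autoImplicit false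
set_option linter.style.haveILetI false
set_option linter.unusedSectionVars false
set_option linter.unusedVariables false

namespace Cfsg.Agent.Helper90

open Cfsg Cfsg.Geo Matrix

namespace UC

open Cfsg.Agent.Helper97

variable {F : Type*} [Field F] {n : ℕ} {q : ℕ} {σ : F ≃+* F}

/-- A scalar isometry of the standard unitary form has norm one. -/
theorem scalar_GU_pow [NeZero n] {w : GL (Fin n) F} (hw : w ∈ GU n F q) (ω : F)
    (hwv : (w : Matrix (Fin n) (Fin n) F) = ω • (1 : Matrix (Fin n) (Fin n) F)) :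
    ω ^ (q + 1) = 1 := by
  have h1 := hw (Pi.single 0 1) (Pi.single 0 1)
  change hermForm n F q ((w : Matrix (Fin n) (Fin n) F) *ᵥ Pi.single 0 1)
    ((w : Matrix (Fin n) (Fin n) F) *ᵥ Pi.single 0 1) = hermForm n F q (Pi.single 0 1) (Pi.single 0 1) at h1
  rw [hwv, Matrix.smul_mulVec, Matrix.one_mulVec] at h1
  unfold hermForm at h1
  rw [Finset.sum_eq_single 0, Finset.sum_eq_single 0] at h1
  · simp only [Pi.smul_apply, Pi.single_eq_same, smul_eq_mul, mul_one, one_pow] at h1
    rw [pow_succ, mul_comm]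
    exact h1
  · intro b _ hb
    simp [hb]
  · simp
  · intro b _ hb
    simp [hb]
  · simp

/-- `c • 1 = 1` for matrices forces `c = 1`. -/
theorem smul_one_eq_one [NeZero n] (c : F)
    (h : c • (1 : Matrix (Fin n) (Fin n) F) = 1) : c = 1 := by
  have := congrFun (congrFun h 0) 0
  simpa using this

/-- The class-two outcome (`r = 2`) inside the unitary group. -/
theorem un_c2_two_cases [Fintype F] [NeZero n] (h : IsSigma q σ) (hF : Fintype.card F = q ^ 2)
    {k : ℕ} (hnk : n = 2 ^ k)
    (H N : Subgroup (GL (Fin n) F)) (hNGU : N ≤ GU n F q)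
    (hNn : ∀ h ∈ H, ∀ x ∈ N, h * x * h⁻¹ ∈ N) (hNZ : ¬ N ≤ scalars (Fin n) F)
    (hNmin : ∀ N' : Subgroup (GL (Fin n) F), N' ≤ N → (∀ h ∈ H, ∀ x ∈ N', h * x * h⁻¹ ∈ N') →
      N' ≤ scalars (Fin n) F ∨ N' = N)
    (habs : ActsAbsolutelyIrreducibly (matrixSet N))
    (hab : ∀ a ∈ N, ∀ b ∈ N, a * b * a⁻¹ * b⁻¹ ∈ scalars (Fin n) F)
    (hpow : ∀ x ∈ N, x ^ 2 ∈ scalars (Fin n) F) :
    (∃ F₀ : Subfield F, F₀ ≠ ⊤ ∧ RealisableOver F₀ (matrixSet N)) ∨
    (∃ p : ℕ, p.Prime ∧ q = p ∧ p % 4 = 3 ∧ IsSymplecticTypeGroup 2 N ∧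
      Nat.card N = 4 * (n * n) ∧ Nat.card (Subgroup.center N) = 4) := by
  classical
  have hexp4 := Helper96.c2_exponent_two H N hNn hNZ hNmin hab habs hpow
  obtain ⟨x₀, y₀, z, ζ, hx₀, hy₀, hzN, hzv, hprim2, hxy⟩ :=
    Helper96.c2_root N hNZ hab habs 2 Nat.prime_two hpow
  have hζ : ζ = -1 := hprim2.eq_neg_one_of_two_right
  have h2 : (2 : F) ≠ 0 := by
    intro h0
    have h1 : ζ = 1 := by
      rw [hζ]
      linear_combination -h0
    exact hprim2.ne_one (by norm_num) h1
  subst hζ
  obtain ⟨p, hchar⟩ := CharP.exists F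
  have hp : p.Prime :=
    (CharP.char_is_prime_or_zero F p).resolve_right (CharP.char_ne_zero_of_finite F p)
  haveI : Fact p.Prime := ⟨hp⟩
  obtain ⟨e', -, he'⟩ := FiniteField.card F p
  have hq2 := two_le_of_card hF
  have hpq : p ∣ q := by
    have h1 : p ∣ q ^ 2 := by
      rw [← hF, he']
      exact dvd_pow_self p e'.ne_zero
    exact hp.dvd_of_dvd_pow h1
  have hpodd : p ≠ 2 := by
    rintro rfl
    apply h2
    have := CharP.cast_eq_zero F 2
    exact_mod_cast this
  have hnF : ((Fintype.card (Fin n) : ℕ) : F) ≠ 0 := by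
    rw [Fintype.card_fin, hnk]
    push_cast
    exact pow_ne_zero _ h2
  obtain ⟨σp, hσp⟩ : ∃ σp : F →+* F, ∀ a, σp a = a ^ p := ⟨frobenius F p, fun a => frobenius_def p a⟩
  -- squares and commutators are `1` or `z`
  have hpm : ∀ g : GL (Fin n) F, g ∈ scalars (Fin n) F → g ^ 2 = 1 → g = 1 ∨ g = z := by
    intro g hg hg2
    obtain ⟨c, hc⟩ := (mem_scalars_iff g).mp hg
    have hc2 : (c : F) * (c : F) = 1 := by
      have h1 := congrArg Units.val hg2
      rw [Units.val_pow_eq_pow_val, hc, smul_pow, one_pow, Units.val_one] at h1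
      have h3 := smul_one_eq_one _ h1
      rw [← pow_two]
      exact h3
    rcases mul_self_eq_one_iff.mp hc2 with h1 | h1
    · left
      apply Units.ext
      rw [hc, h1, one_smul, Units.val_one]
    · right
      apply Units.ext
      rw [hc, h1, hzv]
  have hsq : ∀ g ∈ N, g ^ 2 = 1 ∨ g ^ 2 = z := by
    intro g hg
    apply hpm _ (hpow g hg)
    rw [← pow_mul]
    exact hexp4 g hg
  have hcomm_pm : ∀ a ∈ N, ∀ b ∈ N, a * b * a⁻¹ * b⁻¹ = 1 ∨ a * b * a⁻¹ * b⁻¹ = z := by
    intro a ha b hb
    exact hpm _ (hab a ha b hb) (Helper96.c2_comm_pow N hab 2 hpow b hb a ha)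
  by_cases hB : ∃ w ∈ N, ∃ ω : F,
      (w : Matrix (Fin n) (Fin n) F) = ω • (1 : Matrix (Fin n) (Fin n) F) ∧ ω ^ 2 ≠ 1
  swap
  · -- all scalars of `N` are `±1`
    push Not at hB
    left
    have hsc : ∀ x ∈ N, ∀ c : F,
        (x : Matrix (Fin n) (Fin n) F) = c • (1 : Matrix (Fin n) (Fin n) F) → c = 1 ∨ c = -1 := by
      intro x hx c hc
      have h1 := hB x hx c hc
      exact mul_self_eq_one_iff.mp (by rw [← pow_two]; exact h1)
    obtain ⟨B, hB'⟩ := realisable_frob p e' hp he' σp hσp N habs hab hsc h2 hnF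
    refine ⟨RingHom.eqLocusField σp (RingHom.id F), ?_, B, ?_⟩
    · intro htop
      have hlt : p < Fintype.card F := by
        rw [hF]
        have h1 : p ≤ q := Nat.le_of_dvd (by omega) hpq
        nlinarith
      obtain ⟨a, ha⟩ := exists_pow_ne (F := F) p hp.one_lt hlt
      apply ha
      have hmem : a ∈ RingHom.eqLocusField σp (RingHom.id F) := by
        rw [htop]
        trivial
      have h1 : σp a = a := hmem
      rw [← hσp]
      exact h1
    · rintro _ ⟨g, hg, rfl⟩ i j
      exact hB' g hg i j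
  obtain ⟨w, hwN, ω, hwv, hω2⟩ := hB
  have hw4 := hexp4 w hwN
  have hω4 : ω ^ 4 = 1 := by
    have h1 := congrArg Units.val hw4
    rw [Units.val_pow_eq_pow_val, hwv, smul_pow, one_pow, Units.val_one] at h1
    exact smul_one_eq_one _ h1
  have hω2' : ω ^ 2 = -1 := by
    have h1 : (ω ^ 2 - 1) * (ω ^ 2 + 1) = 0 := by linear_combination hω4
    rcases mul_eq_zero.mp h1 with h3 | h3
    · exact absurd (sub_eq_zero.mp h3) hω2
    · linear_combination h3
  have hωq : ω ^ (q + 1) = 1 := scalar_GU_pow (hNGU hwN) ω hwv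
  have hord : orderOf ω = 4 := by
    have h1 := orderOf_eq_prime_pow (p := 2) (n := 1) (x := ω) (by rw [pow_one]; exact hω2)
      (by norm_num; exact hω4)
    simpa using h1
  have h4q : 4 ∣ q + 1 := hord ▸ orderOf_dvd_of_pow_eq_one hωq
  have hw2 : w ^ 2 ≠ 1 := by
    intro hcon
    have h1 := congrArg Units.val hcon
    rw [Units.val_pow_eq_pow_val, hwv, smul_pow, one_pow, Units.val_one] at h1
    exact hω2 (smul_one_eq_one _ h1)
  by_cases hqp : q = p
  · -- the class-6 member
    right
    have hwo : orderOf (⟨w, hwN⟩ : N) = 4 := by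
      have h1 := orderOf_eq_prime_pow (p := 2) (n := 1) (x := (⟨w, hwN⟩ : N))
        (by
          rw [pow_one]
          intro hcon
          exact hw2 (by simpa using congrArg (fun y : N => (y : GL (Fin n) F)) hcon))
        (Subtype.ext (by simpa using hw4))
      simpa using h1
    have hprim4 : IsPrimitiveRoot ω 4 := by
      rw [← hord]
      exact IsPrimitiveRoot.orderOf ω
    have hS := Helper96.c2_scalars_eq_zpowers' N 4 hexp4 w hwN ω hwv hprim4
    have hcardS : Nat.card ((scalars (Fin n) F).subgroupOf N) = 4 := by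
      rw [hS, Nat.card_zpowers, hwo]
    refine ⟨p, hp, hqp, by omega, ⟨Nat.prime_two, ?_, ?_, ?_⟩, ?_, ?_⟩
    · intro g
      exact ⟨2, Subtype.ext (by simpa using hexp4 g g.2)⟩
    · intro A hchar hcomm
      exact Helper96.c2_char_cyclic H N hNn hNZ hNmin habs A hchar hcomm
    · have h1 : Monoid.exponent N ∣ 4 :=
        Monoid.exponent_dvd_of_forall_pow_eq_one (fun g => Subtype.ext (by simpa using hexp4 g g.2))
      have h3 : 4 ∣ Monoid.exponent N := hwo ▸ Monoid.order_dvd_exponent _
      rw [Nat.dvd_antisymm h1 h3]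
      norm_num
    · have hq := Helper96.card_quot_of_class_two N habs hab
      have h1 := Subgroup.card_eq_card_quotient_mul_card_subgroup ((scalars (Fin n) F).subgroupOf N)
      rw [hq, hcardS] at h1
      rw [h1]
      ring
    · rw [Helper96.c2_center_eq N habs, hcardS]
  · -- realisable over the field with `p²` elements
    left
    obtain ⟨z₀, hz₀⟩ : ∃ z₀ : N, z₀ = ⟨z, hzN⟩ := ⟨_, rfl⟩
    have hz₀sq : z₀ ^ 2 = 1 := by
      rw [hz₀]
      apply Subtype.ext
      apply Units.ext
      simp only [Subgroup.coe_pow, Units.val_pow_eq_pow_val, hzv, Subgroup.coe_one, Units.val_one]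
      rw [smul_pow, one_pow, neg_one_sq, one_smul]
    have hcomle : commutator N ≤ Subgroup.zpowers z₀ := by
      rw [commutator_def, Subgroup.commutator_le]
      intro a _ b _
      rw [commutatorElement_def]
      rcases hcomm_pm a a.2 b b.2 with h1 | h1
      · have h3 : a * b * a⁻¹ * b⁻¹ = 1 := Subtype.ext (by simpa using h1)
        rw [h3]
        exact Subgroup.one_mem _
      · have h3 : a * b * a⁻¹ * b⁻¹ = z₀ := by
          rw [hz₀]
          exact Subtype.ext (by simpa using h1)
        rw [h3]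
        exact Subgroup.mem_zpowers _
    have hz₀com : z₀ ∈ commutator N := by
      have h1 : z₀ = (⟨x₀, hx₀⟩ : N) * (⟨y₀, hy₀⟩ : N) * (⟨x₀, hx₀⟩ : N)⁻¹ * (⟨y₀, hy₀⟩ : N)⁻¹ := by
        rw [hz₀]
        apply Subtype.ext
        simp only [Subgroup.coe_mul, Subgroup.coe_inv]
        rw [hxy]
        group
      rw [h1, ← commutatorElement_def, commutator_def]
      exact Subgroup.commutator_mem_commutator (Subgroup.mem_top _) (Subgroup.mem_top _)
    have hsqcom : ∀ g : N, g * g ∈ commutator N := by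
      intro g
      rcases hsq g g.2 with h1 | h1
      · have h3 : g * g = 1 := Subtype.ext (by rw [← pow_two] at *; simpa using h1)
        rw [h3]
        exact Subgroup.one_mem _
      · have h3 : g * g = z₀ := by
          rw [hz₀]
          exact Subtype.ext (by rw [← pow_two] at *; simpa using h1)
        rw [h3]
        exact hz₀com
    haveI : Fintype (Abelianization N) := Fintype.ofFinite _
    have hof1 : ∀ x : N, Abelianization.of x = 1 ↔ x ∈ commutator N := fun x => by
      rw [← MonoidHom.mem_ker, Abelianization.ker_of]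
    have hAsq : ∀ a : Abelianization N, a * a = 1 := by
      intro a
      obtain ⟨g, hg⟩ := QuotientGroup.mk_surjective (s := commutator N) a
      have hg' : Abelianization.of g = a := hg
      rw [← hg', ← map_mul, hof1]
      exact hsqcom g
    obtain ⟨-, hsep⟩ := MinusT.hom_facts (F := F) hAsq h2
    have hwbar : (Abelianization.of (⟨w, hwN⟩ : N)) ≠ 1 := by
      intro hcon
      have h1 : (⟨w, hwN⟩ : N) ∈ commutator N := (hof1 _).mp hcon
      obtain ⟨j, hj⟩ := Subgroup.mem_zpowers_iff.mp (hcomle h1)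
      have h3 : (⟨w, hwN⟩ : N) ^ 2 = 1 := by
        rw [← hj, ← zpow_natCast, ← _root_.zpow_mul, mul_comm, _root_.zpow_mul, zpow_natCast, hz₀sq,
          _root_.one_zpow]
      exact hw2 (by simpa using congrArg (fun y : N => (y : GL (Fin n) F)) h3)
    obtain ⟨φ, hφ⟩ := hsep _ hwbar
    obtain ⟨lam, hlam⟩ : ∃ lam : N →* Fˣ, ∀ g, lam g = φ (Abelianization.of g) :=
      ⟨φ.comp Abelianization.of, fun _ => rfl⟩
    obtain ⟨E, hE⟩ : ∃ E : Subgroup (GL (Fin n) F), ∀ g, g ∈ E ↔ ∃ hg : g ∈ N, lam ⟨g, hg⟩ = 1 :=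
      ⟨lam.ker.map N.subtype, fun g => by
        constructor
        · rintro ⟨y, hy, rfl⟩
          exact ⟨y.2, hy⟩
        · rintro ⟨hg, h1⟩
          exact ⟨⟨g, hg⟩, h1, rfl⟩⟩
    have hEN : E ≤ N := fun g hg => ((hE g).mp hg).1
    have hlam_sq : ∀ g : N, ((lam g : Fˣ) : F) = 1 ∨ ((lam g : Fˣ) : F) = -1 := by
      intro g
      apply mul_self_eq_one_iff.mp
      rw [← Units.val_mul, ← map_mul, hlam, map_mul, hAsq, map_one, Units.val_one]
    have hlamw : ((lam ⟨w, hwN⟩ : Fˣ) : F) = -1 := by
      rcases hlam_sq ⟨w, hwN⟩ with h1 | h1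
      · exact absurd (Units.ext (by rw [← hlam, h1, Units.val_one])) hφ
      · exact h1
    have hlamz : lam z₀ = 1 := by
      rw [hlam, (hof1 z₀).mpr hz₀com, map_one]
    have hcover : ∀ g ∈ N, g ∈ E ∨ w⁻¹ * g ∈ E := by
      intro g hg
      rcases hlam_sq ⟨g, hg⟩ with h1 | h1
      · left
        exact (hE g).mpr ⟨hg, Units.ext (by rw [h1, Units.val_one])⟩
      · right
        refine (hE _).mpr ⟨N.mul_mem (N.inv_mem hwN) hg, Units.ext ?_⟩
        have h3 : (⟨w⁻¹ * g, N.mul_mem (N.inv_mem hwN) hg⟩ : N) = (⟨w, hwN⟩ : N)⁻¹ * ⟨g, hg⟩ := rfl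
        rw [h3, map_mul, map_inv, Units.val_mul, Units.val_inv_eq_inv_val, hlamw, h1, Units.val_one]
        field_simp
    have hdecomp : ∀ g : GL (Fin n) F, (g : Matrix (Fin n) (Fin n) F) =
        ω • ((w⁻¹ * g : GL (Fin n) F) : Matrix (Fin n) (Fin n) F) := by
      intro g
      have h1 : g = w * (w⁻¹ * g) := by group
      conv_lhs => rw [h1]
      rw [Units.val_mul, hwv, Matrix.smul_mul, Matrix.one_mul]
    have hEabs : ActsAbsolutelyIrreducibly (matrixSet E) := by
      refine ⟨fun W hW => habs.1 W ?_, fun M hM => habs.2 M ?_⟩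
      · rintro _ ⟨g, hg, rfl⟩
        beta_reduce
        rcases hcover g hg with h1 | h1
        · exact hW _ ⟨g, h1, rfl⟩
        · rw [hdecomp g]
          rintro _ ⟨u, hu, rfl⟩
          have h3 := hW _ ⟨_, h1, rfl⟩ (Submodule.mem_map_of_mem hu)
          rw [map_smul, LinearMap.smul_apply]
          exact W.smul_mem ω h3
      · rintro _ ⟨g, hg, rfl⟩
        beta_reduce
        rcases hcover g hg with h1 | h1
        · exact hM _ ⟨g, h1, rfl⟩
        · rw [hdecomp g, Matrix.mul_smul, Matrix.smul_mul, hM _ ⟨_, h1, rfl⟩]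
    have hEsc : ∀ x ∈ E, ∀ c : F,
        (x : Matrix (Fin n) (Fin n) F) = c • (1 : Matrix (Fin n) (Fin n) F) → c = 1 ∨ c = -1 := by
      intro x hx c hc
      have hxN := hEN hx
      have hc4 : c ^ 4 = 1 := by
        have h1 := congrArg Units.val (hexp4 x hxN)
        rw [Units.val_pow_eq_pow_val, hc, smul_pow, one_pow, Units.val_one] at h1
        exact smul_one_eq_one _ h1
      by_contra hcon
      push Not at hcon
      have hc2 : c ^ 2 = -1 := by
        have h1 : (c ^ 2 - 1) * (c ^ 2 + 1) = 0 := by linear_combination hc4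
        rcases mul_eq_zero.mp h1 with h3 | h3
        · exfalso
          rcases mul_self_eq_one_iff.mp (by linear_combination h3 : c * c = 1) with h5 | h5
          · exact hcon.1 h5
          · exact hcon.2 h5
        · linear_combination h3
      have h1 : (c - ω) * (c + ω) = 0 := by linear_combination hc2 - hω2'
      obtain ⟨hxN', hlx⟩ := (hE x).mp hx
      have hne : (1 : F) ≠ -1 := by
        intro h5
        apply h2
        linear_combination h5
      rcases mul_eq_zero.mp h1 with h3 | h3
      · have hxw : x = w := Units.ext (by rw [hc, hwv, sub_eq_zero.mp h3])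
        subst hxw
        rw [hlx, Units.val_one] at hlamw
        exact hne hlamw
      · have hxw : x = z * w := by
          apply Units.ext
          rw [hc, Units.val_mul, hzv, hwv, Matrix.smul_mul, Matrix.one_mul, smul_smul]
          congr 1
          linear_combination h3
        have h5 : (⟨x, hxN'⟩ : N) = z₀ * ⟨w, hwN⟩ := by
          rw [hz₀]
          exact Subtype.ext hxw
        rw [h5, map_mul, hlamz, one_mul] at hlx
        rw [hlx, Units.val_one] at hlamw
        exact hne hlamw
    obtain ⟨B, hB'⟩ := realisable_frob p e' hp he' σp hσp E hEabs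
      (fun a ha b hb => hab a (hEN ha) b (hEN hb)) hEsc h2 hnF
    have hωσ : σp (σp ω) = ω := by
      rw [hσp, hσp, ← pow_mul]
      have hp4 : p * p % 4 = 1 := by
        have h1 : p % 2 = 1 := by
          rcases hp.eq_two_or_odd with h3 | h3
          · exact absurd h3 hpodd
          · exact h3
        have h3 : p % 4 = 1 ∨ p % 4 = 3 := by omega
        rcases h3 with h3 | h3
        · rw [Nat.mul_mod, h3]
        · rw [Nat.mul_mod, h3]
      have h1 : p * p = 4 * (p * p / 4) + 1 := by omega
      rw [h1, pow_succ, pow_mul, hω4, one_pow, one_mul]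
    refine ⟨RingHom.eqLocusField (σp.comp σp) (RingHom.id F), ?_, B, ?_⟩
    · intro htop
      have hlt : p ^ 2 < Fintype.card F := by
        rw [hF]
        obtain ⟨m, hm⟩ := hpq
        have hm2 : 2 ≤ m := by
          rcases Nat.lt_or_ge m 2 with h1 | h1
          · interval_cases m
            · omega
            · omega
          · exact h1
        have h1 : p < q := by
          rw [hm]
          have := hp.pos
          nlinarith
        exact Nat.pow_lt_pow_left h1 (by norm_num)
      obtain ⟨a, ha⟩ := exists_pow_ne (F := F) (p ^ 2) (by nlinarith [hp.two_le]) hlt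
      apply ha
      have hmem : a ∈ RingHom.eqLocusField (σp.comp σp) (RingHom.id F) := by
        rw [htop]
        trivial
      have h1 : σp (σp a) = a := hmem
      rw [hσp, hσp, ← pow_mul, ← pow_two] at h1
      exact h1
    · rintro _ ⟨g, hg, rfl⟩ i j
      beta_reduce
      show σp (σp _) = _
      rcases hcover g hg with h1 | h1
      · rw [hB' g h1 i j, hB' g h1 i j]
        rfl
      · rw [hdecomp g, Matrix.mul_smul, Matrix.smul_mul, Matrix.smul_apply, smul_eq_mul, map_mul,
          map_mul, hB' _ h1 i j, hB' _ h1 i j, hωσ]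
        rfl

end UC

end Cfsg.Agent.Helper90
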