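-- helper90 library: the unitary structure theorem in dimension a power of two, with the
-- symplectic-type normaliser case made explicit (copy of helper35's `un_core` / `un_max_cases`).
import Cfsg.Agent.Helper35.UnMax
import Cfsg.Agent.Helper96.SympCases2
import Cfsg.Agent.Helper90.UnC6b
import Cfsg.Agent.Helper90.UnC6c

set_option autoImplicit false
set_option linter.unusedSectionVars false
set_option linter.unusedVariables false
set_option linter.style.haveILetI false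
open Cfsg Cfsg.Geo Matrix
open scoped Kronecker

namespace Cfsg.Agent.Helper90

namespace UC

open Cfsg.Agent.Helper97 Cfsg.Agent.Helper35

variable {F : Type*} [Field F] {n : ℕ} {q : ℕ} {σ : F ≃+* F}

/-- A central product of conjugates of a tensor factor of degree two fixes a non-zero bilinear form. -/
theorem cp_fixed_matrix [Fintype F] (H N S : Subgroup (GL (Fin n) F)) {k : ℕ}
    (e : Fin n ≃ Fin 2 × Fin k) (Pm : GL (Fin n) F)
    (ρ : Matrix (Fin n) (Fin n) F → Matrix (Fin 2) (Fin 2) F)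
    (hCP : Helper96.CPData H N S 2 k e Pm ρ) :
    ∃ M : Matrix (Fin n) (Fin n) F, M ≠ 0 ∧
      ∀ g ∈ N, (g : Matrix (Fin n) (Fin n) F)ᵀ * M * (g : Matrix (Fin n) (Fin n) F) = M := by
  classical
  obtain ⟨𝒮, h𝒮⟩ : ∃ 𝒮 : Set (Subgroup (GL (Fin n) F)), 𝒮 = {T | ∃ h ∈ H, T = Helper97.cj h S} :=
    ⟨_, rfl⟩
  have hgen : N = Subgroup.closure {x | ∃ T ∈ 𝒮, x ∈ T} := by
    rw [← hCP.gen]
    congr 1
    ext x
    constructor
    · rintro ⟨h, hh, hx⟩
      exact ⟨Helper97.cj h S, by rw [h𝒮]; exact ⟨h, hh, rfl⟩, hx⟩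
    · rintro ⟨T, hT, hx⟩
      rw [h𝒮] at hT
      obtain ⟨h, hh, rfl⟩ := hT
      exact ⟨h, hh, hx⟩
  have hperf : ∀ T ∈ 𝒮, ⁅T, T⁆ = T := by
    intro T hT
    rw [h𝒮] at hT
    obtain ⟨h, hh, rfl⟩ := hT
    unfold Helper97.cj
    rw [← Subgroup.map_commutator, hCP.subPerfect]
  have hcomm : ∀ T ∈ 𝒮, ∀ T' ∈ 𝒮, T = T' ∨ ∀ s ∈ T, ∀ t ∈ T', s * t = t * s := by
    intro T hT T' hT'
    rw [h𝒮] at hT hT'
    obtain ⟨h, hh, rfl⟩ := hT
    obtain ⟨h', hh', rfl⟩ := hT'
    rcases hCP.comm (h⁻¹ * h') (H.mul_mem (H.inv_mem hh) hh') with h1 | h1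
    · left
      have e1 : Helper97.cj h' S = Helper97.cj (h * (h⁻¹ * h')) S := by
        congr 1
        group
      rw [e1, Helper96.cj_mul, h1]
    · right
      intro s hs t ht
      rw [Helper97.mem_cj] at hs ht
      have ht' : h⁻¹ * t * h ∈ Helper97.cj (h⁻¹ * h') S := by
        rw [Helper97.mem_cj]
        have : (h⁻¹ * h')⁻¹ * (h⁻¹ * t * h) * (h⁻¹ * h') = h'⁻¹ * t * h' := by group
        rw [this]
        exact ht
      have h2 := h1 _ hs _ ht'
      calc s * t = h * ((h⁻¹ * s * h) * (h⁻¹ * t * h)) * h⁻¹ := by group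
        _ = h * ((h⁻¹ * t * h) * (h⁻¹ * s * h)) * h⁻¹ := by rw [h2]
        _ = t * s := by group
  have hdim : ∀ T ∈ 𝒮, Module.finrank F (Algebra.adjoin F (matrixSet T)) = 4 := by
    intro T hT
    rw [h𝒮] at hT
    obtain ⟨h, hh, rfl⟩ := hT
    exact (hCP.tensor.conj h).finrank_adjoin
  have hne : 𝒮.Nonempty := ⟨Helper97.cj 1 S, by rw [h𝒮]; exact ⟨1, H.one_mem, rfl⟩⟩
  exact Helper96.cp_form n N 𝒮 hgen hperf hcomm hdim hCP.absIrred hne

/-- The structures stabilised by a group of isometries of the standard unitary form, in a dimension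
where the class-two and central-product cases can be resolved. -/
def UnOutcome2 (n : ℕ) (F : Type*) [Field F] [Fintype F] (q : ℕ) (σ : F ≃+* F)
    (H : Subgroup (GL (Fin n) F)) : Prop :=
  (∃ W : Submodule F (Fin n → F), W ≠ ⊥ ∧ W ≠ ⊤ ∧ IsTotallySingularFor (hermForm n F q) W ∧
    H ≤ subspaceStabilizer W) ∨
  (∃ W : Submodule F (Fin n → F), W ≠ ⊥ ∧ W ≠ ⊤ ∧ IsNondegenerateOn (hermForm n F q) W ∧
    2 * Module.finrank F W < n ∧ H ≤ subspaceStabilizer W) ∨
  (∃ (t k : ℕ) (D : Fin t → Submodule F (Fin n → F)),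
    IsNondegenerateMDecomposition (hermForm n F q) k D ∧ H ≤ decompositionStabilizer D) ∨
  (∃ (k : ℕ) (D : Fin 2 → Submodule F (Fin n → F)), IsMDecomposition k D ∧
    (∀ i, IsTotallySingularFor (hermForm n F q) (D i)) ∧ H ≤ decompositionStabilizer D) ∨
  (∃ (r : ℕ) (K : Subalgebra F (Matrix (Fin n) (Fin n) F)), r.Prime ∧ Odd r ∧
    IsFieldSubalgebra r K ∧ IsAdjointClosedFor (hermForm n F q) K ∧
    H ≤ subalgebraNormalizer K) ∨
  (∃ (n₁ n₂ : ℕ) (e : Fin n ≃ Fin n₁ × Fin n₂) (P : GL (Fin n) F)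
    (A : Matrix (Fin n₁) (Fin n₁) F) (S : Matrix (Fin n₂) (Fin n₂) F),
    2 ≤ n₁ ∧ n₁ ≤ n₂ ∧ Aᵀ = A.map σ ∧ Sᵀ = S.map σ ∧ A.det ≠ 0 ∧ S.det ≠ 0 ∧
    Matrix.reindexAlgEquiv F F e
      ((P : Matrix (Fin n) (Fin n) F)ᵀ * (P : Matrix (Fin n) (Fin n) F).map σ) = A ⊗ₖ S ∧
    H ≤ tensorProductSubgroup n₁ n₂ e P) ∨
  (∃ (F₀ : Subfield F) (r : ℕ) (P : GL (Fin n) F), r.Prime ∧ Fintype.card F = Nat.card F₀ ^ r ∧
    H ≤ subfieldSubgroup F₀ P ∧
    ((IsFormRationalStructure (hermForm n F q) F₀ 1 P ∧ (Odd r ∨ (r = 2 ∧ Odd q))) ∨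
     (r = 2 ∧ ∃ ζ : F, ζ ≠ 0 ∧ ζ + ζ ^ q = 0 ∧ IsFormRationalStructure (hermForm n F q) F₀ ζ P ∧
        ∀ u : Fin n → F, (∀ i, u i ∈ F₀) →
          hermForm n F q ((P : Matrix (Fin n) (Fin n) F) *ᵥ u)
            ((P : Matrix (Fin n) (Fin n) F) *ᵥ u) = 0))) ∨
  InUnitaryResidualClass H ∨
  (∃ (p : ℕ) (N : Subgroup (GL (Fin n) F)), p.Prime ∧ q = p ∧ p % 4 = 3 ∧
    IsSymplecticTypeGroup 2 N ∧ ActsAbsolutelyIrreducibly (matrixSet N) ∧ N ≤ GU n F q ∧
    Nat.card N = 4 * (n * n) ∧ Nat.card (Subgroup.center N) = 4 ∧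
    (∀ a ∈ N, ∀ b ∈ N, a * b * a⁻¹ * b⁻¹ ∈ scalars (Fin n) F) ∧
    (∀ g ∈ H, ∀ x ∈ N, g * x * g⁻¹ ∈ N))

/-- Every group of isometries of the standard unitary form in dimension `2 ^ k₀` (not a proper power
of anything but two) stabilises one of the listed structures. -/
theorem un_core2 [Fintype F] (h : IsSigma q σ) (hF : Fintype.card F = q ^ 2) (hn : 2 ≤ n)
    {k₀ : ℕ} (hnk : n = 2 ^ k₀) (hd : ∀ d t : ℕ, 2 ≤ d → 2 ≤ t → n = d ^ t → d = 2)
    (H : Subgroup (GL (Fin n) F)) (hH : H ≤ GU n F q) : UnOutcome2 n F q σ H := by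
  classical
  have hnz : NeZero n := ⟨by omega⟩
  have hZc : ∀ z ∈ scalars (Fin n) F, ∀ g : GL (Fin n) F, z * g = g * z :=
    fun z hz g => Helper97.scalars_comm hz g
  by_cases hirr : ActsIrreducibly (matrixSet H)
  swap
  · rcases un_reducible_cases h H hH hirr with h1 | h1 | ⟨k, D, hD, hle⟩
    · exact Or.inl h1
    · exact Or.inr (Or.inl h1)
    · exact Or.inr (Or.inr (Or.inl ⟨2, k, D, hD, hle⟩))
  have hHZ : ¬ H ≤ scalars (Fin n) F := Helper97.not_le_scalars_of_irreducible hn H hirr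
  obtain ⟨N, hNH, hNn, hNZ, hNmin⟩ := Helper97.exists_minimal_normal (scalars (Fin n) F) H hHZ
  have hNGU : N ≤ GU n F q := hNH.trans hH
  rcases un_z_analysis h hF (by omega) H N hH hirr hNH hNn with h1 | h1 | h1 | hsc
  · exact Or.inr (Or.inr (Or.inl h1))
  · exact Or.inr (Or.inr (Or.inr (Or.inl h1)))
  · exact Or.inr (Or.inr (Or.inr (Or.inr (Or.inl h1))))
  obtain ⟨d, k, e, P, ρ, hTD⟩ := Helper96.tensorData_of_zcent_scalar (by omega) H N hirr hNn hsc
  by_cases hd1 : d = 1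
  · exact absurd (hTD.le_scalars_of_one hd1) hNZ
  have hd2 : 2 ≤ d := by have := hTD.hd; omega
  by_cases hk1 : k = 1
  swap
  · have hk2 : 2 ≤ k := by have := hTD.hk; omega
    exact Or.inr (Or.inr (Or.inr (Or.inr (Or.inr (Or.inl
      (un_tensor_cases h H N hH hNH hNn hTD hd2 hk2))))))
  -- `N` is absolutely irreducible
  have habs : ActsAbsolutelyIrreducibly (matrixSet N) := hTD.absIrred_of_one hk1
  -- the subfield case
  have hsubcase : (∃ F₀ : Subfield F, F₀ ≠ ⊤ ∧ RealisableOver F₀ (matrixSet N)) →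
      UnOutcome2 n F q σ H := by
    rintro ⟨F₀, hF₀, B, hB⟩
    obtain ⟨F₁, r, hle, hr, hcard⟩ := Helper97.exists_prime_index_subfield F₀ hF₀
    obtain ⟨P', hnorm, hrat⟩ := un_subfield_structure h hF hn N hNGU habs F₁ r hr hcard B
      (fun s hs i j => hle (hB s hs i j))
    exact Or.inr (Or.inr (Or.inr (Or.inr (Or.inr (Or.inr (Or.inl
      ⟨F₁, r, P', hr, hcard, fun g hg => hnorm g (hNn g hg), hrat⟩))))))
  have hCN : ⁅N, N⁆ ≤ N := by
    rw [Subgroup.commutator_le]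
    intro a ha b hb
    rw [commutatorElement_def]
    exact N.mul_mem (N.mul_mem (N.mul_mem ha hb) (N.inv_mem ha)) (N.inv_mem hb)
  rcases hNmin ⁅N, N⁆ hCN (Helper97.commutator_normalized H N hNn) with hC | hC
  · -- class two modulo scalars
    have hab : ∀ a ∈ N, ∀ b ∈ N, a * b * a⁻¹ * b⁻¹ ∈ scalars (Fin n) F := by
      intro a ha b hb
      have := Subgroup.commutator_mem_commutator ha hb
      rw [commutatorElement_def] at this
      exact hC this
    obtain ⟨r, hr, hpow⟩ := Helper97.exists_prime_pow_mem (scalars (Fin n) F) H N hZc hNn hNZ hNmin hab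
    obtain ⟨j, hj⟩ := Helper96.sq_eq_prime_pow_of_class_two N habs hab r hr hpow
    have hr2 : r = 2 := by
      have hk0 : k₀ ≠ 0 := by
        rintro rfl
        rw [pow_zero] at hnk
        omega
      have h2 : 2 ∣ r ^ j := by
        rw [← hj, hnk]
        exact Dvd.dvd.mul_right (dvd_pow_self 2 hk0) _
      exact ((Nat.prime_dvd_prime_iff_eq Nat.prime_two hr).mp
        (Nat.Prime.dvd_of_dvd_pow Nat.prime_two h2)).symm
    subst hr2
    rcases un_c2_two_cases h hF hnk H N hNGU hNn hNZ hNmin habs hab hpow with hsub |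
      ⟨p, hp, hqp, hp4, hsymp, hcard, hcen⟩
    · exact hsubcase hsub
    · exact Or.inr (Or.inr (Or.inr (Or.inr (Or.inr (Or.inr (Or.inr (Or.inr
        ⟨p, N, hp, hqp, hp4, hsymp, habs, hNGU, hcard, hcen, hab, hNn⟩)))))))
  -- perfect
  have hperf : ⁅N, N⁆ = N := hC
  have hirrN : ActsIrreducibly (matrixSet N) := habs.1
  have hcentN : ∀ c : GL (Fin n) F, (∀ s ∈ N, c * s = s * c) → c ∈ scalars (Fin n) F := by
    intro c hc
    obtain ⟨a, ha⟩ := habs.2 (c : Matrix (Fin n) (Fin n) F) (by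
      rintro _ ⟨s, hs, rfl⟩
      rw [← Units.val_mul, ← Units.val_mul, hc s hs])
    exact (Helper97.scalar_mem_scalars_iff c).mpr ⟨a, ha⟩
  rcases Helper96.perfect_structure (scalars (Fin n) F) H N hZc hNn hNZ hNmin hperf with
    hsimple | ⟨S, hSN, hSn, hSZ, hSperf, hne, hcomm, hgen⟩
  swap
  · -- central product of conjugates
    have hsc' : ∀ M, Helper96.ZCent (matrixSet S) M →
        ∃ c : F, M = c • (1 : Matrix (Fin n) (Fin n) F) := by
      intro M hM
      apply habs.2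
      have hyc : ∀ g ∈ H, ∀ y ∈ Helper97.cj g S,
          M * (y : Matrix (Fin n) (Fin n) F) = (y : Matrix (Fin n) (Fin n) F) * M := by
        intro g hg y hy'
        rcases hcomm g hg with h1 | h1
        · rw [h1] at hy'
          exact hM.1 _ (Helper97.coe_mem_matrixSet hy')
        · apply hM.2
          rintro _ ⟨s', hs', rfl⟩
          rw [← Units.val_mul, ← Units.val_mul, h1 s' hs' y hy']
      have key : ∀ x ∈ Subgroup.closure {x | ∃ g ∈ H, x ∈ Helper97.cj g S},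
          M * (x : Matrix (Fin n) (Fin n) F) = (x : Matrix (Fin n) (Fin n) F) * M ∧
          M * ((x⁻¹ : GL (Fin n) F) : Matrix (Fin n) (Fin n) F) =
            ((x⁻¹ : GL (Fin n) F) : Matrix (Fin n) (Fin n) F) * M := by
        intro x hx
        induction hx using Subgroup.closure_induction with
        | mem y hy =>
          obtain ⟨g, hg, hy'⟩ := hy
          exact ⟨hyc g hg y hy', hyc g hg y⁻¹ (Subgroup.inv_mem _ hy')⟩
        | one =>
          rw [inv_one, Units.val_one, mul_one, one_mul]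
          exact ⟨rfl, rfl⟩
        | mul y z _ _ hy hz =>
          rw [_root_.mul_inv_rev, Units.val_mul, Units.val_mul]
          constructor
          · rw [← mul_assoc, hy.1, mul_assoc, hz.1, ← mul_assoc]
          · rw [← mul_assoc, hz.2, mul_assoc, hy.2, ← mul_assoc]
        | inv y _ hy =>
          rw [inv_inv]
          exact ⟨hy.2, hy.1⟩
      rintro _ ⟨x, hx, rfl⟩
      exact (key x (by rw [hgen]; exact hx)).1
    obtain ⟨d', k', e', P', ρ', hTD'⟩ :=
      Helper96.tensorData_of_zcent_scalar (by omega) N S hirrN hSn hsc'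
    have hd'2 : 2 ≤ d' := by
      have h1 := hTD'.hd
      have h2 : d' ≠ 1 := fun h => hSZ (hTD'.le_scalars_of_one h)
      omega
    obtain ⟨t, ht, hnt⟩ := Helper96.eq_pow_of_central_product H N S hTD' habs hne hcomm hgen
    have hd'eq : d' = 2 := hd d' t hd'2 ht hnt
    subst hd'eq
    have hCP : Helper96.CPData H N S 2 k' e' P' ρ' :=
      { le := hNH
        normal := hNn
        perfect := hperf
        absIrred := habs
        sub := hSN
        subNormal := hSn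
        subPerfect := hSperf
        notScalar := hSZ
        moved := hne
        comm := hcomm
        gen := hgen
        tensor := hTD'
        two_le := le_refl 2
        pow := ⟨t, ht, hnt⟩ }
    obtain ⟨M, hM, hfix⟩ := cp_fixed_matrix H N S e' P' ρ' hCP
    apply hsubcase
    rcases Helper96.form_dichotomy hn N habs M hM hfix with ⟨f, hf, hfix'⟩ | ⟨h2, Q, hQ, hfix'⟩
    · exact un_realisable_of_fixes_bilin h hF N hNGU habs f hf.bilinear
        (fun v hv => (hf.nondegenerate v hv).1) hfix'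
    · exact h.realisable_of_fixes_quad hF N hNGU habs Q hQ hfix'
  -- simple modulo scalars
  by_cases hsub : ∃ F₀ : Subfield F, F₀ ≠ ⊤ ∧ RealisableOver F₀ (matrixSet N)
  · exact hsubcase hsub
  have hcore : IsResidualCore H N :=
    { le := hNH
      normal := hNn
      perfect := hperf
      simple := Helper97.isSimpleGroup_quot (scalars (Fin n) F) N hNZ hsimple
      nonabelian := Helper97.not_commutative_quot (scalars (Fin n) F) N hNZ hperf
      centralizer_scalar := fun g _ hg =>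
        Helper97.mem_of_centralizes_mod (scalars (Fin n) F) N hZc hperf hcentN g hg
      absIrred := habs
      no_subfield := fun F₀ hF₀ hreal => hsub ⟨F₀, hF₀, hreal⟩ }
  have hquad : ¬ ∃ Q : (Fin n → F) → F,
      IsNondegenerateQuadraticForm Q ∧ FixesQuadForm (matrixSet N) Q := by
    rintro ⟨Q, hQ, hfix⟩
    exact hsub (h.realisable_of_fixes_quad hF N hNGU habs Q hQ hfix)
  have hsymp : ¬ ∃ f : (Fin n → F) → (Fin n → F) → F,
      IsSymplecticForm f ∧ FixesForm (matrixSet N) f := by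
    rintro ⟨f, hf, hfix⟩
    exact hsub (un_realisable_of_fixes_bilin h hF N hNGU habs f hf.bilinear
      (fun v hv => (hf.nondegenerate v hv).1) hfix)
  exact Or.inr (Or.inr (Or.inr (Or.inr (Or.inr (Or.inr (Or.inr (Or.inl
    ⟨N, hcore, hquad, hsymp⟩)))))))

/-- The refined list for a maximal subgroup of the special unitary group, in a dimension where the
class-two and central-product cases can be resolved. -/
def UnMax2 (n : ℕ) (F : Type*) [Field F] [Fintype F] (q : ℕ) (H : Subgroup (GL (Fin n) F)) : Prop :=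
  (∃ W : Submodule F (Fin n → F), W ≠ ⊥ ∧ IsTotallySingularFor (hermForm n F q) W ∧
    H = subspaceStabilizer W ⊓ (GU n F q ⊓ specialLinear (Fin n) F)) ∨
  (∃ W : Submodule F (Fin n → F), W ≠ ⊥ ∧ IsNondegenerateOn (hermForm n F q) W ∧
    2 * Module.finrank F W < n ∧
    H = subspaceStabilizer W ⊓ (GU n F q ⊓ specialLinear (Fin n) F)) ∨
  (∃ (t k : ℕ) (D : Fin t → Submodule F (Fin n → F)), t * k = n ∧ (k = 2 → 3 ≤ q) ∧
    IsNondegenerateMDecomposition (hermForm n F q) k D ∧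
    H = decompositionStabilizer D ⊓ (GU n F q ⊓ specialLinear (Fin n) F)) ∨
  (∃ (k : ℕ) (D : Fin 2 → Submodule F (Fin n → F)), 2 * k = n ∧ IsMDecomposition k D ∧
    (∀ i, IsTotallySingularFor (hermForm n F q) (D i)) ∧
    H = decompositionStabilizer D ⊓ (GU n F q ⊓ specialLinear (Fin n) F)) ∨
  (∃ (r : ℕ) (K : Subalgebra F (Matrix (Fin n) (Fin n) F)), r.Prime ∧ Odd r ∧ r ∣ n ∧
    IsFieldSubalgebra r K ∧ IsAdjointClosedFor (hermForm n F q) K ∧
    H = subalgebraNormalizer K ⊓ (GU n F q ⊓ specialLinear (Fin n) F)) ∨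
  (∃ (n₁ n₂ : ℕ) (e : Fin n ≃ Fin n₁ × Fin n₂) (P : GL (Fin n) F)
    (f₁ : (Fin n₁ → F) → (Fin n₁ → F) → F) (f₂ : (Fin n₂ → F) → (Fin n₂ → F) → F),
    2 ≤ n₁ ∧ n₁ ≤ n₂ ∧ n₁ * n₂ = n ∧ (n₁ = 2 → 3 ≤ q) ∧ IsUnitaryFormPow q f₁ ∧
    IsUnitaryFormPow q f₂ ∧
    IsTensorFormStructure (fun x : F => x ^ q) (hermForm n F q) f₁ f₂ e P ∧
    H = tensorProductSubgroup n₁ n₂ e P ⊓ (GU n F q ⊓ specialLinear (Fin n) F)) ∨
  (∃ (F₀ : Subfield F) (r : ℕ) (P : GL (Fin n) F), r.Prime ∧ Odd r ∧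
    Fintype.card F = Nat.card F₀ ^ r ∧ IsFormRationalStructure (hermForm n F q) F₀ 1 P ∧
    H = subfieldSubgroup F₀ P ⊓ (GU n F q ⊓ specialLinear (Fin n) F)) ∨
  (∃ (F₀ : Subfield F) (P : GL (Fin n) F) (ζ : F), Fintype.card F = Nat.card F₀ ^ 2 ∧ ζ ≠ 0 ∧
    ζ + ζ ^ q = 0 ∧ IsFormRationalStructure (hermForm n F q) F₀ ζ P ∧
    (∀ u : Fin n → F, (∀ i, u i ∈ F₀) →
      hermForm n F q ((P : Matrix (Fin n) (Fin n) F) *ᵥ u)
        ((P : Matrix (Fin n) (Fin n) F) *ᵥ u) = 0) ∧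
    H = subfieldSubgroup F₀ P ⊓ (GU n F q ⊓ specialLinear (Fin n) F)) ∨
  (Odd q ∧ ∃ (F₀ : Subfield F) (P : GL (Fin n) F), Fintype.card F = Nat.card F₀ ^ 2 ∧
    IsFormRationalStructure (hermForm n F q) F₀ 1 P ∧
    H = subfieldSubgroup F₀ P ⊓ (GU n F q ⊓ specialLinear (Fin n) F)) ∨
  InUnitaryResidualClass H ∨
  (∃ (p : ℕ) (R : Subgroup (GL (Fin n) F)), p.Prime ∧ q = p ∧ p % 4 = 3 ∧
    IsSymplecticTypeGroup 2 R ∧ ActsAbsolutelyIrreducibly (matrixSet R) ∧
    R ≤ similarityGroup (hermForm n F q) ∧ Nat.card R = 4 * (n * n) ∧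
    Nat.card (Subgroup.center R) = 4 ∧
    H = subgroupNormalizer R ⊓ (GU n F q ⊓ specialLinear (Fin n) F))

/-- A non-degenerate decomposition stabilised by a maximal subgroup (copy of helper35's lemma for the
refined list). -/
theorem un_ndecomp_case2 [Fintype F] (h : IsSigma q σ) (hF : Fintype.card F = q ^ 2) (hn : 4 ≤ n)
    {H : Subgroup (GL (Fin n) F)} (hH : IsMaximalIn (GU n F q ⊓ specialLinear (Fin n) F) H)
    {t k : ℕ} (D : Fin t → Submodule F (Fin n → F))
    (hD : IsNondegenerateMDecomposition (hermForm n F q) k D)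
    (hle : H ≤ decompositionStabilizer D) : UnMax2 n F q H := by
  have htk : t * k = n := isMDecomposition_card D hD.decomp
  have hkpos := hD.decomp.pos
  have hq2 := two_le_of_card hF
  by_cases hc : k = 2 → 3 ≤ q
  · by_cases hk1 : k = 1
    · subst hk1
      have ht4 : 4 ≤ t := by omega
      exact Or.inr (Or.inr (Or.inl ⟨t, 1, D, htk, hc, hD,
        eq_inf_of_isMaximalIn_gen hH hle (h.notSU_decomp hF ht4 D hD)⟩))
    · exact Or.inr (Or.inr (Or.inl ⟨t, k, D, htk, hc, hD,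
        eq_inf_of_isMaximalIn_gen hH hle (un_notSU_ndecomp h hF (by omega) D hD)⟩))
  · push Not at hc
    obtain ⟨hk2, hq3⟩ := hc
    subst hk2
    have hq : q = 2 := by omega
    subst hq
    obtain ⟨D', hD', hst⟩ := un_two_refine h hF D hD
    have hle' : H ≤ decompositionStabilizer D' := fun g hg => hst ⟨hle hg, (hH.1.le hg).1⟩
    exact Or.inr (Or.inr (Or.inl ⟨n, 1, D', mul_one n, fun h12 => absurd h12 (by norm_num), hD',
      eq_inf_of_isMaximalIn_gen hH hle' (h.notSU_decomp hF hn D' hD')⟩))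

/-- Every maximal subgroup of the special unitary group in dimension `2 ^ k₀ ≥ 5` (not a proper power
of anything but two) is of one of the listed types. -/
theorem un_max_cases2 [Fintype F] (hn : 5 ≤ n) {k₀ : ℕ} (hnk : n = 2 ^ k₀)
    (hd : ∀ d t : ℕ, 2 ≤ d → 2 ≤ t → n = d ^ t → d = 2) (q : ℕ) (hF : Fintype.card F = q ^ 2)
    (H : Subgroup (GL (Fin n) F))
    (hH : IsMaximalIn (GU n F q ⊓ specialLinear (Fin n) F) H) : UnMax2 n F q H := by
  classical
  obtain ⟨σ, h⟩ := exists_sigma hF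
  have hHG : H ≤ GU n F q ⊓ specialLinear (Fin n) F := hH.1.le
  have hHGU : H ≤ GU n F q := hHG.trans inf_le_left
  have hq2 := two_le_of_card hF
  have hout := un_core2 h hF (by omega) hnk hd H hHGU
  unfold UnOutcome2 at hout
  rcases hout with ⟨W, hW0, hW1, hts, hle⟩ | ⟨W, hW0, hW1, hnd, hdim, hle⟩ | ⟨t, k, D, hD, hle⟩ |
    ⟨k, D, hD, hts, hle⟩ | ⟨r, K, hr, hrodd, hK, hac, hle⟩ |
    ⟨n₁, n₂, e, P, A, S, hn₁, hn₁₂, hA, hSh, hAdet, hSdet, hG, hle⟩ |
    ⟨F₀, r, P, hr, hcard, hle, hrat⟩ | hres |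
    ⟨p, N, hp, hqp, hp4, hsymp, habs, hNGU, hcard, hcen, hab, hNn⟩
  · exact Or.inl ⟨W, hW0, hts,
      eq_inf_of_isMaximalIn_gen hH hle (h.notSU_subspace hF (by omega) W hW0 hW1)⟩
  · exact Or.inr (Or.inl ⟨W, hW0, hnd, hdim,
      eq_inf_of_isMaximalIn_gen hH hle (h.notSU_subspace hF (by omega) W hW0 hW1)⟩)
  · exact un_ndecomp_case2 h hF (by omega) hH D hD hle
  · -- a pair of totally singular subspaces
    have hk : 2 * k = n := isMDecomposition_card D hD
    exact Or.inr (Or.inr (Or.inr (Or.inl ⟨k, D, hk, hD, hts,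
      eq_inf_of_isMaximalIn_gen hH hle (un_notSU_tsdecomp h (by omega) D hD hts)⟩)))
  · -- an extension field
    have hdvd : r ∣ n := by
      have h1 := Helper96.Sy.dvd_finrank_of_inv K hK.inv ⊤ (fun _ _ _ _ => Submodule.mem_top)
      rw [hK.finrank_eq, finrank_top, Module.finrank_fin_fun] at h1
      exact h1
    exact Or.inr (Or.inr (Or.inr (Or.inr (Or.inl ⟨r, K, hr, hrodd, hdvd, hK, hac,
      eq_inf_of_isMaximalIn_gen hH hle (h.notSU_fieldNormalizer hF (by omega) K hK.inv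
        (not_all_scalar_of_finrank K (by rw [hK.finrank_eq]; exact hr.two_le)))⟩))))
  · -- a tensor decomposition
    have hprod : n₁ * n₂ = n := by
      have := Fintype.card_congr e
      rw [Fintype.card_fin, Fintype.card_prod, Fintype.card_fin, Fintype.card_fin] at this
      exact this.symm
    by_cases hc : n₁ = 2 → 3 ≤ q
    · exact Or.inr (Or.inr (Or.inr (Or.inr (Or.inr (Or.inl ⟨n₁, n₂, e, P, _, _, hn₁, hn₁₂, hprod, hc,
        un_fog_unitary h A hA hAdet, un_fog_unitary h S hSh hSdet,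
        un_tensor_form_structure h e P A S hG,
        eq_inf_of_isMaximalIn_gen hH hle (un_notSU_tensor h hF (by omega) hn₁ (by omega) e P)⟩)))))
    · push Not at hc
      obtain ⟨hn₁2, hq3⟩ := hc
      subst hn₁2
      have hq : q = 2 := by omega
      subst hq
      obtain ⟨D, hD, hst⟩ := un_two_tensor h hF (by omega) e P A S hA hSh hAdet hSdet hG
      exact un_ndecomp_case2 h hF (by omega) hH D hD (fun g hg => hst ⟨hle hg, hHGU hg⟩)
  · -- a subfield
    rcases hrat with ⟨hform, hro | ⟨rfl, hqodd⟩⟩ | ⟨rfl, ζ, hζ, hζq, hform, hiso⟩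
    · have hr3 : 3 ≤ r := by
        have := hr.two_le
        obtain ⟨m, hm⟩ := hro
        omega
      exact Or.inr (Or.inr (Or.inr (Or.inr (Or.inr (Or.inr (Or.inl ⟨F₀, r, P, hr, hro, hcard, hform,
        eq_inf_of_isMaximalIn_gen hH hle
          (h.notSU_subfield_odd hF (by omega) F₀ r hr3 hcard P)⟩))))))
    · exact Or.inr (Or.inr (Or.inr (Or.inr (Or.inr (Or.inr (Or.inr (Or.inr (Or.inl ⟨hqodd, F₀, P,
        hcard, hform, eq_inf_of_isMaximalIn_gen hH hle
          (h.notSU_subfield_two hF (by omega) hqodd F₀ hcard P hform)⟩))))))))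
    · exact Or.inr (Or.inr (Or.inr (Or.inr (Or.inr (Or.inr (Or.inr (Or.inl ⟨F₀, P, ζ, hcard, hζ,
        hζq, hform, hiso, eq_inf_of_isMaximalIn_gen hH hle
          (un_notSU_subfield_symp h hF (by omega) F₀ hcard P ζ hζ hform hiso)⟩)))))))
  · exact Or.inr (Or.inr (Or.inr (Or.inr (Or.inr (Or.inr (Or.inr (Or.inr (Or.inr (Or.inl hres)))))))))
  · -- the normaliser of a symplectic-type group
    have hle : H ≤ subgroupNormalizer N := by
      intro g hg
      show g ∈ Subgroup.normalizer (N : Set (GL (Fin n) F))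
      rw [Subgroup.mem_normalizer_iff]
      intro x
      constructor
      · exact hNn g hg x
      · intro hx
        have h1 := hNn g⁻¹ (H.inv_mem hg) _ hx
        have h2 : g⁻¹ * (g * x * g⁻¹) * g⁻¹⁻¹ = x := by group
        rwa [h2] at h1
    exact Or.inr (Or.inr (Or.inr (Or.inr (Or.inr (Or.inr (Or.inr (Or.inr (Or.inr (Or.inr
      ⟨p, N, hp, hqp, hp4, hsymp, habs, hNGU.trans Helper97.IsSigma.GU_le_similarity, hcard, hcen,
        eq_inf_of_isMaximalIn_gen hH hle (un_notSU_normalizer h hF hn N habs hab)⟩)))))))))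

end UC

end Cfsg.Agent.Helper90
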