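import Mathlib
import Cfsg.Agent.Helper90.UnC6c

/-!
# The special unitary group does not normalise an absolutely irreducible group with scalar commutators

Dimension at least four (the case of dimension four needs a finer argument than `UnC6c`: the
commutator `w = t x t⁻¹ x⁻¹` of a unitary transvection with an element of `N` would have two
eigenspaces of dimension two, one of them the plane spanned by `u` and `x u`).
-/

set_option autoImplicit false
set_option linter.style.haveILetI false
set_option linter.unusedSectionVars false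
set_option linter.unusedVariables false

namespace Cfsg.Agent.Helper90

open Cfsg Cfsg.Geo Matrix

namespace UC

open Cfsg.Agent.Helper97

variable {F : Type*} [Field F] {n : ℕ} {q : ℕ} {σ : F ≃+* F}

/-- The commutator of a unitary transvection with an arbitrary invertible matrix. -/
theorem comm_formula (hS : IsSesq σ (hermForm n F q)) (u : Fin n → F) (c : F) (t x : GL (Fin n) F)
    (ht : ∀ v, (t : Matrix (Fin n) (Fin n) F) *ᵥ v = v + (c * hermForm n F q v u) • u)
    (htinv : ∀ v, ((t⁻¹ : GL (Fin n) F) : Matrix (Fin n) (Fin n) F) *ᵥ v =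
      v - (c * hermForm n F q v u) • u)
    (v : Fin n → F) :
    ((t * x * t⁻¹ * x⁻¹ : GL (Fin n) F) : Matrix (Fin n) (Fin n) F) *ᵥ v =
      v + (c * (hermForm n F q v u -
        c * hermForm n F q (((x⁻¹ : GL (Fin n) F) : Matrix (Fin n) (Fin n) F) *ᵥ v) u *
          hermForm n F q ((x : Matrix (Fin n) (Fin n) F) *ᵥ u) u)) • u -
      (c * hermForm n F q (((x⁻¹ : GL (Fin n) F) : Matrix (Fin n) (Fin n) F) *ᵥ v) u) •
        ((x : Matrix (Fin n) (Fin n) F) *ᵥ u) := by
  have e : (x : Matrix (Fin n) (Fin n) F) *ᵥ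
      (((x⁻¹ : GL (Fin n) F) : Matrix (Fin n) (Fin n) F) *ᵥ v) = v := by
    rw [Matrix.mulVec_mulVec, ← Units.val_mul, mul_inv_cancel, Units.val_one, Matrix.one_mulVec]
  obtain ⟨a, ha⟩ : ∃ a : F, a = c * hermForm n F q
      (((x⁻¹ : GL (Fin n) F) : Matrix (Fin n) (Fin n) F) *ᵥ v) u := ⟨_, rfl⟩
  have e2 : (x : Matrix (Fin n) (Fin n) F) *ᵥ
      (((x⁻¹ : GL (Fin n) F) : Matrix (Fin n) (Fin n) F) *ᵥ v - a • u) =
      v + (-a) • ((x : Matrix (Fin n) (Fin n) F) *ᵥ u) := by
    rw [Matrix.mulVec_sub, e, Matrix.mulVec_smul, neg_smul, sub_eq_add_neg]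
  rw [Units.val_mul, Units.val_mul, Units.val_mul, ← Matrix.mulVec_mulVec, ← Matrix.mulVec_mulVec,
    ← Matrix.mulVec_mulVec, htinv, ← ha, e2, ht, hS.add_left, hS.smul_left]
  module

/-- The special unitary group in dimension at least four does not normalise an absolutely irreducible
group with scalar commutators. -/
theorem un_notSU_normalizer4 [Fintype F] (h : IsSigma q σ) (hF : Fintype.card F = q ^ 2) (hn : 4 ≤ n)
    (N : Subgroup (GL (Fin n) F)) (habs : ActsAbsolutelyIrreducibly (matrixSet N))
    (hab : ∀ a ∈ N, ∀ b ∈ N, a * b * a⁻¹ * b⁻¹ ∈ scalars (Fin n) F) :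
    ¬ GU n F q ⊓ specialLinear (Fin n) F ≤ subgroupNormalizer N := by
  classical
  intro hle
  have hnz : NeZero n := ⟨by omega⟩
  have hS := h.isSesq (n := n)
  obtain ⟨u, hu0, hu⟩ := h.exists_isotropic hF (by omega : 2 ≤ n)
  obtain ⟨c, hc0, hc⟩ := h.exists_trace_zero
  obtain ⟨t, htG, ht, htinv⟩ := h.exists_utv u hu c hc
  have htn : t ∈ Subgroup.normalizer (N : Set (GL (Fin n) F)) := hle htG
  rw [Subgroup.mem_normalizer_iff] at htn
  have hcomm : ∀ x ∈ N, t * x = x * t := by
    intro x hx
    obtain ⟨w, hwdef⟩ : ∃ w : GL (Fin n) F, w = t * x * t⁻¹ * x⁻¹ := ⟨_, rfl⟩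
    have hwN : w ∈ N := by
      rw [hwdef]
      exact N.mul_mem ((htn x).mp hx) (N.inv_mem hx)
    obtain ⟨φ₁, hφ₁⟩ : ∃ φ₁ : (Fin n → F) →ₗ[F] F, ∀ v, φ₁ v = hermForm n F q v u :=
      ⟨{ toFun := fun v => hermForm n F q v u
         map_add' := fun a b => hS.add_left a b u
         map_smul' := fun a b => by
           simp only [RingHom.id_apply, smul_eq_mul]
           exact hS.smul_left a b u }, fun _ => rfl⟩
    obtain ⟨Φ, hΦ⟩ : ∃ Φ : (Fin n → F) →ₗ[F] (F × F), ∀ v, Φ v =
        (hermForm n F q v u,
          hermForm n F q (((x⁻¹ : GL (Fin n) F) : Matrix (Fin n) (Fin n) F) *ᵥ v) u) :=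
      ⟨φ₁.prod (φ₁.comp (Matrix.toLin' ((x⁻¹ : GL (Fin n) F) : Matrix (Fin n) (Fin n) F))),
        fun v => Prod.ext (hφ₁ v) (by
          show φ₁ (Matrix.toLin' ((x⁻¹ : GL (Fin n) F) : Matrix (Fin n) (Fin n) F) v) = _
          rw [hφ₁, Matrix.toLin'_apply])⟩
    have hKfix : ∀ v ∈ LinearMap.ker Φ, (w : Matrix (Fin n) (Fin n) F) *ᵥ v = v := by
      intro v hv
      rw [LinearMap.mem_ker, hΦ] at hv
      rw [hwdef]
      exact fix_of_mem u c t x ht htinv v (congrArg Prod.fst hv) (congrArg Prod.snd hv)
    have hKdim : n ≤ Module.finrank F (LinearMap.ker Φ) + 2 := by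
      have h1 := LinearMap.finrank_range_add_finrank_ker Φ
      rw [Module.finrank_fin_fun] at h1
      have h2 : Module.finrank F (LinearMap.range Φ) ≤ 2 := by
        have h3 := Submodule.finrank_le (LinearMap.range Φ)
        rw [Module.finrank_prod, Module.finrank_self] at h3
        exact h3
      omega
    have hwr : ∀ r ∈ N, (w : Matrix (Fin n) (Fin n) F) * (r : Matrix (Fin n) (Fin n) F) =
        (r : Matrix (Fin n) (Fin n) F) * (w : Matrix (Fin n) (Fin n) F) := by
      intro r hr
      obtain ⟨μ, hμ⟩ := (mem_scalars_iff _).mp (hab w hwN r hr)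
      have hwrμ : (w : Matrix (Fin n) (Fin n) F) * (r : Matrix (Fin n) (Fin n) F) =
          (μ : F) • ((r : Matrix (Fin n) (Fin n) F) * (w : Matrix (Fin n) (Fin n) F)) := by
        have e1 : w * r = (w * r * w⁻¹ * r⁻¹) * (r * w) := by group
        have e2 := congrArg Units.val e1
        rw [Units.val_mul, Units.val_mul (w * r * w⁻¹ * r⁻¹), hμ, Units.val_mul, Matrix.smul_mul,
          Matrix.one_mul] at e2
        exact e2
      by_cases hμ1 : (μ : F) = 1
      · rw [hwrμ, hμ1, one_smul]
      · exfalso
        obtain ⟨Kμ, hKμ⟩ : ∃ Kμ : Submodule F (Fin n → F), Kμ = LinearMap.ker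
            (Matrix.toLin' ((w : Matrix (Fin n) (Fin n) F) - (μ : F) • (1 : Matrix (Fin n) (Fin n) F))) :=
          ⟨_, rfl⟩
        have hmemK : ∀ y, y ∈ Kμ ↔ (w : Matrix (Fin n) (Fin n) F) *ᵥ y = (μ : F) • y := by
          intro y
          rw [hKμ, LinearMap.mem_ker, Matrix.toLin'_apply, Matrix.sub_mulVec, Matrix.smul_mulVec,
            Matrix.one_mulVec, sub_eq_zero]
        have hmaps : ∀ v ∈ LinearMap.ker Φ,
            Matrix.toLin' (r : Matrix (Fin n) (Fin n) F) v ∈ Kμ := by
          intro v hv
          rw [hmemK, Matrix.toLin'_apply, Matrix.mulVec_mulVec, hwrμ, Matrix.smul_mulVec,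
            ← Matrix.mulVec_mulVec, hKfix v hv]
        have hdisj : LinearMap.ker Φ ⊓ Kμ = ⊥ := by
          rw [Submodule.eq_bot_iff]
          rintro v ⟨hv1, hv2⟩
          have e1 := hKfix v hv1
          have e2 := (hmemK v).mp hv2
          rw [e1] at e2
          have e3 : ((1 : F) - μ) • v = 0 := by
            rw [sub_smul, one_smul, sub_eq_zero]
            exact e2
          rcases smul_eq_zero.mp e3 with h3 | h3
          · exact absurd (sub_eq_zero.mp h3).symm hμ1
          · exact h3
        have hinj : Function.Injective ((Matrix.toLin' (r : Matrix (Fin n) (Fin n) F)).restrict hmaps) := by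
          intro a b hab'
          have e1 := congrArg Subtype.val hab'
          rw [LinearMap.coe_restrict_apply, LinearMap.coe_restrict_apply, Matrix.toLin'_apply,
            Matrix.toLin'_apply] at e1
          exact Subtype.ext (Helper97.mulVec_injective r e1)
        have h1 := LinearMap.finrank_le_finrank_of_injective hinj
        -- the eigenspace for `μ` lies in the plane spanned by `u` and `x u`
        obtain ⟨L, hL⟩ : ∃ L : Submodule F (Fin n → F), L = Submodule.span F
            ((({u, (x : Matrix (Fin n) (Fin n) F) *ᵥ u} : Finset (Fin n → F)) : Set (Fin n → F))) :=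
          ⟨_, rfl⟩
        have huL : u ∈ L := by
          rw [hL]
          exact Submodule.subset_span (by simp)
        have hxuL : (x : Matrix (Fin n) (Fin n) F) *ᵥ u ∈ L := by
          rw [hL]
          exact Submodule.subset_span (by simp)
        have hL2 : Module.finrank F L ≤ 2 := by
          rw [hL]
          exact (finrank_span_finset_le_card _).trans Finset.card_le_two
        have hKμL : Kμ ≤ L := by
          intro m hm
          have e1 := comm_formula hS u c t x ht htinv m
          rw [← hwdef, (hmemK m).mp hm] at e1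
          have hμ1' : (μ : F) - 1 ≠ 0 := sub_ne_zero.mpr hμ1
          have e2 : m = ((μ : F) - 1)⁻¹ • ((c * (hermForm n F q m u -
              c * hermForm n F q (((x⁻¹ : GL (Fin n) F) : Matrix (Fin n) (Fin n) F) *ᵥ m) u *
                hermForm n F q ((x : Matrix (Fin n) (Fin n) F) *ᵥ u) u)) • u -
              (c * hermForm n F q (((x⁻¹ : GL (Fin n) F) : Matrix (Fin n) (Fin n) F) *ᵥ m) u) •
                ((x : Matrix (Fin n) (Fin n) F) *ᵥ u)) := by
            have e3 : ((μ : F) - 1) • m = (c * (hermForm n F q m u -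
              c * hermForm n F q (((x⁻¹ : GL (Fin n) F) : Matrix (Fin n) (Fin n) F) *ᵥ m) u *
                hermForm n F q ((x : Matrix (Fin n) (Fin n) F) *ᵥ u) u)) • u -
              (c * hermForm n F q (((x⁻¹ : GL (Fin n) F) : Matrix (Fin n) (Fin n) F) *ᵥ m) u) •
                ((x : Matrix (Fin n) (Fin n) F) *ᵥ u) := by
              rw [sub_smul, one_smul, e1]
              abel
            rw [← e3, smul_smul, inv_mul_cancel₀ hμ1', one_smul]
          rw [e2]
          exact L.smul_mem _ (L.sub_mem (L.smul_mem _ huL) (L.smul_mem _ hxuL))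
        have h2 : 2 ≤ Module.finrank F Kμ := by omega
        have hKμeq : Kμ = L := Submodule.eq_of_le_of_finrank_le hKμL (by omega)
        have huK : u ∈ Kμ := by rw [hKμeq]; exact huL
        by_cases hf : hermForm n F q (((x⁻¹ : GL (Fin n) F) : Matrix (Fin n) (Fin n) F) *ᵥ u) u = 0
        · have huker : u ∈ LinearMap.ker Φ := by
            rw [LinearMap.mem_ker, hΦ, hu, hf]
            rfl
          have hmem : u ∈ LinearMap.ker Φ ⊓ Kμ := ⟨huker, huK⟩
          rw [hdisj, Submodule.mem_bot] at hmem
          exact hu0 hmem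
        · have e1 := comm_formula hS u c t x ht htinv u
          rw [← hwdef, (hmemK u).mp huK, hu] at e1
          have hcf : c * hermForm n F q
              (((x⁻¹ : GL (Fin n) F) : Matrix (Fin n) (Fin n) F) *ᵥ u) u ≠ 0 := mul_ne_zero hc0 hf
          have hxu : (x : Matrix (Fin n) (Fin n) F) *ᵥ u ∈ Submodule.span F {u} := by
            have e3 : (c * hermForm n F q
                (((x⁻¹ : GL (Fin n) F) : Matrix (Fin n) (Fin n) F) *ᵥ u) u) •
                ((x : Matrix (Fin n) (Fin n) F) *ᵥ u) = ((1 : F) + c * (0 -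
                  c * hermForm n F q (((x⁻¹ : GL (Fin n) F) : Matrix (Fin n) (Fin n) F) *ᵥ u) u *
                    hermForm n F q ((x : Matrix (Fin n) (Fin n) F) *ᵥ u) u) - μ) • u := by
              rw [sub_smul, add_smul, one_smul, e1]
              abel
            have e4 : (x : Matrix (Fin n) (Fin n) F) *ᵥ u = (c * hermForm n F q
                (((x⁻¹ : GL (Fin n) F) : Matrix (Fin n) (Fin n) F) *ᵥ u) u)⁻¹ • (((1 : F) + c * (0 -
                  c * hermForm n F q (((x⁻¹ : GL (Fin n) F) : Matrix (Fin n) (Fin n) F) *ᵥ u) u *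
                    hermForm n F q ((x : Matrix (Fin n) (Fin n) F) *ᵥ u) u) - μ) • u) := by
              rw [← e3, smul_smul, inv_mul_cancel₀ hcf, one_smul]
            rw [e4]
            exact Submodule.smul_mem _ _ (Submodule.smul_mem _ _ (Submodule.mem_span_singleton_self u))
          have hLle : L ≤ Submodule.span F {u} := by
            rw [hL, Submodule.span_le]
            intro y hy
            rw [Finset.coe_insert, Finset.coe_singleton] at hy
            rcases hy with rfl | hy
            · exact Submodule.mem_span_singleton_self _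
            · rw [Set.mem_singleton_iff] at hy
              rw [hy]
              exact hxu
          have h3 := Submodule.finrank_mono hLle
          rw [finrank_span_singleton hu0] at h3
          rw [hKμeq] at h2
          omega
    obtain ⟨c', hc'⟩ := habs.2 (w : Matrix (Fin n) (Fin n) F) (by
      rintro _ ⟨r, hr, rfl⟩
      exact hwr r hr)
    have hne : LinearMap.ker Φ ≠ ⊥ := by
      intro hbot
      rw [hbot, finrank_bot] at hKdim
      omega
    obtain ⟨v, hv, hv0⟩ := (Submodule.ne_bot_iff _).mp hne
    have e1 := hKfix v hv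
    rw [hc', Matrix.smul_mulVec, Matrix.one_mulVec] at e1
    have hc1 : c' = 1 := by
      have e3 : (c' - 1) • v = 0 := by
        rw [sub_smul, one_smul, sub_eq_zero]
        exact e1
      rcases smul_eq_zero.mp e3 with h3 | h3
      · exact sub_eq_zero.mp h3
      · exact absurd h3 hv0
    have hw1 : w = 1 := Units.ext (by rw [hc', hc1, one_smul, Units.val_one])
    calc t * x = (t * x * t⁻¹ * x⁻¹) * (x * t) := by group
      _ = x * t := by rw [← hwdef, hw1, one_mul]
  obtain ⟨c'', hc''⟩ := habs.2 (t : Matrix (Fin n) (Fin n) F) (by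
    rintro _ ⟨r, hr, rfl⟩
    rw [← Units.val_mul, ← Units.val_mul, hcomm r hr])
  have e1 := ht u
  rw [hu, mul_zero, zero_smul, add_zero, hc'', Matrix.smul_mulVec, Matrix.one_mulVec] at e1
  have hc1 : c'' = 1 := by
    have e3 : (c'' - 1) • u = 0 := by
      rw [sub_smul, one_smul, sub_eq_zero]
      exact e1
    rcases smul_eq_zero.mp e3 with h3 | h3
    · exact sub_eq_zero.mp h3
    · exact absurd h3 hu0
  obtain ⟨v, hv⟩ := (h.isUnitaryForm.nondegenerate u hu0).1
  have e2 := ht v
  rw [hc'', hc1, one_smul, Matrix.one_mulVec] at e2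
  have e3 : (c * hermForm n F q v u) • u = 0 := by
    have e4 : v + (c * hermForm n F q v u) • u = v + 0 := by rw [add_zero]; exact e2.symm
    exact add_left_cancel e4
  rcases smul_eq_zero.mp e3 with h3 | h3
  · rcases mul_eq_zero.mp h3 with h4 | h4
    · exact hc0 h4
    · exact hv h4
  · exact hu0 h3

end UC

end Cfsg.Agent.Helper90
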