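-- helper90 library: the maximal subgroups of SU_4(q), from the structure theorem `un_core2` and
-- four small-field / tensor lemmas taken as hypotheses (pieces FR, TI, TS of CALL S5784).
import Cfsg.Agent.Helper90.UnC6d
import Cfsg.Agent.Helper90.UnC6e

set_option autoImplicit false
set_option linter.unusedSectionVars false
set_option linter.unusedVariables false
set_option linter.style.haveILetI false
open Cfsg Cfsg.Geo Matrix
open scoped Kronecker

namespace Cfsg.Agent.Helper90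

namespace UC

open Cfsg.Agent.Helper97 Cfsg.Agent.Helper35

/-- A finite field with `q ^ 2` elements, `q` even, has characteristic two. -/
theorem two_eq_zero_of_not_odd {F : Type*} [Field F] [Fintype F] {q : ℕ}
    (hF : Fintype.card F = q ^ 2) (hq : ¬ Odd q) : (2 : F) = 0 := by
  obtain ⟨p, hchar⟩ := CharP.exists F
  obtain ⟨m, hp, hcard⟩ := FiniteField.card F p
  have heven : Even q := Nat.not_odd_iff_even.mp hq
  have h2 : 2 ∣ p ^ (m : ℕ) := by
    rw [← hcard, hF]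
    exact Dvd.dvd.pow heven.two_dvd (by norm_num)
  have h3 : p = 2 := ((Nat.prime_dvd_prime_iff_eq Nat.prime_two hp).mp
    (Nat.Prime.dvd_of_dvd_pow Nat.prime_two h2)).symm
  subst h3
  have := CharP.cast_eq_zero F 2
  exact_mod_cast this

/-- The maximal subgroups of `SU_4(q)`, given the small-field non-maximality statements and the
subfield structure of the tensor decomposition `2 ⊗ 2`. -/
theorem su4_cases_of_pieces {F : Type*} [Field F] [Fintype F] (q : ℕ) (hF : Fintype.card F = q ^ 2)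
    (H : Subgroup (Matrix.GeneralLinearGroup (Fin 4) F))
    (hH : Cfsg.Geo.IsMaximalIn (Cfsg.GU 4 F q ⊓ Cfsg.Geo.specialLinear (Fin 4) F) H)
    (hFR : q = 3 → ∀ D : Fin 4 → Submodule F (Fin 4 → F),
      IsNondegenerateMDecomposition (hermForm 4 F q) 1 D → H ≤ decompositionStabilizer D → False)
    (hTI : q ≤ 3 → ∀ D : Fin 2 → Submodule F (Fin 4 → F), IsMDecomposition 2 D →
      (∀ i, IsTotallySingularFor (hermForm 4 F q) (D i)) → H ≤ decompositionStabilizer D → False)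
    (hTS : ∀ (σ : F ≃+* F), IsSigma q σ → ∀ (e : Fin 4 ≃ Fin 2 × Fin 2) (P : GL (Fin 4) F)
      (A S : Matrix (Fin 2) (Fin 2) F), Aᵀ = A.map σ → Sᵀ = S.map σ → A.det ≠ 0 → S.det ≠ 0 →
      Matrix.reindexAlgEquiv F F e
        ((P : Matrix (Fin 4) (Fin 4) F)ᵀ * (P : Matrix (Fin 4) (Fin 4) F).map σ) = A ⊗ₖ S →
      ∃ (F₀ : Subfield F) (P' : GL (Fin 4) F), Fintype.card F = Nat.card F₀ ^ 2 ∧
        IsFormRationalStructure (hermForm 4 F q) F₀ 1 P' ∧
        ((2 : F) = 0 → ∀ u : Fin 4 → F, (∀ i, u i ∈ F₀) →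
          hermForm 4 F q ((P' : Matrix (Fin 4) (Fin 4) F) *ᵥ u)
            ((P' : Matrix (Fin 4) (Fin 4) F) *ᵥ u) = 0) ∧
        tensorProductSubgroup 2 2 e P ⊓ GU 4 F q ≤ subfieldSubgroup F₀ P') :

    (∃ W : Submodule F (Fin 4 → F), W ≠ ⊥ ∧ Cfsg.Geo.IsTotallySingularFor (Cfsg.hermForm 4 F q) W ∧ H = Cfsg.Geo.subspaceStabilizer W ⊓ (Cfsg.GU 4 F q ⊓ Cfsg.Geo.specialLinear (Fin 4) F)) ∨
    (∃ W : Submodule F (Fin 4 → F), W ≠ ⊥ ∧ Cfsg.Geo.IsNondegenerateOn (Cfsg.hermForm 4 F q) W ∧ 2 * Module.finrank F W < 4 ∧ H = Cfsg.Geo.subspaceStabilizer W ⊓ (Cfsg.GU 4 F q ⊓ Cfsg.Geo.specialLinear (Fin 4) F)) ∨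
    (q ≠ 3 ∧ ∃ D : Fin 4 → Submodule F (Fin 4 → F), Cfsg.Geo.IsNondegenerateMDecomposition (Cfsg.hermForm 4 F q) 1 D ∧ H = Cfsg.Geo.decompositionStabilizer D ⊓ (Cfsg.GU 4 F q ⊓ Cfsg.Geo.specialLinear (Fin 4) F)) ∨
    (3 ≤ q ∧ ∃ D : Fin 2 → Submodule F (Fin 4 → F), Cfsg.Geo.IsNondegenerateMDecomposition (Cfsg.hermForm 4 F q) 2 D ∧ H = Cfsg.Geo.decompositionStabilizer D ⊓ (Cfsg.GU 4 F q ⊓ Cfsg.Geo.specialLinear (Fin 4) F)) ∨
    (4 ≤ q ∧ ∃ D : Fin 2 → Submodule F (Fin 4 → F), Cfsg.Geo.IsMDecomposition 2 D ∧ (∀ i, Cfsg.Geo.IsTotallySingularFor (Cfsg.hermForm 4 F q) (D i)) ∧ H = Cfsg.Geo.decompositionStabilizer D ⊓ (Cfsg.GU 4 F q ⊓ Cfsg.Geo.specialLinear (Fin 4) F)) ∨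
    (∃ (F₀ : Subfield F) (r : ℕ) (P : Matrix.GeneralLinearGroup (Fin 4) F), r.Prime ∧ Odd r ∧ Fintype.card F = Nat.card F₀ ^ r ∧ Cfsg.Geo.IsFormRationalStructure (Cfsg.hermForm 4 F q) F₀ 1 P ∧ H = Cfsg.Geo.subfieldSubgroup F₀ P ⊓ (Cfsg.GU 4 F q ⊓ Cfsg.Geo.specialLinear (Fin 4) F)) ∨
    (∃ (F₀ : Subfield F) (P : Matrix.GeneralLinearGroup (Fin 4) F) (ζ : F), Fintype.card F = Nat.card F₀ ^ 2 ∧ ζ ≠ 0 ∧ ζ + ζ ^ q = 0 ∧ Cfsg.Geo.IsFormRationalStructure (Cfsg.hermForm 4 F q) F₀ ζ P ∧ (∀ u : Fin 4 → F, (∀ i, u i ∈ F₀) → (Cfsg.hermForm 4 F q) (Matrix.mulVec (P : Matrix (Fin 4) (Fin 4) F) u) (Matrix.mulVec (P : Matrix (Fin 4) (Fin 4) F) u) = 0) ∧ H = Cfsg.Geo.subfieldSubgroup F₀ P ⊓ (Cfsg.GU 4 F q ⊓ Cfsg.Geo.specialLinear (Fin 4) F)) ∨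
    (Odd q ∧ ∃ (F₀ : Subfield F) (P : Matrix.GeneralLinearGroup (Fin 4) F), Fintype.card F = Nat.card F₀ ^ 2 ∧ Cfsg.Geo.IsFormRationalStructure (Cfsg.hermForm 4 F q) F₀ 1 P ∧ H = Cfsg.Geo.subfieldSubgroup F₀ P ⊓ (Cfsg.GU 4 F q ⊓ Cfsg.Geo.specialLinear (Fin 4) F)) ∨
    (∃ (p : ℕ) (R : Subgroup (Matrix.GeneralLinearGroup (Fin 4) F)), p.Prime ∧ q = p ∧ p % 4 = 3 ∧ Cfsg.Geo.IsSymplecticTypeGroup 2 R ∧ Cfsg.Geo.ActsAbsolutelyIrreducibly (Cfsg.Geo.matrixSet R) ∧ R ≤ Cfsg.Geo.similarityGroup (Cfsg.hermForm 4 F q) ∧ Nat.card R = 64 ∧ Nat.card (Subgroup.center R) = 4 ∧ H = Cfsg.Geo.subgroupNormalizer R ⊓ (Cfsg.GU 4 F q ⊓ Cfsg.Geo.specialLinear (Fin 4) F)) ∨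
    Cfsg.Geo.InUnitaryResidualClass H := by
  classical
  obtain ⟨σ, h⟩ := exists_sigma hF
  have hHG : H ≤ GU 4 F q ⊓ specialLinear (Fin 4) F := hH.1.le
  have hHGU : H ≤ GU 4 F q := hHG.trans inf_le_left
  have hq2 := two_le_of_card hF
  have hd : ∀ d t : ℕ, 2 ≤ d → 2 ≤ t → 4 = d ^ t → d = 2 := by
    intro d t hd2 ht2 h4
    by_contra hne
    have h3 : 3 ≤ d := by omega
    have h5 : d ^ 2 ≤ d ^ t := Nat.pow_le_pow_right (by omega) ht2
    have h6 : 3 * 3 ≤ d ^ 2 := by rw [pow_two]; exact Nat.mul_le_mul h3 h3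
    omega
  -- non-degenerate decompositions
  have hndec : ∀ (t k : ℕ) (D : Fin t → Submodule F (Fin 4 → F)),
      IsNondegenerateMDecomposition (hermForm 4 F q) k D → H ≤ decompositionStabilizer D →
      (q ≠ 3 ∧ ∃ D : Fin 4 → Submodule F (Fin 4 → F),
        IsNondegenerateMDecomposition (hermForm 4 F q) 1 D ∧
        H = decompositionStabilizer D ⊓ (GU 4 F q ⊓ specialLinear (Fin 4) F)) ∨
      (3 ≤ q ∧ ∃ D : Fin 2 → Submodule F (Fin 4 → F),
        IsNondegenerateMDecomposition (hermForm 4 F q) 2 D ∧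
        H = decompositionStabilizer D ⊓ (GU 4 F q ⊓ specialLinear (Fin 4) F)) := by
    intro t k D hD hle
    have htk : t * k = 4 := isMDecomposition_card D hD.decomp
    have hkpos := hD.decomp.pos
    have ht2 := hD.decomp.two_le
    have hk2 : k ≤ 2 := by nlinarith
    interval_cases k
    · obtain rfl : t = 4 := by omega
      by_cases hq3 : q = 3
      · exact (hFR hq3 D hD hle).elim
      · exact Or.inl ⟨hq3, D, hD,
          eq_inf_of_isMaximalIn_gen hH hle (h.notSU_decomp hF (le_refl 4) D hD)⟩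
    · obtain rfl : t = 2 := by omega
      by_cases hq3 : 3 ≤ q
      · exact Or.inr ⟨hq3, D, hD,
          eq_inf_of_isMaximalIn_gen hH hle (un_notSU_ndecomp h hF (le_refl 2) D hD)⟩
      · have hq : q = 2 := by omega
        subst hq
        obtain ⟨D', hD', hst⟩ := un_two_refine h hF D hD
        have hle' : H ≤ decompositionStabilizer D' := fun g hg => hst ⟨hle hg, hHGU hg⟩
        exact Or.inl ⟨by norm_num, D', hD',
          eq_inf_of_isMaximalIn_gen hH hle' (h.notSU_decomp hF (le_refl 4) D' hD')⟩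
  have hout := un_core2 h hF (n := 4) (by norm_num) (k₀ := 2) (by norm_num) hd H hHGU
  unfold UnOutcome2 at hout
  rcases hout with ⟨W, hW0, hW1, hts, hle⟩ | ⟨W, hW0, hW1, hnd, hdim, hle⟩ | ⟨t, k, D, hD, hle⟩ |
    ⟨k, D, hD, hts, hle⟩ | ⟨r, K, hr, hrodd, hK, hac, hle⟩ |
    ⟨n₁, n₂, e, P, A, S, hn₁, hn₁₂, hA, hSh, hAdet, hSdet, hG, hle⟩ |
    ⟨F₀, r, P, hr, hcard, hle, hrat⟩ | hres |
    ⟨p, N, hp, hqp, hp4, hsymp, habs, hNGU, hcard, hcen, hab, hNn⟩
  · exact Or.inl ⟨W, hW0, hts,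
      eq_inf_of_isMaximalIn_gen hH hle (h.notSU_subspace hF (by norm_num) W hW0 hW1)⟩
  · exact Or.inr (Or.inl ⟨W, hW0, hnd, hdim,
      eq_inf_of_isMaximalIn_gen hH hle (h.notSU_subspace hF (by norm_num) W hW0 hW1)⟩)
  · rcases hndec t k D hD hle with h1 | h1
    · exact Or.inr (Or.inr (Or.inl h1))
    · exact Or.inr (Or.inr (Or.inr (Or.inl h1)))
  · -- a pair of totally singular subspaces
    have hk : 2 * k = 4 := isMDecomposition_card D hD
    obtain rfl : k = 2 := by omega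
    by_cases hq4 : 4 ≤ q
    · exact Or.inr (Or.inr (Or.inr (Or.inr (Or.inl ⟨hq4, D, hD, hts,
        eq_inf_of_isMaximalIn_gen hH hle (un_notSU_tsdecomp h (le_refl 2) D hD hts)⟩))))
    · exact (hTI (by omega) D hD hts hle).elim
  · -- an extension field of odd prime degree dividing four: impossible
    exfalso
    have hdvd : r ∣ 4 := by
      have h1 := Helper96.Sy.dvd_finrank_of_inv K hK.inv ⊤ (fun _ _ _ _ => Submodule.mem_top)
      rw [hK.finrank_eq, finrank_top, Module.finrank_fin_fun] at h1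
      exact h1
    have h4 : r ∣ 2 ^ 2 := by norm_num; exact hdvd
    have h2 := (Nat.prime_dvd_prime_iff_eq hr Nat.prime_two).mp (hr.dvd_of_dvd_pow h4)
    subst h2
    exact absurd hrodd (by decide)
  · -- a tensor decomposition `2 ⊗ 2`
    have hprod : n₁ * n₂ = 4 := by
      have := Fintype.card_congr e
      rw [Fintype.card_fin, Fintype.card_prod, Fintype.card_fin, Fintype.card_fin] at this
      exact this.symm
    have hn₁2 : n₁ ≤ 2 := by nlinarith
    obtain rfl : n₁ = 2 := by omega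
    obtain rfl : n₂ = 2 := by omega
    by_cases hq3 : 3 ≤ q
    · obtain ⟨F₀, P', hcard, hform, hiso2, hTle⟩ := hTS σ h e P A S hA hSh hAdet hSdet hG
      have hle' : H ≤ subfieldSubgroup F₀ P' := fun g hg => hTle ⟨hle hg, hHGU hg⟩
      by_cases hodd : Odd q
      · exact Or.inr (Or.inr (Or.inr (Or.inr (Or.inr (Or.inr (Or.inr (Or.inl ⟨hodd, F₀, P',
          hcard, hform, eq_inf_of_isMaximalIn_gen hH hle'
            (h.notSU_subfield_two hF (by norm_num) hodd F₀ hcard P' hform)⟩)))))))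
      · have h2 : (2 : F) = 0 := two_eq_zero_of_not_odd hF hodd
        have hζ : (1 : F) + 1 ^ q = 0 := by
          rw [one_pow, one_add_one_eq_two, h2]
        exact Or.inr (Or.inr (Or.inr (Or.inr (Or.inr (Or.inr (Or.inl ⟨F₀, P', 1, hcard,
          one_ne_zero, hζ, hform, hiso2 h2, eq_inf_of_isMaximalIn_gen hH hle'
            (un_notSU_subfield_symp h hF (by norm_num) F₀ hcard P' 1 one_ne_zero hform
              (hiso2 h2))⟩))))))
    · have hq : q = 2 := by omega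
      subst hq
      obtain ⟨D, hD, hst⟩ := un_two_tensor h hF (by norm_num) e P A S hA hSh hAdet hSdet hG
      rcases hndec 2 2 D hD (fun g hg => hst ⟨hle hg, hHGU hg⟩) with h1 | h1
      · exact Or.inr (Or.inr (Or.inl h1))
      · exact Or.inr (Or.inr (Or.inr (Or.inl h1)))
  · -- a subfield
    rcases hrat with ⟨hform, hro | ⟨rfl, hqodd⟩⟩ | ⟨rfl, ζ, hζ, hζq, hform, hiso⟩
    · have hr3 : 3 ≤ r := by
        have := hr.two_le
        obtain ⟨m, hm⟩ := hro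
        omega
      exact Or.inr (Or.inr (Or.inr (Or.inr (Or.inr (Or.inl ⟨F₀, r, P, hr, hro, hcard, hform,
        eq_inf_of_isMaximalIn_gen hH hle
          (h.notSU_subfield_odd hF (by norm_num) F₀ r hr3 hcard P)⟩)))))
    · exact Or.inr (Or.inr (Or.inr (Or.inr (Or.inr (Or.inr (Or.inr (Or.inl ⟨hqodd, F₀, P,
        hcard, hform, eq_inf_of_isMaximalIn_gen hH hle
          (h.notSU_subfield_two hF (by norm_num) hqodd F₀ hcard P hform)⟩)))))))
    · exact Or.inr (Or.inr (Or.inr (Or.inr (Or.inr (Or.inr (Or.inl ⟨F₀, P, ζ, hcard, hζ,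
        hζq, hform, hiso, eq_inf_of_isMaximalIn_gen hH hle
          (un_notSU_subfield_symp h hF (by norm_num) F₀ hcard P ζ hζ hform hiso)⟩))))))
  · exact Or.inr (Or.inr (Or.inr (Or.inr (Or.inr (Or.inr (Or.inr (Or.inr (Or.inr hres))))))))
  · -- the normaliser of a symplectic-type group
    have hle : H ≤ subgroupNormalizer N := by
      intro g hg
      show g ∈ Subgroup.normalizer (N : Set (GL (Fin 4) F))
      rw [Subgroup.mem_normalizer_iff]
      intro x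
      constructor
      · exact hNn g hg x
      · intro hx
        have h1 := hNn g⁻¹ (H.inv_mem hg) _ hx
        have h2 : g⁻¹ * (g * x * g⁻¹) * g⁻¹⁻¹ = x := by group
        rwa [h2] at h1
    exact Or.inr (Or.inr (Or.inr (Or.inr (Or.inr (Or.inr (Or.inr (Or.inr (Or.inl
      ⟨p, N, hp, hqp, hp4, hsymp, habs, hNGU.trans Helper97.IsSigma.GU_le_similarity,
        by rw [hcard], hcen,
        eq_inf_of_isMaximalIn_gen hH hle (un_notSU_normalizer4 h hF (le_refl 4) N habs hab)⟩))))))))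

end UC

end Cfsg.Agent.Helper90
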